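import Cfsg.Agent.Lib.Blocks.CoveringDefect
import Cfsg.Agent.Lib.Blocks.BlockFusion
import Cfsg.Agent.Lib.Blocks.HeightBound
import Cfsg.Agent.Lib.Blocks.MajorSubsection
import Cfsg.Agent.Lib.Characters.AbelianInertia

/-!
# Stable blocks under covering blocks with abelian defect group, index a power of `p`
-/

namespace Cfsg.Lib.Blocks

open Cfsg.Lib.Characters Finset
open scoped ComplexConjugate Classical

set_option linter.unusedSectionVars false
set_option linter.style.haveILetI false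
set_option linter.style.longLine false

universe u

variable {G : Type u} [Group G] [Fintype G] {M : Ideal Cfsg.AlgInt} [M.IsPrime]
variable {p : ℕ} [hp : Fact p.Prime] {N : Subgroup G} [hN : N.Normal] [Fintype N]

theorem cjIrr_mem_of_stable {b : Set (IrrCharacter N)} (hstab : ∀ g : G, StabilizesBlock N b g)
    {θ : IrrCharacter N} (hθ : θ ∈ b) (g : G) : cjIrr θ g ∈ b := by
  obtain ⟨θ', hθ', hc⟩ := (hstab g⁻¹).2 θ hθ
  suffices θ' = cjIrr θ g from this ▸ hθ'
  apply Subtype.ext
  rw [coe_cjIrr]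
  funext n
  rw [conjFn_apply]
  exact hc ⟨g * n * g⁻¹, hN.conj_mem n n.2 g⟩ n (by simp [mul_assoc])

theorem cjUnion_eq_of_stable {b : Set (IrrCharacter N)} (hstab : ∀ g : G, StabilizesBlock N b g) :
    cjUnion b = b := by
  refine Set.Subset.antisymm ?_ (subset_cjUnion b)
  rintro ψ ⟨g, hg⟩
  have := cjIrr_mem_of_stable hstab hg g⁻¹
  rwa [cjIrr_cjIrr, mul_inv_cancel, cjIrr_one] at this

/-- A Sylow subgroup covers a quotient of `p`-power order. -/
theorem surjective_sylow_of_pPow {C : Type*} [Group C] [Finite C] {Q : Type*} [Group Q] [Finite Q]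
    {k : ℕ} (hQ : Nat.card Q = p ^ k) {f : C →* Q} (hf : Function.Surjective f) (S : Sylow p C)
    (q : Q) : ∃ s ∈ (S : Subgroup C), f s = q := by
  have h1 : ((S : Subgroup C).map f).index = 1 := by
    have hd := Subgroup.index_map_dvd (S : Subgroup C) hf
    have hd' : ((S : Subgroup C).map f).index ∣ p ^ k := hQ ▸ Subgroup.index_dvd_card _
    exact Nat.eq_one_of_dvd_coprimes
      (Nat.Coprime.pow_left k ((hp.out.coprime_iff_not_dvd).mpr S.not_dvd_index)) hd' hd
  rw [Subgroup.index_eq_one] at h1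
  exact Subgroup.mem_map.mp (h1 ▸ Subgroup.mem_top q)

/-- A defect group of a block covering a stable block of a normal subgroup of `p`-power index
supplements it. -/
theorem sup_defect_eq_top_of_stable (hM : IsPModular p M) {k : ℕ} (hNk : N.index = p ^ k)
    {b : Set (IrrCharacter N)} (hb : IsPBlock M b) (hstab : ∀ g : G, StabilizesBlock N b g)
    {B : Set (IrrCharacter G)} (hB : IsPBlock M B) {χ : IrrCharacter G} (hχ : χ ∈ B)
    {θ : IrrCharacter N} (hθ : θ ∈ b) (hc : classInner (fun n : N => (χ : G → ℂ) n) (θ : N → ℂ) ≠ 0)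
    {P : Subgroup G} (hP : IsDefectGroup p M B P) : N ⊔ P = ⊤ := by
  haveI := hM.2.1.isPrime
  obtain ⟨g, hg, P₀, rfl⟩ := hP
  obtain ⟨-, hd2, hd3⟩ := exists_defectClass_data hg
  have hgN : g ∈ N := regular_mem_of_index_pPow hNk fun hd =>
    hd2 (by rw [blockCoeff_eq_zero_of_singular hM hB hd, red_zero])
  have hsupp : ∀ x, x ∉ N → (classSum ℂ g).coeff x = 0 := fun x hx => by
    rw [coeff_classSum, if_neg fun h => hx (isConj_mem_normal (n := ⟨g, hgN⟩) h)]
  have hres : resSub N (classSum ℂ g) ∈ locCenter N M :=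
    ⟨(isClassElt_classSum ℂ g).resSub _, fun n => by
      rw [coeff_resSub]; exact (classSum_mem_locCenter (M := M) g).2 _⟩
  set u : MonoidAlgebra (ResF M) N := redG M (resSub N (classSum ℂ g)) with hu
  have hlam : lam M θ u ≠ 0 := by
    rw [hu, lam_redG M θ hres, ← omega_eq_omega_res χ θ hc (isClassElt_classSum ℂ g) hsupp,
      omega_classSum]
    exact hd3 χ hχ
  obtain ⟨S⟩ := (Sylow.nonempty : Nonempty (Sylow p G))
  let ρ : (S : Subgroup G) →* MulAut N := MulAut.conjNormal.comp (S : Subgroup G).subtype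
  have hcoe : ∀ n : N, u.coeff n = red M ((classSum ℂ g).coeff (n : G)) := fun n => by
    rw [hu, coeff_redG, coeff_resSub]
  obtain ⟨n₀, hne, hfix⟩ := exists_fixed_class (p := p) (A := N) S.isPGroup'
    (red_p hM) ρ (fun n : N => u.coeff n * red M (centralChar (θ : N → ℂ) n))
    (fun a a' h => by
      simp only [hcoe]
      rw [(isClassElt_classSum ℂ g).eq_of_isConj (show IsConj (a : G) a' from N.subtype.map_isConj h), ← lam_classSum, ← lam_classSum,
        classSum_congr h])
    (fun s a => by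
      simp only [hcoe]
      have e1 : ((ρ s a : N) : G) = (s : G) * a * (s : G)⁻¹ := MulAut.conjNormal_apply _ _
      have e2 : red M (centralChar (θ : N → ℂ) (ρ s a)) = red M (centralChar (θ : N → ℂ) a) := by
        rw [show centralChar (θ : N → ℂ) (ρ s a) = centralChar (cjIrr θ (s : G) : N → ℂ) a by
          rw [coe_cjIrr, conjFn_eq_comp]; exact (centralChar_pull _ _ _).symm,
          ← lam_classSum, ← lam_classSum]
        exact lam_eq_of_sameBlock M
          (IsPBlock.sameBlock hb (cjIrr_mem_of_stable hstab hθ (s : G)) hθ) _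
      rw [e2, e1, isClassElt_classSum ℂ g])
    (by
      simp only [← lam_classSum]
      rw [sum_classes_lam]
      exact hlam)
  have hconj : IsConj g (n₀ : G) := by
    by_contra h
    exact left_ne_zero_of_mul hne (by rw [hcoe, coeff_classSum, if_neg h, red_zero])
  obtain ⟨a, ha⟩ := isConj_iff.mp hconj
  have hcard : Nat.card (G ⧸ N) = p ^ k := by rw [← hNk, Subgroup.index_eq_card]
  set f : Subgroup.centralizer ({g} : Set G) →* G ⧸ N :=
    (QuotientGroup.mk' N).comp (Subgroup.centralizer ({g} : Set G)).subtype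
  have hf : Function.Surjective f := by
    intro q
    obtain ⟨s, hs, hsq⟩ := surjective_sylow_of_pPow hcard
      (f := QuotientGroup.mk' N) (QuotientGroup.mk'_surjective N) S
      (QuotientGroup.mk' N a * q * (QuotientGroup.mk' N a)⁻¹)
    obtain ⟨m, hm⟩ := isConj_iff.mp (hfix ⟨s, hs⟩)
    have hm' : (m : G) * (s * (n₀ : G) * s⁻¹) * (m : G)⁻¹ = n₀ := by
      have e1 : ((ρ ⟨s, hs⟩ n₀ : N) : G) = s * n₀ * s⁻¹ := MulAut.conjNormal_apply _ _
      rw [← e1, ← Subgroup.coe_mul, ← Subgroup.coe_inv, ← Subgroup.coe_mul, hm]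
    refine ⟨⟨a⁻¹ * ((m : G) * s) * a, ?_⟩, ?_⟩
    · rw [Subgroup.mem_centralizer_singleton_iff]
      have h1 : ((m : G) * s) * n₀ = n₀ * ((m : G) * s) := by
        have := congrArg (· * ((m : G) * s)) hm'
        simpa [mul_assoc] using this
      rw [← ha] at h1
      calc a⁻¹ * ((m : G) * s) * a * g = a⁻¹ * (((m : G) * s) * (a * g * a⁻¹)) * a := by group
        _ = a⁻¹ * ((a * g * a⁻¹) * ((m : G) * s)) * a := by rw [h1]
        _ = g * (a⁻¹ * ((m : G) * s) * a) := by group
    · show QuotientGroup.mk' N (a⁻¹ * ((m : G) * s) * a) = q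
      rw [map_mul, map_mul, map_mul, map_inv,
        show QuotientGroup.mk' N (m : G) = 1 from (QuotientGroup.eq_one_iff _).mpr m.2, one_mul, hsq]
      group
  rw [eq_top_iff]
  intro x _
  obtain ⟨y, hy, hyx⟩ := surjective_sylow_of_pPow hcard hf P₀ (QuotientGroup.mk' N x)
  have hmem : x * (y : G)⁻¹ ∈ N := by
    rw [← QuotientGroup.eq_one_iff]
    show QuotientGroup.mk' N (x * (y : G)⁻¹) = 1
    rw [map_mul, map_inv, ← hyx]
    exact mul_inv_cancel _
  rw [show x = x * (y : G)⁻¹ * y by group]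
  exact Subgroup.mul_mem _ (Subgroup.mem_sup_left hmem)
    (Subgroup.mem_sup_right (Subgroup.mem_map.mpr ⟨y, hy, rfl⟩))

omit [Fintype N] in
theorem exists_eq_mul_of_sup {P : Subgroup G} (h : N ⊔ P = ⊤) (g : G) :
    ∃ n ∈ N, ∃ y ∈ P, n * y = g :=
  Subgroup.mem_sup_of_normal_left.mp (h ▸ Subgroup.mem_top g)

/-- A supplementing abelian defect group meets the normal subgroup in a defect group of the block. -/
theorem isDefectGroup_inf_of_sup (hM : IsPModular p M) {b : Set (IrrCharacter N)} (hb : IsPBlock M b)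
    {B : Set (IrrCharacter G)} (hB : IsPBlock M B) {χ : IrrCharacter G} (hχ : χ ∈ B)
    {θ : IrrCharacter N} (hθ : θ ∈ b) (hc : classInner (fun n : N => (χ : G → ℂ) n) (θ : N → ℂ) ≠ 0)
    {P : Subgroup G} (hP : IsDefectGroup p M B P) (hsup : N ⊔ P = ⊤) :
    IsDefectGroup p M b ((P ⊓ N).subgroupOf N) := by
  haveI := hM.2.1.isPrime
  obtain ⟨D, hD⟩ := exists_defectGroup hM hb
  have hQN : D.map N.subtype ≤ N := Subgroup.map_subtype_le _
  have hQ : (D.map N.subtype).subgroupOf N = D :=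
    Subgroup.comap_map_eq_self_of_injective N.subtype_injective D
  obtain ⟨P', hP', hinf⟩ := exists_defectGroup_inf_eq hM hB hb hQN (by rwa [hQ]) hχ hθ hc
  obtain ⟨x, hx⟩ := defectGroup_conj hM hB hP hP'
  obtain ⟨n, hn, y, hy, rfl⟩ := exists_eq_mul_of_sup hsup x
  have hPy : conjSub y P = P := by
    ext z
    rw [mem_conjSub]
    refine ⟨fun h => ?_, fun h => mul_mem (mul_mem (inv_mem hy) h) hy⟩
    simpa [mul_assoc] using mul_mem (mul_mem hy h) (inv_mem hy)
  rw [← conjSub_conjSub, hPy] at hx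
  have key : (P ⊓ N).subgroupOf N = conjSub (⟨n, hn⟩ : N)⁻¹ D := by
    ext z
    rw [mem_conjSub, inv_inv, Subgroup.mem_subgroupOf]
    conv_rhs => rw [← hQ, Subgroup.mem_subgroupOf, ← hinf, ← hx]
    simp only [Subgroup.mem_inf, mem_conjSub, Subgroup.coe_mul, Subgroup.coe_inv]
    have e : n⁻¹ * (n * (z : G) * n⁻¹) * n = (z : G) := by group
    rw [e]
    exact and_congr_right fun _ => iff_of_true z.2 (mul_mem (mul_mem hn z.2) (inv_mem hn))
  rw [key]
  exact IsDefectGroup.conjSub hb hD _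

omit [Fintype N] in
theorem commutator_mem_of_sup {P : Subgroup G} (hsup : N ⊔ P = ⊤)
    (hab : ∀ x ∈ P, ∀ y ∈ P, x * y = y * x) (x y : G) : x * y * x⁻¹ * y⁻¹ ∈ N := by
  obtain ⟨n, hn, u, hu, rfl⟩ := exists_eq_mul_of_sup hsup x
  obtain ⟨m, hm, v, hv, rfl⟩ := exists_eq_mul_of_sup hsup y
  rw [← QuotientGroup.eq_one_iff]
  simp only [QuotientGroup.mk_mul, QuotientGroup.mk_inv, (QuotientGroup.eq_one_iff _).mpr hn,
    (QuotientGroup.eq_one_iff _).mpr hm, one_mul]
  rw [← QuotientGroup.mk_mul, hab u hu v hv, QuotientGroup.mk_mul]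
  group

/-- No nontrivial linear character of the quotient fixes a member of a block with supplementing
abelian defect group. -/
theorem linear_fix_eq_one (hM : IsPModular p M) {k : ℕ} (hNk : N.index = p ^ k)
    {B : Set (IrrCharacter G)} (hB : IsPBlock M B) {P : Subgroup G} (hP : IsDefectGroup p M B P)
    (hab : ∀ x ∈ P, ∀ y ∈ P, x * y = y * x) (hsup : N ⊔ P = ⊤) {χ : IrrCharacter G} (hχ : χ ∈ B)
    (μ : G →* ℂˣ) (hμN : ∀ n ∈ N, μ n = 1) (hfix : ∀ g, (μ g : ℂ) * (χ : G → ℂ) g = (χ : G → ℂ) g)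
    (g : G) : μ g = 1 := by
  haveI := hM.2.1.isPrime
  obtain ⟨n, hn, x, hxP, rfl⟩ := exists_eq_mul_of_sup hsup g
  rw [map_mul, hμN n hn, one_mul]
  by_contra hx1
  have hxo : ∃ j : ℕ, orderOf x = p ^ j := by
    obtain ⟨j, hj⟩ := (isPGroup_defectGroup hP).exists_orderOf_eq_pow ⟨x, hxP⟩
    exact ⟨j, by rw [← hj, ← Subgroup.orderOf_coe]⟩
  obtain ⟨e, he⟩ := exists_maximal_of_defect hM hB hP
  have hle : P ≤ Subgroup.centralizer ((Subgroup.zpowers x : Subgroup G) : Set G) := fun y hy => by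
    rw [centralizer_zpowers]
    exact Subgroup.mem_centralizer_singleton_iff.mpr (hab y hy x hxP)
  obtain ⟨f, -, hind, hdef⟩ := exists_central_subsection hM hP he.1 hxP hle
  obtain ⟨χ₀, hχ₀, hmin⟩ := exists_height_zero p (IsPBlock.nonempty hB)
  have h0 := (blockHeight_eq_zero_iff p hχ₀).mpr hmin
  refine (contrib_ne_zero_of_major hM hxo (centralizer_zpowers x) hind hdef hχ₀ hχ h0).1 ?_
  rw [contrib]
  refine mul_eq_zero_of_right _ (Finset.sum_eq_zero fun s _ => ?_)
  split_ifs with hs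
  · rfl
  refine mul_eq_zero_of_right _ ?_
  rw [blockPart_eq_kerB]
  refine mul_eq_zero_of_right _ (Finset.sum_eq_zero fun c _ => ?_)
  by_cases hcs : p ∣ orderOf c
  · rw [kerB_eq_zero_of_regular hM hind.1 (by rwa [orderOf_inv]) hcs, mul_zero]
  refine mul_eq_zero_of_left ?_ _
  have hcN : (c : G) ∈ N := regular_mem_of_index_pPow hNk (by rwa [Subgroup.orderOf_coe])
  have h := hfix (x⁻¹ * c)
  rw [map_mul, hμN _ hcN, mul_one] at h
  refine (mul_left_eq_self₀.mp h).resolve_left fun h' => hx1 ?_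
  rw [map_inv] at h'
  exact inv_eq_one.mp (Units.ext h')

/-- Restrictions from such a block are irreducible. -/
theorem classInner_res_self_of_stable (hM : IsPModular p M) {k : ℕ} (hNk : N.index = p ^ k)
    {B : Set (IrrCharacter G)} (hB : IsPBlock M B) {P : Subgroup G} (hP : IsDefectGroup p M B P)
    (hab : ∀ x ∈ P, ∀ y ∈ P, x * y = y * x) (hsup : N ⊔ P = ⊤) {χ : IrrCharacter G} (hχ : χ ∈ B) :
    classInner (fun n : N => (χ : G → ℂ) n) (fun n : N => (χ : G → ℂ) n) = 1 := by
  rw [← classInner_indFun N _ χ.2.isClassFunction]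
  have e : indFun N (fun n : N => (χ : G → ℂ) n)
      = indFun N (fun _ : N => (1 : ℂ)) * (χ : G → ℂ) := by
    rw [indFun_mul N _ χ.2.isClassFunction]
    simp
  obtain ⟨m, hm⟩ := exists_decomposition (isCharacter_indFun N (isCharacter_one (G := N)))
  rw [e, hm, Finset.sum_mul, classInner_sum_left]
  set one : IrrCharacter G := ⟨fun _ => 1, isIrrCharacter_one⟩
  have hm1 : ∀ β : IrrCharacter G, (m β : ℂ)
      = classInner (fun _ : N => (1 : ℂ)) (fun n : N => (β : G → ℂ) n) := fun β => by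
    rw [← classInner_indFun N _ β.2.isClassFunction, hm, classInner_sum_irr]
  rw [Finset.sum_eq_single one]
  · rw [smul_mul_assoc, classInner_smul_left, hm1]
    show classInner (fun _ : N => (1 : ℂ)) (fun _ : N => (1 : ℂ))
      * classInner ((fun _ : G => (1 : ℂ)) * (χ : G → ℂ)) (χ : G → ℂ) = 1
    rw [classInner_irr_self (isIrrCharacter_one (G := N)),
      show (fun _ : G => (1 : ℂ)) * (χ : G → ℂ) = χ by funext x; simp,
      classInner_irr_self χ.2, one_mul]
  · intro β _ hβ
    rw [smul_mul_assoc, classInner_smul_left]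
    by_cases hmβ : (m β : ℂ) = 0
    · rw [hmβ, zero_mul]
    refine mul_eq_zero_of_right _ ?_
    have hne : classInner (indFun N (fun _ : N => (1 : ℂ))) (β : G → ℂ) ≠ 0 := by
      rwa [hm, classInner_sum_irr]
    have hβ1 := linear_of_constituent_abelian (commutator_mem_of_sup hsup hab) β.2 hne
    obtain ⟨μ, hμ⟩ := exists_hom_of_degree_one β.2.isCharacter hβ1
    have hμN : ∀ n ∈ N, μ n = 1 := by
      have h1 : (fun n : N => (β : G → ℂ) n) = fun _ => 1 := by
        by_contra h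
        refine hmβ ((hm1 β).trans (classInner_irr_ne isIrrCharacter_one ?_ (Ne.symm h)))
        have := isIrrCharacter_linear (μ.comp N.subtype)
        simpa [hμ] using this
      intro n hn
      exact Units.ext (by simpa [hμ] using congrFun h1 ⟨n, hn⟩)
    have hirr := isIrrCharacter_mul_linear χ.2 β.2.isCharacter hβ1
    refine classInner_irr_ne hirr χ.2 fun heq => hβ (Subtype.ext (funext fun g => ?_))
    show (β : G → ℂ) g = 1
    have := linear_fix_eq_one hM hNk hB hP hab hsup hχ μ hμN (fun h => by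
      simpa [hμ] using congrFun heq h) g
    rw [hμ]
    simp [this]
  · simp

/-- Stable blocks of a normal subgroup of `p`-power index below an abelian defect block. -/
theorem stable_block_pPow_index (hM : IsPModular p M) {k : ℕ} (hNk : N.index = p ^ k)
    {b : Set (IrrCharacter N)} (hb : IsPBlock M b) (hstab : ∀ g : G, StabilizesBlock N b g)
    {B : Set (IrrCharacter G)} (hB : IsPBlock M B)
    (hcov : ∃ χ ∈ B, ∃ θ ∈ b, classInner (fun n : N => (χ : G → ℂ) n) (θ : N → ℂ) ≠ 0)
    {P : Subgroup G} (hP : IsDefectGroup p M B P) (hab : ∀ x ∈ P, ∀ y ∈ P, x * y = y * x) :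
    N ⊔ P = ⊤ ∧ IsDefectGroup p M b ((P ⊓ N).subgroupOf N) ∧
      (∀ χ ∈ B, ∃ θ ∈ b, ∀ n : N, (χ : G → ℂ) n = (θ : N → ℂ) n) ∧
      (∀ θ ∈ b, Nat.card {χ : IrrCharacter G // χ ∈ B ∧ ∀ n : N, (χ : G → ℂ) n = (θ : N → ℂ) n}
        = N.index) ∧
      Nat.card B = N.index * Nat.card b ∧ blockRank p B = blockRank p b := by
  haveI := hM.2.1.isPrime
  obtain ⟨χ₁, hχ₁, θ₁, hθ₁, hc₁⟩ := hcov
  have hsup := sup_defect_eq_top_of_stable hM hNk hb hstab hB hχ₁ hθ₁ hc₁ hP
  have hres : ∀ χ ∈ B, ∃ θ ∈ b, ∀ n : N, (χ : G → ℂ) n = (θ : N → ℂ) n := by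
    intro χ hχ
    have hirr := isIrrCharacter_of_classInner_eq_one (isCharacter_restrict χ.2.isCharacter N)
      (classInner_res_self_of_stable hM hNk hB hP hab hsup hχ)
    refine ⟨⟨_, hirr⟩, ?_, fun n => rfl⟩
    rw [← cjUnion_eq_of_stable hstab]
    exact covered_mem_cjUnion hb (IsPBlock.sameBlock hB hχ₁ hχ) hθ₁ hc₁
      (by show classInner (fun n : N => (χ : G → ℂ) n) (fun n : N => (χ : G → ℂ) n) ≠ 0
          rw [classInner_irr_self hirr]; exact one_ne_zero)
  have hover : ∀ θ ∈ b, ∀ χ : IrrCharacter G,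
      classInner (fun n : N => (χ : G → ℂ) n) (θ : N → ℂ) ≠ 0 →
      χ ∈ B ∧ ∀ n : N, (χ : G → ℂ) n = (θ : N → ℂ) n := by
    intro θ hθ χ hc
    have hχ : χ ∈ B := IsPBlock.mem_of_sameBlock hB hχ₁
      (sameBlock_of_pPow_index hM ⟨k, hNk⟩ hb hθ₁ hθ hc₁ hc)
    obtain ⟨θ', -, he⟩ := hres χ hχ
    refine ⟨hχ, fun n => ?_⟩
    rw [show (fun n : N => (χ : G → ℂ) n) = (θ' : N → ℂ) from funext he] at hc
    rw [he n]
    by_cases h : θ' = θ
    · rw [h]
    · exact absurd (classInner_irr_ne θ'.2 θ.2 fun h' => h (Subtype.ext h')) hc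
  have hcount : ∀ θ ∈ b, Nat.card {χ : IrrCharacter G // χ ∈ B ∧ ∀ n : N, (χ : G → ℂ) n = (θ : N → ℂ) n}
      = N.index := by
    intro θ hθ
    obtain ⟨η, hη⟩ := exists_irr_over (G := G) θ
    obtain ⟨hηB, hηθ⟩ := hover θ hθ η hη
    have hθe : (θ : N → ℂ) = fun n : N => (η : G → ℂ) n := (funext hηθ).symm
    obtain ⟨e, C, -, hC, hcard, hind, -, hext⟩ := indFun_abelian_invariant (H := N)
      (commutator_mem_of_sup hsup hab) θ.2 fun g => by
        rw [hθe]; exact res_conjFn η.2.isClassFunction g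
    obtain rfl := hext η η.2 hηθ
    rw [one_pow, one_mul] at hcard
    rw [← hcard, ← Nat.card_eq_finsetCard]
    refine Nat.card_congr
      { toFun := fun χ => ⟨(χ.1 : G → ℂ), ?_⟩
        invFun := fun χ => ⟨⟨χ.1, (hC χ.1 χ.2).1⟩, hover θ hθ _ (by
          show classInner (fun n : N => χ.1 n) (θ : N → ℂ) ≠ 0
          rw [(hC χ.1 χ.2).2]; simp)⟩
        left_inv := fun χ => rfl
        right_inv := fun χ => rfl }
    by_contra hnot
    have h1 : classInner (indFun N (θ : N → ℂ)) (χ.1 : G → ℂ) = 1 := by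
      rw [classInner_indFun N _ χ.1.2.isClassFunction,
        show (fun n : N => (χ.1 : G → ℂ) n) = (θ : N → ℂ) from funext χ.2.2, classInner_irr_self θ.2]
    rw [hind, Nat.cast_one, one_smul, classInner_sum_left, Finset.sum_eq_zero fun ψ hψ =>
      classInner_irr_ne (hC ψ hψ).1 χ.1.2 fun h => hnot (h ▸ hψ)] at h1
    exact zero_ne_one h1
  refine ⟨hsup, isDefectGroup_inf_of_sup hM hb hB hχ₁ hθ₁ hc₁ hP hsup, hres, hcount, ?_, ?_⟩
  · choose r hr hre using hres
    let e : B ≃ Σ θ : b, {χ : IrrCharacter G // χ ∈ B ∧ ∀ n : N, (χ : G → ℂ) n = ((θ : IrrCharacter N) : N → ℂ) n} :=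
      { toFun := fun χ => ⟨⟨r χ.1 χ.2, hr χ.1 χ.2⟩, χ.1, χ.2, hre χ.1 χ.2⟩
        invFun := fun s => ⟨s.2.1, s.2.2.1⟩
        left_inv := fun χ => rfl
        right_inv := by
          rintro ⟨⟨θ, hθ⟩, χ, hχ, hh⟩
          obtain rfl : θ = r χ hχ := Subtype.ext (funext fun n => (hh n).symm.trans (hre χ hχ n))
          rfl }
    rw [Nat.card_congr e, Nat.card_sigma, Finset.sum_congr rfl fun θ _ => hcount θ.1 θ.2,
      Finset.sum_const, Finset.card_univ, smul_eq_mul, Nat.card_eq_fintype_card, mul_comm]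
  · let E : (N → ℂ) →ₗ[ℂ] (G → ℂ) := Function.ExtendByZero.linearMap ℂ (Subtype.val : N → G)
    have hEinj : Function.Injective E := fun f₁ f₂ h => funext fun n => by
      have := congrFun h (n : G)
      simpa [E, Subtype.val_injective.extend_apply] using this
    have hE : ∀ (χ : IrrCharacter G) (θ : IrrCharacter N), (∀ n : N, (χ : G → ℂ) n = (θ : N → ℂ) n) →
        pRegularPart p (χ : G → ℂ) = E (pRegularPart p (θ : N → ℂ)) := by
      intro χ θ h
      funext g
      by_cases hg : g ∈ N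
      · show _ = Function.extend Subtype.val _ (0 : G → ℂ) ((⟨g, hg⟩ : N) : G)
        rw [Subtype.val_injective.extend_apply]
        simp only [pRegularPart, IsPRegular, ← h]
        rw [← Subgroup.orderOf_coe]
        exact @if_congr _ _ _ (_) (_) _ _ _ _ Iff.rfl rfl rfl
      · show _ = Function.extend Subtype.val _ (0 : G → ℂ) g
        rw [Function.extend_apply' _ _ _ fun ⟨n, hn⟩ => hg (hn ▸ n.2)]
        simp only [pRegularPart, IsPRegular, Pi.zero_apply]
        exact if_neg fun hr => hg (regular_mem_of_index_pPow hNk hr)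
    have himg : (fun χ : IrrCharacter G => pRegularPart p (χ : G → ℂ)) '' B
        = E '' ((fun θ : IrrCharacter N => pRegularPart p (θ : N → ℂ)) '' b) := by
      ext f
      simp only [Set.mem_image, exists_exists_and_eq_and]
      constructor
      · rintro ⟨χ, hχ, rfl⟩
        obtain ⟨θ, hθ, h⟩ := hres χ hχ
        exact ⟨θ, hθ, (hE χ θ h).symm⟩
      · rintro ⟨θ, hθ, rfl⟩
        obtain ⟨η, hη⟩ := exists_irr_over (G := G) θ
        obtain ⟨hηB, hηθ⟩ := hover θ hθ η hη
        exact ⟨η, hηB, hE η θ hηθ⟩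
    unfold blockRank
    rw [himg, ← Submodule.map_span]
    exact ((Submodule.equivMapOfInjective E hEinj _).finrank_eq).symm

end Cfsg.Lib.Blocks
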