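import Cfsg.Agent.Lib.Characters.PowerConj
import Cfsg.Agent.Lib.Characters.Integrality
import Cfsg.Agent.Lib.Solv.Wielandt
import Cfsg.Agent.Lib.Blocks.DefectZero
import Cfsg.Prelude.Def_Blocks

/-!
# Blichfeldt: abelian Hall subgroups for the primes above the degree plus one
-/

set_option autoImplicit false
open scoped ComplexConjugate Pointwise
open Cfsg Cfsg.Lib.Characters Subgroup

universe u

namespace Cfsg.Lib.Blocks

variable {G : Type u} [Group G]

/-- An abelian subgroup containing the full part of the order at the primes above `n + 1`. -/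
structure IsBigHall (n : ℕ) (A : Subgroup G) : Prop where
  comm : ∀ x ∈ A, ∀ y ∈ A, x * y = y * x
  big : ∀ q : ℕ, q.Prime → q ∣ Nat.card A → n + 1 < q
  small : ∀ q : ℕ, q.Prime → q ∣ A.index → q ≤ n + 1

theorem isBigHall_trans {n : ℕ} (H : Subgroup G) (hidx : ∀ q : ℕ, q.Prime → q ∣ H.index → q ≤ n + 1)
    {A : Subgroup H} (hA : IsBigHall n A) : IsBigHall n (A.map H.subtype) := by
  refine ⟨?_, fun q hq h => hA.big q hq ?_, fun q hq h => ?_⟩
  · rintro _ ⟨x, hx, rfl⟩ _ ⟨y, hy, rfl⟩
    rw [← map_mul, ← map_mul, hA.comm x hx y hy]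
  · rwa [Nat.card_congr (A.equivMapOfInjective H.subtype H.subtype_injective).toEquiv.symm] at h
  · rw [Subgroup.index_map_subtype] at h
    exact ((Nat.Prime.dvd_mul hq).1 h).elim (hA.small q hq) (hidx q hq)

theorem IsBigHall.coprime [Finite G] {n : ℕ} {A : Subgroup G} (hA : IsBigHall n A) :
    (Nat.card A).Coprime A.index :=
  Nat.coprime_of_dvd fun q hq h1 h2 => by
    have := hA.big q hq h1
    have := hA.small q hq h2
    omega

theorem IsBigHall.isNilpotent {n : ℕ} {A : Subgroup G} (hA : IsBigHall n A) : Group.IsNilpotent A := by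
  letI : CommGroup A := { (inferInstance : Group A) with
    mul_comm := fun a b => Subtype.ext (hA.comm _ a.2 _ b.2) }
  exact CommGroup.isNilpotent

theorem IsBigHall.dvd_card [Finite G] {n : ℕ} {A : Subgroup G} (hA : IsBigHall n A) {q : ℕ}
    (hq : q.Prime) (hqn : n + 1 < q) (h : q ∣ Nat.card G) : q ∣ Nat.card A := by
  rw [← card_mul_index A] at h
  exact ((Nat.Prime.dvd_mul hq).1 h).resolve_right fun h2 => by have := hA.small q hq h2; omega

theorem IsBigHall.card_dvd [Finite G] {n : ℕ} {A B : Subgroup G} (hA : IsBigHall n A)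
    (hB : ∀ q : ℕ, q.Prime → q ∣ Nat.card B → n + 1 < q) : Nat.card B ∣ Nat.card A := by
  have h := B.card_subgroup_dvd_card
  rw [← card_mul_index A] at h
  refine Nat.Coprime.dvd_of_dvd_mul_right (Nat.coprime_of_dvd fun q hq h1 h2 => ?_) h
  have := hB q hq h1
  have := hA.small q hq h2
  omega

theorem IsBigHall.exists_conj [Finite G] {n : ℕ} {A B : Subgroup G} (hA : IsBigHall n A)
    (hB : ∀ q : ℕ, q.Prime → q ∣ Nat.card B → n + 1 < q) : ∃ g : G, B ≤ MulAut.conj g • A :=
  Cfsg.Lib.Solv.wielandt_le_conj A B hA.isNilpotent hA.coprime fun q hq h =>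
    hA.dvd_card hq (hB q hq h) (h.trans B.card_subgroup_dvd_card)

/-- A group all of whose prime divisors exceed the degree of a faithful character is abelian. -/
theorem commute_of_faithful_small [Finite G] {χ : G → ℂ} (hχ : IsCharacter G χ)
    (hf : ∀ g, χ g = χ 1 → g = 1) {n : ℕ} (hn : χ 1 = n)
    (hbig : ∀ q : ℕ, q.Prime → q ∣ Nat.card G → n < q) (a b : G) : a * b = b * a := by
  classical
  haveI := Fintype.ofFinite G
  obtain ⟨k, hk⟩ := exists_decomposition hχ
  have hdeg : ∀ μ : IrrCharacter G, ∀ d : ℕ, (μ : G → ℂ) 1 = d → k μ ≠ 0 → d ≤ n := by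
    intro μ d hd hμ
    choose deg hdeg' using fun ν : IrrCharacter G => exists_degree ν.2.isCharacter
    have h1 : ((n : ℕ) : ℂ) = ((∑ ν, k ν * deg ν : ℕ) : ℂ) := by
      rw [← hn, hk]
      push_cast
      simp [Finset.sum_apply, hdeg']
    have h2 : n = ∑ ν, k ν * deg ν := by exact_mod_cast h1
    have h3 : d = deg μ := by exact_mod_cast hd.symm.trans (hdeg' μ)
    rw [h2, h3]
    exact (Nat.le_mul_of_pos_left _ (Nat.pos_of_ne_zero hμ)).trans
      (Finset.single_le_sum (f := fun ν => k ν * deg ν) (fun _ _ => Nat.zero_le _) (Finset.mem_univ μ))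
  have hone : χ (a * b * a⁻¹ * b⁻¹) = χ 1 := by
    rw [hk]
    simp only [Finset.sum_apply, Pi.smul_apply]
    refine Finset.sum_congr rfl fun μ _ => ?_
    rcases eq_or_ne (k μ) 0 with h0 | h0
    · simp [h0]
    obtain ⟨d, hdpos, hd⟩ := μ.2.exists_degree_pos
    have hd1 : d = 1 := by
      by_contra hne
      obtain ⟨q, hq, hqd⟩ := Nat.exists_prime_and_dvd hne
      have := hbig q hq (hqd.trans (degree_dvd_card μ.2 hd))
      have := Nat.le_of_dvd hdpos hqd
      have := hdeg μ d hd h0
      omega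
    obtain ⟨lam, hlam⟩ := exists_hom_of_degree_one μ.2.isCharacter (by rw [hd, hd1, Nat.cast_one])
    congr 1
    simp only [hlam]
    rw [map_mul, map_mul, map_mul, map_inv, map_inv, map_one]
    congr 1
    rw [mul_comm (lam a) (lam b), mul_assoc (lam b), mul_inv_cancel, mul_one, mul_inv_cancel]
  have h := hf _ hone
  rw [mul_inv_eq_one, mul_inv_eq_iff_eq_mul] at h
  exact h

theorem charKer_ne_top [Finite G] {χ : G → ℂ} (hχ : IsCharacter G χ) {g : G} (hg : χ g ≠ χ 1) :
    charKer hχ ≠ ⊤ := fun h => hg ((mem_charKer hχ).1 (h ▸ mem_top g))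

/-- An element of order `p > n + 1` takes some non-rational value. -/
theorem exists_pow_value_ne [Finite G] {χ : G → ℂ} (hχ : IsCharacter G χ)
    (hf : ∀ g, χ g = χ 1 → g = 1) {n : ℕ} (hn : χ 1 = n) {p : ℕ} (hp : p.Prime) (hpn : n + 1 < p)
    {x : G} (hx : orderOf x = p) : ∃ j : ℕ, 0 < j ∧ j < p ∧ χ (x ^ j) ≠ χ x := by
  classical
  by_contra hcon
  push Not at hcon
  haveI := Fintype.ofFinite G
  haveI : NeZero p := ⟨hp.ne_zero⟩
  have hxp : x ^ p = 1 := hx ▸ pow_orderOf_eq_one x
  have hfx : x ≠ 1 := fun h => hp.ne_one (hx ▸ orderOf_eq_one_iff.2 h)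
  -- average over the cyclic group
  have hcyc : Nat.card (zpowers x) = p := by rw [Nat.card_zpowers, hx]
  obtain ⟨a, ha⟩ := classInner_nat (isCharacter_restrict hχ (zpowers x))
    (isCharacter_one (G := zpowers x))
  have hp0 : (p : ℂ) ≠ 0 := Nat.cast_ne_zero.2 hp.ne_zero
  rw [classInner, hcyc, inv_mul_eq_iff_eq_mul₀ hp0] at ha
  have hsum : ∑ s : zpowers x, χ s * conj ((1 : ℂ)) = ∑ i ∈ Finset.range p, χ (x ^ i) := by
    simp only [map_one, mul_one]
    symm
    refine Finset.sum_bij (fun i _ => (⟨x ^ i, pow_mem (mem_zpowers x) i⟩ : zpowers x))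
      (fun i _ => Finset.mem_univ _) ?_ ?_ (fun i _ => rfl)
    · intro i hi j hj h
      exact pow_injOn_Iio_orderOf (by simpa [hx] using hi) (by simpa [hx] using hj)
        (congrArg Subtype.val h)
    · intro s _
      obtain ⟨i, hi, hi'⟩ := (isOfFinOrder_of_finite x).mem_zpowers_iff_mem_range_orderOf.1 s.2 |>
        Finset.mem_image.1
      exact ⟨i, by rwa [← hx], Subtype.ext hi'⟩
  rw [hsum] at ha
  obtain ⟨t, rfl⟩ : ∃ t, p = t + 1 := ⟨p - 1, by have := hp.pos; omega⟩
  rw [Finset.sum_range_succ', pow_zero, hn, Finset.sum_congr rfl fun i hi => hcon (i + 1) (by omega)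
    (by rw [Finset.mem_range] at hi; omega), Finset.sum_const, Finset.card_range, nsmul_eq_mul] at ha
  -- now `t * χ x + n = (t + 1) * a`
  have ht0 : (t : ℂ) ≠ 0 := Nat.cast_ne_zero.2 (by omega)
  have hint : IsIntegral ℤ (χ x) := char_isIntegral hχ x
  obtain ⟨c, hc⟩ := exists_int_of_isIntegral (q := (((t + 1) * a : ℕ) - (n : ℚ)) / t) (by
    have : (((((t + 1) * a : ℕ) - (n : ℚ)) / t : ℚ) : ℂ) = χ x := by
      push_cast at ha ⊢
      rw [div_eq_iff ht0]
      linear_combination -ha
    rwa [this])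
  have hc1 : χ x = (c : ℂ) := by
    have h1 := hc
    push_cast at h1 ha
    rw [← h1, eq_div_iff ht0]
    linear_combination ha
  have hnorm := char_norm_le_degree hχ x
  rw [hc1, hn, Complex.norm_intCast] at hnorm
  simp only [Complex.natCast_re] at hnorm
  have hb : |c| ≤ (n : ℤ) := by exact_mod_cast hnorm
  rw [hc1] at ha
  have hz : (t : ℤ) * c + n = (t + 1 : ℤ) * a := by exact_mod_cast ha
  obtain ⟨h1, h2⟩ := abs_le.1 hb
  -- `c ≡ a (mod t+1)` and sizes force `a = n`
  have hct : (t : ℤ) * (c - a) = (a : ℤ) - n := by linear_combination hz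
  have hat : (a : ℤ) ≤ n := by nlinarith
  have hca : c - (a : ℤ) = 0 := by
    rcases lt_trichotomy (c - (a : ℤ)) 0 with hneg | h0 | hpos
    · have h4 : (t : ℤ) * (c - a) ≤ -t := by nlinarith
      have : (n : ℤ) < t := by omega
      omega
    · exact h0
    · nlinarith
  have hcn : c = n := by rw [hca, mul_zero] at hct; omega
  exact hfx (hf x (by rw [hc1, hn, hcn, Int.cast_natCast]))

/-- A faithful irreducible character forces a commuting pair for any two primes above `n + 1`. -/
theorem exists_order_mul_of_irr [Fintype G] {χ : G → ℂ} (hχ : IsIrrCharacter G χ)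
    (hf : ∀ g, χ g = χ 1 → g = 1) {n : ℕ} (hn : χ 1 = n) {p r : ℕ} (hp : p.Prime) (hr : r.Prime)
    (hpn : n + 1 < p) (hrn : n + 1 < r) {x y : G} (hx : orderOf x = p) (hy : orderOf y = r) :
    ∃ g : G, p ∣ orderOf g ∧ r ∣ orderOf g := by
  classical
  -- a power map moving `x` and fixing the elements of order prime to `p`
  have key : ∀ {p : ℕ}, p.Prime → n + 1 < p → ∀ {x : G}, orderOf x = p →
      ∃ k : ℕ, (Nat.card G).Coprime k ∧ (fun g => χ (g ^ k)) ≠ χ ∧
        ∀ g : G, ¬ p ∣ orderOf g → g ^ k = g := by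
    intro p hp hpn x hx
    obtain ⟨j, hj0, hjp, hj⟩ := exists_pow_value_ne hχ.isCharacter hf hn hp hpn hx
    set v := (Nat.card G).factorization p
    have hm0 : Nat.card G ≠ 0 := Nat.card_pos.ne'
    have hcop : (p ^ v).Coprime (Nat.card G / p ^ v) :=
      (Nat.coprime_ordCompl hp hm0).pow_left v
    obtain ⟨k, hk1, hk2⟩ := Nat.chineseRemainder hcop j 1
    have hv : 1 ≤ v := by
      have h : p ∣ Nat.card G := hx ▸ orderOf_dvd_natCard x
      exact hp.factorization_pos_of_dvd hm0 h
    have hkp : k ≡ j [MOD p] := hk1.of_dvd (dvd_pow_self p (by omega))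
    refine ⟨k, ?_, ?_, fun g hg => ?_⟩
    · rw [← Nat.ordProj_mul_ordCompl_eq_self (Nat.card G) p]
      refine Nat.Coprime.mul_left (Nat.Coprime.pow_left v ?_) ?_
      · refine hp.coprime_iff_not_dvd.2 fun h => ?_
        have h2 : p ∣ j := (Nat.modEq_zero_iff_dvd).1 (hkp.symm.trans (Nat.modEq_zero_iff_dvd.2 h))
        exact absurd (Nat.le_of_dvd hj0 h2) (by omega)
      · show Nat.gcd (Nat.card G / p ^ v) k = 1
        rw [Nat.gcd_comm, hk2.gcd_eq, Nat.gcd_one_left]
    · intro h
      refine hj ?_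
      have h1 := congrFun h x
      rwa [pow_eq_pow_iff_modEq.2 (hx.symm ▸ hkp : k ≡ j [MOD orderOf x])] at h1
    · conv_rhs => rw [← pow_one g]
      refine pow_eq_pow_iff_modEq.2 (hk2.of_dvd ?_)
      refine Nat.Coprime.dvd_of_dvd_mul_left ((hp.coprime_iff_not_dvd.2 hg).symm.pow_right v) ?_
      rw [Nat.ordProj_mul_ordCompl_eq_self]
      exact orderOf_dvd_natCard g
  obtain ⟨k, hkc, hkne, hkfix⟩ := key hp hpn hx
  obtain ⟨l, hlc, hlne, hlfix⟩ := key hr hrn hy
  by_contra hcon
  push Not at hcon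
  set a : G → ℂ := χ - fun g => χ (g ^ k)
  set b : G → ℂ := χ - fun g => χ (g ^ l)
  have hzero : classInner a b = 0 := by
    rw [classInner]
    refine mul_eq_zero_of_right _ (Finset.sum_eq_zero fun g _ => ?_)
    by_cases hg : p ∣ orderOf g
    · have : b g = 0 := by simp [b, hlfix g (hcon g hg)]
      simp [this]
    · have : a g = 0 := by simp [a, hkfix g hg]
      simp [this]
  have hk' := isIrrCharacter_comp_pow hχ hkc
  have hl' := isIrrCharacter_comp_pow hχ hlc
  rw [classInner_sub_left, classInner_sub_right, classInner_sub_right, classInner_irr_self hχ,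
    classInner_irr_ne hχ hl' hlne.symm, classInner_irr_ne hk' hχ hkne] at hzero
  by_cases hkl : (fun g => χ (g ^ k)) = fun g => χ (g ^ l)
  · rw [hkl, classInner_irr_self hl'] at hzero
    norm_num at hzero
  · rw [classInner_irr_ne hk' hl' hkl] at hzero
    norm_num at hzero

section Induction

variable [Finite G] {n : ℕ}

theorem exists_bigHall_of_le_center
    (ih : ∀ H : Subgroup G, H ≠ ⊤ → ∃ A : Subgroup H, IsBigHall n A)
    {χ : G → ℂ} (hχ : IsIrrCharacter G χ) (hf : ∀ g, χ g = χ 1 → g = 1) {d : ℕ} (hd : χ 1 = d)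
    (hdn : d ≤ n) {p : ℕ} (hp : p.Prime) (hpn : n + 1 < p) {x : G} (hx : orderOf x = p)
    (hxc : x ∈ center G) : ∃ A : Subgroup G, IsBigHall n A := by
  classical
  have hd0 : 0 < d := Nat.pos_of_ne_zero fun h => hχ.one_ne_zero (by rw [hd, h, Nat.cast_zero])
  haveI := Fintype.ofFinite G
  have hχc := hχ.isCharacter
  obtain ⟨e, ρ, hirr, hρ⟩ := hχ
  obtain ⟨ω, hω⟩ := schur_scalar ρ (ρ x) fun g => by
    rw [← map_mul, ← map_mul, mem_center_iff.1 hxc g]
  have hed : e = d := by
    have h := hd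
    rw [← hρ, Representation.char_one] at h
    simpa using h
  have hω1 : ω ≠ 1 := by
    intro h
    refine hp.ne_one (hx ▸ orderOf_eq_one_iff.2 (hf x ?_))
    rw [← hρ, Representation.character, Representation.character, hω, h, one_smul, map_one]
    rfl
  have hωp : ω ^ p = 1 := by
    have h1 : ρ (x ^ p) = 1 := by rw [← hx, pow_orderOf_eq_one, map_one]
    rw [map_pow, hω, smul_pow, show (LinearMap.id : (Fin e → ℂ) →ₗ[ℂ] _) = 1 from rfl, one_pow] at h1
    have h2 := congrArg (LinearMap.trace ℂ (Fin e → ℂ)) h1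
    rw [map_smul, smul_eq_mul, LinearMap.trace_one] at h2
    refine mul_right_cancel₀ (b := ((Module.finrank ℂ (Fin e → ℂ) : ℕ) : ℂ)) ?_ (h2.trans (one_mul _).symm)
    simp only [Module.finrank_fin_fun]
    exact_mod_cast (hed ▸ hd0.ne')
  set lam : G →* ℂˣ := ((LinearMap.det : ((Fin e → ℂ) →ₗ[ℂ] _) →* ℂ).comp ρ).toHomUnits with hlam
  set K := lam.ker with hK
  have hxK : x ∉ K := by
    intro h
    have h1 : LinearMap.det (ρ x) = 1 := congrArg Units.val (MonoidHom.mem_ker.1 h)
    rw [hω, LinearMap.det_smul, LinearMap.det_id, mul_one, Module.finrank_fin_fun, hed] at h1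
    have h2 : ω ^ Nat.gcd p d = 1 := pow_gcd_eq_one.2 ⟨hωp, h1⟩
    rw [(hp.coprime_iff_not_dvd.2 fun h => absurd (Nat.le_of_dvd hd0 h) (by omega) :
      Nat.gcd p d = 1), pow_one] at h2
    exact hω1 h2
  obtain ⟨A, hA⟩ := ih K fun h => hxK (h ▸ mem_top x)
  -- Frattini argument
  set A' := A.map K.subtype with hA'
  have hA'K : A' ≤ K := map_subtype_le A
  set N := normalizer (A' : Set G) with hN
  have hfr : ∀ g : G, ∃ c ∈ K, c⁻¹ * g ∈ N := by
    intro g
    set B : Subgroup K := ((A'.map (MulAut.conj g).toMonoidHom)).subgroupOf K with hB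
    have hBK : A'.map (MulAut.conj g).toMonoidHom ≤ K := by
      rintro _ ⟨a, ha, rfl⟩
      exact (inferInstance : K.Normal).conj_mem a (hA'K ha) g
    have hBc : Nat.card B = Nat.card A' := by
      rw [hB, Nat.card_congr (subgroupOfEquivOfLe hBK).toEquiv,
        Nat.card_congr (A'.equivMapOfInjective _ (MulAut.conj g).injective).toEquiv.symm]
    have hA'c : Nat.card A' = Nat.card A :=
      (Nat.card_congr (A.equivMapOfInjective K.subtype K.subtype_injective).toEquiv).symm
    obtain ⟨c, hc⟩ := hA.exists_conj (B := B) fun q hq h => hA.big q hq (by rwa [hBc, hA'c] at h)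
    refine ⟨c, c.2, mem_normalizer_iff_conj_image_eq.2 ?_⟩
    refine Set.eq_of_subset_of_ncard_le ?_ (by
      rw [Set.ncard_image_of_injective _ (MulAut.conj ((c : G)⁻¹ * g)).injective]) (Set.toFinite _)
    rintro _ ⟨a, ha, rfl⟩
    have h1 : (⟨g * a * g⁻¹, (inferInstance : K.Normal).conj_mem a (hA'K ha) g⟩ : K) ∈ B :=
      ⟨a, ha, rfl⟩
    obtain ⟨a', ha', hae⟩ := hc h1
    refine ⟨a', ha', ?_⟩
    have h2 : (c : G) * a' * (c : G)⁻¹ = g * a * g⁻¹ := congrArg Subtype.val hae
    show (a' : G) = (c : G)⁻¹ * g * a * ((c : G)⁻¹ * g)⁻¹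
    calc (a' : G) = (c : G)⁻¹ * ((c : G) * a' * (c : G)⁻¹) * c := by group
      _ = (c : G)⁻¹ * (g * a * g⁻¹) * c := by rw [h2]
      _ = _ := by group
  by_cases hNtop : N = ⊤
  · haveI hA'n : A'.Normal := normalizer_eq_top_iff.1 hNtop
    -- the preimage of the big part of the abelian quotient `G ⧸ K`
    have hKidx : K.index = Nat.card lam.range := Subgroup.index_ker lam
    set Q : Subgroup lam.range :=
      { carrier := {g | ∀ q : ℕ, q.Prime → q ∣ orderOf g → n + 1 < q}
        one_mem' := fun q hq h => by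
          rw [orderOf_one] at h
          exact absurd (Nat.le_of_dvd one_pos h) (not_le.2 hq.one_lt)
        mul_mem' := fun {a b} ha hb q hq h => by
          rcases (Nat.Prime.dvd_mul hq).1 ((h.trans (Commute.all a b).orderOf_mul_dvd_lcm).trans
            (Nat.lcm_dvd_mul _ _)) with h' | h'
          · exact ha q hq h'
          · exact hb q hq h'
        inv_mem' := fun {a} ha q hq h => ha q hq (by rwa [orderOf_inv] at h) } with hQ
    set S := Q.comap lam.rangeRestrict with hS
    have hSidx : S.index = Q.index := index_comap_of_surjective _ lam.rangeRestrict_surjective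
    have hQsmall : ∀ q : ℕ, q.Prime → q ∣ Q.index → q ≤ n + 1 := by
      intro q hq h
      by_contra hlt
      push Not at hlt
      haveI : Fact q.Prime := ⟨hq⟩
      obtain ⟨z, hz⟩ := exists_prime_orderOf_dvd_card' (G := lam.range ⧸ Q) q h
      obtain ⟨g, rfl⟩ := QuotientGroup.mk_surjective z
      obtain ⟨a, m, hm, hgo⟩ := Nat.exists_eq_pow_mul_and_not_dvd (orderOf_pos g).ne' q hq.ne_one
      have hgm : g ^ m ∈ Q := by
        intro s hs hsd
        have h1 : orderOf (g ^ m) ∣ q ^ a := orderOf_dvd_of_pow_eq_one (by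
          rw [← pow_mul, mul_comm, ← hgo, pow_orderOf_eq_one])
        rw [(Nat.prime_dvd_prime_iff_eq hs hq).1 (hs.dvd_of_dvd_pow (hsd.trans h1))]
        exact hlt
      have h2 : (g : lam.range ⧸ Q) ^ m = 1 := by
        rw [← QuotientGroup.mk_pow]; exact (QuotientGroup.eq_one_iff _).2 hgm
      exact hm (hz ▸ orderOf_dvd_of_pow_eq_one h2)
    by_cases hStop : S = ⊤
    · -- `G / K` is a big group; so `G / A'` has a complement of big order
      have hbigQ : ∀ q : ℕ, q.Prime → q ∣ Nat.card lam.range → n + 1 < q := by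
        intro q hq h
        haveI : Fact q.Prime := ⟨hq⟩
        obtain ⟨z, hz⟩ := exists_prime_orderOf_dvd_card' (G := lam.range) q h
        have hzQ : z ∈ Q := by
          obtain ⟨g, rfl⟩ := lam.rangeRestrict_surjective z
          exact mem_comap.1 (hStop.ge (mem_top g))
        exact hzQ q hq (hz ▸ dvd_rfl)
      set Kb := K.map (QuotientGroup.mk' A') with hKb
      haveI : Kb.Normal := (inferInstance : K.Normal).map _ (QuotientGroup.mk'_surjective A')
      have hKbi : Kb.index = K.index :=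
        index_map_eq _ (QuotientGroup.mk'_surjective A') (by rw [QuotientGroup.ker_mk']; exact hA'K)
      have hKbc : Nat.card Kb = A.index := by
        have h1 : Nat.card Kb * K.index * Nat.card A' = Nat.card G := by
          rw [← hKbi, card_mul_index, ← Subgroup.card_eq_card_quotient_mul_card_subgroup]
        have h2 : Nat.card A' = Nat.card A :=
          (Nat.card_congr (A.equivMapOfInjective K.subtype K.subtype_injective).toEquiv).symm
        rw [← card_mul_index K, ← card_mul_index A, h2] at h1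
        refine Nat.eq_of_mul_eq_mul_right (m := K.index * Nat.card A) (Nat.mul_pos
          (Nat.pos_of_ne_zero K.index_ne_zero_of_finite) Nat.card_pos) ?_
        linarith [h1]
      have hcop : (Nat.card Kb).Coprime Kb.index := by
        rw [hKbc, hKbi, hKidx]
        exact Nat.coprime_of_dvd fun q hq h1 h2 => by
          have := hA.small q hq h1; have := hbigQ q hq h2; omega
      obtain ⟨L, hL⟩ := exists_right_complement'_of_coprime hcop
      set H := L.comap (QuotientGroup.mk' A') with hH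
      have hHidx : H.index = A.index := by
        rw [hH, index_comap_of_surjective _ (QuotientGroup.mk'_surjective A'), hL.index_eq_card, hKbc]
      have hHbig : ∀ q : ℕ, q.Prime → q ∣ Nat.card H → n + 1 < q := by
        intro q hq h
        have h1 : Nat.card H * A.index = Nat.card A * K.index * A.index := by
          rw [← hHidx, card_mul_index, hHidx, ← card_mul_index K, ← card_mul_index A]
          ring
        rw [Nat.eq_of_mul_eq_mul_right (Nat.pos_of_ne_zero A.index_ne_zero_of_finite) h1] at h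
        rcases (Nat.Prime.dvd_mul hq).1 h with h | h
        · exact hA.big q hq h
        · exact hbigQ q hq (hKidx ▸ h)
      refine ⟨H, fun a ha b hb => ?_, hHbig, fun q hq h => hA.small q hq (hHidx ▸ h)⟩
      exact congrArg Subtype.val (commute_of_faithful_small (isCharacter_restrict hχc H)
        (fun g hg => Subtype.ext (hf g hg)) (n := d) hd
        (fun q hq h => lt_of_le_of_lt hdn (lt_trans (Nat.lt_succ_self n) (hHbig q hq h)))
        (⟨a, ha⟩ : H) ⟨b, hb⟩)
    · obtain ⟨B, hB⟩ := ih S hStop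
      exact ⟨_, isBigHall_trans S (fun q hq h => hQsmall q hq (hSidx ▸ h)) hB⟩
  · obtain ⟨B, hB⟩ := ih N hNtop
    refine ⟨_, isBigHall_trans N (fun q hq h => ?_) hB⟩
    -- `G = K N`, so the index of `N` divides the index of `A` in `K`
    have hle : A'.subgroupOf K ≤ N.subgroupOf K := fun k hk => le_normalizer hk
    have heq : N.index = (N.subgroupOf K).index := by
      have hsup : K ⊔ N = ⊤ := by
        rw [eq_top_iff]
        intro g _
        obtain ⟨c, hc, hcg⟩ := hfr g
        rw [show g = c * (c⁻¹ * g) by group]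
        exact mul_mem (mem_sup_left hc) (mem_sup_right hcg)
      have h1 : K.relIndex N = K.index := by
        rw [← relIndex_top_right K, ← hsup, relIndex_sup_left]
      have e1 := relIndex_mul_index (inf_le_left : N ⊓ K ≤ N)
      have e2 := relIndex_mul_index (inf_le_right : N ⊓ K ≤ K)
      rw [inf_comm, inf_relIndex_right, inf_comm, h1] at e1
      rw [inf_relIndex_right, mul_comm] at e2
      exact (Nat.eq_of_mul_eq_mul_left (Nat.pos_of_ne_zero K.index_ne_zero_of_finite)
        (e1.trans e2.symm))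
    have hAs : A'.subgroupOf K = A := by
      rw [hA', subgroupOf, comap_map_eq_self_of_injective K.subtype_injective]
    exact hA.small q hq (h.trans (heq ▸ hAs ▸ index_dvd_of_le hle))

theorem exists_bigHall_of_irr
    (ih : ∀ H : Subgroup G, H ≠ ⊤ → ∃ A : Subgroup H, IsBigHall n A)
    {χ : G → ℂ} (hχ : IsIrrCharacter G χ) (hf : ∀ g, χ g = χ 1 → g = 1) {d : ℕ} (hd : χ 1 = d)
    (hdn : d ≤ n) : ∃ A : Subgroup G, IsBigHall n A := by
  classical
  haveI := Fintype.ofFinite G
  by_cases hnone : ∀ q : ℕ, q.Prime → q ∣ Nat.card G → q ≤ n + 1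
  · refine ⟨⊥, fun x hx y hy => by rw [mem_bot.1 hx, mem_bot.1 hy], fun q hq h => ?_, fun q hq h => ?_⟩
    · rw [Subgroup.card_bot] at h
      exact absurd (Nat.le_of_dvd one_pos h) (not_le.2 hq.one_lt)
    · exact hnone q hq (index_bot (G := G) ▸ h)
  push Not at hnone
  obtain ⟨p, hp, hpG, hpn⟩ := hnone
  by_cases hcen : ∃ q : ℕ, q.Prime ∧ n + 1 < q ∧ ∃ x : G, orderOf x = q ∧ x ∈ center G
  · obtain ⟨q, hq, hqn, x, hx, hxc⟩ := hcen
    exact exists_bigHall_of_le_center ih hχ hf hd hdn hq hqn hx hxc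
  push Not at hcen
  let X := {x : G // ∃ q : ℕ, q.Prime ∧ n + 1 < q ∧ orderOf x = q}
  have hXne : ∀ x : X, centralizer ({x.1} : Set G) ≠ ⊤ := by
    rintro ⟨x, q, hq, hqn, hx⟩ h
    exact hcen q hq hqn x hx (mem_center_iff.2 fun g =>
      mem_centralizer_singleton_iff.1 (h.ge (mem_top g)))
  choose A hA using fun x : X => ih _ (hXne x)
  have hxmem : ∀ x : X, (⟨x.1, mem_centralizer_singleton_iff.2 rfl⟩ : centralizer ({x.1} : Set G)) ∈ A x := by
    intro x
    obtain ⟨q, hq, hqn, hx⟩ := x.2
    set x' : centralizer ({x.1} : Set G) := ⟨x.1, mem_centralizer_singleton_iff.2 rfl⟩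
    obtain ⟨c, hc⟩ := (hA x).exists_conj (B := zpowers x') fun s hs h => by
      rw [Nat.card_zpowers, orderOf_mk, hx, Nat.prime_dvd_prime_iff_eq hs hq] at h
      exact h ▸ hqn
    obtain ⟨a, ha, hae⟩ := hc (mem_zpowers x')
    have h1 : (c : G) * (a : G) * (c : G)⁻¹ = x.1 := congrArg Subtype.val hae
    have h2 := mem_centralizer_singleton_iff.1 c.2
    have : a = x' := by
      refine Subtype.ext ?_
      show (a : G) = x.1
      calc (a : G) = (c : G)⁻¹ * ((c : G) * a * (c : G)⁻¹) * c := by group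
        _ = x.1 := by rw [h1, mul_assoc, ← h2, inv_mul_cancel_left]
    exact this ▸ ha
  have htrans : ∀ (x y : X) (B : Subgroup G), B ≤ centralizer ({y.1} : Set G) →
      Nat.card B = Nat.card (A x) → Nat.card (A x) ∣ Nat.card (A y) := by
    intro x y B hB hcB
    rw [← hcB, ← Nat.card_congr (subgroupOfEquivOfLe hB).toEquiv]
    refine (hA y).card_dvd fun s hs h => (hA x).big s hs ?_
    rwa [Nat.card_congr (subgroupOfEquivOfLe hB).toEquiv, hcB] at h
  have hcomm : ∀ x y : X, Commute x.1 y.1 → Nat.card (A x) ∣ Nat.card (A y) := by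
    intro x y hxy
    obtain ⟨q, hq, hqn, hy⟩ := y.2
    set y' : centralizer ({x.1} : Set G) := ⟨y.1, mem_centralizer_singleton_iff.2 hxy.eq.symm⟩
    obtain ⟨c, hc⟩ := (hA x).exists_conj (B := zpowers y') fun s hs h => by
      rw [Nat.card_zpowers, orderOf_mk, hy, Nat.prime_dvd_prime_iff_eq hs hq] at h
      exact h ▸ hqn
    obtain ⟨a, ha, hae⟩ := hc (mem_zpowers y')
    refine htrans x y (((MulAut.conj c • A x) : Subgroup _).map (centralizer ({x.1} : Set G)).subtype)
      ?_ ?_
    · rintro _ ⟨_, ⟨b, hb, rfl⟩, rfl⟩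
      rw [mem_centralizer_singleton_iff]
      have h1 : MulAut.conj c • b * y' = y' * MulAut.conj c • b := by
        rw [← hae]
        show MulAut.conj c b * MulAut.conj c a = MulAut.conj c a * MulAut.conj c b
        rw [← map_mul, ← map_mul, (hA x).comm b hb a ha]
      exact congrArg Subtype.val h1
    · rw [← Nat.card_congr (Subgroup.equivMapOfInjective _ _ (Subgroup.subtype_injective _)).toEquiv,
        ← Nat.card_congr (Subgroup.equivSMul (MulAut.conj c) (A x)).toEquiv]
  have hconj : ∀ (x y : X) (g : G), g * x.1 * g⁻¹ = y.1 → Nat.card (A x) ∣ Nat.card (A y) := by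
    intro x y g hg
    refine htrans x y (((A x).map (centralizer ({x.1} : Set G)).subtype).map
      (MulAut.conj g).toMonoidHom) ?_ ?_
    · rintro _ ⟨_, ⟨a, -, rfl⟩, rfl⟩
      rw [mem_centralizer_singleton_iff]
      show g * (a : G) * g⁻¹ * y.1 = y.1 * (g * (a : G) * g⁻¹)
      rw [← hg]
      calc g * (a : G) * g⁻¹ * (g * x.1 * g⁻¹) = g * ((a : G) * x.1) * g⁻¹ := by group
        _ = g * (x.1 * (a : G)) * g⁻¹ := by rw [mem_centralizer_singleton_iff.1 a.2]
        _ = _ := by group
    · rw [← Nat.card_congr (Subgroup.equivMapOfInjective _ _ (MulAut.conj g).injective).toEquiv,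
        ← Nat.card_congr (Subgroup.equivMapOfInjective _ _ (Subgroup.subtype_injective _)).toEquiv]
  -- Sylow subgroups for big primes are abelian
  have hsylow : ∀ (q : ℕ) [Fact q.Prime], n + 1 < q → ∀ P : Sylow q G, ∀ a ∈ (P : Subgroup G),
      ∀ b ∈ (P : Subgroup G), a * b = b * a := by
    intro q _ hqn P a ha b hb
    exact congrArg Subtype.val (commute_of_faithful_small (isCharacter_restrict hχ.isCharacter
      (P : Subgroup G)) (fun g hg => Subtype.ext (hf g hg)) (n := d) hd (fun s hs h => by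
        obtain ⟨e, he⟩ := IsPGroup.iff_card.1 P.2
        rw [he] at h
        rw [(Nat.prime_dvd_prime_iff_eq hs Fact.out).1 (hs.dvd_of_dvd_pow h)]
        omega) (⟨a, ha⟩ : (P : Subgroup G)) ⟨b, hb⟩)
  have hfull : ∀ (x : X) (q : ℕ), q.Prime → n + 1 < q → orderOf x.1 = q →
      q ^ (Nat.card G).factorization q ∣ Nat.card (A x) := by
    intro x q hq hqn hx
    haveI : Fact q.Prime := ⟨hq⟩
    obtain ⟨P, hP⟩ := (IsPGroup.of_card (n := 1) (by rw [Nat.card_zpowers, hx, pow_one]) :
      IsPGroup q (zpowers x.1)).exists_le_sylow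
    have hle : (P : Subgroup G) ≤ centralizer ({x.1} : Set G) := fun a ha =>
      mem_centralizer_singleton_iff.2 (hsylow q hqn P a ha x.1 (hP (mem_zpowers _)))
    rw [← P.card_eq_multiplicity, ← Nat.card_congr (subgroupOfEquivOfLe hle).toEquiv]
    refine (hA x).card_dvd fun s hs h => ?_
    rw [Nat.card_congr (subgroupOfEquivOfLe hle).toEquiv, P.card_eq_multiplicity] at h
    rw [(Nat.prime_dvd_prime_iff_eq hs hq).1 (hs.dvd_of_dvd_pow h)]
    exact hqn
  haveI : Fact p.Prime := ⟨hp⟩
  obtain ⟨x₀, hx₀⟩ := exists_prime_orderOf_dvd_card' (G := G) p hpG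
  let x : X := ⟨x₀, p, hp, hpn, hx₀⟩
  by_cases hgood : ∀ q : ℕ, q.Prime → n + 1 < q → q ^ (Nat.card G).factorization q ∣ Nat.card (A x)
  · refine ⟨(A x).map (centralizer ({x₀} : Set G)).subtype,
      fun a ⟨a', ha', e1⟩ b ⟨b', hb', e2⟩ => ?_, fun q hq h => (hA x).big q hq ?_, fun q hq h => ?_⟩
    · rw [← e1, ← e2, ← map_mul, ← map_mul, (hA x).comm a' ha' b' hb']
    · rwa [← Nat.card_congr (Subgroup.equivMapOfInjective _ _ (Subgroup.subtype_injective _)).toEquiv] at h
    · by_contra hlt
      push Not at hlt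
      have h1 := hgood q hq hlt
      rw [Nat.card_congr (Subgroup.equivMapOfInjective (A x) _ (Subgroup.subtype_injective _)).toEquiv] at h1
      have h2 := card_mul_index ((A x).map (centralizer ({x₀} : Set G)).subtype)
      have h3 : q ^ ((Nat.card G).factorization q + 1) ∣ Nat.card G := by
        rw [← h2, pow_succ]
        exact mul_dvd_mul (by rwa [h2]) h
      exact Nat.pow_succ_factorization_not_dvd Nat.card_pos.ne' hq h3
  push Not at hgood
  obtain ⟨r, hr, hrn, hrbad⟩ := hgood
  have hrG : r ∣ Nat.card G := by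
    by_contra h
    exact hrbad (by rw [Nat.factorization_eq_zero_of_not_dvd h, pow_zero]; exact one_dvd _)
  haveI : Fact r.Prime := ⟨hr⟩
  obtain ⟨y₀, hy₀⟩ := exists_prime_orderOf_dvd_card' (G := G) r hrG
  obtain ⟨g, hgp, hgr⟩ := exists_order_mul_of_irr hχ hf hd hp hr (by omega) (by omega) hx₀ hy₀
  exfalso
  apply hrbad
  let u : X := ⟨g ^ (orderOf g / p), p, hp, hpn, orderOf_pow_orderOf_div (orderOf_pos g).ne' hgp⟩
  let w : X := ⟨g ^ (orderOf g / r), r, hr, hrn, orderOf_pow_orderOf_div (orderOf_pos g).ne' hgr⟩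
  have hw := hfull w r hr hrn (orderOf_pow_orderOf_div (orderOf_pos g).ne' hgr)
  refine hw.trans ((hcomm w u (Commute.pow_pow_self g _ _)).trans ?_)
  -- move `u` into a Sylow subgroup through `x`
  obtain ⟨P, hP⟩ := (IsPGroup.of_card (n := 1) (by rw [Nat.card_zpowers, hx₀, pow_one]) :
    IsPGroup p (zpowers x₀)).exists_le_sylow
  obtain ⟨Q, hQ⟩ := (IsPGroup.of_card (n := 1) (by
    rw [Nat.card_zpowers, orderOf_pow_orderOf_div (orderOf_pos g).ne' hgp, pow_one]) :
    IsPGroup p (zpowers u.1)).exists_le_sylow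
  obtain ⟨c, hc⟩ := MulAction.exists_smul_eq G Q P
  have hmem : c * u.1 * c⁻¹ ∈ (P : Subgroup G) := by
    rw [← hc, Sylow.coe_subgroup_smul]
    exact ⟨u.1, hQ (mem_zpowers _), rfl⟩
  let u' : X := ⟨c * u.1 * c⁻¹, p, hp, hpn, by
    rw [show c * u.1 * c⁻¹ = MulAut.conj c u.1 from rfl, MulEquiv.orderOf_eq]
    exact orderOf_pow_orderOf_div (orderOf_pos g).ne' hgp⟩
  exact (hconj u u' c rfl).trans (hcomm u' x (hsylow p hpn P _ hmem _ (hP (mem_zpowers _))))

end Induction

theorem exists_bigHall_aux (n : ℕ) : ∀ (m : ℕ) (G : Type u) [Group G] [Finite G] (χ : G → ℂ)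
    (d : ℕ), IsCharacter G χ → (∀ g, χ g = χ 1 → g = 1) → χ 1 = d → d ≤ n → Nat.card G + d ≤ m →
    ∃ A : Subgroup G, IsBigHall n A := by
  intro m
  induction m with
  | zero =>
    intro G _ _ χ d _ _ _ _ h
    have := Nat.card_pos (α := G)
    omega
  | succ m ihm =>
    intro G _ _ χ d hχ hf hd hdn hm
    classical
    haveI := Fintype.ofFinite G
    have ih : ∀ H : Subgroup G, H ≠ ⊤ → ∃ A : Subgroup H, IsBigHall n A := by
      intro H hH
      refine ihm H (fun h => χ h) d (isCharacter_restrict hχ H) (fun g hg => Subtype.ext (hf g hg)) hd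
        hdn ?_
      have hlt : Nat.card H < Nat.card G := lt_of_le_of_ne (Nat.le_of_dvd Nat.card_pos
        (card_subgroup_dvd_card H)) fun h => hH (Subgroup.eq_top_of_card_eq H h)
      omega
    by_cases hirr : IsIrrCharacter G χ
    · exact exists_bigHall_of_irr ih hirr hf hd hdn
    obtain ⟨k, hk⟩ := exists_decomposition hχ
    by_cases hzero : ∀ μ, k μ = 0
    · have htriv : ∀ g : G, g = 1 := fun g => hf g (by simp [hk, hzero])
      refine ⟨⊥, fun x _ y _ => by rw [htriv x, htriv y], fun q hq h => ?_, fun q hq h => ?_⟩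
      · rw [Subgroup.card_bot] at h
        exact absurd (Nat.le_of_dvd one_pos h) (not_le.2 hq.one_lt)
      · haveI : Subsingleton G := ⟨fun a b => by rw [htriv a, htriv b]⟩
        rw [index_bot, Nat.card_of_subsingleton (1 : G)] at h
        exact absurd (Nat.le_of_dvd one_pos h) (not_le.2 hq.one_lt)
    push Not at hzero
    obtain ⟨μ, hμ⟩ := hzero
    set ψ : G → ℂ := ∑ ν, ((if ν = μ then k ν - 1 else k ν : ℕ) : ℂ) • (ν : G → ℂ) with hψdef
    have hψ : IsCharacter G ψ := isCharacter_sum _ _ fun ν _ => isCharacter_nsmul ν.2.isCharacter _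
    have hsum : χ = (μ : G → ℂ) + ψ := by
      rw [hk, hψdef]
      funext g
      simp only [Finset.sum_apply, Pi.add_apply, Pi.smul_apply]
      rw [← Finset.add_sum_erase _ _ (Finset.mem_univ μ), ← Finset.add_sum_erase _ _ (Finset.mem_univ μ),
        if_pos rfl, ← add_assoc]
      congr 1
      · obtain ⟨t, ht⟩ := Nat.exists_eq_succ_of_ne_zero hμ
        rw [ht]
        simp only [Nat.succ_sub_one, Nat.cast_succ, smul_eq_mul]
        ring
      · exact Finset.sum_congr rfl fun ν hν => by
          rw [if_neg (Finset.ne_of_mem_erase hν)]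
    obtain ⟨d₁, hd₁pos, hd₁⟩ := μ.2.exists_degree_pos
    obtain ⟨d₂, hd₂⟩ := exists_degree hψ
    have hdd : d = d₁ + d₂ := by
      have h : ((d : ℕ) : ℂ) = ((d₁ + d₂ : ℕ) : ℂ) := by
        rw [← hd, hsum, Pi.add_apply, hd₁, hd₂, Nat.cast_add]
      exact_mod_cast h
    have hd₂pos : 0 < d₂ := by
      refine Nat.pos_of_ne_zero fun h0 => hirr ?_
      have hψ0 : ψ = 0 := by
        funext g
        have := char_norm_le_degree hψ g
        rw [hd₂, h0, Nat.cast_zero, Complex.zero_re, norm_le_zero_iff] at this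
        exact this
      rw [hsum, hψ0, add_zero]
      exact μ.2
    -- either some quotient gives a proper subgroup, or the group is a big abelian group
    have key : ∀ (φ : G → ℂ) (e : ℕ) (hφ : IsCharacter G φ), φ 1 = e → e < d →
        (∃ A : Subgroup G, IsBigHall n A) ∨
          ((∀ a b : G, a * b * a⁻¹ * b⁻¹ ∈ charKer hφ) ∧
            ∀ (g : G) (q : ℕ), q.Prime → q ≤ n + 1 → g ^ q = 1 → g ∈ charKer hφ) := by
      intro φ e hφ he hed
      haveI : (charKer hφ).Normal := charKer_normal hφ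
      obtain ⟨φ', hφ', -, hφe⟩ := exists_of_quotient hφ (fun k (hk : k ∈ charKer hφ) => (mem_charKer hφ).1 hk)
      have hle : Nat.card (G ⧸ charKer hφ) ≤ Nat.card G :=
        Nat.card_le_card_of_surjective _ (QuotientGroup.mk'_surjective _)
      obtain ⟨A, hA⟩ := ihm (G ⧸ charKer hφ) φ' e hφ' (by
          intro z hz
          obtain ⟨g, rfl⟩ := QuotientGroup.mk_surjective z
          refine (QuotientGroup.eq_one_iff g).2 ((mem_charKer hφ).2 ?_)
          rw [← QuotientGroup.mk_one, hφe, hφe] at hz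
          exact hz) (by rw [← QuotientGroup.mk_one, hφe, he]) (by omega) (by omega)
      set S := A.comap (QuotientGroup.mk' (charKer hφ))
      by_cases hS : S = ⊤
      · right
        have hAtop : ∀ z, z ∈ A := fun z => by
          obtain ⟨g, rfl⟩ := QuotientGroup.mk'_surjective _ z
          exact mem_comap.1 (hS.ge (mem_top g))
        refine ⟨fun a b => (QuotientGroup.eq_one_iff _).1 ?_, fun g q hq hqn hgq => ?_⟩
        · rw [QuotientGroup.mk_mul, QuotientGroup.mk_mul, QuotientGroup.mk_mul, QuotientGroup.mk_inv,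
            QuotientGroup.mk_inv, hA.comm (QuotientGroup.mk a) (hAtop _) (QuotientGroup.mk b) (hAtop _),
            mul_inv_cancel_right, mul_inv_cancel]
        · by_contra hg
          haveI : Fact q.Prime := ⟨hq⟩
          have h1 : orderOf (QuotientGroup.mk' (charKer hφ) g) = q :=
            orderOf_eq_prime (by rw [← map_pow, hgq, map_one])
              fun h => hg ((QuotientGroup.eq_one_iff g).1 h)
          have h2 : q ∣ Nat.card A := by
            rw [← h1]
            exact orderOf_mk (QuotientGroup.mk' (charKer hφ) g) (hAtop _) ▸ orderOf_dvd_natCard _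
          have := hA.big q hq h2
          omega
      · left
        obtain ⟨B, hB⟩ := ih S hS
        exact ⟨_, isBigHall_trans S (fun q hq h => hA.small q hq (by
          rwa [index_comap_of_surjective _ (QuotientGroup.mk'_surjective _)] at h)) hB⟩
    rcases key _ d₁ μ.2.isCharacter hd₁ (by omega) with h | ⟨hc1, hq1⟩
    · exact h
    rcases key _ d₂ hψ hd₂ (by omega) with h | ⟨hc2, hq2⟩
    · exact h
    have hboth : ∀ g, g ∈ charKer μ.2.isCharacter → g ∈ charKer hψ → g = 1 := fun g h1 h2 =>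
      hf g (by rw [hsum, Pi.add_apply, Pi.add_apply, (mem_charKer _).1 h1, (mem_charKer _).1 h2])
    refine ⟨⊤, fun a _ b _ => ?_, fun q hq h => ?_, fun q hq h => ?_⟩
    · have h := hboth _ (hc1 a b) (hc2 a b)
      rw [mul_inv_eq_one, mul_inv_eq_iff_eq_mul] at h
      exact h
    · by_contra hlt
      push Not at hlt
      haveI : Fact q.Prime := ⟨hq⟩
      obtain ⟨g, hg⟩ := exists_prime_orderOf_dvd_card' (G := G) q (by rwa [Subgroup.card_top] at h)
      have hgq : g ^ q = 1 := hg ▸ pow_orderOf_eq_one g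
      exact hq.ne_one (hg ▸ orderOf_eq_one_iff.2
        (hboth g (hq1 g q hq hlt hgq) (hq2 g q hq hlt hgq)))
    · rw [Subgroup.index_top] at h
      exact absurd (Nat.le_of_dvd one_pos h) (not_le.2 hq.one_lt)

/-- Blichfeldt's theorem. -/
theorem exists_bigHall [Finite G] {χ : G → ℂ} (hχ : IsCharacter G χ)
    (hf : ∀ g, χ g = χ 1 → g = 1) {n : ℕ} (hn : χ 1 = n) : ∃ A : Subgroup G, IsBigHall n A :=
  exists_bigHall_aux n _ G χ n hχ hf hn le_rfl le_rfl

end Cfsg.Lib.Blocks
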