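import Cfsg.Agent.Lib.Blocks.BlockNilpotent

/-!
# Nilpotency descends to centralizers
-/

namespace Cfsg.Lib.Blocks

open Cfsg.Lib.Characters Finset
open scoped ComplexConjugate Classical

set_option linter.unusedSectionVars false
set_option linter.style.haveILetI false
set_option linter.style.longLine false

universe u

variable {G : Type u} [Group G] [Fintype G] {M : Ideal Cfsg.AlgInt} [M.IsPrime]
variable {p : ℕ} [Fact p.Prime]

local notation "𝐂" Q:max => Subgroup.centralizer ((Q : Subgroup G) : Set G)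

/-- The centralizer of `S` in `C(Q)` is the centralizer of `QS`. -/
def centSupEquiv {Q R : Subgroup G} (S : Subgroup (𝐂 Q)) (hQR : Q ≤ R)
    (h : ∀ c : 𝐂 Q, c ∈ Subgroup.centralizer (S : Set (𝐂 Q)) ↔ (c : G) ∈ 𝐂 R) :
    Subgroup.centralizer (S : Set (𝐂 Q)) ≃* 𝐂 R where
  toFun a := ⟨((a : 𝐂 Q) : G), (h _).mp a.2⟩
  invFun b := ⟨⟨(b : G), centralizer_le' hQR b.2⟩, (h _).mpr b.2⟩
  left_inv _ := rfl
  right_inv _ := rfl
  map_mul' _ _ := rfl

theorem isNilpotentBlock_centralizer (hM : IsPModular p M) {B : Set (IrrCharacter G)}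
    (hnil : IsNilpotentBlock p M B) {Q : Subgroup G} {f : Set (IrrCharacter (𝐂 Q))}
    (hQf : IsBrauerPairOf p M B Q f) : IsNilpotentBlock p M f := by
  refine ⟨hQf.1.2, fun S g hg x hxN hx hreg => ?_⟩
  set S' := S.map (Subgroup.centralizer (Q : Set G)).subtype with hS'
  have hS'C : S' ≤ Subgroup.centralizer (Q : Set G) := Subgroup.map_subtype_le S
  set R := Q ⊔ S' with hR
  have hRp : IsPGroup p R := hQf.1.1.to_sup_of_normal_left' (hg.1.1.map _)
    (hS'C.trans (le_normalizer_centralizer_self Q))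
  have h : ∀ c : 𝐂 Q, c ∈ Subgroup.centralizer (S : Set (𝐂 Q)) ↔ (c : G) ∈ 𝐂 R := by
    intro c
    rw [Subgroup.mem_centralizer_iff, mem_centralizer_iff_le, hR, sup_le_iff]
    constructor
    · refine fun hc => ⟨mem_centralizer_iff_le.mp c.2, ?_⟩
      rintro _ ⟨s, hs, rfl⟩
      exact Subgroup.mem_centralizer_singleton_iff.mpr (congrArg Subtype.val (hc s hs))
    · intro hc s hs
      exact Subtype.ext (Subgroup.mem_centralizer_singleton_iff.mp (hc.2 ⟨s, hs, rfl⟩))
  set ι := centSupEquiv S (le_sup_left : Q ≤ R) h with hι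
  obtain ⟨ξ, hξ⟩ := IsPBlock.nonempty hg.1.2
  obtain ⟨η, hη⟩ := IsPBlock.nonempty hQf.1.2
  obtain ⟨χ, hχ⟩ := IsPBlock.nonempty hQf.2.1
  have hRB : IsBrauerPairOf p M B R (pullBlock ι.symm g) := by
    refine (isBrauerPairOf_iff hM).mpr ⟨hRp, (isInducedBlock_iff (isPBlock_pull _ hg.1.2) hQf.2.1
      ((mem_pullBlock ι.symm g ξ).mpr hξ) hχ).mpr fun u hu => ?_⟩
    have e1 : resSub (𝐂 R) u
        = pullElt ι.symm (resSub (Subgroup.centralizer (S : Set (𝐂 Q))) (resSub (𝐂 Q) u)) :=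
      gr_ext fun k => by
        rw [coeff_pullElt, coeff_resSub, coeff_resSub, coeff_resSub]
        rfl
    rw [e1, lam_pull ι.symm ξ ((hu.resSub _).resSub _),
      lam_resSub_of_pairOf hM hg hξ hη (hu.resSub _), lam_resSub_of_pairOf hM hQf hη hχ hu]
  have hxS' : (x : G) ∈ Subgroup.normalizer (S' : Set G) := by
    rw [Subgroup.mem_normalizer_iff]
    intro a
    constructor
    · rintro ⟨s, hs, rfl⟩
      exact ⟨x * s * x⁻¹, (Subgroup.mem_normalizer_iff.mp hxN s).mp hs, rfl⟩
    · rintro ⟨s, hs, hse⟩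
      refine ⟨x⁻¹ * s * x, (Subgroup.mem_normalizer_iff.mp hxN _).mpr (by simpa [mul_assoc] using hs), ?_⟩
      show (x : G)⁻¹ * (s : G) * x = a
      rw [show (s : G) = x * a * (x : G)⁻¹ from hse]
      group
  have hxR : (x : G) ∈ Subgroup.normalizer (R : Set G) :=
    Subgroup.mem_normalizer_iff.mpr fun a => by
      have hQx : conjSub (x : G) Q = Q := by
        ext b
        rw [mem_conjSub, Subgroup.mem_normalizer_iff.mp (le_normalizer_centralizer_self Q x.2) ((x : G)⁻¹ * b * x)]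
        simp [mul_assoc]
      have hSx : conjSub (x : G) S' = S' := by
        ext b
        rw [mem_conjSub, Subgroup.mem_normalizer_iff.mp hxS' ((x : G)⁻¹ * b * x)]
        simp [mul_assoc]
      have hRx : conjSub (x : G) R = R := by
        show R.map _ = R
        rw [hR, Subgroup.map_sup]
        exact congrArg₂ _ hQx hSx
      conv_rhs => rw [← hRx, mem_conjSub]
      simp [mul_assoc]
  have hstab : StabilizesBlock (𝐂 R) (pullBlock ι.symm g) (x : G) := by
    refine ⟨normalizer_le_normalizer_centralizer' R hxR, fun ζ hζ => ?_⟩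
    obtain ⟨ζ', hζ', hc⟩ := hx.2 _ (hζ : irrPull ι.symm.symm ζ ∈ g)
    refine ⟨irrPull ι.symm ζ', (mem_pullBlock ι.symm g ζ').mpr hζ', fun k k' hkk => ?_⟩
    rw [irrPull_apply]
    refine (hc (ι.symm k) (ι.symm k') (Subtype.ext hkk)).trans ?_
    rw [irrPull_apply, MulEquiv.symm_symm, MulEquiv.apply_symm_apply]
  have hord : IsPRegular p (x : G) := by
    show ¬ p ∣ orderOf (x : G)
    rwa [Subgroup.orderOf_coe]
  exact (h x).mpr (hnil.2 R _ hRB (x : G) hxR hstab hord)

end Cfsg.Lib.Blocks
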