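import Cfsg.Agent.Lib.Blocks.Rank
import Cfsg.Agent.Lib.Blocks.Induction
import Mathlib.GroupTheory.Nilpotent

/-!
# The alternating sum over normal chains of `p`-subgroups of `k - l`
-/

namespace Cfsg.Lib.Blocks

open Cfsg.Lib.Characters Finset
open scoped ComplexConjugate Classical

set_option linter.unusedSectionVars false
set_option linter.style.longLine false
set_option linter.style.haveILetI false

variable {G : Type*} [Group G] [Fintype G] {M : Ideal Cfsg.AlgInt} [M.IsPrime]
variable {p : ℕ} [hp : Fact p.Prime]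

/-! ### Singular sums -/

theorem kerB_union_eq_zero_of_regular (hM : IsPModular p M) {A : Set (IrrCharacter G)}
    (hA : IsBlockUnion M A) {g h : G} (hg : ¬ p ∣ orderOf g) (hh : p ∣ orderOf h) : kerB A g h = 0 := by
  rw [kerB_eq_sum_blocks hA]
  exact Finset.sum_eq_zero fun b hb =>
    kerB_eq_zero_of_regular hM (mem_blocks.mp (Finset.mem_filter.mp hb).1) hg hh

/-- The regular rank of a union of blocks is the trace of its regular kernel. -/
theorem card_mul_blockRank_union (hM : IsPModular p M) {A : Set (IrrCharacter G)}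
    (hA : IsBlockUnion M A) :
    (Nat.card G : ℂ) * (blockRank p A : ℂ) = ∑ s, if p ∣ orderOf s then 0 else kerB A s s := by
  set V := Submodule.span ℂ ((fun χ : IrrCharacter G => pRegularPart p (χ : G → ℂ)) '' A) with hV
  have hproj : LinearMap.IsProj V (regProj p A) := by
    refine ⟨fun φ => ?_, fun φ hφ => ?_⟩
    · have he : regProj p A φ = ∑ χ ∈ univ.filter (· ∈ A),
          ((Nat.card G : ℂ)⁻¹ * ∑ s, φ s * (χ : G → ℂ) s⁻¹) • pRegularPart p (χ : G → ℂ) := by
        funext g
        simp only [regProj_apply, Finset.sum_apply, Pi.smul_apply, smul_eq_mul, pRegularPart_apply]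
        split_ifs
        · simp
        · simp only [kerB_eq_filter, Finset.mul_sum, Finset.sum_mul]
          rw [Finset.sum_comm]
          exact Finset.sum_congr rfl fun χ _ => Finset.sum_congr rfl fun s _ => by ring
      rw [he]
      exact Submodule.sum_mem _ fun χ hχ => Submodule.smul_mem _ _
        (Submodule.subset_span ⟨χ, (Finset.mem_filter.mp hχ).2, rfl⟩)
    · induction hφ using Submodule.span_induction with
      | mem x hx =>
        obtain ⟨χ, hχ, rfl⟩ := hx
        funext g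
        rw [regProj_apply]
        simp only [pRegularPart_apply]
        split_ifs with hg
        · rfl
        · conv_rhs => rw [← blockPart_self (B := A) χ hχ g]
          congr 1
          refine Finset.sum_congr rfl fun s _ => ?_
          split_ifs with hs
          · rw [zero_mul, kerB_union_eq_zero_of_regular hM hA hg hs, mul_zero]
          · rfl
      | zero => exact map_zero _
      | add x y _ _ hx hy => rw [map_add, hx, hy]
      | smul c x _ hx => rw [map_smul, hx]
  have htr := hproj.trace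
  rw [LinearMap.trace_eq_matrix_trace ℂ (Pi.basisFun ℂ G)] at htr
  have hdiag : Matrix.trace (LinearMap.toMatrix (Pi.basisFun ℂ G) (Pi.basisFun ℂ G) (regProj p A))
      = ∑ g, if p ∣ orderOf g then 0 else (Nat.card G : ℂ)⁻¹ * kerB A g g := by
    refine Finset.sum_congr rfl fun g _ => ?_
    rw [Matrix.diag, LinearMap.toMatrix_apply, Pi.basisFun_repr, Pi.basisFun_apply, regProj_apply]
    split_ifs
    · rfl
    · simp [Pi.single_apply]
  rw [hdiag] at htr
  rw [show (blockRank p A : ℂ) = (Module.finrank ℂ V : ℂ) from rfl, ← htr, Finset.mul_sum]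
  refine Finset.sum_congr rfl fun g _ => ?_
  split_ifs
  · rw [mul_zero]
  · rw [← mul_assoc, mul_inv_cancel₀ (Nat.cast_ne_zero.mpr Nat.card_pos.ne'), one_mul]

theorem sum_kerB_diag (A : Set (IrrCharacter G)) :
    ∑ g : G, kerB A g g = (Nat.card G : ℂ) * (Nat.card A : ℂ) := by
  have hG : (Nat.card G : ℂ) ≠ 0 := Nat.cast_ne_zero.mpr Nat.card_pos.ne'
  simp only [kerB]
  rw [Finset.sum_comm, Nat.card_eq_fintype_card (α := A), Fintype.card_subtype, Finset.natCast_card_filter,
    Finset.mul_sum]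
  refine Finset.sum_congr rfl fun χ _ => ?_
  split_ifs with h
  · rw [mul_one]
    have h1 := classInner_irr_self χ.2
    rw [Cfsg.classInner, inv_mul_eq_iff_eq_mul₀ hG, mul_one] at h1
    rw [← h1]
    exact Finset.sum_congr rfl fun g _ => by rw [char_inv_eq_conj χ.2.isCharacter]
  · simp

/-- The non-identity `p`-elements. -/
noncomputable def pElts (p : ℕ) (G : Type*) [Group G] [Fintype G] : Finset G :=
  univ.filter fun u : G => u ≠ 1 ∧ ∃ k : ℕ, orderOf u = p ^ k

theorem mem_pElts {u : G} : u ∈ pElts p G ↔ u ≠ 1 ∧ ∃ k : ℕ, orderOf u = p ^ k := by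
  simp [pElts]

/-- Summing over the singular elements by their `p`-parts. -/
theorem sum_singular (F : G → ℂ) :
    ∑ g : G, (if p ∣ orderOf g then F g else 0)
      = ∑ u ∈ pElts p G, ∑ y ∈ univ.filter (fun y : G => Commute u y ∧ ¬ p ∣ orderOf y), F (u * y) := by
  have key : ∀ u y : G, u ≠ 1 → (∃ k : ℕ, orderOf u = p ^ k) → Commute u y → ¬ p ∣ orderOf y →
      p ∣ orderOf (u * y) := fun u y hu hk hc hy => by
    by_contra hn
    obtain ⟨h1, -⟩ := pPart_unique (q := p) (a := u) (b := y) (a' := 1) (b' := u * y) (one_mul _).symm hc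
      (Commute.one_left _) hk ⟨0, by simp⟩ hy hn
    exact hu h1
  rw [← Finset.sum_filter, Finset.sum_sigma']
  refine (Finset.sum_bij (fun q _ => q.1 * q.2) (fun q hq => ?_) (fun q hq q' hq' h => ?_)
    (fun g hg => ?_) (fun q _ => rfl)).symm
  · simp only [Finset.mem_sigma, mem_pElts, Finset.mem_filter, Finset.mem_univ, true_and] at hq
    exact Finset.mem_filter.mpr ⟨Finset.mem_univ _, key q.1 q.2 hq.1.1 hq.1.2 hq.2.1 hq.2.2⟩
  · simp only [Finset.mem_sigma, mem_pElts, Finset.mem_filter, Finset.mem_univ, true_and] at hq hq'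
    obtain ⟨h1, h2⟩ := pPart_unique h hq.2.1 hq'.2.1 hq.1.2 hq'.1.2 hq.2.2 hq'.2.2
    exact Sigma.ext h1 (heq_of_eq h2)
  · obtain ⟨a, y, hay, hc, ha, hy⟩ := exists_pPart_commute (p := p) g
    refine ⟨⟨a, y⟩, ?_, hay⟩
    simp only [Finset.mem_sigma, mem_pElts, Finset.mem_filter, Finset.mem_univ, true_and]
    refine ⟨⟨fun h1 => hy ?_, ha⟩, hc, hy⟩
    rw [h1, one_mul] at hay
    exact hay ▸ (Finset.mem_filter.mp hg).2

/-- The singular part of the kernel of a union of blocks. -/
theorem card_mul_sub_blockRank (hM : IsPModular p M) {A : Set (IrrCharacter G)} (hA : IsBlockUnion M A) :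
    (Nat.card G : ℂ) * ((Nat.card A : ℂ) - (blockRank p A : ℂ))
      = ∑ u ∈ pElts p G, ∑ y ∈ univ.filter (fun y : G => Commute u y ∧ ¬ p ∣ orderOf y),
          kerB A (u * y) (u * y) := by
  rw [← sum_singular fun g => kerB A g g, mul_sub, card_mul_blockRank_union hM hA, ← sum_kerB_diag,
    ← Finset.sum_sub_distrib]
  exact Finset.sum_congr rfl fun g _ => by split_ifs <;> simp

/-- The regular trace of the characters of `K` over the block `B`. -/
noncomputable def secK (M : Ideal Cfsg.AlgInt) [M.IsPrime] (p : ℕ) (B : Set (IrrCharacter G))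
    (K : Subgroup G) : ℂ :=
  ∑ y : K, if p ∣ orderOf y then 0 else kerB (indHomSet M K.subtype B) y y

/-- The inner section sum in the whole group is `secK` of the centralizer. -/
theorem sum_section_eq_secK (hM : IsPModular p M) {B : Set (IrrCharacter G)} (hB : IsPBlock M B) {u : G}
    (hu : ∃ k : ℕ, orderOf u = p ^ k) :
    ∑ y ∈ univ.filter (fun y : G => Commute u y ∧ ¬ p ∣ orderOf y), kerB B (u * y) (u * y)
      = secK M p B (Subgroup.centralizer ({u} : Set G)) := by
  let C := Subgroup.centralizer ({u} : Set G)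
  show _ = secK M p B C
  have h1 : ∀ y : C, (if p ∣ orderOf y then 0 else kerB (indHomSet M C.subtype B) y y)
      = if ¬ p ∣ orderOf y then kerB B (u * (y : G)) (u * (y : G)) else 0 := fun y => by
    split_ifs with hy
    · rfl
    · exact (kerB_mul_eq_hom hM hB hu C.subtype_injective (Subgroup.range_subtype C) y y hy hy).symm
  rw [secK, Finset.sum_congr rfl fun y _ => h1 y, ← Finset.sum_filter]
  refine (Finset.sum_bij (fun (y : C) _ => (y : G)) (fun y hy => ?_) (fun y _ y' _ h => Subtype.ext h)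
    (fun g hg => ?_) (fun y _ => rfl)).symm
  · refine Finset.mem_filter.mpr ⟨Finset.mem_univ _, ?_, ?_⟩
    · exact (Subgroup.mem_centralizer_singleton_iff.mp y.2).symm
    · rw [Subgroup.orderOf_coe]; exact (Finset.mem_filter.mp hy).2
  · obtain ⟨h1, h2⟩ := (Finset.mem_filter.mp hg).2
    refine ⟨⟨g, Subgroup.mem_centralizer_singleton_iff.mpr h1.eq.symm⟩,
      Finset.mem_filter.mpr ⟨Finset.mem_univ _, ?_⟩, rfl⟩
    rwa [Subgroup.orderOf_mk]

/-! ### Local subgroups -/

/-- Every character of a centralizer lies under a character of the group. -/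
theorem exists_under_of_centralizer {K : Type*} [Group K] [Fintype K] (hM : IsPModular p M) {x : G}
    (hx : ∃ k : ℕ, orderOf x = p ^ k) {f : K →* G} (hf : Function.Injective f)
    (hrange : f.range = Subgroup.centralizer ({x} : Set G)) (ξ : IrrCharacter K) :
    ∃ η : IrrCharacter G, ∀ u, IsClassElt u → lam M ξ (resHom f u) = lam M η u := by
  have h1 : resHom f (1 : MonoidAlgebra (ResF M) G) = 1 := gr_ext fun k => by
    rw [coeff_resHom]
    simp only [MonoidAlgebra.one_def, MonoidAlgebra.coeff_single, Finsupp.single_apply]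
    exact if_congr (by rw [eq_comm, map_eq_one_iff f hf, eq_comm]) rfl rfl
  let φ : classRing G (ResF M) →+* ResF M :=
    { toFun := fun u => lam M ξ (resHom f (u : MonoidAlgebra (ResF M) G))
      map_one' := by simp [h1]
      map_mul' := fun u v => by
        show lam M ξ (resHom f ((u : MonoidAlgebra (ResF M) G) * (v : MonoidAlgebra (ResF M) G))) = _
        rw [resHom_mul_centralizer hM hx hf hrange u.2 v.2, lam_mul M ξ (u.2.resHom f) (v.2.resHom f)]
      map_zero' := by
        show lam M ξ (resHom f 0) = 0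
        rw [show resHom f (0 : MonoidAlgebra (ResF M) G) = 0 from gr_ext fun k => by simp [coeff_resHom],
          lam_zero]
      map_add' := fun u v => by
        show lam M ξ (resHom f ((u : MonoidAlgebra (ResF M) G) + (v : MonoidAlgebra (ResF M) G))) = _
        rw [show resHom f ((u : MonoidAlgebra (ResF M) G) + (v : MonoidAlgebra (ResF M) G))
            = resHom f (u : MonoidAlgebra (ResF M) G) + resHom f (v : MonoidAlgebra (ResF M) G) from
          gr_ext fun k => by simp [coeff_resHom], lam_add] }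
  have hφ : ∀ c, φ (kConst M c) = c := fun c => by
    show lam M ξ (resHom f (c • 1)) = c
    rw [show resHom f (c • (1 : MonoidAlgebra (ResF M) G)) = c • resHom f 1 from
      gr_ext fun k => by simp [coeff_resHom], h1, lam_smul, lam_one, mul_one]
  obtain ⟨η, hη⟩ := exists_lam_eq_of_hom φ hφ
  exact ⟨η, fun u hu => hη ⟨u, hu⟩⟩

/-- The singular part in a local subgroup. -/
theorem card_mul_sub_blockRank_local (hM : IsPModular p M) (B : Set (IrrCharacter G)) (H : Subgroup G) :
    (Nat.card H : ℂ) * ((Nat.card (indHomSet M H.subtype B) : ℂ)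
        - (blockRank p (indHomSet M H.subtype B) : ℂ))
      = ∑ u ∈ (pElts p G).filter (· ∈ H), secK M p B (H ⊓ Subgroup.centralizer ({u} : Set G)) := by
  set A := indHomSet M H.subtype B with hAdef
  have hA : IsBlockUnion M A := isBlockUnion_indHomSet _ _
  rw [card_mul_sub_blockRank hM hA]
  refine Finset.sum_bij (fun u _ => (u : G)) (fun u hu => ?_) (fun u _ u' _ h => Subtype.ext h)
    (fun g hg => ?_) (fun u hu => ?_)
  · obtain ⟨h1, h2⟩ := mem_pElts.mp hu
    refine Finset.mem_filter.mpr ⟨mem_pElts.mpr ⟨fun h => h1 (Subtype.ext h), ?_⟩, u.2⟩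
    rwa [Subgroup.orderOf_coe]
  · obtain ⟨hg1, hg2⟩ := Finset.mem_filter.mp hg
    obtain ⟨h1, h2⟩ := mem_pElts.mp hg1
    refine ⟨⟨g, hg2⟩, mem_pElts.mpr ⟨fun h => h1 (congrArg Subtype.val h), ?_⟩, rfl⟩
    rwa [Subgroup.orderOf_mk]
  · obtain ⟨-, hup⟩ := mem_pElts.mp hu
    set K := H ⊓ Subgroup.centralizer ({(u : G)} : Set G) with hK
    set f : K →* H := Subgroup.inclusion inf_le_left with hfdef
    have hf : Function.Injective f := Subgroup.inclusion_injective _
    have hrange : f.range = Subgroup.centralizer ({u} : Set H) := by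
      ext h
      rw [Subgroup.mem_centralizer_singleton_iff, MonoidHom.mem_range]
      constructor
      · rintro ⟨k, rfl⟩
        exact Subtype.ext (Subgroup.mem_centralizer_singleton_iff.mp k.2.2)
      · intro hh
        exact ⟨⟨h, h.2, Subgroup.mem_centralizer_singleton_iff.mpr (congrArg Subtype.val hh)⟩, Subtype.ext rfl⟩
    set S := indHomSet M K.subtype B with hS
    have hker : ∀ y : K, ¬ p ∣ orderOf y → kerB A (u * f y) (u * f y) = kerB S y y := by
      intro y hy
      rw [kerB_eq_sum_blocks hA, Finset.sum_congr rfl fun β hβ =>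
        kerB_mul_eq_hom hM (mem_blocks.mp (Finset.mem_filter.mp hβ).1) hup hf hrange y y hy hy]
      simp only [kerB]
      rw [Finset.sum_comm]
      refine Finset.sum_congr rfl fun ξ _ => ?_
      obtain ⟨η, hη⟩ := exists_under_of_centralizer hM hup hf hrange ξ
      have hmem : ∀ β, IsPBlock M β → (ξ ∈ indHomSet M f β ↔ η ∈ β) := fun β hβ => by
        show lam M ξ (resHom f (bIdem M β)) = 1 ↔ η ∈ β
        rw [hη _ (isClassElt_bIdem β), lam_bIdem hβ]
        split_ifs with h <;> simp [h]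
      have hSiff : ξ ∈ S ↔ η ∈ A := by
        have hre : resHom K.subtype (bIdem M B) = resHom f (resSub H (bIdem M B)) :=
          gr_ext fun k => by rw [coeff_resHom, coeff_resHom, coeff_resSub]; rfl
        show lam M ξ (resHom K.subtype (bIdem M B)) = 1 ↔ lam M η (resHom H.subtype (bIdem M B)) = 1
        rw [hre, hη _ ((isClassElt_bIdem B).resSub H), resHom_subtype]
      by_cases hs : ξ ∈ S
      · rw [if_pos hs, Finset.sum_eq_single (blockOf M (η : H → ℂ))]
        · rw [if_pos ((hmem _ ⟨η, rfl⟩).mpr (mem_blockOf_self M η))]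
        · intro β hβ hne
          rw [if_neg fun h => hne (IsPBlock.eq_blockOf (mem_blocks.mp (Finset.mem_filter.mp hβ).1)
            ((hmem _ (mem_blocks.mp (Finset.mem_filter.mp hβ).1)).mp h))]
        · intro h
          exact absurd (Finset.mem_filter.mpr ⟨mem_blocks.mpr ⟨η, rfl⟩,
            fun ψ hψ => hA η ψ hψ (hSiff.mp hs)⟩) h
      · rw [if_neg hs, Finset.sum_eq_zero]
        intro β hβ
        obtain ⟨hβ1, hβ2⟩ := Finset.mem_filter.mp hβ
        rw [if_neg fun h => hs (hSiff.mpr (hβ2 ((hmem _ (mem_blocks.mp hβ1)).mp h)))]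
    rw [secK]
    rw [show ∀ F : K → ℂ, (∑ y : K, if p ∣ orderOf y then 0 else F y)
        = ∑ y ∈ univ.filter (fun y : K => ¬ p ∣ orderOf y), F y from fun F => by
      rw [Finset.sum_filter]; exact Finset.sum_congr rfl fun y _ => by split_ifs <;> rfl]
    refine (Finset.sum_bij (fun y _ => f y) (fun y hy => ?_) (fun y _ y' _ h => hf h)
      (fun g hg => ?_) (fun y hy => (hker y (Finset.mem_filter.mp hy).2).symm)).symm
    · refine Finset.mem_filter.mpr ⟨Finset.mem_univ _, ?_, ?_⟩
      · have : f y ∈ Subgroup.centralizer ({u} : Set H) := hrange ▸ ⟨y, rfl⟩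
        exact (Subgroup.mem_centralizer_singleton_iff.mp this).symm
      · rw [orderOf_injective f hf]; exact (Finset.mem_filter.mp hy).2
    · obtain ⟨hg1, hg2⟩ := (Finset.mem_filter.mp hg).2
      obtain ⟨y, rfl⟩ : g ∈ f.range := hrange ▸ Subgroup.mem_centralizer_singleton_iff.mpr hg1.eq.symm
      refine ⟨y, Finset.mem_filter.mpr ⟨Finset.mem_univ _, ?_⟩, rfl⟩
      rwa [← orderOf_injective f hf y]

/-! ### Normal chains -/

/-- The stabiliser of a set of subgroups. -/
@[reducible] def NS (s : Finset (Subgroup G)) : Subgroup G :=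
  ⨅ Q ∈ s, Subgroup.normalizer ((Q : Subgroup G) : Set G)

/-- Chains of nontrivial `p`-subgroups normal in the largest member. -/
def NChain (p : ℕ) (s : Finset (Subgroup G)) : Prop :=
  s.Nonempty ∧ (∀ Q ∈ s, ∀ R ∈ s, Q ≤ R ∨ R ≤ Q) ∧ (∀ Q ∈ s, Q ≠ ⊥ ∧ IsPGroup p Q) ∧
    ∃ T ∈ s, ∀ Q ∈ s, Q ≤ T ∧ T ≤ Subgroup.normalizer ((Q : Subgroup G) : Set G)

theorem mem_NS {s : Finset (Subgroup G)} {g : G} :
    g ∈ NS s ↔ ∀ Q ∈ s, g ∈ Subgroup.normalizer ((Q : Subgroup G) : Set G) := by
  simp [NS, Subgroup.mem_iInf]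

theorem indSet_NS (hM : IsPModular p M) {B : Set (IrrCharacter G)} (hB : IsPBlock M B)
    {s : Finset (Subgroup G)} (hs : NChain p s) :
    {ψ : IrrCharacter (NS s) | ∃ β : Set (IrrCharacter (NS s)), ψ ∈ β ∧ IsInducedBlock M (NS s) β B}
      = indHomSet M (NS s).subtype B := by
  obtain ⟨-, -, hp', T, hT, htop⟩ := hs
  have hTH : T ≤ NS s := fun t ht => mem_NS.mpr fun Q hQ => (htop Q hQ).2 ht
  have hHN : NS s ≤ Subgroup.normalizer (T : Set G) := fun g hg => mem_NS.mp hg T hT
  have hCH : Subgroup.centralizer (T : Set G) ≤ NS s := fun g hg => mem_NS.mpr fun Q hQ => by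
    rw [Subgroup.mem_normalizer_iff]
    intro h
    have hcent : ∀ q ∈ Q, g * q * g⁻¹ = q := fun q hq => by
      rw [← Subgroup.mem_centralizer_iff.mp hg q ((htop Q hQ).1 hq), mul_inv_cancel_right]
    refine ⟨fun hh => by rwa [hcent h hh], fun hh => ?_⟩
    have h1 : g * (g * h * g⁻¹) * g⁻¹ = g * h * g⁻¹ := hcent _ hh
    have h2 : g * h * g⁻¹ = h := mul_left_cancel (mul_right_cancel h1)
    rwa [h2] at hh
  ext ψ
  have h := (exists_induced_of_mul (⟨ψ, rfl⟩ : IsPBlock M (blockOf M (ψ : NS s → ℂ)))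
    (mem_blockOf_self M ψ) fun u v hu hv =>
      lam_resSub_mul_local hM (hp' T hT).2 hTH hCH hHN ψ u v hu hv).2 B hB
  show (∃ β, ψ ∈ β ∧ IsInducedBlock M (NS s) β B) ↔ lam M ψ (resHom (NS s).subtype (bIdem M B)) = 1
  rw [resHom_subtype, ← h]
  refine ⟨?_, fun h1 => ⟨_, mem_blockOf_self M ψ, h1⟩⟩
  rintro ⟨β, hβ, hind⟩
  rwa [← IsPBlock.eq_blockOf hind.1 hβ]

/-- A subgroup of a `p`-group generated with conjugates of one of its elements is the whole group. -/
theorem eq_of_le_sup_conj {X H : Subgroup G} (hX : IsPGroup p X) (hHX : H ≤ X) {u : G} (hu : u ∈ H)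
    (h : X ≤ H ⊔ Subgroup.closure ((fun t => t * u * t⁻¹) '' (X : Set G))) : H = X := by
  refine le_antisymm hHX ?_
  by_contra hne
  haveI : Group.IsNilpotent X := hX.isNilpotent
  have hHne : H.subgroupOf X ≠ ⊤ := fun h' => hne (Subgroup.subgroupOf_eq_top.mp h')
  obtain ⟨W, hW, hHW⟩ := (eq_top_or_exists_le_coatom (H.subgroupOf X)).resolve_left hHne
  haveI : W.Normal := Subgroup.NormalizerCondition.normal_of_coatom _ normalizerCondition_of_isNilpotent hW
  have huW : (⟨u, hHX hu⟩ : X) ∈ W := hHW (Subgroup.mem_subgroupOf.mpr hu)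
  have h1 : H ⊔ Subgroup.closure ((fun t => t * u * t⁻¹) '' (X : Set G)) ≤ W.map X.subtype := by
    refine sup_le (fun g hg => ⟨⟨g, hHX hg⟩, hHW (Subgroup.mem_subgroupOf.mpr hg), rfl⟩)
      ((Subgroup.closure_le _).mpr ?_)
    rintro - ⟨t, ht, rfl⟩
    exact ⟨_, ‹W.Normal›.conj_mem _ huW ⟨t, ht⟩, rfl⟩
  refine hW.1 (eq_top_iff.mpr fun x _ => ?_)
  obtain ⟨w, hw, he⟩ := h1 (h x.2)
  rwa [← Subtype.ext he]

section Toggle

variable (u : G)

/-- The largest member of a finite set of subgroups. -/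
noncomputable def chTop (s : Finset (Subgroup G)) : Subgroup G := s.sup id

/-- The largest member avoiding `u`. -/
noncomputable def chLow (s : Finset (Subgroup G)) : Subgroup G := (s.filter fun Q => u ∉ Q).sup id

/-- The subgroup to be inserted or removed. -/
noncomputable def chX (s : Finset (Subgroup G)) : Subgroup G :=
  chLow u s ⊔ Subgroup.closure ((fun t => t * u * t⁻¹) '' (chTop s : Set G))

/-- Insert or remove `chX`. -/
noncomputable def chTog (s : Finset (Subgroup G)) : Finset (Subgroup G) :=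
  if chX u s ∈ s then s.erase (chX u s) else insert (chX u s) s

variable {u}

theorem sup_mem_of_chain {s : Finset (Subgroup G)} (hne : s.Nonempty)
    (hch : ∀ Q ∈ s, ∀ R ∈ s, Q ≤ R ∨ R ≤ Q) : s.sup id ∈ s := by
  obtain ⟨T, hT⟩ := s.exists_maximal hne
  have : ∀ Q ∈ s, Q ≤ T := fun Q hQ => (hch Q hQ T hT.1).elim id fun h => hT.2 hQ h
  rw [show s.sup id = T from le_antisymm (Finset.sup_le this) (Finset.le_sup (f := id) hT.1)]
  exact hT.1

theorem NChain.top_mem {s : Finset (Subgroup G)} (hs : NChain p s) : chTop s ∈ s :=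
  sup_mem_of_chain hs.1 hs.2.1

theorem NChain.le_top {s : Finset (Subgroup G)} {Q : Subgroup G} (hQ : Q ∈ s) : Q ≤ chTop s :=
  Finset.le_sup (f := id) hQ

theorem NChain.top_normalizes {s : Finset (Subgroup G)} (hs : NChain p s) {Q : Subgroup G} (hQ : Q ∈ s) :
    chTop s ≤ Subgroup.normalizer ((Q : Subgroup G) : Set G) := by
  obtain ⟨T, hT, h⟩ := hs.2.2.2
  have hTs : chTop s = T := le_antisymm (Finset.sup_le fun R hR => (h R hR).1) (Finset.le_sup (f := id) hT)
  rw [hTs]
  exact (h Q hQ).2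

theorem NChain.low_cases {s : Finset (Subgroup G)} (hs : NChain p s) :
    chLow u s = ⊥ ∧ (∀ Q ∈ s, u ∈ Q) ∨ chLow u s ∈ s ∧ u ∉ chLow u s := by
  rcases (s.filter fun Q => u ∉ Q).eq_empty_or_nonempty with h | h
  · exact Or.inl ⟨by rw [chLow, h, Finset.sup_empty], fun Q hQ => by
      by_contra hn; exact (Finset.eq_empty_iff_forall_notMem.mp h Q) (Finset.mem_filter.mpr ⟨hQ, hn⟩)⟩
  · have := sup_mem_of_chain h fun Q hQ R hR =>
      hs.2.1 Q (Finset.mem_filter.mp hQ).1 R (Finset.mem_filter.mp hR).1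
    exact Or.inr (Finset.mem_filter.mp this)

theorem low_of_notMem {s : Finset (Subgroup G)} {Q : Subgroup G} (hQ : Q ∈ s) (hu : u ∉ Q) :
    Q ≤ chLow u s :=
  Finset.le_sup (f := id) (Finset.mem_filter.mpr ⟨hQ, hu⟩)

theorem mem_chX (s : Finset (Subgroup G)) : u ∈ chX u s :=
  le_sup_right (a := chLow u s) (Subgroup.subset_closure ⟨1, one_mem _, by simp⟩)

theorem low_le_of_mem {s : Finset (Subgroup G)} (hs : NChain p s) {Q : Subgroup G} (hQ : Q ∈ s)
    (hu : u ∈ Q) : chLow u s ≤ Q := by
  rcases hs.low_cases (u := u) with ⟨h, -⟩ | ⟨h, hn⟩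
  · simp [h]
  · exact (hs.2.1 _ h Q hQ).elim id fun h' => absurd (h' hu) hn

theorem chX_le_of_mem {s : Finset (Subgroup G)} (hs : NChain p s) {Q : Subgroup G} (hQ : Q ∈ s)
    (hu : u ∈ Q) : chX u s ≤ Q := by
  refine sup_le (low_le_of_mem hs hQ hu) ((Subgroup.closure_le _).mpr ?_)
  rintro - ⟨t, ht, rfl⟩
  exact (Subgroup.mem_normalizer_iff.mp (hs.top_normalizes hQ ht) u).mp hu

theorem chX_le {s : Finset (Subgroup G)} (hs : NChain p s) : chX u s ≤ chTop s ⊔ Subgroup.zpowers u := by
  refine sup_le ?_ ((Subgroup.closure_le _).mpr ?_)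
  · exact (Finset.sup_le fun Q hQ => NChain.le_top (Finset.mem_filter.mp hQ).1).trans le_sup_left
  · rintro - ⟨t, ht, rfl⟩
    exact mul_mem (mul_mem (le_sup_left (b := Subgroup.zpowers u) ht)
      (le_sup_right (a := chTop s) (Subgroup.mem_zpowers u))) (inv_mem (le_sup_left (b := Subgroup.zpowers u) ht))

theorem sup_le_chX {s : Finset (Subgroup G)} (hs : NChain p s) (hu : u ∉ chTop s) :
    chTop s ⊔ Subgroup.zpowers u ≤ chX u s :=
  sup_le ((low_of_notMem hs.top_mem hu).trans le_sup_left) (Subgroup.zpowers_le.mpr (mem_chX s))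

theorem NChain.le_normalizer_top {s : Finset (Subgroup G)} (hs : NChain p s) (huN : u ∈ NS s)
    {Q : Subgroup G} (hQ : Q ∈ s) :
    chTop s ⊔ Subgroup.zpowers u ≤ Subgroup.normalizer ((Q : Subgroup G) : Set G) :=
  sup_le (hs.top_normalizes hQ) (Subgroup.zpowers_le.mpr (mem_NS.mp huN Q hQ))

theorem normalizes_chX {s : Finset (Subgroup G)} (hs : NChain p s) {g : G}
    (hg : g ∈ NS s) (hgu : g * u * g⁻¹ = u) :
    g ∈ Subgroup.normalizer ((chX u s : Subgroup G) : Set G) := by
  have hT : g ∈ Subgroup.normalizer ((chTop s : Subgroup G) : Set G) := mem_NS.mp hg _ hs.top_mem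
  refine Subgroup.normalizer_inf_normalizer_le_normalizer_sup _ _ ⟨?_, ?_⟩
  · rcases hs.low_cases (u := u) with ⟨h, -⟩ | ⟨h, -⟩
    · rw [h, Subgroup.normalizer_eq_top]; exact Subgroup.mem_top g
    · exact mem_NS.mp hg _ h
  · refine Subgroup.normalizer_le_normalizer_closure _ ?_
    rw [Subgroup.mem_set_normalizer_iff]
    intro x
    constructor
    · rintro ⟨t, ht, rfl⟩
      refine ⟨g * t * g⁻¹, (Subgroup.mem_normalizer_iff.mp hT t).mp ht, ?_⟩
      calc g * t * g⁻¹ * u * (g * t * g⁻¹)⁻¹ = g * t * (g⁻¹ * u * g) * t⁻¹ * g⁻¹ := by group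
        _ = _ := by
          have h0 : g⁻¹ * u * g = u := by
            calc g⁻¹ * u * g = g⁻¹ * (g * u * g⁻¹) * g := by rw [hgu]
              _ = u := by group
          rw [h0]
          group
    · rintro ⟨t, ht, he⟩
      refine ⟨g⁻¹ * t * g, ?_, ?_⟩
      · have := (Subgroup.mem_normalizer_iff.mp (inv_mem hT) t).mp ht
        simpa using this
      · calc g⁻¹ * t * g * u * (g⁻¹ * t * g)⁻¹ = g⁻¹ * (t * (g * u * g⁻¹) * t⁻¹) * g := by group
          _ = g⁻¹ * (g * x * g⁻¹) * g := by rw [hgu]; exact congrArg (fun z => g⁻¹ * z * g) he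
          _ = x := by group

theorem chX_ne_bot {s : Finset (Subgroup G)} (hu1 : u ≠ 1) : chX u s ≠ ⊥ := fun h =>
  hu1 (Subgroup.mem_bot.mp (h ▸ mem_chX s))

theorem isPGroup_top_sup {s : Finset (Subgroup G)} (hs : NChain p s) (huN : u ∈ NS s)
    (hup : ∃ k : ℕ, orderOf u = p ^ k) : IsPGroup p ↥(chTop s ⊔ Subgroup.zpowers u : Subgroup G) := by
  obtain ⟨k, hk⟩ := hup
  exact (hs.2.2.1 _ hs.top_mem).2.to_sup_of_normal_left'
    (IsPGroup.of_card (n := k) (by rw [Nat.card_zpowers, hk]))
    (Subgroup.zpowers_le.mpr (mem_NS.mp huN _ hs.top_mem))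

theorem NS_le_of_subset {s t : Finset (Subgroup G)} (h : t ⊆ s) : NS s ≤ NS t := fun g hg =>
  mem_NS.mpr fun Q hQ => mem_NS.mp hg Q (h hQ)

theorem cent_conj {g : G} (hg : g ∈ Subgroup.centralizer ({u} : Set G)) : g * u * g⁻¹ = u := by
  rw [Subgroup.mem_centralizer_singleton_iff.mp hg, mul_inv_cancel_right]

/-- Inserting. -/
theorem toggle_insert {s : Finset (Subgroup G)} (hs : NChain p s) (huN : u ∈ NS s) (hu1 : u ≠ 1)
    (hup : ∃ k : ℕ, orderOf u = p ^ k) (hX : chX u s ∉ s) :
    NChain p (insert (chX u s) s) ∧ u ∈ NS (insert (chX u s) s) ∧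
      chX u (insert (chX u s) s) = chX u s ∧
      NS (insert (chX u s) s) ⊓ Subgroup.centralizer ({u} : Set G) = NS s ⊓ Subgroup.centralizer ({u} : Set G) := by
  set X := chX u s with hXdef
  have huX : u ∈ X := mem_chX s
  have hnorm : ∀ g ∈ NS s, g * u * g⁻¹ = u → g ∈ Subgroup.normalizer ((X : Subgroup G) : Set G) :=
    fun g => normalizes_chX hs
  have hcmp : ∀ Q ∈ s, Q ≤ X ∨ X ≤ Q := fun Q hQ =>
    if h : u ∈ Q then Or.inr (chX_le_of_mem hs hQ h) else Or.inl ((low_of_notMem hQ h).trans le_sup_left)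
  have hlow : chLow u (insert X s) = chLow u s := by
    rw [chLow, chLow, Finset.filter_insert, if_neg (not_not.mpr huX)]
  have huNX : u ∈ Subgroup.normalizer ((X : Subgroup G) : Set G) := Subgroup.le_normalizer huX
  have htopX : u ∉ chTop s → X = chTop s ⊔ Subgroup.zpowers u := fun h =>
    le_antisymm (chX_le hs) (sup_le_chX hs h)
  have hnewtop : chTop (insert X s) = if u ∈ chTop s then chTop s else X := by
    rw [chTop, Finset.sup_insert, id_eq]
    split_ifs with h
    · exact sup_eq_right.mpr (chX_le_of_mem hs hs.top_mem h)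
    · exact sup_eq_left.mpr ((le_sup_left).trans (sup_le_chX hs h))
  have hkey : chX u (insert X s) = X := by
    rw [chX, hlow, hnewtop]
    split_ifs with h
    · rfl
    · refine le_antisymm (sup_le le_sup_left ((Subgroup.closure_le _).mpr ?_)) ?_
      · rintro - ⟨t, ht, rfl⟩
        exact mul_mem (mul_mem ht huX) (inv_mem ht)
      · rw [htopX h]
        exact sup_le ((low_of_notMem hs.top_mem h).trans le_sup_left)
          (Subgroup.zpowers_le.mpr (le_sup_right (a := chLow u s) (Subgroup.subset_closure ⟨1, one_mem _, by simp⟩)))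
  refine ⟨⟨Finset.insert_nonempty _ _, ?_, ?_, ?_⟩, ?_, hkey, ?_⟩
  · intro Q hQ R hR
    rcases Finset.mem_insert.mp hQ with rfl | hQ <;> rcases Finset.mem_insert.mp hR with rfl | hR
    · exact Or.inl le_rfl
    · exact (hcmp R hR).symm
    · exact hcmp Q hQ
    · exact hs.2.1 Q hQ R hR
  · intro Q hQ
    rcases Finset.mem_insert.mp hQ with rfl | hQ
    · exact ⟨chX_ne_bot hu1, (isPGroup_top_sup hs huN hup).to_le (chX_le hs)⟩
    · exact hs.2.2.1 Q hQ
  · by_cases h : u ∈ chTop s
    · refine ⟨chTop s, Finset.mem_insert_of_mem hs.top_mem, fun Q hQ => ?_⟩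
      rcases Finset.mem_insert.mp hQ with rfl | hQ
      · refine ⟨chX_le_of_mem hs hs.top_mem h, fun t ht => ?_⟩
        refine Subgroup.normalizer_inf_normalizer_le_normalizer_sup _ _ ⟨?_, ?_⟩
        · rcases hs.low_cases (u := u) with ⟨h', -⟩ | ⟨h', -⟩
          · rw [h', Subgroup.normalizer_eq_top]; exact Subgroup.mem_top t
          · exact hs.top_normalizes h' ht
        · refine Subgroup.normalizer_le_normalizer_closure _ ?_
          rw [Subgroup.mem_set_normalizer_iff]
          intro x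
          constructor
          · rintro ⟨a, ha, rfl⟩
            exact ⟨t * a, mul_mem ht ha, by group⟩
          · rintro ⟨a, ha, he⟩
            refine ⟨t⁻¹ * a, mul_mem (inv_mem ht) ha, ?_⟩
            calc t⁻¹ * a * u * (t⁻¹ * a)⁻¹ = t⁻¹ * (a * u * a⁻¹) * t := by group
              _ = t⁻¹ * (t * x * t⁻¹) * t := congrArg (fun z => t⁻¹ * z * t) he
              _ = x := by group
      · exact ⟨NChain.le_top hQ, hs.top_normalizes hQ⟩
    · refine ⟨X, Finset.mem_insert_self _ _, fun Q hQ => ?_⟩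
      rcases Finset.mem_insert.mp hQ with rfl | hQ
      · exact ⟨le_rfl, Subgroup.le_normalizer⟩
      · exact ⟨(NChain.le_top hQ).trans (le_sup_left.trans (sup_le_chX hs h)),
          (htopX h).le.trans (hs.le_normalizer_top huN hQ)⟩
  · refine mem_NS.mpr fun Q hQ => ?_
    rcases Finset.mem_insert.mp hQ with rfl | hQ
    · exact huNX
    · exact mem_NS.mp huN Q hQ
  · refine le_antisymm (inf_le_inf_right _ (NS_le_of_subset (Finset.subset_insert _ _))) fun g hg => ?_
    refine ⟨mem_NS.mpr fun Q hQ => ?_, hg.2⟩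
    rcases Finset.mem_insert.mp hQ with rfl | hQ
    · exact hnorm g hg.1 (cent_conj hg.2)
    · exact mem_NS.mp hg.1 Q hQ

/-- Removing. -/
theorem toggle_erase {s : Finset (Subgroup G)} (hs : NChain p s) (huN : u ∈ NS s)
    (hne : s ≠ {Subgroup.zpowers u}) (hX : chX u s ∈ s) :
    NChain p (s.erase (chX u s)) ∧ u ∈ NS (s.erase (chX u s)) ∧
      chX u (s.erase (chX u s)) = chX u s ∧
      NS (s.erase (chX u s)) ⊓ Subgroup.centralizer ({u} : Set G) = NS s ⊓ Subgroup.centralizer ({u} : Set G) := by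
  set X := chX u s with hXdef
  have huX : u ∈ X := mem_chX s
  have hXp : IsPGroup p X := (hs.2.2.1 X hX).2
  set s' := s.erase X with hs'
  have hsub : s' ⊆ s := Finset.erase_subset _ _
  -- the case of the largest member
  have htop : X = chTop s → X = chLow u s ⊔ Subgroup.zpowers u := fun h => by
    have h1 : X = chLow u s ⊔ Subgroup.closure ((fun t => t * u * t⁻¹) '' (X : Set G)) := by
      conv_lhs => rw [hXdef, chX, ← h]
    refine (eq_of_le_sup_conj hXp (sup_le le_sup_left (Subgroup.zpowers_le.mpr huX))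
      (le_sup_right (a := chLow u s) (Subgroup.mem_zpowers u))
      (h1.le.trans (sup_le (le_sup_left.trans le_sup_left) le_sup_right))).symm
  have hne' : s'.Nonempty := by
    by_contra h
    rw [Finset.not_nonempty_iff_eq_empty] at h
    have hall : ∀ Q ∈ s, Q = X := fun Q hQ => by
      by_contra hQX
      exact (Finset.eq_empty_iff_forall_notMem.mp h Q) (Finset.mem_erase.mpr ⟨hQX, hQ⟩)
    refine hne (Finset.eq_singleton_iff_unique_mem.mpr ⟨?_, fun Q hQ => ?_⟩)
    all_goals
      have hz : X = Subgroup.zpowers u := by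
        rw [htop (hall _ hs.top_mem).symm]
        rcases hs.low_cases (u := u) with ⟨h', -⟩ | ⟨h', hn⟩
        · rw [h', bot_sup_eq]
        · exact absurd ((hall _ h').symm ▸ huX) hn
    · exact hz ▸ hX
    · exact (hall Q hQ).trans hz
  have hlow : chLow u s' = chLow u s := by
    rw [chLow, chLow, hs', Finset.filter_erase, Finset.erase_eq_of_notMem]
    exact fun h => (Finset.mem_filter.mp h).2 huX
  have hch' : ∀ Q ∈ s', ∀ R ∈ s', Q ≤ R ∨ R ≤ Q := fun Q hQ R hR => hs.2.1 Q (hsub hQ) R (hsub hR)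
  have hkey : chX u s' = X := by
    by_cases hT : chTop s ∈ s'
    · have : chTop s' = chTop s :=
        le_antisymm (Finset.sup_mono hsub) (Finset.le_sup (f := id) hT)
      rw [chX, hlow, this]; rfl
    · have hXT : X = chTop s := by
        by_contra h
        exact hT (Finset.mem_erase.mpr ⟨Ne.symm h, hs.top_mem⟩)
      rcases hs.low_cases (u := u) with ⟨-, hall⟩ | ⟨hl, hln⟩
      · exfalso
        obtain ⟨Q, hQ⟩ := hne'
        exact (Finset.ne_of_mem_erase hQ) (le_antisymm ((NChain.le_top (hsub hQ)).trans hXT.ge)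
          (chX_le_of_mem hs (hsub hQ) (hall Q (hsub hQ))))
      · have hnew : chTop s' = chLow u s := by
          refine le_antisymm (Finset.sup_le fun Q hQ => ?_)
            (Finset.le_sup (f := id) (Finset.mem_erase.mpr ⟨fun h => hln (by simp only [chLow]; rw [h]; exact huX), hl⟩))
          by_cases hu : u ∈ Q
          · exact absurd (le_antisymm ((NChain.le_top (hsub hQ)).trans hXT.ge) (chX_le_of_mem hs (hsub hQ) hu))
              (Finset.ne_of_mem_erase hQ)
          · exact low_of_notMem (hsub hQ) hu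
        rw [chX, hlow, hnew]
        refine le_antisymm (sup_le le_sup_left ((Subgroup.closure_le _).mpr ?_)) ?_
        · rintro - ⟨t, ht, rfl⟩
          have htX : t ∈ X := le_sup_left (b := Subgroup.closure ((fun t => t * u * t⁻¹) '' (chTop s : Set G))) ht
          exact mul_mem (mul_mem htX huX) (inv_mem htX)
        · rw [htop hXT]
          exact sup_le le_sup_left (Subgroup.zpowers_le.mpr
            (le_sup_right (a := chLow u s) (Subgroup.subset_closure ⟨1, one_mem _, by simp⟩)))
  have hchain : NChain p s' := by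
    refine ⟨hne', hch', fun Q hQ => hs.2.2.1 Q (hsub hQ), _, sup_mem_of_chain hne' hch', fun Q hQ =>
      ⟨Finset.le_sup (f := id) hQ, ?_⟩⟩
    exact (Finset.sup_mono hsub).trans (hs.top_normalizes (hsub hQ))
  refine ⟨hchain, NS_le_of_subset hsub huN, hkey, le_antisymm (fun g hg => ?_) (inf_le_inf_right _ (NS_le_of_subset hsub))⟩
  refine ⟨mem_NS.mpr fun Q hQ => ?_, hg.2⟩
  by_cases hQX : Q = X
  · subst hQX
    exact hkey ▸ normalizes_chX hchain hg.1 (cent_conj hg.2)
  · exact mem_NS.mp hg.1 Q (Finset.mem_erase.mpr ⟨hQX, hQ⟩)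

theorem chTog_spec {s : Finset (Subgroup G)} (hs : NChain p s) (huN : u ∈ NS s) (hu1 : u ≠ 1)
    (hup : ∃ k : ℕ, orderOf u = p ^ k) (hne : s ≠ {Subgroup.zpowers u}) :
    (NChain p (chTog u s) ∧ u ∈ NS (chTog u s) ∧ chTog u s ≠ {Subgroup.zpowers u}) ∧
      chTog u (chTog u s) = s ∧
      NS (chTog u s) ⊓ Subgroup.centralizer ({u} : Set G) = NS s ⊓ Subgroup.centralizer ({u} : Set G) ∧
      (-1 : ℤ) ^ ((chTog u s).card - 1) = -(-1 : ℤ) ^ (s.card - 1) := by
  have hsing : chX u {Subgroup.zpowers u} = Subgroup.zpowers u := by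
    refine le_antisymm (sup_le ?_ ((Subgroup.closure_le _).mpr ?_)) (Subgroup.zpowers_le.mpr (mem_chX _))
    · exact Finset.sup_le fun Q hQ => by rw [Finset.mem_singleton.mp (Finset.mem_filter.mp hQ).1]; exact le_rfl
    · rintro - ⟨t, ht, rfl⟩
      rw [chTop, Finset.sup_singleton, id_eq] at ht
      exact mul_mem (mul_mem ht (Subgroup.mem_zpowers u)) (inv_mem ht)
  have hcard : 1 ≤ s.card := Finset.card_pos.mpr hs.1
  by_cases hX : chX u s ∈ s
  · obtain ⟨h1, h2, h3, h4⟩ := toggle_erase hs huN hne hX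
    have hd : chTog u s = s.erase (chX u s) := if_pos hX
    rw [hd]
    refine ⟨⟨h1, h2, fun he => ?_⟩, ?_, h4, ?_⟩
    · rw [he, hsing] at h3
      exact Finset.notMem_erase (chX u s) s (by rw [he, Finset.mem_singleton, h3])
    · rw [chTog, h3, if_neg (Finset.notMem_erase _ _), Finset.insert_erase hX]
    · have : 1 ≤ (s.erase (chX u s)).card := Finset.card_pos.mpr h1.1
      rw [Finset.card_erase_of_mem hX] at this ⊢
      obtain ⟨n, hn⟩ := Nat.exists_eq_add_of_le this
      rw [show s.card = n + 2 by omega, show n + 2 - 1 - 1 = n by omega, show n + 2 - 1 = n + 1 by omega, pow_succ]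
      ring
  · obtain ⟨h1, h2, h3, h4⟩ := toggle_insert hs huN hu1 hup hX
    have hd : chTog u s = insert (chX u s) s := if_neg hX
    rw [hd]
    refine ⟨⟨h1, h2, fun he => ?_⟩, ?_, h4, ?_⟩
    · have h5 := congrArg Finset.card he
      rw [Finset.card_insert_of_notMem hX, Finset.card_singleton] at h5
      omega
    · rw [chTog, h3, if_pos (Finset.mem_insert_self _ _), Finset.erase_insert hX]
    · rw [Finset.card_insert_of_notMem hX, Nat.add_sub_cancel, show s.card = s.card - 1 + 1 by omega,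
        pow_succ]
      simp

/-- Only the cyclic chain survives the pairing. -/
theorem sum_chains (hu1 : u ≠ 1) (hup : ∃ k : ℕ, orderOf u = p ^ k) (Φ : Subgroup G → ℂ) :
    ∑ s ∈ univ.filter (fun s : Finset (Subgroup G) => NChain p s ∧ u ∈ NS s),
        (-1 : ℂ) ^ (s.card - 1) * Φ (NS s ⊓ Subgroup.centralizer ({u} : Set G))
      = Φ (Subgroup.centralizer ({u} : Set G)) := by
  obtain ⟨k, hk⟩ := hup
  set z : Finset (Subgroup G) := {Subgroup.zpowers u} with hz
  have hzs : z ∈ univ.filter (fun s : Finset (Subgroup G) => NChain p s ∧ u ∈ NS s) := by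
    refine Finset.mem_filter.mpr ⟨Finset.mem_univ _, ⟨Finset.singleton_nonempty _, ?_, ?_, ?_⟩, ?_⟩
    · intro Q hQ R hR; rw [Finset.mem_singleton.mp hQ, Finset.mem_singleton.mp hR]; exact Or.inl le_rfl
    · intro Q hQ; rw [Finset.mem_singleton.mp hQ]
      exact ⟨fun h => hu1 (Subgroup.zpowers_eq_bot.mp h), IsPGroup.of_card (n := k) (by rw [Nat.card_zpowers, hk])⟩
    · exact ⟨_, Finset.mem_singleton_self _, fun Q hQ => by
        rw [Finset.mem_singleton.mp hQ]; exact ⟨le_rfl, Subgroup.le_normalizer⟩⟩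
    · exact mem_NS.mpr fun Q hQ => by
        rw [Finset.mem_singleton.mp hQ]; exact Subgroup.le_normalizer (Subgroup.mem_zpowers u)
  rw [← Finset.add_sum_erase _ _ hzs]
  have hrest : ∑ s ∈ (univ.filter (fun s : Finset (Subgroup G) => NChain p s ∧ u ∈ NS s)).erase z,
      (-1 : ℂ) ^ (s.card - 1) * Φ (NS s ⊓ Subgroup.centralizer ({u} : Set G)) = 0 := by
    have hspec : ∀ s ∈ (univ.filter (fun s : Finset (Subgroup G) => NChain p s ∧ u ∈ NS s)).erase z, _ :=
      fun s hs => chTog_spec (p := p) (u := u) (Finset.mem_filter.mp (Finset.mem_of_mem_erase hs)).2.1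
        (Finset.mem_filter.mp (Finset.mem_of_mem_erase hs)).2.2 hu1 ⟨k, hk⟩ (Finset.ne_of_mem_erase hs)
    refine Finset.sum_involution (fun s _ => chTog u s) (fun s hs => ?_) (fun s hs _ => ?_)
      (fun s hs => ?_) (fun s hs => (hspec s hs).2.1)
    · obtain ⟨-, -, h3, h4⟩ := hspec s hs
      rw [h3, show (-1 : ℂ) ^ ((chTog u s).card - 1) = -(-1 : ℂ) ^ (s.card - 1) by exact_mod_cast h4]
      ring
    · intro he
      have h4 := (hspec s hs).2.2.2
      rw [he] at h4
      have h5 : (-1 : ℤ) ^ (s.card - 1) = 0 := by linarith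
      simp at h5
    · obtain ⟨⟨h1, h2, h3⟩, -⟩ := hspec s hs
      exact Finset.mem_erase.mpr ⟨h3, Finset.mem_filter.mpr ⟨Finset.mem_univ _, h1, h2⟩⟩
  rw [hrest, add_zero, hz, Finset.card_singleton, Nat.sub_self, pow_zero, one_mul]
  refine congrArg Φ (inf_eq_right.mpr fun g hg => mem_NS.mpr fun Q hQ => ?_)
  rw [Finset.mem_singleton.mp hQ, Subgroup.zpowers_eq_closure]
  refine Subgroup.normalizer_le_normalizer_closure _ ?_
  rw [Subgroup.mem_set_normalizer_iff]
  intro x
  simp only [Set.mem_singleton_iff]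
  exact ⟨fun h => by rw [h]; exact cent_conj hg,
    fun h => mul_left_cancel (mul_right_cancel (h.trans (cent_conj hg).symm))⟩

end Toggle

/-- The alternating sum over normal chains. -/
theorem card_mul_sub_eq_alternating (hM : IsPModular p M) {B : Set (IrrCharacter G)} (hB : IsPBlock M B) :
    (Nat.card G : ℂ) * ((Nat.card B : ℂ) - (blockRank p B : ℂ))
      = ∑ s ∈ univ.filter (fun s : Finset (Subgroup G) => NChain p s), (-1 : ℂ) ^ (s.card - 1) *
          ((Nat.card (NS s) : ℂ) * ((Nat.card (indHomSet M (NS s).subtype B) : ℂ)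
            - (blockRank p (indHomSet M (NS s).subtype B) : ℂ))) := by
  rw [card_mul_sub_blockRank hM (IsPBlock.isBlockUnion hB),
    Finset.sum_congr rfl fun u hu => sum_section_eq_secK hM hB (mem_pElts.mp hu).2]
  have hloc : ∀ s ∈ univ.filter (fun s : Finset (Subgroup G) => NChain p s), (-1 : ℂ) ^ (s.card - 1) *
        ((Nat.card (NS s) : ℂ) * ((Nat.card (indHomSet M (NS s).subtype B) : ℂ)
          - (blockRank p (indHomSet M (NS s).subtype B) : ℂ)))
      = ∑ u ∈ (pElts p G).filter (· ∈ NS s),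
          (-1 : ℂ) ^ (s.card - 1) * secK M p B (NS s ⊓ Subgroup.centralizer ({u} : Set G)) := fun s _ => by
    rw [card_mul_sub_blockRank_local hM B (NS s), Finset.mul_sum]
  rw [Finset.sum_congr rfl hloc]
  rw [Finset.sum_comm' (t' := pElts p G)
    (s' := fun u => univ.filter (fun s : Finset (Subgroup G) => NChain p s ∧ u ∈ NS s)) (fun s u => by
      simp only [Finset.mem_filter, Finset.mem_univ, true_and]
      tauto)]
  exact Finset.sum_congr rfl fun u hu =>
    (sum_chains (mem_pElts.mp hu).1 (mem_pElts.mp hu).2 (secK M p B)).symm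

end Cfsg.Lib.Blocks
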