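import Cfsg.Agent.Lib.Blocks.RegInner
import Mathlib.GroupTheory.ClassEquation

/-!
# The number of characters of a block and Landau's theorem on the class number
-/

namespace Cfsg.Lib.Blocks

open Cfsg.Lib.Characters Finset
open scoped Classical

set_option linter.unusedSectionVars false
set_option linter.style.longLine false
set_option linter.style.haveILetI false

section Bound

variable {G : Type*} [Group G] [Fintype G] {M : Ideal Cfsg.AlgInt} [M.IsPrime]
variable {p : ℕ} [hp : Fact p.Prime]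

/-- The Brauer–Feit bound `k(B) ≤ p ^ 2d`. -/
theorem card_block_le (hM : IsPModular p M) {B : Set (IrrCharacter G)} (hB : IsPBlock M B) :
    Nat.card B ≤ p ^ (2 * blockDefect p B) := by
  obtain ⟨χ, hχ, hmin⟩ := exists_height_zero p (IsPBlock.nonempty hB)
  have h0 : blockHeight p B (χ : G → ℂ) = 0 := (blockHeight_eq_zero_iff p hχ).mpr hmin
  set Q : ℤ := ((p ^ blockDefect p B : ℕ) : ℤ) with hQ
  set F := univ.filter (· ∈ B)
  have hsum := sum_blockC_mul hM hB hχ hχ
  set c := blockC p B χ χ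
  have hc : c ≠ 0 := (blockC_dvd hM hB hχ hχ).2.2 h0
  have hmem : χ ∈ F := Finset.mem_filter.mpr ⟨Finset.mem_univ _, hχ⟩
  have h1 : c * c ≤ Q * c := hsum ▸ Finset.single_le_sum (f := fun ψ => blockC p B χ ψ * blockC p B χ ψ)
    (fun ψ _ => mul_self_nonneg _) hmem
  have hQ0 : (0 : ℤ) ≤ Q := by rw [hQ]; positivity
  have h2 : Q * c ≤ Q * Q := by
    rcases le_or_gt c Q with h | h
    · exact mul_le_mul_of_nonneg_left h hQ0
    · nlinarith
  have h3 : (F.card : ℤ) ≤ ∑ ψ ∈ F, blockC p B χ ψ * blockC p B χ ψ := by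
    rw [Finset.card_eq_sum_ones, Nat.cast_sum, Nat.cast_one]
    refine Finset.sum_le_sum fun ψ hψ => ?_
    have := mul_self_pos.mpr ((blockC_dvd hM hB hχ (Finset.mem_filter.mp hψ).2).2.2 h0)
    omega
  have h4 : (F.card : ℤ) ≤ ((p ^ (2 * blockDefect p B) : ℕ) : ℤ) := by
    rw [two_mul, pow_add, Nat.cast_mul]
    exact h3.trans (hsum.le.trans h2)
  have h5 : Nat.card B = F.card := by
    rw [Nat.card_coe_set_eq, ← Set.ncard_coe_finset F]
    congr 1; ext x; simp [F]
  rw [h5]
  exact_mod_cast h4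

end Bound

/-- A sum of `k` unit fractions with a given value has bounded denominators. -/
theorem unitFraction_bound : ∀ (k : ℕ) (r : ℚ), ∃ N : ℕ, ∀ s : Multiset ℕ, s.card ≤ k →
    (∀ x ∈ s, 0 < x) → (s.map fun x : ℕ => (1 : ℚ) / x).sum = r → ∀ x ∈ s, x ≤ N := by
  intro k
  induction k with
  | zero =>
    intro r
    exact ⟨0, fun s hs _ _ x hx => by simp [Multiset.card_eq_zero.mp (Nat.le_zero.mp hs)] at hx⟩
  | succ k ih =>
    intro r
    choose f hf using ih
    set m := ⌈(k + 1 : ℚ) / r⌉₊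
    refine ⟨max m ((Finset.range (m + 1)).sup fun x : ℕ => f (r - 1 / x)), fun s hs hpos hsum y hy => ?_⟩
    obtain ⟨x, hx, hmin⟩ := Finset.exists_min_image s.toFinset id ⟨y, Multiset.mem_toFinset.mpr hy⟩
    rw [Multiset.mem_toFinset] at hx
    obtain ⟨t, rfl⟩ := Multiset.exists_cons_of_mem hx
    have hx0 : (0 : ℚ) < x := Nat.cast_pos.mpr (hpos x hx)
    rw [Multiset.map_cons, Multiset.sum_cons] at hsum
    have ht : ∀ z ∈ t, x ≤ z := fun z hz =>
      hmin z (Multiset.mem_toFinset.mpr (Multiset.mem_cons_of_mem hz))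
    have hcard : t.card ≤ k := by simpa using hs
    have hle : (t.map fun z : ℕ => (1 : ℚ) / z).sum ≤ (t.card : ℚ) * (1 / x) := by
      have h := Multiset.sum_le_card_nsmul (t.map fun z : ℕ => (1 : ℚ) / z) ((1 : ℚ) / x) fun z hz => by
        obtain ⟨w, hw, rfl⟩ := Multiset.mem_map.mp hz
        exact one_div_le_one_div_of_le hx0 (Nat.cast_le.mpr (ht w hw))
      simpa [nsmul_eq_mul] using h
    have hnn : 0 ≤ (t.map fun z : ℕ => (1 : ℚ) / z).sum := Multiset.sum_nonneg fun z hz => by
      obtain ⟨w, -, rfl⟩ := Multiset.mem_map.mp hz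
      positivity
    have hr : 0 < r := by
      have : (0 : ℚ) < 1 / x := by positivity
      linarith
    have hxm : x ≤ m := by
      have h1 : r ≤ ((k : ℚ) + 1) * (1 / x) := by
        have hc : (t.card : ℚ) ≤ k := Nat.cast_le.mpr hcard
        have : (0 : ℚ) ≤ 1 / x := by positivity
        nlinarith
      have h2 : (x : ℚ) ≤ (k + 1 : ℚ) / r := by
        rw [le_div_iff₀ hr]
        rw [mul_one_div, le_div_iff₀ hx0] at h1
        linarith
      exact Nat.cast_le.mp (h2.trans (Nat.le_ceil _))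
    rcases Multiset.mem_cons.mp hy with rfl | hy'
    · exact hxm.trans (le_max_left _ _)
    · exact ((hf (r - 1 / (x : ℚ)) t hcard (fun z hz => hpos z (Multiset.mem_cons_of_mem hz))
        (by linarith) y hy').trans (Finset.le_sup (f := fun x : ℕ => f (r - 1 / x))
          (Finset.mem_range.mpr (by omega)))).trans (le_max_right _ _)

theorem card_carrier_dvd {G : Type*} [Group G] (c : ConjClasses G) :
    Nat.card c.carrier ∣ Nat.card G := by
  obtain ⟨g, rfl⟩ := ConjClasses.exists_rep c
  rw [← ConjAct.orbit_eq_carrier_conjClasses, Nat.card_coe_set_eq, ← MulAction.index_stabilizer]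
  exact (Subgroup.index_dvd_card _).trans (dvd_of_eq rfl)

universe v

/-- Landau: the class number bounds the order of a finite group. -/
theorem landau (k : ℕ) : ∃ N : ℕ, ∀ (G : Type v) [Group G] [Finite G],
    Nat.card (ConjClasses G) ≤ k → Nat.card G ≤ N := by
  obtain ⟨N, hN⟩ := unitFraction_bound k 1
  refine ⟨N, fun G _ _ hk => ?_⟩
  haveI := Fintype.ofFinite G
  haveI := Fintype.ofFinite (ConjClasses G)
  set f : ConjClasses G → ℕ := fun c => Nat.card G / Nat.card c.carrier
  have hpos : ∀ c : ConjClasses G, 0 < Nat.card c.carrier := fun c => by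
    obtain ⟨g, rfl⟩ := ConjClasses.exists_rep c
    haveI : Nonempty (ConjClasses.mk g).carrier := ⟨⟨g, ConjClasses.mem_carrier_mk⟩⟩
    exact Nat.card_pos
  have hf : ∀ c, 0 < f c := fun c =>
    Nat.div_pos (Nat.le_of_dvd Nat.card_pos (card_carrier_dvd c)) (hpos c)
  have h1 : f (ConjClasses.mk 1) = Nat.card G := by
    have : (ConjClasses.mk (1 : G)).carrier = {1} := by
      ext x
      rw [ConjClasses.mem_carrier_iff_mk_eq, ConjClasses.mk_eq_mk_iff_isConj, isConj_one_left,
        Set.mem_singleton_iff]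
    show Nat.card G / Nat.card (ConjClasses.mk (1 : G)).carrier = _
    rw [this, Nat.card_coe_set_eq, Set.ncard_singleton, Nat.div_one]
  rw [← h1]
  refine hN ((Finset.univ : Finset (ConjClasses G)).val.map f) ?_ ?_ ?_ _
    (Multiset.mem_map.mpr ⟨_, Finset.mem_univ _, rfl⟩)
  · rw [Multiset.card_map]
    exact (Nat.card_eq_fintype_card (α := ConjClasses G)).symm.le.trans hk
  · intro x hx
    obtain ⟨c, -, rfl⟩ := Multiset.mem_map.mp hx
    exact hf c
  · rw [Multiset.map_map]
    show ∑ c : ConjClasses G, (1 : ℚ) / (f c : ℚ) = 1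
    have hG : (Nat.card G : ℚ) ≠ 0 := Nat.cast_ne_zero.mpr Nat.card_pos.ne'
    have : ∀ c : ConjClasses G, (1 : ℚ) / (f c : ℚ) = (Nat.card c.carrier : ℚ) / Nat.card G := fun c => by
      rw [Nat.cast_div (card_carrier_dvd c) (Nat.cast_ne_zero.mpr (hpos c).ne'), one_div_div]
    rw [Finset.sum_congr rfl fun c _ => this c, ← Finset.sum_div, ← Nat.cast_sum, div_eq_one_iff_eq hG,
      Nat.cast_inj]
    have h := Group.sum_card_conj_classes_eq_card G
    rw [finsum_eq_sum_of_fintype] at h
    simpa only [Nat.card_coe_set_eq] using h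

end Cfsg.Lib.Blocks
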