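import Cfsg.Agent.Lib.Blocks.BlockNilpotent
import Cfsg.Agent.Lib.Blocks.ExtendedFirstMain
import Cfsg.Agent.Lib.Blocks.Rank
import Cfsg.Agent.Lib.Blocks.Heights
import Cfsg.Agent.Lib.Blocks.RegInner
import Mathlib.GroupTheory.SpecificGroups.KleinFour

/-!
# Two-blocks with Klein four defect group
-/

namespace Cfsg.Lib.Blocks

open Cfsg.Lib.Characters Finset
open scoped ComplexConjugate Classical

set_option linter.unusedSectionVars false
set_option linter.style.longLine false
set_option linter.style.haveILetI false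
set_option maxHeartbeats 800000

variable {G : Type*} [Group G] [Fintype G] {M : Ideal Cfsg.AlgInt} [M.IsPrime]
variable {p : ℕ} [hp : Fact p.Prime]

local notation "𝐂" Q:max => Subgroup.centralizer ((Q : Subgroup G) : Set G)

/-- The ranks of the blocks of `C(a)` inducing `B`, added up. -/
noncomputable def secRank (M : Ideal Cfsg.AlgInt) (p : ℕ) (B : Set (IrrCharacter G)) (a : G) : ℕ :=
  ∑ b ∈ (blocks (Subgroup.centralizer ({a} : Set G)) M).filter
    (fun b => IsInducedBlock M (Subgroup.centralizer ({a} : Set G)) b B), blockRank p b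

theorem one_le_blockRank {B : Set (IrrCharacter G)} (hne : B.Nonempty) : 1 ≤ blockRank p B := by
  obtain ⟨χ, hχ⟩ := hne
  set V := Submodule.span ℂ ((fun χ : IrrCharacter G => pRegularPart p (χ : G → ℂ)) '' B)
  show 1 ≤ Module.finrank ℂ V
  refine Submodule.one_le_finrank_iff.mpr fun h => χ.2.one_ne_zero ?_
  have h1 : pRegularPart p (χ : G → ℂ) ∈ V := Submodule.subset_span ⟨χ, hχ, rfl⟩
  rw [h, Submodule.mem_bot] at h1
  have h2 := congrFun h1 1
  rwa [pRegularPart_apply, orderOf_one, if_neg hp.out.not_dvd_one, Pi.zero_apply] at h2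

/-- Counting the characters of a block section by section. -/
theorem card_mul_card_block (hM : IsPModular p M) {B : Set (IrrCharacter G)} (hB : IsPBlock M B) :
    Nat.card G * Nat.card B = ∑ a ∈ univ.filter (fun a : G => ∃ k : ℕ, orderOf a = p ^ k),
      Nat.card (Subgroup.centralizer ({a} : Set G)) * secRank M p B a := by
  have hG : (Nat.card G : ℂ) ≠ 0 := Nat.cast_ne_zero.mpr Nat.card_pos.ne'
  have htot : (Nat.card G : ℂ) * (Nat.card B : ℂ) = ∑ g : G, kerB B g g := by
    simp only [kerB]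
    rw [Finset.sum_comm, Nat.card_eq_fintype_card (α := B), Fintype.card_subtype, Finset.natCast_card_filter,
      Finset.mul_sum]
    refine Finset.sum_congr rfl fun χ _ => ?_
    split_ifs with h
    · rw [mul_one]
      have h1 := classInner_irr_self χ.2
      rw [Cfsg.classInner, inv_mul_eq_iff_eq_mul₀ hG, mul_one] at h1
      rw [← h1]
      exact Finset.sum_congr rfl fun g _ => by rw [char_inv_eq_conj χ.2.isCharacter]
    · simp
  have hsec : ∀ a : G, (∃ k : ℕ, orderOf a = p ^ k) →
      ((Nat.card (Subgroup.centralizer ({a} : Set G)) * secRank M p B a : ℕ) : ℂ)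
        = ∑ y ∈ univ.filter (fun y : G => Commute a y ∧ ¬ p ∣ orderOf y), kerB B (a * y) (a * y) := by
    intro a ha
    rw [Nat.cast_mul, secRank, Nat.cast_sum, ← sum_section_kerB hM hB ha]
    rw [Finset.sum_congr rfl (g := fun y : Subgroup.centralizer ({a} : Set G) =>
      if ¬ p ∣ orderOf y then kerB B (a * (y : G)) (a * (y : G)) else 0) fun y _ => by split_ifs <;> rfl,
      ← Finset.sum_filter]
    refine Finset.sum_bij (fun y _ => (y : G)) (fun y hy => ?_) (fun y _ y' _ h => Subtype.ext h)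
      (fun g hg => ?_) (fun y _ => rfl)
    · refine Finset.mem_filter.mpr ⟨Finset.mem_univ _, ?_, ?_⟩
      · exact (Subgroup.mem_centralizer_singleton_iff.mp y.2).symm
      · rw [Subgroup.orderOf_coe]; exact (Finset.mem_filter.mp hy).2
    · obtain ⟨h1, h2⟩ := (Finset.mem_filter.mp hg).2
      refine ⟨⟨g, Subgroup.mem_centralizer_singleton_iff.mpr h1.eq.symm⟩,
        Finset.mem_filter.mpr ⟨Finset.mem_univ _, ?_⟩, rfl⟩
      rwa [Subgroup.orderOf_mk]
  have hkey : ((Nat.card G * Nat.card B : ℕ) : ℂ) = ((∑ a ∈ univ.filter (fun a : G => ∃ k : ℕ, orderOf a = p ^ k),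
      Nat.card (Subgroup.centralizer ({a} : Set G)) * secRank M p B a : ℕ) : ℂ) := by
    rw [Nat.cast_mul, htot, Nat.cast_sum, Finset.sum_congr rfl fun a ha => hsec a (Finset.mem_filter.mp ha).2,
      Finset.sum_sigma']
    refine (Finset.sum_bij (fun q _ => q.1 * q.2) (fun q _ => Finset.mem_univ _) (fun q hq q' hq' h => ?_)
      (fun g _ => ?_) (fun q _ => rfl)).symm
    · simp only [Finset.mem_sigma, Finset.mem_filter, Finset.mem_univ, true_and] at hq hq'
      obtain ⟨h1, h2⟩ := pPart_unique h hq.2.1 hq'.2.1 hq.1 hq'.1 hq.2.2 hq'.2.2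
      exact Sigma.ext h1 (heq_of_eq h2)
    · obtain ⟨a, y, hay, hc, ha, hy⟩ := exists_pPart_commute (p := p) g
      exact ⟨⟨a, y⟩, by simp [ha, hc, hy], hay⟩
  exact_mod_cast hkey

theorem secRank_one (hM : IsPModular p M) {B : Set (IrrCharacter G)} (hB : IsPBlock M B) :
    secRank M p B 1 = blockRank p B := by
  have h := sum_section_kerB hM hB (x := (1 : G)) ⟨0, by simp⟩
  have htop : Subgroup.centralizer ({(1 : G)} : Set G) = ⊤ :=
    top_le_iff.mp fun g _ => Subgroup.mem_centralizer_singleton_iff.mpr (by simp)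
  have hcard : Nat.card (Subgroup.centralizer ({(1 : G)} : Set G)) = Nat.card G := by
    rw [htop, Subgroup.card_top]
  have h2 : (Nat.card G : ℂ) * ((secRank M p B 1 : ℕ) : ℂ) = (Nat.card G : ℂ) * (blockRank p B : ℂ) := by
    rw [secRank, Nat.cast_sum, ← hcard, ← h, hcard, card_mul_blockRank hM hB]
    refine Fintype.sum_bijective (fun y : Subgroup.centralizer ({(1 : G)} : Set G) => (y : G))
      ⟨Subtype.val_injective, fun g => ⟨⟨g, htop ▸ Subgroup.mem_top g⟩, rfl⟩⟩ _ _ fun y => ?_
    rw [one_mul, Subgroup.orderOf_coe]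
  exact_mod_cast mul_left_cancel₀ (Nat.cast_ne_zero.mpr (Nat.card_pos (α := G)).ne') h2

theorem secRank_central (hM : IsPModular p M) {B : Set (IrrCharacter G)} (hB : IsPBlock M B) {z : G}
    (hz : ∀ g : G, z * g = g * z) (hzp : ∃ k : ℕ, orderOf z = p ^ k) : secRank M p B z = blockRank p B := by
  have h := sum_section_kerB hM hB hzp
  have htop : Subgroup.centralizer ({z} : Set G) = ⊤ :=
    top_le_iff.mp fun g _ => Subgroup.mem_centralizer_singleton_iff.mpr (hz g).symm
  have hcard : Nat.card (Subgroup.centralizer ({z} : Set G)) = Nat.card G := by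
    rw [htop, Subgroup.card_top]
  have hker : ∀ y : G, kerB B (z * y) (z * y) = kerB B y y := by
    intro y
    simp only [kerB]
    refine Finset.sum_congr rfl fun χ _ => ?_
    split_ifs
    · obtain ⟨n, ρ, hρ, hρχ⟩ := id χ.2
      haveI := hρ
      obtain ⟨ω, hω⟩ := schur_scalar ρ (ρ z) fun v => by rw [← map_mul, ← map_mul, hz]
      obtain ⟨ω', hω'⟩ := schur_scalar ρ (ρ z⁻¹) fun v => by
        have : Commute z⁻¹ v := (show Commute z v from hz v).inv_left
        rw [← map_mul, ← map_mul, this.eq]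
      have hprod : ω * ω' = 1 := by
        have h1 : ρ z * ρ z⁻¹ = 1 := by rw [← map_mul, mul_inv_cancel, map_one]
        rw [hω, hω', smul_mul_smul_comm, ← Module.End.one_eq_id, one_mul] at h1
        have h2 := congrArg (LinearMap.trace ℂ _) h1
        rw [map_smul, smul_eq_mul, LinearMap.trace_one] at h2
        have hn : (Module.finrank ℂ (Fin n → ℂ) : ℂ) ≠ 0 := by
          rw [← Representation.char_one ρ, hρχ]; exact χ.2.one_ne_zero
        exact (mul_eq_right₀ hn).mp h2
      have hv : ∀ u, (χ : G → ℂ) (z * u) = ω * (χ : G → ℂ) u := fun u => by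
        rw [← hρχ]
        simp only [Representation.character]
        rw [map_mul, hω, Module.End.mul_eq_comp, LinearMap.smul_comp, LinearMap.id_comp, map_smul, smul_eq_mul]
      have hv' : ∀ u, (χ : G → ℂ) (z⁻¹ * u) = ω' * (χ : G → ℂ) u := fun u => by
        rw [← hρχ]
        simp only [Representation.character]
        rw [map_mul, hω', Module.End.mul_eq_comp, LinearMap.smul_comp, LinearMap.id_comp, map_smul, smul_eq_mul]
      have hyz : (z * y)⁻¹ = z⁻¹ * y⁻¹ := by rw [hz y, mul_inv_rev]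
      rw [hv, hyz, hv']
      calc ω * (χ : G → ℂ) y * (ω' * (χ : G → ℂ) y⁻¹) = (ω * ω') * ((χ : G → ℂ) y * (χ : G → ℂ) y⁻¹) := by ring
        _ = _ := by rw [hprod, one_mul]
    · rfl
  have h2 : (Nat.card G : ℂ) * ((secRank M p B z : ℕ) : ℂ) = (Nat.card G : ℂ) * (blockRank p B : ℂ) := by
    rw [secRank, Nat.cast_sum, ← hcard, ← h, hcard, card_mul_blockRank hM hB]
    refine Fintype.sum_bijective (fun y : Subgroup.centralizer ({z} : Set G) => (y : G))
      ⟨Subtype.val_injective, fun g => ⟨⟨g, htop ▸ Subgroup.mem_top g⟩, rfl⟩⟩ _ _ fun y => ?_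
    rw [hker, Subgroup.orderOf_coe]
  exact_mod_cast mul_left_cancel₀ (Nat.cast_ne_zero.mpr (Nat.card_pos (α := G)).ne') h2

theorem card_pairs_eq_secRank (hM : IsPModular p M) {B : Set (IrrCharacter G)} {Q : Subgroup G} {a : G}
    (hQ : 𝐂 Q = Subgroup.centralizer ({a} : Set G)) (hQp : IsPGroup p Q)
    (h1 : ∀ f : Set (IrrCharacter (𝐂 Q)), IsBrauerPairOf p M B Q f → blockRank p f = 1) :
    secRank M p B a = Nat.card {f : Set (IrrCharacter (𝐂 Q)) // IsBrauerPairOf p M B Q f} := by
  haveI := Fintype.ofFinite {f : Set (IrrCharacter (𝐂 Q)) // IsBrauerPairOf p M B Q f}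
  have key : ∀ (H : Subgroup G) (hH : 𝐂 Q = H),
      ∑ b ∈ (blocks H M).filter (fun b => IsInducedBlock M H b B), blockRank p b
        = ∑ b ∈ (blocks (𝐂 Q) M).filter (fun b => IsInducedBlock M (𝐂 Q) b B), blockRank p b := by
    intro H hH
    subst hH
    exact Finset.sum_congr (by ext; simp) fun _ _ => rfl
  rw [secRank, key _ hQ, Nat.card_eq_fintype_card, Finset.sum_congr rfl (g := fun _ => 1)
    fun b hb => h1 b ((isBrauerPairOf_iff hM).mpr ⟨hQp, (Finset.mem_filter.mp hb).2⟩),
    ← Finset.card_eq_sum_ones, ← Fintype.card_coe]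
  refine Fintype.card_congr (Equiv.subtypeEquivRight fun b => ?_)
  rw [Finset.mem_filter, isBrauerPairOf_iff hM]
  exact ⟨fun h => ⟨hQp, h.2⟩, fun h => ⟨mem_blocks.mpr h.2.1, h.2⟩⟩

section Two

variable [Fact (Nat.Prime 2)]

/-- A `2`-block of defect two has exactly four characters. -/
theorem card_eq_four (hM : IsPModular 2 M) {B : Set (IrrCharacter G)} (hB : IsPBlock M B)
    (hd : blockDefect 2 B = 2) : Nat.card B = 4 := by
  obtain ⟨χ₀, hχ₀, hmin⟩ := exists_height_zero 2 (IsPBlock.nonempty hB)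
  have hh0 : blockHeight 2 B (χ₀ : G → ℂ) = 0 := (blockHeight_eq_zero_iff 2 hχ₀).mpr hmin
  set S := univ.filter (· ∈ B)
  set c := blockC 2 B χ₀ χ₀
  set R := ∑ ψ ∈ S.erase χ₀, blockC 2 B χ₀ ψ * blockC 2 B χ₀ ψ
  have hmem : χ₀ ∈ S := Finset.mem_filter.mpr ⟨Finset.mem_univ _, hχ₀⟩
  have h : c * c + R = 4 * c := by
    have h := sum_blockC_mul hM hB hχ₀ hχ₀
    rw [hd, ← Finset.add_sum_erase _ _ hmem] at h
    push_cast at h
    linear_combination h
  have hodd : Odd c := by
    obtain ⟨hN, hfac⟩ := (regN_valuation hM hB hχ₀ hχ₀).2.mp hh0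
    have hspec := blockC_spec hM hB hχ₀ χ₀
    rw [← hmin] at hspec
    rw [← Int.not_even_iff_odd, even_iff_two_dvd]
    intro hdvd
    have h2 : 2 ^ ((charDegree (χ₀ : G → ℂ)).factorization 2 + 1) ∣ (regN 2 χ₀ χ₀).natAbs := by
      rw [← Int.natCast_dvd, hspec, pow_succ, Nat.cast_mul]
      exact mul_dvd_mul_left _ (by exact_mod_cast hdvd)
    rw [(Fact.out : Nat.Prime 2).pow_dvd_iff_le_factorization (Int.natAbs_ne_zero.mpr hN), hfac] at h2
    omega
  have hR0 : 0 ≤ R := Finset.sum_nonneg fun _ _ => mul_self_nonneg _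
  have hR : R = 3 := by
    have h4 : 0 ≤ c ∧ c ≤ 4 := by constructor <;> nlinarith
    obtain ⟨k, hk⟩ := hodd
    have : c = 1 ∨ c = 3 := by omega
    rcases this with hc | hc <;> rw [hc] at h <;> linarith
  have hone : ∀ ψ ∈ S.erase χ₀, blockC 2 B χ₀ ψ * blockC 2 B χ₀ ψ = 1 := by
    intro ψ hψ
    have hne := (blockC_dvd hM hB hχ₀ (Finset.mem_filter.mp (Finset.mem_of_mem_erase hψ)).2).2.2 hh0
    have hle : blockC 2 B χ₀ ψ * blockC 2 B χ₀ ψ ≤ 3 := by
      rw [← hR]
      exact Finset.single_le_sum (f := fun ψ => blockC 2 B χ₀ ψ * blockC 2 B χ₀ ψ)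
        (fun _ _ => mul_self_nonneg _) hψ
    generalize blockC 2 B χ₀ ψ = x at hle hne
    have hx : -1 ≤ x ∧ x ≤ 1 := by constructor <;> nlinarith
    have : x = -1 ∨ x = 1 := by omega
    rcases this with rfl | rfl <;> norm_num
  have hcard : ((S.erase χ₀).card : ℤ) = 3 := by
    rw [← hR]
    show _ = ∑ ψ ∈ S.erase χ₀, blockC 2 B χ₀ ψ * blockC 2 B χ₀ ψ
    rw [Finset.sum_congr rfl hone]; simp
  have h5 : Nat.card B = S.card := by
    rw [Nat.card_coe_set_eq, ← Set.ncard_coe_finset S]
    congr 1; ext x; simp [S]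
  rw [h5, ← Finset.card_erase_add_one hmem]
  omega

theorem rank_eq_one_of_central (hM : IsPModular 2 M) {B : Set (IrrCharacter G)} (hB : IsPBlock M B)
    (hd : blockDefect 2 B = 2) {z w : G} (hz : ∀ g : G, z * g = g * z) (hz2 : orderOf z = 2)
    (hw2 : orderOf w = 2) (hzw : z ≠ w) (hw : BrNe (Subgroup.zpowers w) (bIdem M B)) :
    blockRank 2 B = 1 := by
  have hwp : ∃ k : ℕ, orderOf w = 2 ^ k := ⟨1, by rw [hw2, pow_one]⟩
  obtain ⟨b, hb⟩ := exists_inducing_block hM (isPGroup_zpowers hwp)
    (H := Subgroup.centralizer ({w} : Set G))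
    (Subgroup.zpowers_le.mpr (Subgroup.mem_centralizer_singleton_iff.mpr rfl))
    (centralizer_zpowers w).le
    ((centralizer_zpowers w).symm.le.trans (Subgroup.centralizer_le_normalizer _)) hB hw
  have hL : 1 ≤ secRank M 2 B w := (one_le_blockRank (p := 2) (IsPBlock.nonempty hb.1)).trans
    (Finset.single_le_sum (f := fun b => blockRank 2 b) (fun _ _ => Nat.zero_le _)
      (Finset.mem_filter.mpr ⟨mem_blocks.mpr hb.1, hb⟩))
  have h := card_mul_card_block hM hB
  rw [card_eq_four hM hB hd] at h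
  have hsub : ({1, z, w} : Finset G) ⊆ univ.filter (fun a : G => ∃ k : ℕ, orderOf a = 2 ^ k) := by
    intro a ha
    simp only [Finset.mem_insert, Finset.mem_singleton] at ha
    refine Finset.mem_filter.mpr ⟨Finset.mem_univ _, ?_⟩
    rcases ha with rfl | rfl | rfl
    exacts [⟨0, by simp⟩, ⟨1, by rw [hz2, pow_one]⟩, hwp]
  have h1z : (1 : G) ≠ z := fun h => by simp [← h] at hz2
  have h1w : (1 : G) ≠ w := fun h => by simp [← h] at hw2
  have hle := Finset.sum_le_sum_of_subset (f := fun a : G =>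
    Nat.card (Subgroup.centralizer ({a} : Set G)) * secRank M 2 B a) hsub
  rw [Finset.sum_insert (by simp [h1z, h1w]), Finset.sum_pair hzw, secRank_one hM hB,
    secRank_central hM hB hz ⟨1, by rw [hz2, pow_one]⟩, ← h] at hle
  have htop : ∀ a : G, (∀ g : G, a * g = g * a) → Nat.card (Subgroup.centralizer ({a} : Set G)) = Nat.card G :=
    fun a ha => by
      rw [show Subgroup.centralizer ({a} : Set G) = ⊤ from
        top_le_iff.mp fun g _ => Subgroup.mem_centralizer_singleton_iff.mpr (ha g).symm, Subgroup.card_top]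
  rw [htop 1 (by simp), htop z hz] at hle
  have hpos : 0 < Nat.card (Subgroup.centralizer ({w} : Set G)) := Nat.card_pos
  have hl := one_le_blockRank (p := 2) (IsPBlock.nonempty hB)
  by_contra hne
  have : 2 ≤ blockRank 2 B := by omega
  nlinarith

variable {B : Set (IrrCharacter G)} {V : Subgroup G}

theorem card_aut_klein (hV : Nat.card V = 4) {T : Subgroup G} (hT : T ≤ Subgroup.normalizer (V : Set G))
    (hCT : 𝐂 V ≤ T) : (𝐂 V).relIndex T ∣ 6 := by
  let f : T →* Equiv.Perm {v : V // v ≠ 1} :=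
    { toFun := fun t =>
        { toFun := fun v => ⟨⟨(t : G) * (v.1 : G) * (t : G)⁻¹,
            (Subgroup.mem_normalizer_iff.mp (hT t.2) _).mp v.1.2⟩, fun h => v.2 (Subtype.ext (by
              simpa using congrArg Subtype.val h))⟩
          invFun := fun v => ⟨⟨(t : G)⁻¹ * (v.1 : G) * (t : G), by
            simpa using (Subgroup.mem_normalizer_iff.mp (inv_mem (hT t.2)) _).mp v.1.2⟩, fun h => v.2 (Subtype.ext (by
              have h1 : (t : G)⁻¹ * (v.1 : G) * (t : G) = 1 := congrArg Subtype.val h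
              calc (v.1 : G) = (t : G) * ((t : G)⁻¹ * (v.1 : G) * (t : G)) * (t : G)⁻¹ := by group
                _ = 1 := by rw [h1]; simp))⟩
          left_inv := fun v => Subtype.ext (Subtype.ext (by simp [mul_assoc]))
          right_inv := fun v => Subtype.ext (Subtype.ext (by simp [mul_assoc])) }
      map_one' := Equiv.ext fun v => Subtype.ext (Subtype.ext (by simp))
      map_mul' := fun s t => Equiv.ext fun v => Subtype.ext (Subtype.ext (by simp [mul_assoc])) }
  have hker : f.ker = (𝐂 V).subgroupOf T := by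
    ext t
    rw [MonoidHom.mem_ker, Subgroup.mem_subgroupOf, Subgroup.mem_centralizer_iff]
    constructor
    · intro h v hv
      by_cases h1 : v = 1
      · simp [h1]
      have h2 := congrArg (fun e : Equiv.Perm {v : V // v ≠ 1} => ((e ⟨⟨v, hv⟩, fun h => h1 (congrArg Subtype.val h)⟩).1 : G)) h
      exact (mul_inv_eq_iff_eq_mul.mp h2).symm
    · intro h
      exact Equiv.ext fun v => Subtype.ext (Subtype.ext (mul_inv_eq_iff_eq_mul.mpr (h _ v.1.2).symm))
  have h3 : Nat.card {v : V // v ≠ 1} = 3 := by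
    haveI := Fintype.ofFinite V
    rw [Nat.card_eq_fintype_card, Fintype.card_subtype_compl, ← Nat.card_eq_fintype_card, hV]
    simp
  rw [Subgroup.relIndex, ← hker, Subgroup.index_ker]
  refine (Subgroup.card_subgroup_dvd_card f.range).trans ?_
  rw [Nat.card_perm, h3]
  rfl

theorem odd_inertial_index (hM : IsPModular 2 M) (hV : ∀ x ∈ V, ∀ y ∈ V, x * y = y * x)
    {c : Set (IrrCharacter (𝐂 V))} (hmax : IsMaximalBrauerPair 2 M B V c) : ¬ 2 ∣ (𝐂 V).relIndex (pairStab M ⊤ V c) := by
  set T := pairStab M ⊤ V c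
  have hVC : V ≤ 𝐂 V := fun x hx => Subgroup.mem_centralizer_iff.mpr fun y hy => hV y hy x hx
  have hCT : 𝐂 V ≤ T := le_sup_right.trans (local_le_pairStab V c)
  have hD : IsBrMax 2 T (subE M V c) V :=
    isBrMax_of_isMaxIn hmax.1.1 (isMaxIn_of_maximal hM hmax ⊤) (hVC.trans hCT) le_rfl
  have hcard := card_autInd_brMax hM hmax.1.1 hD
  have haut : ∀ X : Subgroup G, X ≤ Subgroup.normalizer (V : Set G) →
      Nat.card (autInducedBy X V) * Nat.card (X ⊓ 𝐂 V : Subgroup G) = Nat.card X := by
    intro X hX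
    have := Fusion.card_autInducedBy_mul X V
    rwa [show FusionSystem.normalizerIn X V = X from inf_eq_left.mpr hX] at this
  have h1 : Nat.card (autInducedBy V V) = 1 := by
    have := haut V Subgroup.le_normalizer
    rw [inf_eq_left.mpr hVC] at this
    exact Nat.eq_of_mul_eq_mul_right Nat.card_pos (this.trans (one_mul _).symm)
  have h2 : Nat.card (autInducedBy T V) = (𝐂 V).relIndex T := by
    have := haut T (pairStab_le_normalizer c)
    rw [inf_eq_right.mpr hCT] at this
    refine Nat.eq_of_mul_eq_mul_right (Nat.card_pos (α := (𝐂 V : Subgroup G))) ?_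
    rw [this, Subgroup.relIndex, ← Nat.card_congr (Subgroup.subgroupOfEquivOfLe hCT).toEquiv,
      Subgroup.index_mul_card]
  rw [h1, h2] at hcard
  intro hd
  have := (Fact.out : Nat.Prime 2).factorization_pos_of_dvd
    (show (𝐂 V).relIndex T ≠ 0 by rw [← h2]; exact Nat.card_pos.ne') hd
  exact absurd hcard.symm (Nat.one_lt_pow this.ne' one_lt_two).ne'

theorem pair_rank_one (hM : IsPModular 2 M) (hB : IsPBlock M B) (hVB : IsDefectGroup 2 M B V)
    (hV4 : Nat.card V = 4) (hV2 : ∀ x ∈ V, x * x = 1)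
    {c : Set (IrrCharacter (𝐂 V))} (hmax : IsMaximalBrauerPair 2 M B V c)
    {Q : Subgroup G} (hQ2 : Nat.card Q = 2) {f : Set (IrrCharacter (𝐂 Q))} (hf : IsBrauerPairOf 2 M B Q f) :
    blockRank 2 f = 1 := by
  haveI : Fintype (𝐂 Q) := Fintype.ofFinite _
  obtain ⟨x, hle, -, hcard⟩ := exists_conj_brMax_centralizer hM hmax hf
  obtain ⟨D, hD⟩ := exists_isBrMax_centralizer hM hf.1.2 (p := 2)
  have hVc : ∀ y ∈ V, ∀ z ∈ V, y * z = z * y := fun y hy z hz => by
    have := hV2 _ (mul_mem hy hz)
    calc y * z = y * (y * z * (y * z)) * z := by rw [this, mul_one]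
      _ = (y * y) * (z * y) * (z * z) := by group
      _ = z * y := by rw [hV2 y hy, hV2 z hz, one_mul, mul_one]
  have hxQV := subpairLE_le hle
  have hD4 : Nat.card D = 4 := by
    rw [hcard D hD, show V ⊓ 𝐂 (Q.map (MulAut.conj x).toMonoidHom) = V from inf_eq_left.mpr
      fun v hv => Subgroup.mem_centralizer_iff.mpr fun q hq => hVc q (hxQV hq) v hv, hV4]
  have hDC : D ≤ 𝐂 Q := hD.2.1
  have hdef : IsDefectGroup 2 M f (D.subgroupOf (𝐂 Q)) := (isDefectGroup_centralizer_iff hM hf.1.2 hDC).mpr hD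
  have hd2 : blockDefect 2 f = 2 := by
    have h := card_defectGroup hM hf.1.2 hdef
    rw [Nat.card_congr (Subgroup.subgroupOfEquivOfLe hDC).toEquiv, hD4] at h
    exact (Nat.pow_right_injective le_rfl (h.symm.trans (by norm_num : 4 = 2 ^ 2)) :)
  obtain ⟨E, hE, hmapE⟩ := exists_defectGroup_ge hM ((isBrauerPairOf_iff hM).mp hf).2 hdef
  obtain ⟨y, hy⟩ := defectGroup_conj hM hB hE hVB
  have hD2 : ∀ d ∈ D, d * d = 1 := by
    intro d hd
    have h1 : d ∈ E := hmapE ⟨⟨d, hDC hd⟩, hd, rfl⟩
    have h2 : y * d * y⁻¹ ∈ V := hy ▸ mem_conjSub.mpr (by simpa [mul_assoc] using h1)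
    have h3 := hV2 _ h2
    calc d * d = y⁻¹ * ((y * d * y⁻¹) * (y * d * y⁻¹)) * y := by group
      _ = 1 := by rw [h3]; simp
  obtain ⟨q, hq⟩ : ∃ q : Q, orderOf q = 2 := exists_prime_orderOf_dvd_card' 2 (by rw [hQ2])
  have hqC : (q : G) ∈ 𝐂 Q := Subgroup.mem_centralizer_iff.mpr fun q' hq' => by
    haveI := isCyclic_of_prime_card (α := Q) hQ2
    letI : CommGroup Q := IsCyclic.commGroup
    exact congrArg Subtype.val (mul_comm (⟨q', hq'⟩ : Q) q)
  set z : 𝐂 Q := ⟨q, hqC⟩
  have hz2 : orderOf z = 2 := by rw [← Subgroup.orderOf_coe]; show orderOf (q : G) = 2; rw [Subgroup.orderOf_coe, hq]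
  have hzc : ∀ g : 𝐂 Q, z * g = g * z := fun g => Subtype.ext (Subgroup.mem_centralizer_iff.mp g.2 q q.2)
  obtain ⟨w, hw, hw1, hwz⟩ : ∃ w : 𝐂 Q, w ∈ D.subgroupOf (𝐂 Q) ∧ w ≠ 1 ∧ w ≠ z := by
    by_contra hh
    push Not at hh
    have : Nat.card (D.subgroupOf (𝐂 Q)) ≤ 2 := by
      rw [← SetLike.coe_sort_coe, Nat.card_coe_set_eq]
      refine le_trans (Set.ncard_le_ncard (t := ({1, z} : Set (𝐂 Q))) ?_) ((Set.ncard_insert_le _ _).trans (by simp))
      intro w hw
      by_cases h : w = 1
      · exact Or.inl h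
      · exact Or.inr (hh w hw h)
    rw [Nat.card_congr (Subgroup.subgroupOfEquivOfLe hDC).toEquiv, hD4] at this
    omega
  refine rank_eq_one_of_central hM hf.1.2 hd2 hzc hz2 ?_ (Ne.symm hwz) ((brNe_defectGroup hdef).mono ?_)
  · exact orderOf_eq_prime (Subtype.ext (by rw [pow_two]; exact hD2 _ hw)) hw1
  · exact Subgroup.zpowers_le.mpr hw

/-- The number of involution pairs, weighted by centralisers. -/
theorem klein_four_block (hM : IsPModular 2 M) (hB : IsPBlock M B) (hVB : IsDefectGroup 2 M B V)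
    (hV4 : Nat.card V = 4) (hV2 : ∀ x ∈ V, x * x = 1)
    {c : Set (IrrCharacter (𝐂 V))} (hmax : IsMaximalBrauerPair 2 M B V c) :
    ((𝐂 V).relIndex (pairStab M ⊤ V c) = 1 ∨ (𝐂 V).relIndex (pairStab M ⊤ V c) = 3) ∧
      Nat.card B = 4 ∧ blockRank 2 B = (𝐂 V).relIndex (pairStab M ⊤ V c) := by
  have hVc : ∀ y ∈ V, ∀ z ∈ V, y * z = z * y := fun y hy z hz => by
    have := hV2 _ (mul_mem hy hz)
    calc y * z = y * (y * z * (y * z)) * z := by rw [this, mul_one]
      _ = (y * y) * (z * y) * (z * z) := by group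
      _ = z * y := by rw [hV2 y hy, hV2 z hz, one_mul, mul_one]
  set T := pairStab M ⊤ V c
  have hCT : 𝐂 V ≤ T := le_sup_right.trans (local_le_pairStab V c)
  have hTN : T ≤ Subgroup.normalizer (V : Set G) := pairStab_le_normalizer c
  set e := (𝐂 V).relIndex T
  have he : e = 1 ∨ e = 3 := by
    have h6 : e ∣ 6 := card_aut_klein hV4 hTN hCT
    have hodd := odd_inertial_index hM hVc hmax
    have hle : e ≤ 6 := Nat.le_of_dvd (by norm_num) h6
    change ¬ 2 ∣ e at hodd
    interval_cases e <;> simp_all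
  have hd : blockDefect 2 B = 2 := by
    have h := card_defectGroup hM hB hVB
    rw [hV4] at h
    exact (Nat.pow_right_injective le_rfl (h.symm.trans (by norm_num : 4 = 2 ^ 2)) :)
  refine ⟨he, card_eq_four hM hB hd, ?_⟩
  -- the subpairs of order two
  have hsub : ∀ v : {v : V // v ≠ 1}, ∃ f : Set (IrrCharacter (𝐂 (Subgroup.zpowers (v.1 : G)))),
      IsBrauerPairOf 2 M B (Subgroup.zpowers (v.1 : G)) f ∧ SubpairLE 2 M (Subgroup.zpowers (v.1 : G)) f V c := by
    intro v
    obtain ⟨f, hf, hle⟩ := exists_subpair hM hmax.1.1 (Subgroup.zpowers_le.mpr v.1.2)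
    exact ⟨f, (isBrauerPairOf_of_subpairLE hM hmax.1.1 hle).mpr hmax.1, hle⟩
  choose f hfB hfle using hsub
  have hord : ∀ v : {v : V // v ≠ 1}, orderOf (v.1 : G) = 2 := fun v =>
    orderOf_eq_prime (by rw [pow_two]; exact hV2 _ v.1.2) fun h => v.2 (Subtype.ext h)
  have hzeq : ∀ a b : G, orderOf a = 2 → Subgroup.zpowers a = Subgroup.zpowers b → orderOf b = 2 → a = b := by
    intro a b ha h hb
    obtain ⟨i, hi⟩ : a ∈ Subgroup.zpowers b := h ▸ Subgroup.mem_zpowers a
    beta_reduce at hi
    rw [← zpow_mod_orderOf b i, hb] at hi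
    rcases Int.emod_two_eq_zero_or_one i with h2 | h2
    · simp only [Nat.cast_ofNat, h2, zpow_zero] at hi
      rw [← hi] at ha; simp at ha
    · simp only [Nat.cast_ofNat, h2, zpow_one] at hi
      exact hi.symm
  set Inv := univ.filter (fun a : G => orderOf a = 2)
  let P : G → Type _ := fun a =>
    {f : Set (IrrCharacter (𝐂 (Subgroup.zpowers a))) // IsBrauerPairOf 2 M B (Subgroup.zpowers a) f}
  let tgt : (Σ a : G, P a) → BrauerPairIdx G := fun i => ⟨Subgroup.zpowers i.1, i.2.1⟩
  let src : {v : V // v ≠ 1} × G → BrauerPairIdx G := fun q =>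
    ⟨(Subgroup.zpowers (q.1.1 : G)).map (MulAut.conj q.2).toMonoidHom, conjBlock _ q.2 (f q.1)⟩
  have hmap : ∀ (g a : G), (Subgroup.zpowers a).map (MulAut.conj g).toMonoidHom = Subgroup.zpowers (g * a * g⁻¹) :=
    fun g a => by rw [MonoidHom.map_zpowers]; rfl
  have hsrcB : ∀ q, IsBrauerPairOf 2 M B (src q).1 (src q).2 := fun q => isBrauerPairOf_conj hM (hfB q.1) q.2
  -- coincidences between translates
  have hstab : ∀ (v w : {v : V // v ≠ 1}) (g h : G), src (v, g) = src (w, h) →
      (h⁻¹ * g) * (v.1 : G) * (h⁻¹ * g)⁻¹ = (w.1 : G) ∧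
        SubpairLE 2 M ((Subgroup.zpowers (v.1 : G)).map (MulAut.conj (h⁻¹ * g)).toMonoidHom)
          (conjBlock _ (h⁻¹ * g) (f v)) V c := by
    intro v w g h heq
    have e1 := congrArg (fun i : BrauerPairIdx G =>
      (⟨i.1.map (MulAut.conj h⁻¹).toMonoidHom, conjBlock i.1 h⁻¹ i.2⟩ : BrauerPairIdx G)) heq
    simp only [src] at e1
    rw [conjBlock_conjBlock (hfB v).1.2 g h⁻¹, conjBlock_conjBlock (hfB w).1.2 h h⁻¹, inv_mul_cancel] at e1
    have e2 : (⟨(Subgroup.zpowers (w.1 : G)).map (MulAut.conj 1).toMonoidHom, conjBlock _ 1 (f w)⟩ : BrauerPairIdx G)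
        = ⟨Subgroup.zpowers (w.1 : G), f w⟩ := conjBlock_eq_self (hfB w).1.2 (one_mem _)
    rw [e2] at e1
    refine ⟨?_, subpairLE_congr_left e1.symm (hfle w)⟩
    have h1 := (Sigma.mk.inj_iff.mp e1).1
    rw [hmap] at h1
    refine hzeq _ _ ?_ h1 (hord w)
    rw [← MulAut.conj_apply, MulEquiv.orderOf_eq]; exact hord v
  have hsame : ∀ (v : {v : V // v ≠ 1}) (g : G) (k : G), k ∈ Subgroup.centralizer ({(v.1 : G)} : Set G) →
      src (v, g * k) = src (v, g) := by
    intro v g k hk
    show (⟨(Subgroup.zpowers (v.1 : G)).map (MulAut.conj (g * k)).toMonoidHom, conjBlock _ (g * k) (f v)⟩ : BrauerPairIdx G) = _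
    rw [← conjBlock_conjBlock (hfB v).1.2 k g]
    have hk' : k ∈ pairStab M ⊤ (Subgroup.zpowers (v.1 : G)) (f v) :=
      centralizer_le_pairStab _ _ (by rw [centralizer_zpowers]; exact hk)
    exact congrArg (fun i : BrauerPairIdx G =>
      (⟨i.1.map (MulAut.conj g).toMonoidHom, conjBlock i.1 g i.2⟩ : BrauerPairIdx G))
      (conjBlock_eq_self (hfB v).1.2 hk')
  -- which translates of different subpairs coincide
  have hcls : ∀ v w : {v : V // v ≠ 1}, (∃ g h, src (v, g) = src (w, h)) ↔ (e = 3 ∨ v = w) := by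
    intro v w
    constructor
    · rintro ⟨g, h, heq⟩
      refine he.symm.imp id fun he1 => ?_
      obtain ⟨h1, h2⟩ := hstab v w g h heq
      obtain ⟨F, hF⟩ := exists_blockFusionSystem hM hmax
      have hle : T ≤ 𝐂 V := Subgroup.relIndex_eq_one.mp he1
      have hnil := (nilpotent_abelian_iff hM hmax hVc).mpr hle
      set y := h⁻¹ * g
      have hmem : conjHom (Subgroup.zpowers (v.1 : G)) y ∈ F.Hom (Subgroup.zpowers (v.1 : G)) :=
        (hF.2 _ _).mpr ⟨Subgroup.zpowers_le.mpr v.1.2, y, fun u => rfl, subpairLE_le h2, f v, hfle v, h2⟩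
      rw [(nilpotent_iff_inner hM hF).mp hnil] at hmem
      obtain ⟨-, a, ha, hae⟩ := hmem
      have h3 : y * (v.1 : G) * y⁻¹ = a * (v.1 : G) * a⁻¹ := hae ⟨_, Subgroup.mem_zpowers _⟩
      rw [hVc a ha _ v.1.2, mul_inv_cancel_right, h1] at h3
      exact Subtype.ext (Subtype.ext h3.symm)
    · intro hvw
      rcases hvw with h3 | rfl
      swap
      · exact ⟨1, 1, rfl⟩
      -- the stabiliser permutes the three involutions transitively
      obtain ⟨t, ht, htv⟩ : ∃ t ∈ T, t * (v.1 : G) * t⁻¹ = (w.1 : G) := by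
        let act : MulAction T {v : V // v ≠ 1} :=
          { smul := fun t u => ⟨⟨(t : G) * (u.1 : G) * (t : G)⁻¹,
              (Subgroup.mem_normalizer_iff.mp (hTN t.2) _).mp u.1.2⟩, fun h => u.2 (Subtype.ext (by
                simpa using congrArg Subtype.val h))⟩
            one_smul := fun u => Subtype.ext (Subtype.ext
              (show ((1 : T) : G) * (u.1 : G) * ((1 : T) : G)⁻¹ = u.1 by simp))
            mul_smul := fun s t u => Subtype.ext (Subtype.ext
              (show ((s * t : T) : G) * (u.1 : G) * ((s * t : T) : G)⁻¹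
                = (s : G) * ((t : G) * (u.1 : G) * (t : G)⁻¹) * (s : G)⁻¹ by simp [mul_assoc])) }
        haveI : Fintype {v : V // v ≠ 1} := Fintype.ofFinite _
        have hn : Nat.card {v : V // v ≠ 1} = 3 := by
          haveI := Fintype.ofFinite V
          rw [Nat.card_eq_fintype_card, Fintype.card_subtype_compl, ← Nat.card_eq_fintype_card, hV4]; simp
        -- an element of `T` outside the centraliser has order three there, hence no fixed point
        have hfix : ∀ u : {v : V // v ≠ 1}, ¬ ∀ t : T, t • u = u := by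
          intro u hu
          have hsub : T ≤ 𝐂 V := by
            intro t ht
            let σ : Equiv.Perm {v : V // v ≠ 1} := MulAction.toPerm (⟨t, ht⟩ : T)
            have hσu : σ u = u := hu _
            have hσ3 : σ ^ 3 = 1 := by
              have h3' : (⟨t, ht⟩ : T) ^ 3 ∈ (𝐂 V).subgroupOf T := by
                haveI : ((𝐂 V).subgroupOf T).Normal := by
                  refine ⟨fun k hk g => ?_⟩
                  show (g : G) * (k : G) * (g : G)⁻¹ ∈ 𝐂 V
                  exact (Subgroup.mem_normalizer_iff.mp (normalizer_le_normalizer_centralizer' V (hTN g.2)) _).mp hk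
                have := Subgroup.pow_index_mem ((𝐂 V).subgroupOf T) (⟨t, ht⟩ : T)
                rwa [show ((𝐂 V).subgroupOf T).index = 3 from h3] at this
              have e3 : σ ^ 3 = MulAction.toPermHom T {v : V // v ≠ 1} ((⟨t, ht⟩ : T) ^ 3) := by
                rw [map_pow]; rfl
              rw [e3]
              refine Equiv.ext fun x => Subtype.ext (Subtype.ext ?_)
              show (((⟨t, ht⟩ : T) ^ 3 : T) : G) * (x.1 : G) * (((⟨t, ht⟩ : T) ^ 3 : T) : G)⁻¹ = x.1
              rw [mul_inv_eq_iff_eq_mul]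
              exact (Subgroup.mem_centralizer_iff.mp h3' _ x.1.2).symm
            -- a permutation of three points of order dividing three with a fixed point is trivial
            have hσ1 : σ = 1 := by
              by_contra hne
              have hord3 : orderOf σ = 3 := orderOf_eq_prime hσ3 hne
              obtain ⟨x, hx⟩ : ∃ x, σ x ≠ x := by
                by_contra hall
                push Not at hall
                exact hne (Equiv.ext hall)
              have hsupp : σ.support.card ≤ 2 := by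
                calc σ.support.card ≤ (univ.erase u).card :=
                      Finset.card_le_card fun y hy => Finset.mem_erase.mpr
                        ⟨fun h => Equiv.Perm.mem_support.mp hy (h ▸ hσu), Finset.mem_univ _⟩
                  _ = 2 := by
                    rw [Finset.card_erase_of_mem (Finset.mem_univ _), Finset.card_univ,
                      ← Nat.card_eq_fintype_card, hn]
              have hcyc : σ.IsCycle := Equiv.Perm.isCycle_of_prime_order' (hord3 ▸ Nat.prime_three) (by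
                rw [← Nat.card_eq_fintype_card, hn, hord3]; norm_num)
              have := hcyc.orderOf
              omega
            refine Subgroup.mem_centralizer_iff.mpr fun x hx => ?_
            by_cases hx1 : x = 1
            · simp [hx1]
            have h2 := congrArg (fun s : Equiv.Perm {v : V // v ≠ 1} =>
              ((s ⟨⟨x, hx⟩, fun h => hx1 (congrArg Subtype.val h)⟩).1 : G)) hσ1
            exact (mul_inv_eq_iff_eq_mul.mp h2).symm
          have h1 : e = 1 := Subgroup.relIndex_eq_one.mpr hsub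
          omega
        -- orbits have size three
        have horb : ∀ u : {v : V // v ≠ 1}, MulAction.orbit T u = Set.univ := by
          intro u
          have hdvd : Nat.card (MulAction.orbit T u) ∣ e := by
            rw [Nat.card_coe_set_eq, ← MulAction.index_stabilizer]
            refine Subgroup.index_dvd_of_le fun k hk => ?_
            refine MulAction.mem_stabilizer_iff.mpr (Subtype.ext (Subtype.ext ?_))
            show (k : G) * (u.1 : G) * (k : G)⁻¹ = u.1
            rw [mul_inv_eq_iff_eq_mul]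
            exact (Subgroup.mem_centralizer_iff.mp hk _ u.1.2).symm
          rw [h3] at hdvd
          rcases (Nat.dvd_prime Nat.prime_three).mp hdvd with h1 | h1
          · exfalso
            refine hfix u fun t => ?_
            obtain ⟨z, hz⟩ := Nat.card_eq_one_iff_exists.mp h1
            exact congrArg Subtype.val ((hz ⟨t • u, ⟨t, rfl⟩⟩).trans (hz ⟨u, MulAction.mem_orbit_self u⟩).symm)
          · refine Set.eq_univ_of_univ_subset ?_
            refine (Set.eq_of_subset_of_ncard_le (Set.subset_univ _) ?_).ge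
            rw [Set.ncard_univ, hn, ← Nat.card_coe_set_eq, h1]
        obtain ⟨t, ht⟩ : w ∈ MulAction.orbit T v := (horb v) ▸ Set.mem_univ w
        exact ⟨t, t.2, congrArg (fun u : {v : V // v ≠ 1} => (u.1 : G)) ht⟩
      refine ⟨t, 1, ?_⟩
      have hQ : (Subgroup.zpowers (v.1 : G)).map (MulAut.conj t).toMonoidHom = Subgroup.zpowers (w.1 : G) := by
        rw [hmap, htv]
      have e2 : src (w, (1 : G)) = ⟨Subgroup.zpowers (w.1 : G), f w⟩ := conjBlock_eq_self (hfB w).1.2 (one_mem _)
      rw [e2]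
      have hle' : SubpairLE 2 M ((Subgroup.zpowers (v.1 : G)).map (MulAut.conj t).toMonoidHom)
          (conjBlock _ t (f v)) V c :=
        subpairLE_congr_right (conjBlock_eq_self hmax.1.1.2 ht) (subpairLE_conj hM (hfle v) t)
      exact pairIdx_unique hM hmax.1.1 hQ hle' (hfle w)
  -- the fibres of the translation map
  have htgt_inj : ∀ i j : (Σ a : G, P a), orderOf i.1 = 2 → orderOf j.1 = 2 → tgt i = tgt j → i = j := by
    rintro ⟨a, f₁, hf₁⟩ ⟨b, f₂, hf₂⟩ ha hb h
    obtain ⟨h1, h2⟩ := Sigma.mk.inj_iff.mp h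
    obtain rfl := hzeq a b ha h1 hb
    obtain rfl := eq_of_heq h2
    rfl
  haveI : ∀ a, Fintype (P a) := fun a => Fintype.ofFinite _
  set Pairs := Inv.sigma fun a => (univ : Finset (P a))
  have hmaps : ∀ q : {v : V // v ≠ 1} × G, ∃ i ∈ Pairs, tgt i = src q := by
    intro q
    have ho : orderOf (q.2 * (q.1.1 : G) * q.2⁻¹) = 2 := by
      rw [← MulAut.conj_apply, MulEquiv.orderOf_eq]; exact hord q.1
    have h := hsrcB q
    have hQ := hmap q.2 (q.1.1 : G)
    revert h
    show IsBrauerPairOf 2 M B ((Subgroup.zpowers (q.1.1 : G)).map (MulAut.conj q.2).toMonoidHom)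
        (conjBlock _ q.2 (f q.1)) → _
    simp only [src]
    generalize conjBlock (Subgroup.zpowers (q.1.1 : G)) q.2 (f q.1) = b
    revert b
    rw [hQ]
    intro b hb
    exact ⟨⟨_, b, hb⟩, by simp [Pairs, Inv, ho], rfl⟩
  choose Φ hΦmem hΦ using hmaps
  have hsurj : ∀ i ∈ Pairs, ∃ q, Φ q = i := by
    intro i hi
    have ho : orderOf i.1 = 2 := (Finset.mem_filter.mp (Finset.mem_sigma.mp hi).1).2
    obtain ⟨x, hx⟩ := exists_conj_le_maximal hM hmax i.2.2
    have hmem : x * i.1 * x⁻¹ ∈ V := subpairLE_le hx (by rw [hmap]; exact Subgroup.mem_zpowers _)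
    let v : {v : V // v ≠ 1} := ⟨⟨_, hmem⟩, fun h => by
      have h1 : x * i.1 * x⁻¹ = 1 := congrArg Subtype.val h
      rw [conj_eq_one_iff] at h1
      simp [h1] at ho⟩
    refine ⟨(v, x⁻¹), htgt_inj _ _ ?_ ho ?_⟩
    · exact (Finset.mem_filter.mp (Finset.mem_sigma.mp (hΦmem _)).1).2
    · rw [hΦ]
      have h1 := pairIdx_unique hM hmax.1.1 (hmap x i.1) hx (hfle v)
      have h2 := congrArg (fun j : BrauerPairIdx G =>
        (⟨j.1.map (MulAut.conj x⁻¹).toMonoidHom, conjBlock j.1 x⁻¹ j.2⟩ : BrauerPairIdx G)) h1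
      simp only at h2
      rw [conjBlock_conjBlock i.2.2.1.2 x x⁻¹, inv_mul_cancel, conjBlock_eq_self i.2.2.1.2 (one_mem _)] at h2
      exact h2.symm
  haveI : Fintype {v : V // v ≠ 1} := Fintype.ofFinite _
  have hn : Fintype.card {v : V // v ≠ 1} = 3 := by
    haveI := Fintype.ofFinite V
    rw [Fintype.card_subtype_compl, ← Nat.card_eq_fintype_card, hV4]; simp
  have hfib : ∀ i ∈ Pairs, (univ.filter fun q => Φ q = i).card
      = e * Nat.card (Subgroup.centralizer ({i.1} : Set G)) := by
    intro i hi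
    obtain ⟨⟨v₀, g₀⟩, hq₀⟩ := hsurj i hi
    have hiff : ∀ q, Φ q = i ↔ src q = src (v₀, g₀) := by
      intro q
      rw [← hq₀]
      refine ⟨fun h => by rw [← hΦ q, ← hΦ (v₀, g₀), h], fun h => htgt_inj _ _
        (Finset.mem_filter.mp (Finset.mem_sigma.mp (hΦmem q)).1).2
        (Finset.mem_filter.mp (Finset.mem_sigma.mp (hΦmem _)).1).2 (by rw [hΦ, hΦ, h])⟩
    have hcentC : ∀ v g, src (v, g) = src (v₀, g₀) →
        Nat.card (Subgroup.centralizer ({(v.1 : G)} : Set G)) = Nat.card (Subgroup.centralizer ({i.1} : Set G)) := by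
      intro v g h
      have h1 := (Sigma.mk.inj_iff.mp ((hΦ (v, g)).trans h |>.trans (hΦ (v₀, g₀)).symm |>.trans (congrArg tgt hq₀))).1
      have h2 : (Sigma.fst (tgt (Φ (v, g)))) = Subgroup.zpowers (g * (v.1 : G) * g⁻¹) := by
        rw [hΦ]; exact hmap g _
      have h3 : g * (v.1 : G) * g⁻¹ = i.1 := hzeq _ _ (by rw [← MulAut.conj_apply, MulEquiv.orderOf_eq]; exact hord v)
        (h2.symm.trans h1) (Finset.mem_filter.mp (Finset.mem_sigma.mp hi).1).2
      rw [← h3, ← conjSub_centralizer_singleton, card_conjSub]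
    rw [Finset.filter_congr fun q _ => hiff q]
    rw [Finset.card_filter, ← Finset.univ_product_univ, Finset.sum_product]
    rw [Finset.sum_congr rfl (g := fun v => if (e = 3 ∨ v = v₀) then
      Nat.card (Subgroup.centralizer ({i.1} : Set G)) else 0) fun v _ => ?_]
    · rcases he with h1 | h3
      · simp [h1, Finset.sum_ite_eq']
      · simp [h3, hn]
    split_ifs with hv
    · obtain ⟨g, h, hgh⟩ := (hcls v v₀).mpr hv
      -- move the coincidence to the base point
      have hbase : src (v, g₀ * h⁻¹ * g) = src (v₀, g₀) := by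
        have := congrArg (fun j : BrauerPairIdx G =>
          (⟨j.1.map (MulAut.conj (g₀ * h⁻¹)).toMonoidHom, conjBlock j.1 (g₀ * h⁻¹) j.2⟩ : BrauerPairIdx G)) hgh
        simp only [src] at this
        rw [conjBlock_conjBlock (hfB v).1.2, conjBlock_conjBlock (hfB v₀).1.2, inv_mul_cancel_right] at this
        exact this
      set g₁ := g₀ * h⁻¹ * g
      rw [← Finset.card_filter, ← hcentC v g₁ hbase, Nat.card_eq_fintype_card, ← Fintype.card_coe]
      refine Fintype.card_congr
        { toFun := fun y => ⟨g₁⁻¹ * y.1, ?_⟩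
          invFun := fun k => ⟨g₁ * k.1, Finset.mem_filter.mpr ⟨Finset.mem_univ _, by
            rw [hsame v g₁ k.1 k.2]; exact hbase⟩⟩
          left_inv := fun y => by simp
          right_inv := fun k => by simp }
      have hy := (Finset.mem_filter.mp y.2).2
      obtain ⟨h1, -⟩ := hstab v v y.1 g₁ (hy.trans hbase.symm)
      exact Subgroup.mem_centralizer_singleton_iff.mpr (mul_inv_eq_iff_eq_mul.mp h1)
    · refine Finset.sum_eq_zero fun g _ => if_neg fun h => hv ((hcls v v₀).mp ⟨g, g₀, h⟩)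
  have hcount : 3 * Nat.card G = e * ∑ a ∈ Inv, Nat.card (Subgroup.centralizer ({a} : Set G)) * secRank M 2 B a := by
    have h1 := Finset.card_eq_sum_card_fiberwise (s := (univ : Finset ({v : V // v ≠ 1} × G))) (t := Pairs)
      (f := Φ) (fun q _ => hΦmem q)
    rw [Finset.card_univ, Fintype.card_prod, hn, ← Nat.card_eq_fintype_card, Finset.sum_congr rfl hfib,
      Finset.sum_sigma] at h1
    rw [h1, Finset.mul_sum]
    refine Finset.sum_congr rfl fun a ha => ?_
    have ha2 := (Finset.mem_filter.mp ha).2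
    simp only [Finset.sum_const, smul_eq_mul, Finset.card_univ]
    rw [← Nat.card_eq_fintype_card,
      card_pairs_eq_secRank hM (centralizer_zpowers a) (isPGroup_zpowers ⟨1, by rw [ha2, pow_one]⟩)
        fun f' hf' => pair_rank_one hM hB hVB hV4 hV2 hmax (by rw [Nat.card_zpowers, ha2]) hf']
    ring
  -- no other sections contribute
  have hother : ∀ a ∈ univ.filter (fun a : G => ∃ k : ℕ, orderOf a = 2 ^ k), a ∉ insert (1 : G) Inv →
      Nat.card (Subgroup.centralizer ({a} : Set G)) * secRank M 2 B a = 0 := by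
    intro a ha hna
    simp only [Inv, Finset.mem_insert, Finset.mem_filter, Finset.mem_univ, true_and, not_or] at hna
    refine Nat.mul_eq_zero.mpr (Or.inr (Finset.sum_eq_zero fun b hb => ?_))
    exfalso
    have hap := (Finset.mem_filter.mp ha).2
    have hind := (Finset.mem_filter.mp hb).2
    revert b
    rw [← centralizer_zpowers a]
    intro b hb hind
    obtain ⟨x, hx⟩ := exists_conj_le_maximal hM hmax ((isBrauerPairOf_iff hM).mpr ⟨isPGroup_zpowers hap, hind⟩)
    have hmem : x * a * x⁻¹ ∈ V := subpairLE_le hx (by rw [hmap]; exact Subgroup.mem_zpowers _)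
    have h2 : a * a = 1 := by
      have h3 := hV2 _ hmem
      calc a * a = x⁻¹ * ((x * a * x⁻¹) * (x * a * x⁻¹)) * x := by group
        _ = 1 := by rw [h3]; simp
    exact hna.2 (orderOf_eq_prime (by rw [pow_two]; exact h2) hna.1)
  have htot := card_mul_card_block hM hB
  rw [card_eq_four hM hB hd, ← Finset.sum_subset (fun a ha => ?_) hother,
    Finset.sum_insert (by simp [Inv]), secRank_one hM hB] at htot
  swap
  · simp only [Inv, Finset.mem_insert, Finset.mem_filter, Finset.mem_univ, true_and] at ha ⊢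
    rcases ha with rfl | ha
    exacts [⟨0, by simp⟩, ⟨1, by rw [ha, pow_one]⟩]
  rw [show Subgroup.centralizer ({(1 : G)} : Set G) = ⊤ from
    top_le_iff.mp fun g _ => Subgroup.mem_centralizer_singleton_iff.mpr (by simp), Subgroup.card_top] at htot
  generalize ∑ a ∈ Inv, Nat.card (Subgroup.centralizer ({a} : Set G)) * secRank M 2 B a = S at htot hcount
  show blockRank 2 B = e
  have hG : 0 < Nat.card G := Nat.card_pos
  rcases he with h1 | h3
  · rw [h1] at hcount ⊢
    nlinarith
  · rw [h3] at hcount ⊢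
    nlinarith

end Two

end Cfsg.Lib.Blocks
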