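import Cfsg.Agent.Lib.Blocks.HeightBound
import Cfsg.Agent.Lib.Blocks.KleinFour
import Cfsg.Agent.Lib.Blocks.RankTwo
import Cfsg.Agent.Lib.Blocks.BlockNilpotent
import Cfsg.Agent.Lib.Blocks.CentralProduct

/-!
# Nilpotent blocks with cyclic defect group
-/

namespace Cfsg.Lib.Blocks

open Cfsg.Lib.Characters Finset
open scoped ComplexConjugate Classical

set_option linter.unusedSectionVars false
set_option linter.style.haveILetI false
set_option linter.style.longLine false

universe u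

variable {G : Type u} [Group G] [Fintype G] {M : Ideal Cfsg.AlgInt} [M.IsPrime]
variable {p : ℕ} [hp : Fact p.Prime]

local notation "𝐂" Q:max => Subgroup.centralizer ((Q : Subgroup G) : Set G)

/-- The inertial index of an abelian maximal pair is prime to `p`. -/
theorem inertial_index_coprime (hM : IsPModular p M) {B : Set (IrrCharacter G)} {P : Subgroup G}
    (hP : ∀ x ∈ P, ∀ y ∈ P, x * y = y * x)
    {c : Set (IrrCharacter (𝐂 P))} (hmax : IsMaximalBrauerPair p M B P c) :
    ¬ p ∣ (𝐂 P).relIndex (pairStab M ⊤ P c) := by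
  set T := pairStab M ⊤ P c
  have hVC : P ≤ 𝐂 P := fun x hx => Subgroup.mem_centralizer_iff.mpr fun y hy => hP y hy x hx
  have hCT : 𝐂 P ≤ T := le_sup_right.trans (local_le_pairStab P c)
  have hD : IsBrMax p T (subE M P c) P :=
    isBrMax_of_isMaxIn hmax.1.1 (isMaxIn_of_maximal hM hmax ⊤) (hVC.trans hCT) le_rfl
  have hcard := card_autInd_brMax hM hmax.1.1 hD
  have haut : ∀ X : Subgroup G, X ≤ Subgroup.normalizer (P : Set G) →
      Nat.card (autInducedBy X P) * Nat.card (X ⊓ 𝐂 P : Subgroup G) = Nat.card X := by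
    intro X hX
    have := Fusion.card_autInducedBy_mul X P
    rwa [show FusionSystem.normalizerIn X P = X from inf_eq_left.mpr hX] at this
  have h1 : Nat.card (autInducedBy P P) = 1 := by
    have := haut P Subgroup.le_normalizer
    rw [inf_eq_left.mpr hVC] at this
    exact Nat.eq_of_mul_eq_mul_right Nat.card_pos (this.trans (one_mul _).symm)
  have h2 : Nat.card (autInducedBy T P) = (𝐂 P).relIndex T := by
    have := haut T (pairStab_le_normalizer c)
    rw [inf_eq_right.mpr hCT] at this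
    refine Nat.eq_of_mul_eq_mul_right (Nat.card_pos (α := (𝐂 P : Subgroup G))) ?_
    rw [this, Subgroup.relIndex, ← Nat.card_congr (Subgroup.subgroupOfEquivOfLe hCT).toEquiv,
      Subgroup.index_mul_card]
  rw [h1, h2] at hcard
  intro hd
  have := hp.out.factorization_pos_of_dvd
    (show (𝐂 P).relIndex T ≠ 0 by rw [← h2]; exact Nat.card_pos.ne') hd
  exact absurd hcard.symm (Nat.one_lt_pow this.ne' hp.out.one_lt).ne'

/-- An element of the stabilizer fixing a nontrivial element of a cyclic defect group centralizes it. -/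
theorem mem_centralizer_of_fix (hM : IsPModular p M) {B : Set (IrrCharacter G)} {P : Subgroup G}
    (hcyc : IsCyclic P) {c : Set (IrrCharacter (𝐂 P))} (hmax : IsMaximalBrauerPair p M B P c)
    {y : G} (hy : y ∈ pairStab M ⊤ P c) {z : G} (hzP : z ∈ P) (hz1 : z ≠ 1) (hyz : y * z * y⁻¹ = z) :
    y ∈ 𝐂 P := by
  have hP : ∀ a ∈ P, ∀ b ∈ P, a * b = b * a := fun a ha b hb => by
    letI : CommGroup P := hcyc.commGroup
    exact congrArg Subtype.val (mul_comm (⟨a, ha⟩ : P) ⟨b, hb⟩)
  obtain ⟨g, hg⟩ := hcyc.exists_generator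
  have hgen : ∀ a ∈ P, ∃ i : ℤ, (g : G) ^ i = a := fun a ha => by
    obtain ⟨i, hi⟩ := Subgroup.mem_zpowers_iff.mp (hg ⟨a, ha⟩)
    exact ⟨i, by simpa using congrArg Subtype.val hi⟩
  have hcen : ∀ w : G, w * (g : G) * w⁻¹ = g → w ∈ 𝐂 P := fun w hw =>
    Subgroup.mem_centralizer_iff.mpr fun a ha => by
      obtain ⟨i, rfl⟩ := hgen a ha
      exact ((show Commute w (g : G) from mul_inv_eq_iff_eq_mul.mp hw).zpow_right i).eq.symm
  obtain ⟨n, hn⟩ := IsPGroup.iff_orderOf.mp hmax.1.1.1 g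
  rw [← Subgroup.orderOf_coe] at hn
  obtain ⟨m, hm⟩ := hgen _ ((Subgroup.mem_normalizer_iff.mp hy.2.1 _).mp g.2)
  -- a power of `y` of exponent a power of `p`
  have hpow : y ^ p ^ n ∈ 𝐂 P := by
    have hiter : ∀ k : ℕ, y ^ k * (g : G) * (y ^ k)⁻¹ = (g : G) ^ (m ^ k) := by
      intro k
      induction k with
      | zero => simp
      | succ k ih =>
        calc y ^ (k + 1) * (g : G) * (y ^ (k + 1))⁻¹ = y * (y ^ k * (g : G) * (y ^ k)⁻¹) * y⁻¹ := by
              rw [pow_succ']; group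
          _ = y * (g : G) ^ (m ^ k) * y⁻¹ := by rw [ih]
          _ = (y * (g : G) * y⁻¹) ^ (m ^ k) := by rw [conj_zpow]
          _ = _ := by rw [← hm, ← zpow_mul, pow_succ']
    obtain ⟨i, hi⟩ := hgen z hzP
    have hfix : (g : G) ^ (m * i) = (g : G) ^ i := by
      rw [zpow_mul, hm, conj_zpow, hi, hyz]
    have hdvd : (p : ℤ) ^ n ∣ (m - 1) * i := by
      have h1 : (g : G) ^ ((m - 1) * i) = 1 := by
        rw [sub_mul, one_mul, zpow_sub, hfix, mul_inv_cancel]
      have h2 := orderOf_dvd_iff_zpow_eq_one.mpr h1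
      rw [hn] at h2; exact_mod_cast h2
    have hni : ¬ (p : ℤ) ^ n ∣ i := fun h => hz1 (by
      rw [← hi]
      exact orderOf_dvd_iff_zpow_eq_one.mp (by rw [hn]; exact_mod_cast h))
    have hpm : (p : ℤ) ∣ m - 1 := by
      by_contra h
      exact hni ((((Nat.prime_iff_prime_int.mp hp.out).coprime_iff_not_dvd.mpr h).pow_left).dvd_of_dvd_mul_left hdvd)
    refine hcen _ ?_
    rw [hiter]
    have h3 : (p : ℤ) ^ n ∣ m ^ p ^ n - 1 := by
      have h4 := dvd_sub_pow_of_dvd_sub hpm n
      rw [one_pow] at h4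
      exact (pow_dvd_pow _ (Nat.le_succ n)).trans h4
    conv_rhs => rw [← zpow_one (g : G)]
    rw [← mul_inv_eq_one, ← zpow_sub]
    refine orderOf_dvd_iff_zpow_eq_one.mp ?_
    rw [hn]; exact_mod_cast h3
  -- a power of `y` of exponent prime to `p`
  haveI : ((𝐂 P).subgroupOf (pairStab M ⊤ P c)).Normal := ⟨fun a ha t => by
    rw [Subgroup.mem_subgroupOf] at ha ⊢
    exact (Subgroup.mem_normalizer_iff.mp (normalizer_le_normalizer_centralizer' P t.2.2.1) _).mp ha⟩
  have hidx : y ^ (𝐂 P).relIndex (pairStab M ⊤ P c) ∈ 𝐂 P :=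
    Subgroup.mem_subgroupOf.mp (Subgroup.pow_index_mem ((𝐂 P).subgroupOf (pairStab M ⊤ P c)) ⟨y, hy⟩)
  have hcop : Nat.Coprime ((𝐂 P).relIndex (pairStab M ⊤ P c)) (p ^ n) :=
    Nat.Coprime.pow_right _ ((Nat.Prime.coprime_iff_not_dvd hp.out).mpr (inertial_index_coprime hM hP hmax)).symm
  have := Nat.gcd_eq_gcd_ab ((𝐂 P).relIndex (pairStab M ⊤ P c)) (p ^ n)
  rw [hcop.gcd_eq_one] at this
  rw [← zpow_one y, show (1 : ℤ) = _ from this, zpow_add, zpow_mul, zpow_mul, zpow_natCast, zpow_natCast]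
  exact mul_mem (Subgroup.zpow_mem _ hidx _) (Subgroup.zpow_mem _ hpow _)

/-- A pair below a maximal one, with centralizer containing the defect group, has that defect group. -/
theorem isDefectGroup_centralizer_of_le (hM : IsPModular p M) {B : Set (IrrCharacter G)} {P Q : Subgroup G}
    {c : Set (IrrCharacter (𝐂 P))} {f : Set (IrrCharacter (𝐂 Q))}
    (hmax : IsMaximalBrauerPair p M B P c) (hle : SubpairLE p M Q f P c) (hPQ : P ≤ 𝐂 Q) :
    IsDefectGroup p M f (P.subgroupOf (𝐂 Q)) := by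
  have hfB := (isBrauerPairOf_of_subpairLE hM hmax.1.1 hle).mpr hmax.1
  have hbr := brNe_centralizer_of_le hM hmax.1.1 hle
  rw [inf_eq_left.mpr hPQ] at hbr
  refine (isDefectGroup_centralizer_iff hM hfB.1.2 hPQ).mpr ⟨hmax.1.1.1, hPQ, hbr, fun S hS hSC hbS => ?_⟩
  obtain ⟨D, hD⟩ := exists_isBrMax_centralizer (p := p) hM hfB.1.2
  obtain ⟨x, -, -, hcard⟩ := exists_conj_brMax_centralizer hM hmax hfB
  exact (hD.2.2.2 S hS hSC hbS).trans ((hcard D hD).le.trans (Subgroup.card_le_of_le inf_le_left))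

/-- The idempotents of the blocks of `C(a)` inducing `B`, inside the group ring of `G`. -/
noncomputable def secIdems (M : Ideal Cfsg.AlgInt) [M.IsPrime] (B : Set (IrrCharacter G)) (a : G) :
    Finset (MonoidAlgebra (ResF M) G) :=
  ((blocks (Subgroup.centralizer ({a} : Set G)) M).filter
    (fun b => IsInducedBlock M (Subgroup.centralizer ({a} : Set G)) b B)).image
      (fun b => incSub (Subgroup.centralizer ({a} : Set G)) (bIdem M b))

theorem subE_mem_secIdems (hM : IsPModular p M) {B : Set (IrrCharacter G)} {Q : Subgroup G} {a : G}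
    (hQ : 𝐂 Q = Subgroup.centralizer ({a} : Set G)) {f : Set (IrrCharacter (𝐂 Q))}
    (hf : IsBrauerPairOf p M B Q f) : subE M Q f ∈ secIdems M B a := by
  have key : ∀ (H : Subgroup G), 𝐂 Q = H → subE M Q f ∈ ((blocks H M).filter
      (fun b => IsInducedBlock M H b B)).image (fun b => incSub H (bIdem M b)) := by
    intro H hH
    subst hH
    refine Finset.mem_image.mpr ⟨f, Finset.mem_filter.mpr ⟨mem_blocks.mpr hf.1.2, ?_⟩, ?_⟩
    · exact ((isBrauerPairOf_iff hM).mp hf).2
    · rfl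
  exact key _ hQ

theorem card_secIdems_le (B : Set (IrrCharacter G)) (a : G) : (secIdems M B a).card ≤ secRank M p B a := by
  refine Finset.card_image_le.trans ?_
  rw [secRank, Finset.card_eq_sum_ones]
  exact Finset.sum_le_sum fun b hb =>
    one_le_blockRank (p := p) (IsPBlock.nonempty (mem_blocks.mp (Finset.mem_filter.mp hb).1))

/-- The sections of the nontrivial elements of an unfused abelian defect group. -/
theorem card_le_sum_sections (hM : IsPModular p M) {B : Set (IrrCharacter G)} {P : Subgroup G}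
    {c : Set (IrrCharacter (𝐂 P))} (hmax : IsMaximalBrauerPair p M B P c)
    (hab : ∀ x ∈ P, ∀ y ∈ P, x * y = y * x) (hT : pairStab M ⊤ P c ≤ 𝐂 P) :
    (Nat.card P - 1) * Nat.card G
      ≤ ∑ a ∈ (univ.filter (fun a : G => ∃ k : ℕ, orderOf a = p ^ k)).erase 1,
          Nat.card (Subgroup.centralizer ({a} : Set G)) * secRank M p B a := by
  set A := (univ.filter (fun a : G => ∃ k : ℕ, orderOf a = p ^ k)).erase 1
  have hBD := isDefectGroup_maximal hM hmax
  have hsub : ∀ z : {z : P // z ≠ 1}, ∃ f : Set (IrrCharacter (𝐂 (Subgroup.zpowers (z.1 : G)))),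
      IsBrauerPairOf p M B (Subgroup.zpowers (z.1 : G)) f ∧ SubpairLE p M (Subgroup.zpowers (z.1 : G)) f P c := by
    intro z
    obtain ⟨f, -, hle⟩ := exists_subpair hM hmax.1.1 (Subgroup.zpowers_le.mpr z.1.2)
    exact ⟨f, (isBrauerPairOf_of_subpairLE hM hmax.1.1 hle).mpr hmax.1, hle⟩
  choose f hfB hfle using hsub
  let φ : {z : P // z ≠ 1} × G → Σ _ : G, MonoidAlgebra (ResF M) G := fun q =>
    ⟨q.2 * (q.1.1 : G) * q.2⁻¹, cjE q.2 (subE M (Subgroup.zpowers (q.1.1 : G)) (f q.1))⟩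
  set T := A.sigma fun a => secIdems M B a
  have hmem : ∀ q, φ q ∈ T := by
    intro q
    refine Finset.mem_sigma.mpr ⟨Finset.mem_erase.mpr ⟨fun h => q.1.2 (Subtype.ext (conj_eq_one_iff.mp h)),
      Finset.mem_filter.mpr ⟨Finset.mem_univ _, ?_⟩⟩, ?_⟩
    · obtain ⟨k, hk⟩ := IsPGroup.iff_orderOf.mp hmax.1.1.1 q.1.1
      refine ⟨k, ?_⟩
      show orderOf (q.2 * (q.1.1 : G) * q.2⁻¹) = p ^ k
      rw [← hk, ← Subgroup.orderOf_coe]
      exact MulEquiv.orderOf_eq (MulAut.conj q.2) (q.1.1 : G)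
    · show cjE q.2 (subE M (Subgroup.zpowers (q.1.1 : G)) (f q.1)) ∈ secIdems M B (q.2 * (q.1.1 : G) * q.2⁻¹)
      rw [← subE_conjBlock (hfB q.1).1.2]
      refine subE_mem_secIdems hM ?_ (isBrauerPairOf_conj hM (hfB q.1) q.2)
      rw [MonoidHom.map_zpowers, centralizer_zpowers]
      rfl
  have hfib : ∀ t ∈ T, (univ.filter fun q => φ q = t).card ≤ Nat.card (Subgroup.centralizer ({t.1} : Set G)) := by
    intro t _
    by_cases he : (univ.filter fun q => φ q = t) = ∅
    · rw [he]; simp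
    obtain ⟨q₀, hq₀⟩ := Finset.nonempty_iff_ne_empty.mpr he
    rw [Finset.mem_filter] at hq₀
    have heq : ∀ q, φ q = t → q.1 = q₀.1 ∧
        q.2 * q₀.2⁻¹ ∈ Subgroup.centralizer ({t.1} : Set G) := by
      intro q hq
      have h1 : φ q = φ q₀ := hq.trans hq₀.2.symm
      simp only [φ, Sigma.mk.inj_iff, heq_eq_eq] at h1
      obtain ⟨ha, hE⟩ := h1
      have ht1 : (q₀.2⁻¹ * q.2) * (q.1.1 : G) * (q₀.2⁻¹ * q.2)⁻¹ = (q₀.1.1 : G) := by
        calc _ = q₀.2⁻¹ * (q.2 * (q.1.1 : G) * q.2⁻¹) * q₀.2 := by group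
          _ = _ := by rw [ha]; group
      have hcc : ∀ z : {z : P // z ≠ 1}, P ≤ 𝐂 (Subgroup.zpowers (z.1 : G)) := fun z d hd => by
        rw [centralizer_zpowers, Subgroup.mem_centralizer_singleton_iff]
        exact hab d hd _ z.1.2
      obtain ⟨y, hy, hyz⟩ := exists_mem_pairStab_of_fused hM hBD hmax.1 (hcc q.1) (hcc q₀.1)
        (hfle q.1) (hfle q₀.1) ht1 (by rw [← cjE_cjE, hE, cjE_cjE, inv_mul_cancel, cjE_one])
      have hz : q.1 = q₀.1 := by
        refine Subtype.ext (Subtype.ext ?_)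
        rw [← hyz, ← Subgroup.mem_centralizer_iff.mp (hT hy) _ q.1.1.2, mul_inv_cancel_right]
      refine ⟨hz, Subgroup.mem_centralizer_singleton_iff.mpr ?_⟩
      have ht : t.1 = q₀.2 * (q₀.1.1 : G) * q₀.2⁻¹ := by rw [← hq₀.2]
      rw [hz] at ha
      calc q.2 * q₀.2⁻¹ * t.1 = q.2 * (q₀.1.1 : G) * q.2⁻¹ * (q.2 * q₀.2⁻¹) := by rw [ht]; group
        _ = _ := by rw [ha, ht]
    rw [Nat.card_eq_fintype_card, ← Finset.card_univ]
    refine Finset.card_le_card_of_injOn
      (fun q => if h : q.2 * q₀.2⁻¹ ∈ Subgroup.centralizer ({t.1} : Set G) then ⟨_, h⟩ else 1)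
      (fun q _ => Finset.mem_univ _) ?_
    intro q hq q' hq' h
    simp only [Finset.coe_filter, Finset.mem_univ, true_and, Set.mem_setOf_eq] at hq hq'
    simp only [dif_pos (heq q hq).2, dif_pos (heq q' hq').2, Subtype.mk.injEq] at h
    exact Prod.ext ((heq q hq).1.trans (heq q' hq').1.symm) (mul_right_cancel h)
  have hdom : Fintype.card {z : P // z ≠ 1} = Nat.card P - 1 := by
    rw [Fintype.card_subtype_compl, Fintype.card_subtype_eq, Nat.card_eq_fintype_card]
  calc (Nat.card P - 1) * Nat.card G = (univ : Finset ({z : P // z ≠ 1} × G)).card := by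
        rw [Finset.card_univ, Fintype.card_prod, hdom, Nat.card_eq_fintype_card (α := G)]
    _ = ∑ t ∈ T, (univ.filter fun q => φ q = t).card :=
        Finset.card_eq_sum_card_fiberwise fun q _ => hmem q
    _ ≤ ∑ t ∈ T, Nat.card (Subgroup.centralizer ({t.1} : Set G)) := Finset.sum_le_sum hfib
    _ ≤ _ := by
        rw [Finset.sum_sigma]
        refine Finset.sum_le_sum fun a _ => ?_
        dsimp only
        rw [Finset.sum_const, smul_eq_mul, mul_comm]
        exact Nat.mul_le_mul_left _ (card_secIdems_le B a)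

/-- A block of `C(P)` with abelian defect group `P` has rank one. -/
theorem blockRank_centralizer_le (hM : IsPModular p M) {P : Subgroup G}
    (hab : ∀ x ∈ P, ∀ y ∈ P, x * y = y * x) {c : Set (IrrCharacter (𝐂 P))} (hc : IsPBlock M c)
    (hD : IsDefectGroup p M c (P.subgroupOf (𝐂 P))) : blockRank p c ≤ 1 := by
  haveI : (P.subgroupOf (𝐂 P)).Normal := ⟨fun a ha t => by
    rw [Subgroup.mem_subgroupOf] at ha ⊢
    rw [Subgroup.coe_mul, Subgroup.coe_mul, Subgroup.coe_inv,
      ← Subgroup.mem_centralizer_iff.mp t.2 _ ha, mul_inv_cancel_right]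
    exact ha⟩
  have htop : P.subgroupOf (𝐂 P) ⊔ Subgroup.centralizer ((P.subgroupOf (𝐂 P) : Subgroup (𝐂 P)) : Set (𝐂 P)) = ⊤ := by
    refine top_le_iff.mp fun g _ => Subgroup.mem_sup_right (Subgroup.mem_centralizer_iff.mpr fun a ha => ?_)
    exact Subtype.ext (Subgroup.mem_centralizer_iff.mp g.2 _ (Subgroup.mem_subgroupOf.mp ha))
  obtain ⟨θ, -, -, hbase⟩ := exists_base hM htop hc hD
  unfold blockRank
  refine le_trans (Submodule.finrank_mono (t := Submodule.span ℂ
    {pRegularPart p (θ : (𝐂 P) → ℂ)}) ?_) ((finrank_span_le_card _).trans (by simp))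
  refine Submodule.span_le.mpr ?_
  rintro _ ⟨χ, hχ, rfl⟩
  refine Submodule.mem_span_singleton.mpr ⟨(χ : (𝐂 P) → ℂ) 1 / (θ : (𝐂 P) → ℂ) 1, ?_⟩
  funext y
  simp only [Pi.smul_apply, smul_eq_mul, pRegularPart_apply]
  split_ifs with h
  · exact mul_zero _
  · rw [div_mul_eq_mul_div, ← hbase χ hχ y h, mul_div_assoc, div_self θ.2.one_ne_zero, mul_one]

/-- A nilpotent block with cyclic defect group has rank one and as many characters as the defect group. -/
theorem rank_one_of_cyclic (hM : IsPModular p M) {B : Set (IrrCharacter G)} {x : G}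
    {c : Set (IrrCharacter (𝐂 (Subgroup.zpowers x)))}
    (hmax : IsMaximalBrauerPair p M B (Subgroup.zpowers x) c)
    (hT : pairStab M ⊤ (Subgroup.zpowers x) c ≤ 𝐂 (Subgroup.zpowers x)) :
    blockRank p B = 1 ∧ Nat.card B = Nat.card (Subgroup.zpowers x) := by
  have hB := hmax.1.2.1
  have hab : ∀ a ∈ Subgroup.zpowers x, ∀ b ∈ Subgroup.zpowers x, a * b = b * a := by
    rintro _ ⟨i, rfl⟩ _ ⟨j, rfl⟩
    exact zpow_mul_comm x i j
  have hPC : Subgroup.zpowers x ≤ 𝐂 (Subgroup.zpowers x) :=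
    fun a ha => Subgroup.mem_centralizer_iff.mpr fun b hb => hab b hb a ha
  have hBD := isDefectGroup_maximal hM hmax
  have hcD := isDefectGroup_centralizer_of_le hM hmax
    (Relation.ReflTransGen.refl : SubpairLE p M _ c _ c) hPC
  have hind := ((isBrauerPairOf_iff hM).mp hmax.1).2
  have hq : Nat.card (Subgroup.zpowers x) = p ^ blockDefect p B := card_defectGroup hM hB hBD
  have hd : blockDefect p c = blockDefect p B := by
    have h := card_defectGroup hM hmax.1.1.2 hcD
    rw [card_subgroupOf hPC, hq] at h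
    exact (Nat.pow_right_injective hp.out.two_le h).symm
  have hk := card_le_of_rank_two hM
    (by obtain ⟨k, hk⟩ := IsPGroup.iff_orderOf.mp hmax.1.1.1 ⟨x, Subgroup.mem_zpowers x⟩
        exact ⟨k, by rwa [Subgroup.orderOf_mk] at hk⟩)
    (centralizer_zpowers x) hind hd ((blockRank_centralizer_le hM hab hmax.1.1.2 hcD).trans one_le_two)
  have hl := one_le_blockRank (p := p) (IsPBlock.nonempty hB)
  have hs := card_le_sum_sections hM hmax hab hT
  have htot := card_mul_card_block hM hB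
  rw [← Finset.add_sum_erase _ _ (show (1 : G) ∈ univ.filter (fun a : G => ∃ k : ℕ, orderOf a = p ^ k) from
    Finset.mem_filter.mpr ⟨Finset.mem_univ _, 0, by simp⟩), secRank_one hM hB,
    show Subgroup.centralizer ({(1 : G)} : Set G) = ⊤ from
      top_le_iff.mp fun g _ => Subgroup.mem_centralizer_singleton_iff.mpr (by simp), Subgroup.card_top] at htot
  have hG : 0 < Nat.card G := Nat.card_pos
  have hP : 0 < Nat.card (Subgroup.zpowers x) := Nat.card_pos
  rw [← hq] at hk
  have hkey : Nat.card G * blockRank p B + Nat.card G * (Nat.card (Subgroup.zpowers x) - 1)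
      ≤ Nat.card G * Nat.card B := by rw [htot, mul_comm (Nat.card G) (_ - 1)]; gcongr
  rw [← Nat.mul_add] at hkey
  have := Nat.le_of_mul_le_mul_left hkey hG
  constructor <;> omega

end Cfsg.Lib.Blocks
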