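import Cfsg.Agent.Lib.Blocks.DeficiencyClass
import Cfsg.Agent.Lib.Blocks.ClassNumber
import Cfsg.Agent.Lib.Invol.FourGroupBound

/-!
# Groups of small deficiency class are bounded by their Sylow `2`-order
-/

namespace Cfsg.Lib.Blocks

open Cfsg.Lib.Characters Finset
open scoped Classical

set_option linter.unusedSectionVars false
set_option linter.style.longLine false
set_option linter.style.haveILetI false

section Inflate

variable {G : Type*} [Group G] [Fintype G] {M : Ideal Cfsg.AlgInt} [M.IsPrime]
variable {p : ℕ} [hp : Fact p.Prime]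

/-- Modulo a central subgroup of order `p` a nonprincipal block loses at most one unit of defect. -/
theorem exists_nonprincipal_lift (hM : IsPModular p M) (N : Subgroup G) [N.Normal]
    (hN : N ≤ Subgroup.center G) (hcard : Nat.card N = p) {b : Set (IrrCharacter (G ⧸ N))}
    (hb : IsPBlock M b) (hne : b ≠ principalBlock M (G ⧸ N)) :
    ∃ B, IsPBlock M B ∧ B ≠ principalBlock M G ∧ blockDefect p b + 1 ≤ blockDefect p B := by
  haveI := Fintype.ofFinite (G ⧸ N)
  set π := QuotientGroup.mk' N with hπ
  obtain ⟨μ, hμ, hmin⟩ := exists_height_zero p (IsPBlock.nonempty hb)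
  let ψ : IrrCharacter G :=
    ⟨fun g => (μ : G ⧸ N → ℂ) (π g), isIrrCharacter_comp_surjective μ.2 π (QuotientGroup.mk'_surjective N)⟩
  have hNp : ∀ z ∈ N, ∃ k : ℕ, orderOf z = p ^ k := fun z hz => by
    rcases (Nat.dvd_prime hp.out).mp (hcard ▸ (Subgroup.orderOf_mk z hz ▸ orderOf_dvd_natCard (⟨z, hz⟩ : N)) :
      orderOf z ∣ p) with h | h
    · exact ⟨0, by simpa using h⟩
    · exact ⟨1, by simpa using h⟩
  have hreg : ∑ g : G, (if p ∣ orderOf g then (0 : ℂ) else (ψ : G → ℂ) g)
      = ∑ u : G ⧸ N, (if p ∣ orderOf u then (0 : ℂ) else (μ : G ⧸ N → ℂ) u) := by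
    have h0 : ∀ (X : Type _) [Fintype X] (q : X → Prop) [DecidablePred q] (f : X → ℂ),
        ∑ x, (if q x then (0 : ℂ) else f x) = ∑ x ∈ univ.filter (fun x => ¬ q x), f x := fun X _ q _ f => by
      rw [Finset.sum_filter]
      exact Finset.sum_congr rfl fun x _ => by split_ifs <;> simp_all
    rw [h0, h0]
    refine Finset.sum_bij (fun g _ => π g) (fun g hg => ?_) (fun g hg g' hg' h => ?_) (fun u hu => ?_)
      (fun g _ => rfl)
    · refine Finset.mem_filter.mpr ⟨Finset.mem_univ _, fun h => (Finset.mem_filter.mp hg).2 ?_⟩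
      exact h.trans (orderOf_map_dvd π g)
    · have hg := (Finset.mem_filter.mp hg).2
      have hg' := (Finset.mem_filter.mp hg').2
      rw [hπ, QuotientGroup.mk'_apply, QuotientGroup.mk'_apply, QuotientGroup.eq] at h
      have hc : Commute g g' := by
        have hz := Subgroup.mem_center_iff.mp (hN h) g
        have : g * g' = g * (g * (g⁻¹ * g')) := by group
        show g * g' = g' * g
        rw [this, hz]; group
      have hr : ¬ p ∣ orderOf (g⁻¹ * g') := fun hd => by
        rcases hp.out.dvd_mul.mp (hd.trans (hc.inv_left.orderOf_mul_dvd_mul_orderOf)) with h1 | h1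
        · exact hg (by rwa [orderOf_inv] at h1)
        · exact hg' h1
      obtain ⟨k, hk⟩ := hNp _ h
      exact inv_mul_eq_one.mp (eq_one_of_pPow_regular hk hr)
    · have hu := (Finset.mem_filter.mp hu).2
      obtain ⟨g, rfl⟩ := QuotientGroup.mk'_surjective N u
      obtain ⟨x, y, hxy, hc, ⟨k, hk⟩, hy⟩ := exists_pPart_commute (p := p) g
      refine ⟨y, Finset.mem_filter.mpr ⟨Finset.mem_univ _, hy⟩, ?_⟩
      obtain ⟨i, -, hi⟩ := (Nat.dvd_prime_pow hp.out).mp (hk ▸ orderOf_map_dvd π x)
      have hr : ¬ p ∣ orderOf (π x) := fun hd => by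
        have e : π x = π g * (π y)⁻¹ := by rw [← hxy, map_mul, mul_inv_cancel_right]
        have hcg : Commute (π g) (π y)⁻¹ := by
          refine Commute.inv_right ?_
          rw [← hxy, map_mul]
          exact (hc.map π).mul_left (Commute.refl _)
        rw [e] at hd
        rcases hp.out.dvd_mul.mp (hd.trans hcg.orderOf_mul_dvd_mul_orderOf) with h1 | h1
        · exact hu h1
        · rw [orderOf_inv] at h1; exact hy (h1.trans (orderOf_map_dvd π y))
      have h1 := eq_one_of_pPow_regular hi hr
      rw [← hxy, map_mul, h1, one_mul]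
  refine ⟨blockOf M (ψ : G → ℂ), ⟨ψ, rfl⟩, fun h => hne ?_, ?_⟩
  · have hψ : ψ ∈ principalBlock M G := h ▸ mem_blockOf_self M ψ
    refine IsPBlock.eq_of_mem hb isPBlock_principal hμ (by_contra fun hμ' => ?_)
    have hz : ∑ u : G ⧸ N, (if p ∣ orderOf u then (0 : ℂ) else (μ : G ⧸ N → ℂ) u) = 0 := by
      refine Eq.trans (Finset.sum_congr rfl fun u _ => ?_)
        (sum_regular_eq_zero hM (φ := μ) (ψ := trivChar _) fun h' => hμ' (sameBlock_symm M h'))
      split_ifs <;> simp
    refine (mem_principal_iff_lam_regSum hM ψ).mp hψ ?_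
    rw [← redG_regSum, lam_redG M ψ regSum_mem_locCenter]
    have h1 : ∑ g, (regSum ℂ p G).coeff g * (ψ : G → ℂ) g = 0 := by
      refine Eq.trans (Finset.sum_congr rfl fun g _ => ?_) (hreg.trans hz)
      rw [coeff_regSum]
      split_ifs <;> simp
    rw [omega, h1, zero_div, red_zero]
  · have hle := inf_le_factorization p (mem_blockOf_self M ψ)
    have hd : charDegree (ψ : G → ℂ) = charDegree (μ : G ⧸ N → ℂ) := by
      have h1 : ((charDegree (ψ : G → ℂ) : ℕ) : ℂ) = (charDegree (μ : G ⧸ N → ℂ) : ℕ) := by
        rw [coe_charDegree, coe_charDegree]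
        show (μ : G ⧸ N → ℂ) (π 1) = _
        rw [map_one]
      exact_mod_cast h1
    have hf := charDegree_factorization_le (p := p) μ
    have hc := congrArg (fun k : ℕ => k.factorization p) N.card_eq_card_quotient_mul_card_subgroup
    simp only [hcard, Nat.factorization_mul Nat.card_pos.ne' hp.out.ne_zero, Finsupp.add_apply,
      hp.out.factorization_self] at hc
    rw [hd] at hle
    simp only [blockDefect]
    rw [← hmin]
    omega

end Inflate

universe v

/-- No nonprincipal block of defect at least `r`. -/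
def Deficiency (p : ℕ) (G : Type v) [Group G] (M : Ideal AlgInt) (r : ℕ) : Prop :=
  ∀ B : Set (IrrCharacter G), IsPBlock M B → B ≠ principalBlock M G → blockDefect p B < r

theorem deficiency_bound : ∀ a : ℕ, ∃ N : ℕ, ∀ (G : Type v) [Group G] [Finite G] (M : Ideal AlgInt) (r : ℕ),
    IsPModular 2 M → (Nat.card G).factorization 2 ≤ a → Deficiency 2 G M r →
    (∃ E : Subgroup G, IsMulCommutative E ∧ (∀ x ∈ E, x * x = 1) ∧ Nat.card E = 2 ^ (r + 1)) →
    Nat.card G ≤ N := by
  haveI : Fact (Nat.Prime 2) := ⟨Nat.prime_two⟩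
  intro a
  induction a with
  | zero =>
    refine ⟨0, fun G _ _ M r _ ha _ ⟨E, _, _, hE⟩ => ?_⟩
    have h : 2 ∣ Nat.card G := (dvd_pow_self 2 r.succ_ne_zero).trans (hE ▸ Subgroup.card_subgroup_dvd_card E)
    exact absurd (Nat.prime_two.factorization_pos_of_dvd Nat.card_pos.ne' h) (by omega)
  | succ a ih =>
    obtain ⟨N₀, hN₀⟩ := landau.{v} (2 ^ (2 * (a + 1)))
    obtain ⟨Na, hNa⟩ := ih
    obtain ⟨N₁, hN₁⟩ := Invol.four_group_bound.{v} (a + 1) (Na * 2)
    refine ⟨max N₀ N₁, fun G _ _ M r hM ha hdef ⟨E, hEc, hE2, hEcard⟩ => ?_⟩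
    haveI := hM.2.1.isPrime
    haveI := Fintype.ofFinite G
    rcases r with - | r
    · refine le_trans ?_ (le_max_left _ _)
      refine hN₀ G ?_
      have hB := isPBlock_principal (G := G) (M := M)
      have hall : ∀ ψ : IrrCharacter G, ψ ∈ principalBlock M G := fun ψ => by
        by_contra hψ
        exact Nat.not_lt_zero _ (hdef (blockOf M (ψ : G → ℂ)) ⟨ψ, rfl⟩
          fun h => hψ (h ▸ mem_blockOf_self M ψ))
      rw [← card_irr_eq_card_conjClasses, Nat.card_congr (Equiv.subtypeUnivEquiv hall).symm]
      refine (card_block_le hM hB).trans (Nat.pow_le_pow_right two_pos ?_)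
      rw [blockDefect]
      omega
    · refine le_trans (hN₁ G ha ?_) (le_max_right _ _)
      -- every involution of `E` has a small centraliser
      have hcen : ∀ t ∈ E, t ≠ 1 → Nat.card (Subgroup.centralizer ({t} : Set G)) ≤ Na * 2 := by
        intro t ht ht1
        set C := Subgroup.centralizer ({t} : Set G) with hC
        have hto : orderOf t = 2 := orderOf_eq_prime (by rw [sq, hE2 t ht]) ht1
        have htC : t ∈ C := Subgroup.mem_centralizer_singleton_iff.mpr rfl
        set T := Subgroup.zpowers (⟨t, htC⟩ : C) with hT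
        have hTc : T ≤ Subgroup.center C := by
          rw [hT, Subgroup.zpowers_le, Subgroup.mem_center_iff]
          exact fun g => Subtype.ext (Subgroup.mem_centralizer_singleton_iff.mp g.2)
        haveI : T.Normal := ⟨fun z hz g => by
          rwa [Subgroup.mem_center_iff.mp (hTc hz) g, mul_inv_cancel_right]⟩
        have hTcard : Nat.card T = 2 := by
          rw [hT, Nat.card_zpowers, ← Subgroup.orderOf_coe]; exact hto
        have hC2 : (Nat.card C).factorization 2 ≤ a + 1 :=
          le_trans ((Nat.factorization_le_iff_dvd Nat.card_pos.ne' Nat.card_pos.ne').mpr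
            (Subgroup.card_subgroup_dvd_card C) 2) ha
        rw [T.card_eq_card_quotient_mul_card_subgroup, hTcard]
        refine Nat.mul_le_mul_right _ (hNa (C ⧸ T) M r hM ?_ ?_ ?_)
        · have h1 := congrArg (fun k : ℕ => k.factorization 2) T.card_eq_card_quotient_mul_card_subgroup
          simp only [hTcard, Nat.factorization_mul Nat.card_pos.ne' two_ne_zero, Finsupp.add_apply,
            Nat.prime_two.factorization_self] at h1
          omega
        · intro b hb hbne
          obtain ⟨B', hB', hne', hle'⟩ := exists_nonprincipal_lift (G := C) hM T hTc hTcard hb hbne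
          obtain ⟨B, hB, hne, hle⟩ := exists_nonprincipal_of_centralizer hM
            (y := t) ⟨1, by rw [pow_one, hto]⟩ rfl hB' hne'
          have := hdef B hB hne
          omega
        · have hEC : E ≤ C := fun e he => Subgroup.mem_centralizer_singleton_iff.mpr
            (congrArg Subtype.val (hEc.is_comm.comm (⟨e, he⟩ : E) ⟨t, ht⟩))
          set E' := (E.subgroupOf C).map (QuotientGroup.mk' T)
          refine ⟨E', ⟨⟨?_⟩⟩, ?_, ?_⟩
          · rintro ⟨_, x, hx, rfl⟩ ⟨_, y, hy, rfl⟩
            refine Subtype.ext ?_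
            show QuotientGroup.mk' T x * QuotientGroup.mk' T y = QuotientGroup.mk' T y * QuotientGroup.mk' T x
            rw [← map_mul, ← map_mul]
            congr 1
            exact Subtype.ext (congrArg Subtype.val
              (hEc.is_comm.comm (⟨(x : G), hx⟩ : E) ⟨(y : G), hy⟩) :)
          · rintro _ ⟨x, hx, rfl⟩
            rw [← map_mul, show x * x = 1 from Subtype.ext (hE2 _ hx), map_one]
          · have hle : T ≤ E.subgroupOf C := by
              rw [hT, Subgroup.zpowers_le]; exact ht
            have h1 := Subgroup.relIndex_mul_relIndex ⊥ T (E.subgroupOf C) bot_le hle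
            rw [Subgroup.relIndex_bot_left, Subgroup.relIndex_bot_left, hTcard,
              Nat.card_congr (Subgroup.subgroupOfEquivOfLe hEC).toEquiv, hEcard] at h1
            have h2 : Nat.card E' = T.relIndex (E.subgroupOf C) := by
              rw [show E' = _ from rfl, ← Subgroup.relIndex_bot_left, ← Subgroup.relIndex_comap,
                MonoidHom.comap_bot, QuotientGroup.ker_mk']
            rw [h2]
            rw [pow_succ' 2 (r + 1)] at h1
            exact Nat.eq_of_mul_eq_mul_left two_pos h1
      -- a four-group inside `E`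
      haveI := Fintype.ofFinite E
      have h4 : 3 ≤ Fintype.card E := by
        rw [← Nat.card_eq_fintype_card, hEcard]
        calc 3 ≤ 2 ^ 2 := by norm_num
          _ ≤ _ := Nat.pow_le_pow_right two_pos (by omega)
      obtain ⟨t, ht⟩ := Fintype.exists_ne_of_one_lt_card (show 1 < Fintype.card E by omega) (1 : E)
      obtain ⟨u, hu⟩ : ∃ u : E, u ∉ ({1, t} : Finset E) := by
        by_contra hh
        push Not at hh
        have := Finset.card_le_card (s := (univ : Finset E)) (fun x _ => hh x)
        have := (Finset.card_insert_le (1 : E) {t})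
        simp only [Finset.card_singleton, Finset.card_univ] at *
        omega
      simp only [Finset.mem_insert, Finset.mem_singleton, not_or] at hu
      refine ⟨(t : G), (u : G), hE2 _ t.2, hE2 _ u.2, congrArg Subtype.val (hEc.is_comm.comm t u),
        fun h => ht (Subtype.ext h), fun h => hu.1 (Subtype.ext h),
        fun h => hu.2 (Subtype.ext h.symm), ?_⟩
      intro s hs
      simp only [Set.mem_insert_iff, Set.mem_singleton_iff] at hs
      rcases hs with rfl | rfl | rfl
      · exact hcen _ t.2 fun h => ht (Subtype.ext h)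
      · exact hcen _ u.2 fun h => hu.1 (Subtype.ext h)
      · refine hcen _ (mul_mem t.2 u.2) fun h => hu.2 (Subtype.ext ?_)
        exact (mul_left_cancel (h.trans (hE2 _ t.2).symm))

end Cfsg.Lib.Blocks
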