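import Cfsg.Agent.Lib.Blocks.Heights
import Cfsg.Agent.Lib.Blocks.Induction
import Cfsg.Agent.Lib.Blocks.Principal

/-!
# Deficiency classes pass between a group and its centralisers of `p`-elements
-/

namespace Cfsg.Lib.Blocks

open Cfsg.Lib.Characters Finset
open scoped Classical

set_option linter.unusedSectionVars false
set_option linter.style.longLine false
set_option linter.style.haveILetI false

variable {G : Type*} [Group G] [Fintype G] {M : Ideal Cfsg.AlgInt} [M.IsPrime]
variable {p : ℕ} [hp : Fact p.Prime]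

theorem blockDefect_le_of_induced (hM : IsPModular p M) {H : Subgroup G}
    {b : Set (IrrCharacter H)} {B : Set (IrrCharacter G)} (hind : IsInducedBlock M H b B) :
    blockDefect p b ≤ blockDefect p B := by
  obtain ⟨D, hD⟩ := exists_defectGroup hM hind.1
  obtain ⟨E, hE⟩ := exists_defectGroup hM hind.2.1
  have h := card_map_subtype_le hM hind hD hE
  rw [card_defectGroup hM hind.1 hD, card_defectGroup hM hind.2.1 hE] at h
  exact (Nat.pow_le_pow_iff_right hp.out.one_lt).mp h

/-- A nonprincipal block of a centraliser of a `p`-element induces one of no smaller defect. -/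
theorem exists_nonprincipal_of_centralizer (hM : IsPModular p M) {y : G}
    (hy : ∃ k : ℕ, orderOf y = p ^ k) {H : Subgroup G}
    (hH : H = Subgroup.centralizer ({y} : Set G)) {b : Set (IrrCharacter H)} (hb : IsPBlock M b)
    (hne : b ≠ principalBlock M H) :
    ∃ B, IsPBlock M B ∧ B ≠ principalBlock M G ∧ blockDefect p b ≤ blockDefect p B := by
  obtain ⟨ξ, hξ⟩ := IsPBlock.nonempty hb
  obtain ⟨B, hB⟩ := (exists_induced_of_mul hb hξ fun u v hu hv => by
    rw [resSub_mul_centralizer hM hy hH hu hv, lam_mul M ξ (hu.resSub H) (hv.resSub H)]).1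
  refine ⟨B, hB.2.1, fun h => ?_, blockDefect_le_of_induced hM hB⟩
  exact hne ((induced_principal_iff hM ⟨B, hB⟩).mp (h ▸ hB))

/-- A nonprincipal block of positive defect comes from some element of order `p`. -/
theorem exists_nonprincipal_centralizer (hM : IsPModular p M) {B : Set (IrrCharacter G)}
    (hB : IsPBlock M B) (hne : B ≠ principalBlock M G) (hpos : 0 < blockDefect p B) :
    ∃ y : G, orderOf y = p ∧ ∃ b : Set (IrrCharacter (Subgroup.centralizer ({y} : Set G))),
      IsPBlock M b ∧ b ≠ principalBlock M (Subgroup.centralizer ({y} : Set G)) ∧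
        blockDefect p B ≤ blockDefect p b := by
  obtain ⟨D, hD⟩ := exists_defectGroup hM hB
  have hDp := isPGroup_defectGroup hD
  haveI : Nontrivial D := by
    rw [← Finite.one_lt_card_iff_nontrivial, card_defectGroup hM hB hD]
    exact Nat.one_lt_pow hpos.ne' hp.out.one_lt
  obtain ⟨z, hz⟩ := exists_prime_orderOf_dvd_card' (G := Subgroup.center D) p
    ((hDp.to_subgroup _).card_eq_or_dvd.resolve_left (by
      haveI := hDp.center_nontrivial
      exact Finite.one_lt_card.ne'))
  refine ⟨((z : D) : G), by rw [Subgroup.orderOf_coe, Subgroup.orderOf_coe, hz], ?_⟩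
  set y : G := ((z : D) : G)
  have hyp : ∃ k : ℕ, orderOf y = p ^ k :=
    ⟨1, by rw [pow_one, Subgroup.orderOf_coe, Subgroup.orderOf_coe, hz]⟩
  set H := Subgroup.centralizer ({y} : Set G)
  have hDH : D ≤ H := fun d hd => Subgroup.mem_centralizer_singleton_iff.mpr
    (congrArg Subtype.val (Subgroup.mem_center_iff.mp z.2 ⟨d, hd⟩))
  have hD' : IsPGroup p (D.subgroupOf H) := hDp.comap_of_injective _ Subtype.val_injective
  -- the truncated idempotent survives at the defect group
  set e := resSub H (bIdem M B) with he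
  have hcl : IsClassElt e := (isClassElt_bIdem B).resSub H
  have hsq : e * e = e := by
    rw [he, ← resSub_mul_centralizer hM hyp rfl (isClassElt_bIdem B) (isClassElt_bIdem B), bIdem_sq hB]
  obtain ⟨c, hc, hcne⟩ := brNe_defectGroup hD
  have hcH : c ∈ H := by
    rw [Subgroup.mem_centralizer_singleton_iff]
    exact (Subgroup.mem_centralizer_iff.mp hc y (z : D).2).symm
  have hbr : BrNe (D.subgroupOf H) e := by
    refine ⟨⟨c, hcH⟩, ?_, by simpa [he] using hcne⟩
    rw [Subgroup.mem_centralizer_iff]
    exact fun d hd => Subtype.ext (Subgroup.mem_centralizer_iff.mp hc d hd)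
  -- split it along the blocks of the centraliser
  obtain ⟨b, hb, hbne⟩ : ∃ b, IsPBlock M b ∧ BrNe (D.subgroupOf H) (e * bIdem M b) := by
    obtain ⟨d, hd, hdne⟩ := hbr
    by_contra hh
    push Not at hh
    apply hdne
    rw [← mul_one e, ← sum_bIdem, Finset.mul_sum, gr_sum_apply]
    exact Finset.sum_eq_zero fun b hb => by_contra fun h0 => hh b (mem_blocks.mp hb) ⟨d, hd, h0⟩
  have hbr' : BrNe (D.subgroupOf H) (bIdem M b) :=
    brNe_of_mul (red_p hM) hD' (isClassElt_bIdem b) hcl (hcl.mul_comm (bIdem M b) ▸ hbne)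
  obtain ⟨ξ, hξ⟩ := IsPBlock.nonempty hb
  have hlam : lam M ξ e = 1 := by
    by_contra h1
    have h0 : lam M ξ e = 0 := by
      have h2 := congrArg (lam M ξ) hsq
      rw [lam_mul M ξ hcl hcl] at h2
      by_contra h0
      exact h1 (mul_left_cancel₀ h0 (h2.trans (mul_one _).symm))
    have hprod : e * bIdem M b = 0 := by
      refine idem_eq_of_lam (hcl.mul (isClassElt_bIdem b)) IsClassElt.zero ?_ (zero_mul _) fun χ => ?_
      · rw [show e * bIdem M b * (e * bIdem M b) = e * (bIdem M b * e) * bIdem M b by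
          simp only [mul_assoc], ← hcl.mul_comm (bIdem M b), ← mul_assoc, hsq, mul_assoc, bIdem_sq hb]
      · rw [lam_mul M χ hcl (isClassElt_bIdem b), lam_bIdem hb, lam_zero]
        split_ifs with h
        · rw [lam_eq_of_sameBlock M (IsPBlock.sameBlock hb h hξ), h0, zero_mul]
        · rw [mul_zero]
    obtain ⟨d, -, hd⟩ := hbne
    exact hd (by rw [hprod]; simp)
  obtain ⟨hex, hiff⟩ := exists_induced_of_mul hb hξ fun u v hu hv => by
    rw [resSub_mul_centralizer hM hyp rfl hu hv, lam_mul M ξ (hu.resSub H) (hv.resSub H)]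
  have hind : IsInducedBlock M H b B := (hiff B hB).mpr hlam
  refine ⟨b, hb, fun h => hne ?_, ?_⟩
  · exact IsInducedBlock.unique hind ((induced_principal_iff hM ⟨B, hind⟩).mpr h)
  · obtain ⟨E, hE⟩ := exists_defectGroup hM hb
    obtain ⟨x, hx⟩ := (brNe_bIdem_iff hM hb hE hD').mp hbr'
    have h := Subgroup.card_le_of_le hx
    rw [card_conjSub, Nat.card_congr (Subgroup.subgroupOfEquivOfLe hDH).toEquiv,
      card_defectGroup hM hb hE, card_defectGroup hM hB hD] at h
    exact (Nat.pow_le_pow_iff_right hp.out.one_lt).mp h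

end Cfsg.Lib.Blocks
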