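import Mathlib
import Cfsg.Agent.Lib.Blocks.PrincipalTypeCore
import Cfsg.Agent.Lib.Blocks.InvariantOverSolvable
import Cfsg.Agent.Lib.Blocks.Heights
import Cfsg.Agent.Lib.Blocks.DefectZero
import Cfsg.Agent.Lib.Characters.AbelianInertia
import Cfsg.Agent.Lib.Characters.Gallagher
import Cfsg.Agent.S4435
import Cfsg.Agent.S4436

/-!
# Fong's bound on heights in `p`-solvable groups
-/

set_option autoImplicit false
set_option linter.unusedSectionVars false
set_option linter.style.haveILetI false
set_option maxHeartbeats 800000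

namespace Cfsg.Lib.Blocks.FongHeight

open Cfsg.Lib.Blocks Cfsg.Lib.Characters Finset
open scoped ComplexConjugate Classical

universe u

/-- Subgroups of `p`-soluble groups are `p`-soluble. -/
theorem isPSolvable_subgroup {G : Type u} [Group G] [Finite G] {p : ℕ} [hp : Fact p.Prime]
    (h : Cfsg.IsPSolvable p G) (T : Subgroup G) : Cfsg.IsPSolvable p T := by
  obtain ⟨n, S, h0, hn, hmono, hnorm, hfac⟩ := h
  refine ⟨n, fun i => (S i).subgroupOf T, by simp [h0], by simp [hn],
    fun i j hij => Subgroup.comap_mono (hmono hij), fun i => ?_, fun i => ?_⟩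
  · haveI := hnorm i; infer_instance
  haveI := hnorm i.castSucc
  have hle : S i.castSucc ≤ S i.succ := hmono Fin.castSucc_lt_succ.le
  have hd : ((S i.castSucc).subgroupOf T).relIndex ((S i.succ).subgroupOf T) ∣
      (S i.castSucc).relIndex (S i.succ) := by
    rw [Subgroup.subgroupOf, Subgroup.relIndex_comap, Subgroup.subgroupOf_map_subtype, inf_comm,
      ← Subgroup.relIndex_sup_right]
    have hle' : T ⊓ S i.succ ⊔ S i.castSucc ≤ S i.succ := sup_le inf_le_right hle
    exact Dvd.intro _ (Subgroup.relIndex_mul_relIndex _ _ _ le_sup_right hle')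
  rcases hfac i with ⟨m, hm⟩ | hcop
  · rw [hm] at hd
    obtain ⟨k, -, hk⟩ := (Nat.dvd_prime_pow hp.out).1 hd
    exact Or.inl ⟨k, hk⟩
  · exact Or.inr (hcop.coprime_dvd_left hd)

variable {G : Type u} [Group G] [Fintype G] {p : ℕ} [hp : Fact p.Prime]

/-- An irreducible character over an extendible character with abelian quotient. -/
theorem degree_over {K : Subgroup G} [K.Normal] [Fintype K] {θ : K → ℂ} (hθ : IsIrrCharacter K θ)
    (hinv : ∀ g, conjFn K θ g = θ) (hab : ∀ x y : G, x * y * x⁻¹ * y⁻¹ ∈ K)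
    (hcop : Nat.Coprime (Nat.card K) K.index) {ψ : G → ℂ} (hψ : IsIrrCharacter G ψ)
    (hne : classInner (fun k : K => ψ k) θ ≠ 0) : ψ 1 = θ 1 := by
  obtain ⟨d, hd⟩ := exists_degree hθ.isCharacter
  have hdvd : d ∣ Nat.card K := degree_dvd_card hθ hd
  obtain ⟨D, hD, -⟩ := exists_detHom hθ.isCharacter
  obtain ⟨η, hη, hηθ⟩ := exists_extension_of_coprime hθ hinv hd (m := Nat.card K)
    (fun n => by
      rw [← hD, ← Units.val_pow_eq_pow_val, ← map_pow,
        show n ^ Nat.card K = 1 from pow_card_eq_one', map_one, Units.val_one])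
    (Nat.Coprime.mul_right (hcop.symm.coprime_dvd_right hdvd) hcop.symm)
  obtain ⟨e, C, he, hC, -, hind, hdeg, hext⟩ := indFun_abelian_invariant hab hθ hinv
  have he1 := hext η hη hηθ
  subst he1
  have hmem : ψ ∈ C := by
    by_contra hn
    apply hne
    rw [← conj_classInner]
    rw [← classInner_indFun K θ hψ.isClassFunction, hind, Nat.cast_one, one_smul, classInner_sum_left,
      Finset.sum_eq_zero fun χ hχ => classInner_irr_ne (hC χ hχ).1 hψ fun h => hn (h ▸ hχ), map_zero]
  simpa using hdeg ψ hmem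

/-- The invariant case. -/
theorem invariant_bound (hsol : Cfsg.IsPSolvable p G) (K : Subgroup G) [K.Normal] [Fintype K]
    (hK : K = Cfsg.pPrimeCore p G) (θ : IrrCharacter K) (hθ : ∀ g : G, cjIrr θ g = θ)
    (χ : IrrCharacter G) (hχθ : classInner (fun k : K => (χ : G → ℂ) k) (θ : K → ℂ) ≠ 0)
    (S : Sylow p G) :
    (charDegree (χ : G → ℂ)).factorization p + (Nat.card (Subgroup.center (S : Subgroup G))).factorization p
      ≤ (Nat.card G).factorization p := by
  have hKp : ¬ p ∣ Nat.card K := by
    rw [hK]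
    exact fun h => hp.out.ne_one
      (Nat.eq_one_of_dvd_coprimes (Transfer.coprime_card_pPrimeCore p) h dvd_rfl)
  set π := QuotientGroup.mk' K with hπ
  have hsc : PLocal.SelfCentralizingCore p (G ⧸ K) := by
    refine PLocal.selfCentralizingCore_of_pSolvable
      (PLocal.IsPSolvable.of_surjective π (QuotientGroup.mk'_surjective K) hsol) ?_
    subst hK
    exact Solv.pPrimeCore_quotient_eq_bot p
  set O := Cfsg.pCore p (G ⧸ K) with hO
  haveI : O.Normal := Transfer.pCore_normal p
  set A := (Subgroup.center O).map O.subtype with hA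
  haveI : A.Normal := ConjAct.normal_of_characteristic_of_normal
  set Z := (Subgroup.center (S : Subgroup G)).map (π.comp (S : Subgroup G).subtype) with hZ
  have hSO : O ≤ (S : Subgroup G).map π := by
    have h := Solv.pCore_le_sylow p (S.mapSurjective (f := π) (QuotientGroup.mk'_surjective K))
    rwa [Sylow.coe_mapSurjective] at h
  have hZA : Z ≤ A := by
    rintro _ ⟨z, hz, rfl⟩
    have hcz : ∀ y ∈ O, y * π (z : G) = π (z : G) * y := by
      intro y hy
      obtain ⟨s, hs, rfl⟩ := hSO hy
      rw [← map_mul, ← map_mul]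
      exact congrArg π (congrArg Subtype.val (Subgroup.mem_center_iff.mp hz ⟨s, hs⟩))
    have hzO : π (z : G) ∈ O := hsc (Subgroup.mem_centralizer_iff.mpr fun y hy => hcz y hy)
    exact ⟨⟨_, hzO⟩, Subgroup.mem_center_iff.mpr fun y => Subtype.ext (hcz y y.2), rfl⟩
  have hinj : ∀ z : (S : Subgroup G), π (z : G) = 1 → z = 1 := by
    intro z hz
    have hzK : (z : G) ∈ K := (QuotientGroup.eq_one_iff _).mp hz
    obtain ⟨k, hk⟩ := IsPGroup.iff_orderOf.mp S.isPGroup' z
    rw [← Subgroup.orderOf_coe] at hk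
    have h1 : orderOf (z : G) ∣ Nat.card K := by
      rw [← Subgroup.orderOf_mk (z : G) hzK]; exact orderOf_dvd_natCard _
    rcases Nat.eq_zero_or_pos k with h | h
    · rw [h, pow_zero, orderOf_eq_one_iff] at hk
      exact Subtype.ext hk
    · exact absurd ((dvd_pow_self p h.ne').trans (hk ▸ h1)) hKp
  have hZcard : Nat.card Z = Nat.card (Subgroup.center (S : Subgroup G)) := by
    refine Subgroup.card_map_of_injective ((injective_iff_map_eq_one _).mpr fun z hz => hinj z hz)
  have hAp : IsPGroup p A := (IsPGroup.to_subgroup (Solv.isPGroup_pCore p) _).map _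
  set Mn := A.comap π with hMn
  haveI : Mn.Normal := inferInstance
  haveI : Fintype Mn := Fintype.ofFinite _
  have hMcard : Nat.card Mn = Nat.card A * Nat.card K := by
    rw [Subgroup.card_eq_card_quotient_mul_card_subgroup (K.subgroupOf Mn)]
    congr 1
    · refine Nat.card_congr (((QuotientGroup.quotientMulEquivOfEq ?_).trans
        (QuotientGroup.quotientKerEquivOfSurjective
          ((π.comp Mn.subtype).codRestrict A fun x => x.2) ?_)).toEquiv)
      · ext x
        simp only [MonoidHom.mem_ker, Subgroup.mem_subgroupOf, ← Subtype.val_inj]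
        exact (QuotientGroup.eq_one_iff (x : G)).symm
      · rintro ⟨a, ha⟩
        obtain ⟨g, rfl⟩ := QuotientGroup.mk'_surjective K a
        exact ⟨⟨g, ha⟩, rfl⟩
    · exact Nat.card_congr (Subgroup.subgroupOfEquivOfLe fun k hk => by
        rw [hMn, Subgroup.mem_comap, hπ, QuotientGroup.mk'_apply, (QuotientGroup.eq_one_iff k).mpr hk]
        exact one_mem A).toEquiv
  have hKM : K ≤ Mn := fun k hk => by
    rw [hMn, Subgroup.mem_comap, hπ, QuotientGroup.mk'_apply, (QuotientGroup.eq_one_iff k).mpr hk]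
    exact one_mem A
  -- constituents on `Mn`
  obtain ⟨ψ, hψ⟩ := exists_res_constituent (N := Mn) χ
  set K' := K.subgroupOf Mn with hK'
  haveI : Fintype K' := Fintype.ofFinite _
  let eK := Subgroup.subgroupOfEquivOfLe hKM
  let θ' : K' → ℂ := fun y => (θ : K → ℂ) (eK y)
  have hθ' : IsIrrCharacter K' θ' := isIrrCharacter_mulEquiv θ.2 eK
  have hθinv : ∀ g, conjFn K (θ : K → ℂ) g = (θ : K → ℂ) := fun g => by
    rw [← coe_cjIrr, hθ g]
  have hinv' : ∀ t : Mn, conjFn K' θ' t = θ' := by
    intro t
    funext y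
    have h2 := congrFun (hθinv (t : G)) (eK y)
    rw [conjFn_apply] at h2 ⊢
    exact Eq.trans (congrArg (θ : K → ℂ) (Subtype.ext rfl)) h2
  obtain ⟨η, hη, hηne⟩ := classInner_res_ne_zero (N := K') ψ.2
  let η₀ : IrrCharacter K := ⟨fun k => η (eK.symm k), isIrrCharacter_mulEquiv hη eK.symm⟩
  have hη₀ : classInner (fun k : K => (χ : G → ℂ) k) (η₀ : K → ℂ) ≠ 0 := by
    refine classInner_res_trans (G := G) (K := Mn) (N := K) Mn.subtype
      (Subgroup.inclusion hKM) χ.2.isCharacter ψ η₀ hψ ?_
    rw [← classInner_comp_equiv eK.symm (fun y : K' => (ψ : Mn → ℂ) y) η] at hηne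
    exact hηne
  have hη₀θ : η₀ = θ := by
    obtain ⟨g, hg⟩ := exists_cjIrr_of_constituents χ hχθ hη₀
    rw [hθ g] at hg
    exact hg
  have hψθ : classInner (fun y : K' => (ψ : Mn → ℂ) y) θ' ≠ 0 := by
    have : θ' = η := by
      funext y
      show (θ : K → ℂ) (eK y) = η y
      rw [← hη₀θ]
      show η (eK.symm (eK y)) = η y
      rw [MulEquiv.symm_apply_apply]
    rw [this]; exact hηne
  have hab : ∀ x y : Mn, x * y * x⁻¹ * y⁻¹ ∈ K' := by
    intro x y
    rw [hK', Subgroup.mem_subgroupOf]
    refine (QuotientGroup.eq_one_iff _).mp ?_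
    show π ((x : G) * y * (x : G)⁻¹ * (y : G)⁻¹) = 1
    obtain ⟨a, ha, hax⟩ := Subgroup.mem_map.mp (x.2 : π (x : G) ∈ A)
    rw [map_mul, map_mul, map_mul, map_inv, map_inv, ← hax,
      show O.subtype a * π (y : G) = π (y : G) * O.subtype a by
        obtain ⟨b, hb, hby⟩ := Subgroup.mem_map.mp (y.2 : π (y : G) ∈ A)
        rw [← hby, ← map_mul, ← map_mul, Subgroup.mem_center_iff.mp ha b]]
    group
  have hK'card : Nat.card K' = Nat.card K := Nat.card_congr eK.toEquiv
  have hindex : K'.index = Nat.card A := by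
    have h := K'.card_mul_index
    rw [hK'card, hMcard, mul_comm (Nat.card A)] at h
    exact Nat.eq_of_mul_eq_mul_left Nat.card_pos h
  have hcop : Nat.Coprime (Nat.card K') K'.index := by
    obtain ⟨k, hk⟩ := IsPGroup.iff_card.mp hAp
    rw [hK'card, hindex, hk]
    exact Nat.Coprime.pow_right _ ((hp.out.coprime_iff_not_dvd.mpr hKp).symm)
  have hψ1 := degree_over hθ' hinv' hab hcop ψ.2 hψθ
  obtain ⟨d, hd⟩ := exists_degree θ.2.isCharacter
  have hψd : (ψ : Mn → ℂ) 1 = (d : ℂ) := by
    rw [hψ1, ← hd]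
    show (θ : K → ℂ) (eK 1) = _
    rw [map_one]
  obtain ⟨c, hc0, hc⟩ := χ.2.exists_degree_pos
  obtain ⟨hdc, hcd⟩ := degree_dvd_of_normal ψ.2 χ.2 hψ hc hψd
  have hd0 : d ≠ 0 := fun h => θ.2.one_ne_zero (by rw [hd, h, Nat.cast_zero])
  have hdp : d.factorization p = 0 :=
    Nat.factorization_eq_zero_of_not_dvd fun h => hKp (h.trans (degree_dvd_card θ.2 hd))
  have hcdeg : charDegree (χ : G → ℂ) = c := charDegree_eq hc
  have h1 : c.factorization p ≤ Mn.index.factorization p := by
    have : c.factorization p = (c / d).factorization p := by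
      rw [Nat.factorization_div hdc, Finsupp.tsub_apply, hdp, Nat.sub_zero]
    rw [this]
    exact (Nat.factorization_le_iff_dvd (Nat.div_ne_zero_iff.mpr
      ⟨hd0, Nat.le_of_dvd hc0 hdc⟩) Subgroup.index_ne_zero_of_finite).mpr hcd p
  have h2 : (Nat.card G).factorization p = Mn.index.factorization p + (Nat.card A).factorization p := by
    rw [← Subgroup.index_mul_card Mn, Nat.factorization_mul Subgroup.index_ne_zero_of_finite Nat.card_pos.ne',
      hMcard, Nat.factorization_mul Nat.card_pos.ne' Nat.card_pos.ne', Finsupp.add_apply, Finsupp.add_apply,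
      Nat.factorization_eq_zero_of_not_dvd hKp, add_zero]
  have h3 : (Nat.card (Subgroup.center (S : Subgroup G))).factorization p ≤ (Nat.card A).factorization p := by
    rw [← hZcard]
    exact (Nat.factorization_le_iff_dvd Nat.card_pos.ne' Nat.card_pos.ne').mpr (Subgroup.card_dvd_of_le hZA) p
  rw [hcdeg]
  omega

theorem card_center_congr {H H' : Type*} [Group H] [Group H'] (e : H ≃* H') :
    Nat.card (Subgroup.center H) = Nat.card (Subgroup.center H') :=
  Nat.card_congr (Subgroup.centerCongr e).toEquiv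

theorem bound_aux : ∀ (m : ℕ) (G : Type u) [Group G] [Fintype G], Nat.card G ≤ m →
    Cfsg.IsPSolvable p G → ∀ (M : Ideal Cfsg.AlgInt), IsPModular p M → ∀ (B : Set (IrrCharacter G)),
    IsPBlock M B → ∀ P : Subgroup G, IsDefectGroup p M B P → ∀ χ ∈ B,
      (charDegree ((χ : IrrCharacter G) : G → ℂ)).factorization p + (Nat.card (Subgroup.center P)).factorization p
        ≤ (Nat.card G).factorization p := by
  intro m
  induction m with
  | zero =>
    intro G _ _ hm
    have : 0 < Nat.card G := Nat.card_pos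
    omega
  | succ m ih =>
    intro G _ _ hm hsol M hM B hB P hP χ hχ
    haveI := hM.2.1.isPrime
    haveI hKn : (Cfsg.pPrimeCore p G).Normal := Transfer.pPrimeCore_normal p
    set K := Cfsg.pPrimeCore p G with hKdef
    haveI : Fintype K := Fintype.ofFinite K
    have hKp : ¬ p ∣ Nat.card K := fun h => hp.out.ne_one
      (Nat.eq_one_of_dvd_coprimes (Transfer.coprime_card_pPrimeCore p) h dvd_rfl)
    obtain ⟨θ, hθ⟩ := exists_res_constituent (N := K) χ
    set T := inertia K (θ : K → ℂ) with hT
    haveI : Fintype T := Fintype.ofFinite T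
    by_cases hall : T = ⊤
    · have hinv : ∀ g : G, cjIrr θ g = θ := fun g =>
        Subtype.ext ((coe_cjIrr θ g).trans (mem_inertia.mp (hall.ge (Subgroup.mem_top g) : g ∈ inertia K (θ : K → ℂ))))
      obtain ⟨B', hB', hiff, -, hD, -⟩ :=
        constrained_block hM (isPConstrained_of_pSolvable hsol) hKdef hinv
      have he : B' = B := IsPBlock.eq_of_mem hB' hB ((hiff χ).mpr hθ) hχ
      subst he
      obtain ⟨S, rfl⟩ := hD P hP
      exact invariant_bound hsol K hKdef θ hinv χ hθ S
    · have hNT : K ≤ T := le_inertia θ.2.isClassFunction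
      set b := blockOf M (θ : K → ℂ) with hbdef
      have hb : IsPBlock M b := ⟨θ, rfl⟩
      have hT' : ∀ g : G, g ∈ T ↔ ∀ η ∈ b, ∀ η' : IrrCharacter K,
          (∀ n : K, (η' : K → ℂ) n = (η : K → ℂ) ⟨g * n * g⁻¹, hKn.conj_mem n n.2 g⟩) → η' ∈ b := by
        intro g
        rw [hT, mem_inertia]
        constructor
        · intro hg η hη η' hη'
          rw [(mem_blockOf_iff_eq hM hKp η).mp hη] at hη'
          have : η' = θ := Subtype.ext (funext fun n => by
            rw [hη' n]; exact congrFun hg n)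
          rw [this]; exact mem_blockOf_self M θ
        · intro h
          have h1 := h θ (mem_blockOf_self M θ) (cjIrr θ g) fun n => congrFun (coe_cjIrr θ g) n
          rw [← coe_cjIrr, (mem_blockOf_iff_eq hM hKp _).mp h1]
      obtain ⟨hi, -, hiii⟩ := Cfsg.Agent.S4435.result p M hM K b hb T hT' hNT
      obtain ⟨B', hB', hcov, hind⟩ := hiii B hB ⟨χ, hχ, θ, mem_blockOf_self M θ, hθ⟩
      obtain ⟨B₁, hind₁, -, -, hB₁⟩ := hi B' hB' hcov
      obtain rfl : B₁ = B := IsInducedBlock.unique hind₁ hind
      obtain ⟨ψ, hψ, hχψ⟩ := (hB₁ χ).mp hχ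
      obtain ⟨hdef, -⟩ := Cfsg.Agent.S4436.result p M hM K b hb T hT' hNT B' hB' hcov B₁ hind
      obtain ⟨D, hD⟩ := exists_defectGroup hM hB'
      obtain ⟨x, hx⟩ := defectGroup_conj hM hB (hdef D hD) hP
      have hcenter : Nat.card (Subgroup.center P) = Nat.card (Subgroup.center D) := by
        refine (card_center_congr ?_).symm
        exact (D.equivMapOfInjective T.subtype T.subtype_injective).trans
          ((Subgroup.equivMapOfInjective (D.map T.subtype) (MulAut.conj x).toMonoidHom
            (MulAut.conj x).injective).trans (MulEquiv.subgroupCongr hx))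
      have hlt : Nat.card T < Nat.card G := by
        refine lt_of_le_of_ne (Subgroup.card_le_card_group T) fun h => hall (Subgroup.eq_top_of_card_eq T h)
      have h := ih T (by omega) (isPSolvable_subgroup hsol T) M hM B' hB' D hD ψ hψ
      have hdeg : charDegree (χ : G → ℂ) = T.index * charDegree (ψ : T → ℂ) := by
        refine charDegree_eq ?_
        rw [Nat.cast_mul, coe_charDegree, hχψ]
        exact indFun_one_apply T _
      rw [hdeg, Nat.factorization_mul Subgroup.index_ne_zero_of_finite (charDegree_pos ψ).ne',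
        ← Subgroup.index_mul_card T, Nat.factorization_mul Subgroup.index_ne_zero_of_finite Nat.card_pos.ne',
        Finsupp.add_apply, Finsupp.add_apply, hcenter]
      omega

theorem height_bound (hsol : Cfsg.IsPSolvable p G) (M : Ideal Cfsg.AlgInt) (hM : IsPModular p M)
    (B : Set (IrrCharacter G)) (hB : IsPBlock M B) (P : Subgroup G) (hP : IsDefectGroup p M B P)
    (χ : IrrCharacter G) (hχ : χ ∈ B) :
    blockHeight p B (χ : G → ℂ) ≤ ((Subgroup.center P).index).factorization p := by
  haveI := hM.2.1.isPrime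
  have h := bound_aux (p := p) _ G le_rfl hsol M hM B hB P hP χ hχ
  have hc := congrArg (fun n : ℕ => n.factorization p) (card_defectGroup hM hB hP)
  simp only [← Subgroup.index_mul_card (Subgroup.center P),
    Nat.factorization_mul Subgroup.index_ne_zero_of_finite Nat.card_pos.ne', Finsupp.add_apply,
    hp.out.factorization_pow, Finsupp.single_eq_same] at hc
  obtain ⟨χ₀, hχ₀, hmin⟩ := exists_height_zero p (IsPBlock.nonempty hB)
  have hle : (charDegree (χ₀ : G → ℂ)).factorization p ≤ (Nat.card G).factorization p :=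
    (Nat.factorization_le_iff_dvd (charDegree_pos χ₀).ne' Nat.card_pos.ne').mpr
      (degree_dvd_card χ₀.2 (coe_charDegree χ₀).symm) p
  have h' := inf_le_factorization p hχ
  unfold blockHeight
  unfold blockDefect at hc
  omega

end Cfsg.Lib.Blocks.FongHeight
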