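import Mathlib
import Cfsg.Agent.Lib.Characters.Brauer
import Cfsg.Agent.Lib.Characters.Extension
import Cfsg.Agent.Lib.Blocks.DefectZero
import Cfsg.Agent.Lib.Solv.Cores
import Cfsg.Agent.Lib.Solv.MinNormal

/-!
# Garrison's theorem on kernels and degrees
-/

set_option autoImplicit false
set_option linter.unusedSectionVars false

namespace Cfsg.Lib.Blocks.Garrison

open Cfsg.Lib.Characters Finset
open scoped ComplexConjugate Classical Pointwise

universe u

variable {G : Type u} [Group G] [Fintype G]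

theorem mem_normalCore_of_indFun_one (H : Subgroup G) {g : G}
    (hg : indFun H (fun _ : H => (1 : ℂ)) g = indFun H (fun _ : H => (1 : ℂ)) 1) : g ∈ H.normalCore := by
  have hval : ∀ y : G, extendByZero H (fun _ : H => (1 : ℂ)) y = if y ∈ H then 1 else 0 := by
    intro y
    split_ifs with hy
    · exact extendByZero_mem _ hy
    · exact extendByZero_not_mem _ hy
  simp only [indFun, hval, mul_one, inv_mul_cancel, H.one_mem, if_true] at hg
  have h1 := mul_left_cancel₀ (inv_ne_zero (Nat.cast_ne_zero.mpr Nat.card_pos.ne')) hg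
  rw [sum_boole, sum_const, nsmul_eq_mul, mul_one, Nat.cast_inj] at h1
  have hall : ∀ x : G, x⁻¹ * g * x ∈ H := fun x =>
    (mem_filter.mp ((eq_univ_of_card _ (h1.trans Finset.card_univ)).ge (mem_univ x))).2
  intro b
  simpa [mul_assoc] using hall b⁻¹

/-- Either a larger degree with smaller kernel, or `χ` vanishes on `N(P)` outside its core. -/
theorem exists_larger {p : ℕ} [Fact p.Prime] {χ : G → ℂ} (hχ : IsIrrCharacter G χ)
    (K : Subgroup G) (hK : ∀ g : G, g ∈ K ↔ χ g = χ 1) (M : Subgroup G) [M.Normal] (hKM : K ≤ M)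
    (hMK : ∀ x ∈ M, ∃ j : ℕ, x ^ p ^ j ∈ K) (P : Sylow p M)
    (hsup : K ⊔ Subgroup.normalizer (((P : Subgroup M).map M.subtype : Subgroup G) : Set G) = ⊤) :
    (∃ ψ : IrrCharacter G, charDegree χ < charDegree (ψ : G → ℂ) ∧
      ∃ L : Subgroup G, (∀ g : G, g ∈ L ↔ (ψ : G → ℂ) g = (ψ : G → ℂ) 1) ∧ L < K) ∨
    (∀ h ∈ Subgroup.normalizer (((P : Subgroup M).map M.subtype : Subgroup G) : Set G),
      χ h ≠ 0 → h ∈ (Subgroup.normalizer (((P : Subgroup M).map M.subtype : Subgroup G) : Set G)).normalCore) := by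
  set P' := (P : Subgroup M).map M.subtype with hP'
  set H := Subgroup.normalizer (P' : Set G) with hH
  haveI hKn : K.Normal := ⟨fun a ha g => by rw [hK] at ha ⊢; rw [hχ.isClassFunction a g, ha]⟩
  haveI : Fintype H := Fintype.ofFinite H
  obtain ⟨d, hd0, hd⟩ := hχ.exists_degree_pos
  -- the restriction is irreducible
  have hdec : ∀ g : G, ∃ k ∈ K, ∃ h ∈ H, k * h = g := by
    intro g
    have hg : g ∈ K ⊔ H := hsup ▸ Subgroup.mem_top g
    obtain ⟨k, hk, h, hh, e⟩ := Subgroup.mem_sup_of_normal_left.mp hg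
    exact ⟨k, hk, h, hh, e⟩
  have hres : IsIrrCharacter H fun h : H => χ h := by
    obtain ⟨φ, hφc, hφirr, hφ⟩ := exists_of_quotient (N := K) hχ.isCharacter fun k hk => (hK k).mp hk
    have h1 := isIrrCharacter_comp_surjective (hφirr hχ) ((QuotientGroup.mk' K).comp H.subtype) (by
      intro y
      obtain ⟨g, rfl⟩ := QuotientGroup.mk'_surjective K y
      obtain ⟨k, hk, h, hh, rfl⟩ := hdec g
      refine ⟨⟨h, hh⟩, ?_⟩
      show QuotientGroup.mk' K h = QuotientGroup.mk' K (k * h)
      rw [map_mul, show QuotientGroup.mk' K k = 1 from (QuotientGroup.eq_one_iff k).mpr hk, one_mul])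
    have : (fun x : H => φ ((QuotientGroup.mk' K).comp H.subtype x)) = fun h : H => χ h :=
      funext fun x => hφ x
    rwa [this] at h1
  by_cases hall : ∀ ψ : IrrCharacter G, classInner (indFun H fun h : H => χ h) (ψ : G → ℂ) ≠ 0 →
      ∀ h : H, (ψ : G → ℂ) h = χ h
  · right
    intro h hh hne
    apply mem_normalCore_of_indFun_one
    obtain ⟨m, hm⟩ := exists_decomposition (isCharacter_indFun H hres.isCharacter)
    have hterm : ∀ ψ : IrrCharacter G, m ψ ≠ 0 → ∀ y : H, (ψ : G → ℂ) y = χ y := by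
      intro ψ hψ
      refine hall ψ ?_
      rw [hm, classInner_sum_irr]
      exact Nat.cast_ne_zero.mpr hψ
    have hval : ∀ y : H, indFun H (fun h : H => χ h) y = (∑ ψ : IrrCharacter G, (m ψ : ℂ)) * χ y := by
      intro y
      rw [hm]
      simp only [Finset.sum_apply, Pi.smul_apply, smul_eq_mul, sum_mul]
      refine sum_congr rfl fun ψ _ => ?_
      by_cases hψ : m ψ = 0
      · simp [hψ]
      · rw [hterm ψ hψ y]
    have hmul : indFun H (fun _ : H => (1 : ℂ)) * χ = indFun H (fun h : H => χ h) := by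
      rw [indFun_mul H _ hχ.isClassFunction]
      simp
    have e1 := hval ⟨h, hh⟩
    have e2 := hval 1
    rw [← hmul, Pi.mul_apply] at e1 e2
    have c1 : indFun H (fun _ : H => (1 : ℂ)) h = ∑ ψ : IrrCharacter G, (m ψ : ℂ) :=
      mul_right_cancel₀ hne e1
    have c2 : indFun H (fun _ : H => (1 : ℂ)) 1 = ∑ ψ : IrrCharacter G, (m ψ : ℂ) :=
      mul_right_cancel₀ hχ.one_ne_zero e2
    rw [c1, c2]
  · left
    push Not at hall
    obtain ⟨ψ, hψne, h₀, hh₀⟩ := hall
    obtain ⟨e, he0, he⟩ := ψ.2.exists_degree_pos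
    have hψres : IsCharacter H fun h : H => (ψ : G → ℂ) h := isCharacter_restrict ψ.2.isCharacter H
    have hcin : classInner (fun h : H => (ψ : G → ℂ) h) (fun h : H => χ h) ≠ 0 := by
      rw [← conj_classInner, Ne, map_eq_zero, ← classInner_indFun H _ ψ.2.isClassFunction]
      exact hψne
    obtain ⟨hle, heq⟩ := constituent_degree hψres hres hcin (d := e) (d' := d) (by simpa using he)
      (by simpa using hd)
    have hlt : d < e := lt_of_le_of_ne hle fun h => hh₀ (congrFun (heq h.symm) h₀)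
    refine ⟨ψ, by rw [charDegree_eq hd, charDegree_eq he]; exact hlt, charKer ψ.2.isCharacter,
      fun g => mem_charKer _, ?_⟩
    set L := charKer ψ.2.isCharacter with hL
    haveI : L.Normal := charKer_normal _
    have hLH : ∀ g ∈ L, g ∈ H → g ∈ K := by
      intro g hgL hgH
      refine (hK g).mpr ?_
      have h1 := char_ker_constituent hψres hres hcin (z := (⟨g, hgH⟩ : H))
        (by simpa using (mem_charKer _).mp hgL)
      simpa using h1
    have hP'M : P' ≤ M := Subgroup.map_subtype_le _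
    have hP'H : P' ≤ H := Subgroup.le_normalizer
    -- `L ≤ M`
    have hLM : L ≤ M := by
      intro l hl
      set Y := (L ⊔ P').subgroupOf M with hY
      have hPY : (P : Subgroup M) ≤ Y := fun x hx =>
        (le_sup_right : P' ≤ L ⊔ P') ⟨x, hx, rfl⟩
      have hlPY : ((MulAut.conjNormal l : MulAut M) • P : Sylow p M).toSubgroup ≤ Y := by
        intro x hx
        obtain ⟨y, hy, rfl⟩ := hx
        show ((MulAut.conjNormal l y : M) : G) ∈ L ⊔ P'
        rw [MulAut.conjNormal_apply]
        exact mul_mem (mul_mem ((le_sup_left : L ≤ L ⊔ P') hl) ((le_sup_right : P' ≤ L ⊔ P') ⟨y, hy, rfl⟩))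
          (inv_mem ((le_sup_left : L ≤ L ⊔ P') hl))
      obtain ⟨y, hy⟩ := MulAction.exists_smul_eq Y (P.subtype hPY)
        (((MulAut.conjNormal l : MulAut M) • P : Sylow p M).subtype hlPY)
      have hn : ((y : M) : G)⁻¹ * l ∈ H := by
        rw [hH]
        refine Subgroup.mem_normalizer_fintype fun z hz => ?_
        obtain ⟨x, hx, rfl⟩ := hz
        have hx' : (MulAut.conjNormal l x : M) ∈
            ((MulAut.conjNormal l : MulAut M) • P : Sylow p M).toSubgroup := ⟨x, hx, rfl⟩
        have hx'' : (⟨MulAut.conjNormal l x, hlPY hx'⟩ : Y) ∈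
            (((MulAut.conjNormal l : MulAut M) • P : Sylow p M).subtype hlPY : Subgroup Y) := hx'
        rw [← hy] at hx''
        obtain ⟨w, hw, hwx⟩ := hx''
        refine ⟨((w : Y) : M), hw, ?_⟩
        have h2 := congrArg (fun q : Y => ((q : M) : G)) hwx
        simp only [MulDistribMulAction.toMonoidEnd_apply, MulDistribMulAction.toMonoidHom_apply,
          MulAut.smul_def, MulAut.conj_apply, Subgroup.coe_mul, InvMemClass.coe_inv,
          MulAut.conjNormal_apply] at h2
        show ((w : M) : G) = _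
        rw [Subgroup.coe_subtype, eq_comm]
        calc ((y : M) : G)⁻¹ * l * (x : G) * (((y : M) : G)⁻¹ * l)⁻¹
            = ((y : M) : G)⁻¹ * (l * (x : G) * l⁻¹) * ((y : M) : G) := by group
          _ = _ := by rw [← h2]; group
      have hnZ : ((y : M) : G)⁻¹ * l ∈ L ⊔ P' := mul_mem (inv_mem y.2) ((le_sup_left : L ≤ L ⊔ P') hl)
      rw [Subgroup.mem_sup_of_normal_left] at hnZ
      obtain ⟨l', hl', q, hq, hlq⟩ := hnZ
      have hl'H : l' ∈ H := by
        have : l' = ((y : M) : G)⁻¹ * l * q⁻¹ := by rw [← hlq]; group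
        rw [this]; exact mul_mem hn (inv_mem (hP'H hq))
      have hnM : ((y : M) : G)⁻¹ * l ∈ M := hlq ▸ mul_mem (hKM (hLH _ hl' hl'H)) (hP'M hq)
      have := mul_mem (y : M).2 hnM
      rwa [mul_inv_cancel_left] at this
    -- `L ≤ K`
    have hLK : L ≤ K := by
      intro l hl
      obtain ⟨j, hj⟩ := hMK l (hLM hl)
      set r := orderOf l / p ^ (orderOf l).factorization p with hr
      have hlr : l ^ r ∈ K := by
        have hrM : l ^ r ∈ M := pow_mem (hLM hl) r
        have hpe : (⟨l ^ r, hrM⟩ : M) ^ p ^ (orderOf l).factorization p = 1 := by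
          refine Subtype.ext ?_
          show (l ^ r) ^ p ^ (orderOf l).factorization p = 1
          rw [← pow_mul, hr, Nat.div_mul_cancel (Nat.ordProj_dvd _ _), pow_orderOf_eq_one]
        have hzp : IsPGroup p (Subgroup.zpowers (⟨l ^ r, hrM⟩ : M)) := by
          obtain ⟨k, -, hk⟩ := (Nat.dvd_prime_pow Fact.out).mp (orderOf_dvd_of_pow_eq_one hpe)
          exact IsPGroup.of_card (n := k) (by rw [Nat.card_zpowers, hk])
        obtain ⟨Q, hQ⟩ := hzp.exists_le_sylow
        obtain ⟨c, hc⟩ := MulAction.exists_smul_eq M Q P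
        have hmem : c * ⟨l ^ r, hrM⟩ * c⁻¹ ∈ (P : Subgroup M) := by
          rw [← hc]
          exact ⟨_, hQ (Subgroup.mem_zpowers _), rfl⟩
        have hin : (c : G) * l ^ r * (c : G)⁻¹ ∈ P' := ⟨_, hmem, rfl⟩
        have h1 := hLH _ ((inferInstance : L.Normal).conj_mem _ (pow_mem hl r) (c : G)) (hP'H hin)
        have h2 := hKn.conj_mem _ h1 (c : G)⁻¹
        simpa [mul_assoc] using h2
      have hcop : Nat.Coprime (p ^ j) r := Nat.Coprime.pow_left _ (Nat.coprime_ordCompl Fact.out (orderOf_pos l).ne')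
      have h3 : ((p ^ j : ℕ) : ℤ) * Nat.gcdA (p ^ j) r + (r : ℤ) * Nat.gcdB (p ^ j) r = 1 := by
        rw [← Nat.gcd_eq_gcd_ab, hcop.gcd_eq_one]; rfl
      have : l = (l ^ (p ^ j)) ^ Nat.gcdA (p ^ j) r * (l ^ r) ^ Nat.gcdB (p ^ j) r := by
        rw [← zpow_natCast l, ← zpow_natCast l r, ← zpow_mul, ← zpow_mul, ← zpow_add, h3, zpow_one]
      rw [this]
      exact mul_mem (zpow_mem hj _) (zpow_mem hlr _)
    refine lt_of_le_of_ne hLK fun hLKeq => ?_
    -- if the kernels agree then the characters agree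
    obtain ⟨φ, -, hφirr, hφ⟩ := exists_of_quotient (N := K) ψ.2.isCharacter fun k hk =>
      (mem_charKer ψ.2.isCharacter).mp (hLKeq.ge hk)
    have h1 := isIrrCharacter_comp_surjective (hφirr ψ.2) ((QuotientGroup.mk' K).comp H.subtype) (by
      intro y
      obtain ⟨g, rfl⟩ := QuotientGroup.mk'_surjective K y
      obtain ⟨k, hk, h, hh, rfl⟩ := hdec g
      refine ⟨⟨h, hh⟩, ?_⟩
      show QuotientGroup.mk' K h = QuotientGroup.mk' K (k * h)
      rw [map_mul, show QuotientGroup.mk' K k = 1 from (QuotientGroup.eq_one_iff k).mpr hk, one_mul])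
    have hfe : (fun x : H => φ ((QuotientGroup.mk' K).comp H.subtype x)) = fun h : H => (ψ : G → ℂ) h :=
      funext fun x => hφ x
    rw [hfe] at h1
    have heq' : (fun h : H => (ψ : G → ℂ) h) = fun h : H => χ h := by
      by_contra hd'
      exact hcin (classInner_irr_ne h1 hres hd')
    have := congrFun heq' (1 : H)
    simp only [OneMemClass.coe_one, he, hd, Nat.cast_inj] at this
    omega

theorem garrison {χ : G → ℂ} (hχ : IsIrrCharacter G χ) (K : Subgroup G) [K.Normal]
    (hK : ∀ g : G, g ∈ K ↔ χ g = χ 1)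
    (h : ¬ K ≤ Cfsg.fittingSubgroup G ∨
      (K = Cfsg.fittingSubgroup G ∧ Group.IsSolvable (G ⧸ K) ∧ K ≠ ⊤)) :
    ∃ ψ : IrrCharacter G, charDegree χ < charDegree (ψ : G → ℂ) ∧
      ∃ L : Subgroup G, (∀ g : G, g ∈ L ↔ (ψ : G → ℂ) g = (ψ : G → ℂ) 1) ∧ L < K := by
  rcases h with h | ⟨hKF, hsolv, hKtop⟩
  · obtain ⟨p, hp, P, hPn⟩ : ∃ (p : ℕ) (_ : Fact p.Prime) (P : Sylow p K),
        ¬ ((P : Subgroup K).map K.subtype).Normal := by
      by_contra hcon
      push Not at hcon
      refine h (Cfsg.Lib.Solv.le_fitting inferInstance ?_)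
      refine (Group.isNilpotent_of_finite_tfae.out 0 3).mpr fun p hp P => ?_
      have := hcon p hp P
      have hc : ((P : Subgroup K).map K.subtype).comap K.subtype = P :=
        Subgroup.comap_map_eq_self_of_injective K.subtype_injective _
      rw [← hc]
      exact this.comap _
    rcases exists_larger hχ K hK K le_rfl (fun x hx => ⟨0, by simpa using hx⟩) P
      (by rw [sup_comm]; exact P.normalizer_sup_eq_top) with hleft | hright
    · exact hleft
    · exfalso
      apply hPn
      set P' := (P : Subgroup K).map K.subtype with hP'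
      set C := (Subgroup.normalizer (P' : Set G)).normalCore
      have hPC : P' ≤ C := fun x hx => hright x (Subgroup.le_normalizer hx) (by
        rw [(hK x).mp (Subgroup.map_subtype_le _ hx)]; exact hχ.one_ne_zero)
      -- the Sylow subgroup is the unique one in the normal subgroup `C ⊓ K`
      refine ⟨fun x hx g => ?_⟩
      have hgx : g * x * g⁻¹ ∈ C ⊓ K := ⟨(Subgroup.normalCore_normal _).conj_mem _ (hPC hx) g,
        (inferInstance : K.Normal).conj_mem _ (Subgroup.map_subtype_le _ hx) g⟩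
      obtain ⟨hgC, hgK⟩ := hgx
      obtain ⟨x₀, hx₀, rfl⟩ := hx
      obtain ⟨j, hj⟩ := P.isPGroup' ⟨x₀, hx₀⟩
      have hpow : (⟨g * (x₀ : G) * g⁻¹, hgK⟩ : K) ^ p ^ j = 1 := by
        refine Subtype.ext ?_
        show (g * (x₀ : G) * g⁻¹) ^ p ^ j = 1
        rw [conj_pow, show (x₀ : G) ^ p ^ j = 1 from
          congrArg (fun z : (P : Subgroup K) => ((z : K) : G)) hj]
        simp
      obtain ⟨k, -, hk⟩ := (Nat.dvd_prime_pow hp.out).mp (orderOf_dvd_of_pow_eq_one hpow)
      have hzp : IsPGroup p (Subgroup.zpowers (⟨g * (x₀ : G) * g⁻¹, hgK⟩ : K)) :=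
        IsPGroup.of_card (n := k) (by rw [Nat.card_zpowers, hk])
      have hnorm : Subgroup.zpowers (⟨g * (x₀ : G) * g⁻¹, hgK⟩ : K) ≤
          Subgroup.normalizer ((P : Subgroup K) : Set K) := by
        rw [Subgroup.zpowers_le, Subgroup.mem_normalizer_iff]
        intro y
        have h2 := Subgroup.mem_normalizer_iff.mp
          ((Subgroup.normalCore_le (Subgroup.normalizer (P' : Set G))) hgC) (y : G)
        constructor
        · intro hy
          obtain ⟨z, hz, hze⟩ := h2.mp ⟨y, hy, rfl⟩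
          have e : z = ⟨g * (x₀ : G) * g⁻¹, hgK⟩ * y * (⟨g * (x₀ : G) * g⁻¹, hgK⟩)⁻¹ := by
            refine Subtype.ext ?_
            simpa using hze
          rw [← e]; exact hz
        · intro hy
          obtain ⟨z, hz, hze⟩ := h2.mpr ⟨_, hy, rfl⟩
          have e : z = y := Subtype.ext hze
          rw [← e]; exact hz
      have hsup := hzp.to_sup_of_normal_right' P.isPGroup' hnorm
      have h1 := P.3 hsup le_sup_right
      refine ⟨⟨g * (x₀ : G) * g⁻¹, hgK⟩, ?_, rfl⟩
      show _ ∈ (P : Subgroup K)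
      rw [← h1]
      exact (le_sup_left : _ ≤ Subgroup.zpowers (⟨g * (x₀ : G) * g⁻¹, hgK⟩ : K) ⊔ (P : Subgroup K))
        (Subgroup.mem_zpowers _)
  · haveI := hsolv
    haveI : Nontrivial (G ⧸ K) := QuotientGroup.nontrivial_iff.mpr hKtop
    obtain ⟨Mb, hMbn, -, hMbne, hmin⟩ :=
      Cfsg.Lib.Solv.exists_minimal_normal_le (G := G ⧸ K) (N := ⊤) top_ne_bot
    haveI := hMbn
    obtain ⟨-, p, hp, hMbp, -⟩ := Cfsg.Lib.Solv.minimal_normal_elementary hMbne inferInstance hmin
    haveI := Fact.mk hp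
    set M := Mb.comap (QuotientGroup.mk' K) with hM
    have hKM : K ≤ M := fun k hk => by
      rw [hM, Subgroup.mem_comap, QuotientGroup.mk'_apply, (QuotientGroup.eq_one_iff k).mpr hk]
      exact one_mem _
    have hMK : ∀ x ∈ M, ∃ j : ℕ, x ^ p ^ j ∈ K := fun x hx => by
      obtain ⟨j, hj⟩ := hMbp ⟨_, hx⟩
      exact ⟨j, (QuotientGroup.eq_one_iff _).mp (by simpa using congrArg Subtype.val hj)⟩
    obtain ⟨P⟩ : Nonempty (Sylow p M) := inferInstance
    set P' := (P : Subgroup M).map M.subtype with hP'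
    -- every element of `M` is in `K P'`
    have hMKP : M ≤ K ⊔ P' := by
      intro x hx
      obtain ⟨f, hf, hfx⟩ : ∃ f : M →* Mb, Function.Surjective f ∧
          ∀ y : M, (f y : G ⧸ K) = QuotientGroup.mk' K y := by
        refine ⟨((QuotientGroup.mk' K).comp M.subtype).codRestrict Mb fun y => y.2, ?_, fun y => rfl⟩
        rintro ⟨z, hz⟩
        obtain ⟨g, rfl⟩ := QuotientGroup.mk'_surjective K z
        exact ⟨⟨g, hz⟩, rfl⟩
      have hT : ((P.mapSurjective hf : Sylow p Mb) : Subgroup Mb) = ⊤ :=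
        ((P.mapSurjective hf).3 (IsPGroup.to_subgroup hMbp ⊤) le_top).symm
      have hx' : f ⟨x, hx⟩ ∈ ((P.mapSurjective hf : Sylow p Mb) : Subgroup Mb) := hT ▸ Subgroup.mem_top _
      rw [Sylow.coe_mapSurjective] at hx'
      obtain ⟨y, hy, hyx⟩ := hx'
      have h1 : x * (y : G)⁻¹ ∈ K := by
        rw [← QuotientGroup.eq_one_iff]
        show QuotientGroup.mk' K (x * (y : G)⁻¹) = 1
        rw [map_mul, map_inv, ← hfx y, show f y = f ⟨x, hx⟩ from hyx, hfx, mul_inv_cancel]
      have := Subgroup.mul_mem_sup h1 (show (y : G) ∈ P' from ⟨y, hy, rfl⟩)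
      rwa [inv_mul_cancel_right] at this
    set H := Subgroup.normalizer (P' : Set G) with hH
    have hsup : K ⊔ H = ⊤ := by
      rw [eq_top_iff, ← P.normalizer_sup_eq_top]
      exact sup_le le_sup_right (hMKP.trans (sup_le_sup_left Subgroup.le_normalizer _))
    rcases exists_larger hχ K hK M hKM hMK P hsup with hleft | hright
    · exact hleft
    · exfalso
      have hcore : ∀ y ∈ P', y ∈ H.normalCore → y ∈ K := by
        intro y hy hyC
        haveI := Subgroup.normalCore_normal H
        set A := H.normalCore ⊓ M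
        have hA : IsPGroup p (A ⊓ P' : Subgroup G) := (P.isPGroup'.map _).to_le inf_le_right
        -- `A ⊓ P'` is normal
        have hAn : (A ⊓ P').Normal := ⟨fun a ha g => by
          obtain ⟨⟨haC, haM⟩, haP⟩ := ha
          have hgC := (inferInstance : H.normalCore.Normal).conj_mem _ haC g
          have hgM := (inferInstance : M.Normal).conj_mem _ haM g
          refine ⟨⟨hgC, hgM⟩, ?_⟩
          obtain ⟨a₀, ha₀, rfl⟩ := haP
          obtain ⟨j, hj⟩ := P.isPGroup' ⟨a₀, ha₀⟩
          have hpow : (⟨g * (a₀ : G) * g⁻¹, hgM⟩ : M) ^ p ^ j = 1 := by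
            refine Subtype.ext ?_
            show (g * (a₀ : G) * g⁻¹) ^ p ^ j = 1
            rw [conj_pow, show (a₀ : G) ^ p ^ j = 1 from
              congrArg (fun z : (P : Subgroup M) => ((z : M) : G)) hj]
            simp
          obtain ⟨k, -, hk⟩ := (Nat.dvd_prime_pow hp).mp (orderOf_dvd_of_pow_eq_one hpow)
          have hzp : IsPGroup p (Subgroup.zpowers (⟨g * (a₀ : G) * g⁻¹, hgM⟩ : M)) :=
            IsPGroup.of_card (n := k) (by rw [Nat.card_zpowers, hk])
          have hnorm : Subgroup.zpowers (⟨g * (a₀ : G) * g⁻¹, hgM⟩ : M) ≤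
              Subgroup.normalizer ((P : Subgroup M) : Set M) := by
            rw [Subgroup.zpowers_le, Subgroup.mem_normalizer_iff]
            intro y
            have h2 := Subgroup.mem_normalizer_iff.mp ((Subgroup.normalCore_le H) hgC) (y : G)
            constructor
            · intro hy
              obtain ⟨z, hz, hze⟩ := h2.mp ⟨y, hy, rfl⟩
              have e : z = ⟨g * (a₀ : G) * g⁻¹, hgM⟩ * y * (⟨g * (a₀ : G) * g⁻¹, hgM⟩)⁻¹ := by
                refine Subtype.ext ?_
                simpa using hze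
              rw [← e]; exact hz
            · intro hy
              obtain ⟨z, hz, hze⟩ := h2.mpr ⟨_, hy, rfl⟩
              have e : z = y := Subtype.ext hze
              rw [← e]; exact hz
          have hsup := hzp.to_sup_of_normal_right' P.isPGroup' hnorm
          have h1 := P.3 hsup le_sup_right
          refine ⟨⟨g * (a₀ : G) * g⁻¹, hgM⟩, ?_, rfl⟩
          show _ ∈ (P : Subgroup M)
          rw [← h1]
          exact (le_sup_left : _ ≤ Subgroup.zpowers (⟨g * (a₀ : G) * g⁻¹, hgM⟩ : M) ⊔ (P : Subgroup M))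
            (Subgroup.mem_zpowers _)⟩
        rw [hKF]
        exact Cfsg.Lib.Solv.le_fitting_of_isPGroup hA ⟨⟨hyC, Subgroup.map_subtype_le _ hy⟩, hy⟩
      have hvan : ∀ x ∈ M, x ∉ K → χ x = 0 := by
        intro x hxM hxK
        obtain ⟨k, hk, y, hy, rfl⟩ := Subgroup.mem_sup_of_normal_left.mp (hMKP hxM)
        rw [char_mul_ker hχ.isCharacter ((hK k).mp hk)]
        by_contra hne
        exact hxK (mul_mem hk (hcore y hy (hright y (Subgroup.le_normalizer hy) hne)))
      -- the trivial character is a constituent of the restriction to `M`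
      haveI : Fintype M := Fintype.ofFinite M
      obtain ⟨d, hd0, hd⟩ := hχ.exists_degree_pos
      have hinner : classInner (fun x : M => χ x) (fun _ : M => (1 : ℂ)) ≠ 0 := by
        rw [classInner]
        refine mul_ne_zero (inv_ne_zero (Nat.cast_ne_zero.mpr Nat.card_pos.ne')) ?_
        simp only [map_one, mul_one]
        rw [show (∑ x : M, χ x) = ∑ x : M, (if (x : G) ∈ K then (d : ℂ) else 0) from
          sum_congr rfl fun x _ => by
            split_ifs with hx
            · rw [(hK _).mp hx, hd]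
            · exact hvan _ x.2 hx, ← sum_filter, sum_const, nsmul_eq_mul]
        exact mul_ne_zero (Nat.cast_ne_zero.mpr (card_ne_zero.mpr
          ⟨1, mem_filter.mpr ⟨mem_univ _, by simp⟩⟩)) (Nat.cast_ne_zero.mpr hd0.ne')
      have hcl := clifford hχ (θ := fun _ : M => (1 : ℂ)) isIrrCharacter_one hinner
      apply hMbne
      rw [eq_bot_iff]
      intro z hz
      obtain ⟨x, rfl⟩ := QuotientGroup.mk'_surjective K z
      rw [Subgroup.mem_bot, QuotientGroup.mk'_apply, QuotientGroup.eq_one_iff, hK]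
      have h1 := congrFun hcl (⟨x, hz⟩ : M)
      have h2 := congrFun hcl (1 : M)
      have hconst : ∀ ψ ∈ orbitFinset M (fun _ : M => (1 : ℂ)), ∀ y, ψ y = 1 := fun ψ hψ y => by
        obtain ⟨g, rfl⟩ := mem_orbitFinset.mp hψ; rfl
      simp only [Pi.smul_apply, Finset.sum_apply, sum_congr rfl (fun ψ hψ => hconst ψ hψ _)] at h1 h2
      exact h1.trans (by simpa using h2.symm)

end Cfsg.Lib.Blocks.Garrison
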