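import Mathlib
import Cfsg.Agent.Lib.Blocks.CentralTypeEmbedding
import Cfsg.Agent.Lib.Blocks.Galois
import Cfsg.Agent.Lib.Blocks.Modular
import Cfsg.Agent.Lib.Blocks.Exists
import Cfsg.Agent.Lib.Blocks.DefectZero
import Cfsg.Agent.Lib.Characters.Basic

/-!
# A generalised character of an abelian `p'`-group built from Gauss sums

For an abelian group `H` of order prime to `p` acting on a finite elementary abelian `p`-group `A`,
a combination `ω` of characters with cyclotomic integer coefficients with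
`|ω h|² |C_A(h)| ≤ |A|` which is congruent to `0` at every element acting nontrivially.
-/

set_option autoImplicit false
set_option linter.unusedSectionVars false

namespace Cfsg.Lib.Blocks.GaussOmega

open Cfsg.Lib.Characters Finset
open scoped ComplexConjugate Classical

universe u

/-- Functions which are combinations of characters with integral coefficients in a field of roots
of unity. -/
def Comb {H : Type u} [Group H] (N : ℕ) (f : H → ℂ) : Prop :=
  ∃ (k : ℕ) (a : Fin k → ℂ) (φ : Fin k → H → ℂ),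
    (∀ i, IsIntegral ℤ (a i) ∧ a i ∈ rootField N) ∧ (∀ i, IsCharacter H (φ i)) ∧
      f = ∑ i, a i • φ i

section comb

variable {H : Type u} [Group H] [Finite H] {N : ℕ}

theorem comb_of_fintype {ι : Type*} [Fintype ι] (a : ι → ℂ) (φ : ι → H → ℂ)
    (ha : ∀ i, IsIntegral ℤ (a i) ∧ a i ∈ rootField N) (hφ : ∀ i, IsCharacter H (φ i)) :
    Comb N (∑ i, a i • φ i) := by
  let e := Fintype.equivFin ι
  exact ⟨_, a ∘ e.symm, φ ∘ e.symm, fun i => ha _, fun i => hφ _,
    (e.symm.sum_comp (fun i => a i • φ i)).symm⟩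

theorem comb_one : Comb N (fun _ : H => (1 : ℂ)) :=
  ⟨1, fun _ => 1, fun _ _ => 1, fun _ => ⟨isIntegral_one, one_mem _⟩,
    fun _ => isCharacter_one, by funext h; simp⟩

theorem comb_mul {f g : H → ℂ} (hf : Comb N f) (hg : Comb N g) : Comb N (f * g) := by
  obtain ⟨k, a, φ, ha, hφ, rfl⟩ := hf
  obtain ⟨l, b, ψ, hb, hψ, rfl⟩ := hg
  have : (∑ i, a i • φ i) * (∑ j, b j • ψ j) =
      ∑ z : Fin k × Fin l, (a z.1 * b z.2) • (φ z.1 * ψ z.2) := by
    rw [Fintype.sum_prod_type, sum_mul_sum]
    exact sum_congr rfl fun i _ => sum_congr rfl fun j _ => (smul_mul_smul_comm _ _ _ _)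
  rw [this]
  exact comb_of_fintype _ _ (fun z => ⟨(ha z.1).1.mul (hb z.2).1, mul_mem (ha z.1).2 (hb z.2).2⟩)
    fun z => isCharacter_mul (hφ z.1) (hψ z.2)

theorem Comb.coeff [Fintype H] {f : H → ℂ} (hf : Comb N f) {ψ : H → ℂ} (hψ : IsIrrCharacter H ψ) :
    IsIntegral ℤ (classInner f ψ) ∧ classInner f ψ ∈ rootField N := by
  obtain ⟨k, a, φ, ha, hφ, rfl⟩ := hf
  rw [classInner_sum_left]
  choose m hm using fun i => classInner_nat (hφ i) hψ.isCharacter
  simp only [classInner_smul_left, hm]
  exact ⟨IsIntegral.sum _ fun i _ => (ha i).1.mul (by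
      simpa using (isIntegral_algebraMap (R := ℤ) (A := ℂ) (x := (m i : ℤ)))),
    sum_mem fun i _ => mul_mem (ha i).2 (natCast_mem _ _)⟩

theorem Comb.mem_locRing {M : Ideal Cfsg.AlgInt} [M.IsPrime] {f : H → ℂ} (hf : Comb N f) (h : H) :
    f h ∈ locRing M := by
  obtain ⟨k, a, φ, ha, hφ, rfl⟩ := hf
  rw [Finset.sum_apply]
  exact sum_mem fun i _ => by
    rw [Pi.smul_apply, smul_eq_mul]
    exact mul_mem (isIntegral_mem_locRing M (ha i).1) (isIntegral_mem_locRing M (char_isIntegral (hφ i) h))

end comb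

variable {p : ℕ} [hp : Fact p.Prime]

/-- The conclusion: a bound on squared values, and congruences. -/
def Good {H : Type u} [Group H] (N : ℕ) (M : Ideal Cfsg.AlgInt) [M.IsPrime]
    {A : Type u} [AddCommGroup A] (ρ : H → A → A) (ω : H → ℂ) : Prop :=
  Comb N ω ∧ ω 1 = 1 ∧ ∀ h, ((∀ a, ρ h a = a) ∨ red M (ω h) = 0) ∧
    ∃ n : ℕ, ω h * conj (ω h) = n ∧ n * Nat.card {a : A // ρ h a = a} ≤ Nat.card A

theorem simple_case {H : Type u} [Group H] [Fintype H] (hcomm : ∀ a b : H, a * b = b * a)
    {A : Type u} [AddCommGroup A] [Finite A] [Module (ZMod p) A] {N : ℕ} (hpN : p ∣ N)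
    {M : Ideal Cfsg.AlgInt} [M.IsPrime] (hM : IsPModular p M) (ρ : Representation (ZMod p) H A)
    [Nontrivial A]
    (hirr : ∀ W : Submodule (ZMod p) A, (∀ h, ∀ w ∈ W, ρ h w ∈ W) → W = ⊥ ∨ W = ⊤) :
    ∃ ω, Good N M (fun h a => ρ h a) ω := by
  haveI : Fintype A := Fintype.ofFinite A
  set R := Algebra.adjoin (ZMod p) (Set.range fun h => (ρ h : Module.End (ZMod p) A)) with hR
  have hcen : ∀ h, ∀ r ∈ R, ρ h * r = r * ρ h := by
    intro h r hr
    induction hr using Algebra.adjoin_induction with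
    | mem x hx => obtain ⟨k, rfl⟩ := hx; rw [← map_mul, ← map_mul, hcomm]
    | algebraMap c => exact (Algebra.commutes c (ρ h)).symm
    | add x y _ _ hx hy => rw [mul_add, add_mul, hx, hy]
    | mul x y _ _ hx hy => rw [← mul_assoc, hx, mul_assoc, hy, mul_assoc]
  have hRcomm : ∀ r ∈ R, ∀ s ∈ R, r * s = s * r := by
    intro r hr s hs
    induction hr using Algebra.adjoin_induction with
    | mem x hx => obtain ⟨k, rfl⟩ := hx; exact hcen k s hs
    | algebraMap c => exact Algebra.commutes c s
    | add x y _ _ hx hy => rw [mul_add, add_mul, hx, hy]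
    | mul x y _ _ hx hy => rw [mul_assoc, hy, ← mul_assoc, hx, mul_assoc]
  letI : CommRing R :=
    { (inferInstance : Ring R) with mul_comm := fun a b => Subtype.ext (hRcomm a a.2 b b.2) }
  haveI : Finite (Module.End (ZMod p) A) := Finite.of_injective (fun f => (f : A → A)) DFunLike.coe_injective
  have hinj : ∀ r : R, r ≠ 0 → Function.Injective (r : Module.End (ZMod p) A) := by
    intro r hr
    rw [← LinearMap.ker_eq_bot]
    rcases hirr (LinearMap.ker (r : Module.End (ZMod p) A)) (fun h w hw => by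
      rw [LinearMap.mem_ker] at hw ⊢
      have := LinearMap.congr_fun (hcen h r r.2) w
      rw [Module.End.mul_apply, Module.End.mul_apply, hw, map_zero] at this
      exact this.symm) with h | h
    · exact h
    · exact absurd (Subtype.ext (LinearMap.ker_eq_top.mp h)) hr
  haveI : Nontrivial R := ⟨0, 1, fun h => by
    obtain ⟨a, ha⟩ := exists_ne (0 : A)
    exact ha (LinearMap.congr_fun (congrArg Subtype.val h) a).symm⟩
  haveI : NoZeroDivisors R := ⟨fun {a b} hab => by
    by_contra hne
    rw [not_or] at hne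
    refine hne.2 (Subtype.ext (LinearMap.ext fun x => hinj a hne.1 ?_))
    have := LinearMap.congr_fun (congrArg Subtype.val hab) x
    simpa using this⟩
  haveI : IsDomain R := NoZeroDivisors.to_isDomain R
  haveI : Fintype R := Fintype.ofFinite R
  letI : Field R := Fintype.fieldOfDomain R
  -- the field has the order of `A`
  obtain ⟨a₀, ha₀⟩ := exists_ne (0 : A)
  let ev : R → A := fun r => (r : Module.End (ZMod p) A) a₀
  have hevinj : Function.Injective ev := by
    intro r s hrs
    by_contra hne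
    refine ha₀ (hinj (r - s) (sub_ne_zero.mpr hne) ?_)
    rw [map_zero]
    show ((r : Module.End (ZMod p) A) - s) a₀ = 0
    rw [LinearMap.sub_apply]
    exact sub_eq_zero.mpr hrs
  have hevsurj : Function.Surjective ev := by
    let W : Submodule (ZMod p) A :=
      { carrier := Set.range ev
        add_mem' := by rintro _ _ ⟨r, rfl⟩ ⟨s, rfl⟩; exact ⟨r + s, rfl⟩
        zero_mem' := ⟨0, rfl⟩
        smul_mem' := by rintro c _ ⟨r, rfl⟩; exact ⟨c • r, rfl⟩ }
    rcases hirr W (by
      rintro h _ ⟨r, rfl⟩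
      exact ⟨⟨ρ h, Algebra.subset_adjoin ⟨h, rfl⟩⟩ * r, rfl⟩) with h | h
    · exfalso
      exact ha₀ ((Submodule.eq_bot_iff W).mp h _ ⟨1, rfl⟩)
    · intro a
      have : a ∈ W := h ▸ Submodule.mem_top
      exact this
  have hcardR : Fintype.card R = Fintype.card A := Fintype.card_of_bijective ⟨hevinj, hevsurj⟩
  let u : H →* Rˣ := MonoidHom.toHomUnits
    { toFun := fun h => ⟨ρ h, Algebra.subset_adjoin ⟨h, rfl⟩⟩
      map_one' := Subtype.ext (map_one ρ)
      map_mul' := fun a b => Subtype.ext (map_mul ρ a b) }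
  haveI : NeZero (Nat.card Rˣ) := ⟨Nat.card_pos.ne'⟩
  obtain ⟨β, -, hβ⟩ := Cfsg.Lib.Blocks.CentralType.pairing_exists (Q := Rˣ)
    (inferInstance : IsCyclic Rˣ) rfl
  let ψ := AddChar.FiniteField.primitiveChar_to_Complex R
  have hψ : ψ.IsPrimitive := AddChar.FiniteField.primitiveChar_to_Complex_isPrimitive R
  have hpsum : ∀ x : R, p • x = 0 := fun x => by
    rw [← Nat.cast_smul_eq_nsmul (ZMod p), ZMod.natCast_self, zero_smul]
  have hψp : ∀ x, ψ x ^ p = 1 := fun x => by
    rw [← AddChar.map_nsmul_eq_pow, hpsum, AddChar.map_zero_eq_one]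
  let χ : H → MulChar R ℂ := fun h => MulChar.ofUnitHom (β (u h))
  let ω : H → ℂ := fun h => -gaussSum (χ h) ψ
  have hω : ω = ∑ x : Rˣ, (-ψ (x : R)) • fun h => ((β (u h) x : ℂˣ) : ℂ) := by
    funext h
    simp only [ω, gaussSum, Finset.sum_apply, Pi.smul_apply, smul_eq_mul, neg_mul, sum_neg_distrib]
    congr 1
    rw [← sum_filter_of_ne (p := fun a : R => a ≠ 0) (fun a _ ha h0 => ha (by rw [h0, MulChar.map_zero, zero_mul]))]
    refine (sum_bij (fun (x : Rˣ) _ => (x : R)) (fun x _ => mem_filter.mpr ⟨mem_univ _, x.ne_zero⟩)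
      (fun x _ y _ hxy => Units.ext hxy)
      (fun a ha => ⟨Units.mk0 a (mem_filter.mp ha).2, mem_univ _, rfl⟩) (fun x _ => ?_)).symm
    rw [MulChar.ofUnitHom_coe, mul_comm]
  refine ⟨ω, ?_, ?_, fun h => ?_⟩
  · rw [hω]
    exact comb_of_fintype _ _ (fun x => ⟨(IsIntegral.of_pow hp.out.pos
      (by rw [hψp]; exact isIntegral_one)).neg,
      neg_mem (root_mem_rootField (by
        obtain ⟨e, he⟩ := hpN
        rw [he, pow_mul, hψp, one_pow]))⟩)
      fun x => (isIrrCharacter_linear (((MonoidHom.eval x).comp (β.comp u)))).isCharacter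
  · rw [hω]
    simp only [Finset.sum_apply, Pi.smul_apply, smul_eq_mul, map_one, MonoidHom.one_apply,
      Units.val_one, mul_one, sum_neg_distrib]
    have h1 : ∑ a : R, ψ a = 0 := AddChar.sum_eq_zero_of_ne_one (fun h1 => by
      exact hψ one_ne_zero (by rw [AddChar.mulShift_one]; exact h1))
    rw [← add_sum_erase univ _ (mem_univ (0 : R)), AddChar.map_zero_eq_one] at h1
    have h2 : ∑ x : Rˣ, ψ (x : R) = ∑ a ∈ univ.erase (0 : R), ψ a :=
      sum_bij (fun (x : Rˣ) _ => (x : R)) (fun x _ => mem_erase.mpr ⟨x.ne_zero, mem_univ _⟩)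
        (fun x _ y _ hxy => Units.ext hxy)
        (fun a ha => ⟨Units.mk0 a (ne_of_mem_erase ha), mem_univ _, rfl⟩) (fun x _ => rfl)
    rw [h2]
    linear_combination -h1
  · by_cases hh : u h = 1
    · have htriv : ∀ a, ρ h a = a := fun a =>
        LinearMap.congr_fun (congrArg (fun z : Rˣ => ((z : R) : Module.End (ZMod p) A)) hh) a
      refine ⟨Or.inl htriv, 1, ?_, ?_⟩
      · have h1 : ω h = ω 1 := by simp only [ω, χ, hh, map_one]
        have h2 : ω 1 = 1 := by
          simp only [ω, χ, map_one]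
          have : MulChar.ofUnitHom (1 : Rˣ →* ℂˣ) = (1 : MulChar R ℂ) := MulChar.ext fun a => by
            rw [MulChar.ofUnitHom_coe, MulChar.one_apply_coe]; rfl
          rw [this, gaussSum]
          have h1 : ∑ a : R, ψ a = 0 := AddChar.sum_eq_zero_of_ne_one (fun h1 => by
            exact hψ one_ne_zero (by rw [AddChar.mulShift_one]; exact h1))
          rw [← add_sum_erase univ _ (mem_univ (0 : R)), AddChar.map_zero_eq_one] at h1
          rw [← add_sum_erase univ _ (mem_univ (0 : R)), MulChar.map_zero, zero_mul, zero_add,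
            sum_congr rfl (g := fun a => ψ a) (fun a ha => by
              rw [MulChar.one_apply (isUnit_iff_ne_zero.mpr (ne_of_mem_erase ha)), one_mul])]
          linear_combination -h1
        rw [h1, h2]; simp
      · rw [one_mul]; exact Nat.le_of_eq (Nat.card_congr (Equiv.subtypeUnivEquiv htriv))
    · have hχ : χ h ≠ 1 := by
        intro h1
        refine hh (hβ _ fun y => ?_)
        have := congrArg (fun z : MulChar R ℂ => z (y : R)) h1
        simp only [χ, MulChar.ofUnitHom_coe, MulChar.one_apply_coe] at this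
        exact Units.ext this
      refine ⟨Or.inr ?_, Fintype.card R, ?_, ?_⟩
      · have hsum : ∑ a : R, χ h a = 0 := MulChar.sum_eq_zero_of_ne_one hχ
        have hmem : ∀ a : R, χ h a ∈ locRing M ∧ ψ a ∈ locRing M := by
          intro a
          refine ⟨?_, root_mem_locRing hp.out.pos (hψp a)⟩
          by_cases ha : a = 0
          · rw [ha, MulChar.map_zero]; exact zero_mem _
          · refine root_mem_locRing (m := Nat.card Rˣ) Nat.card_pos ?_
            show (MulChar.ofUnitHom (β (u h)) ((Units.mk0 a ha : Rˣ) : R)) ^ _ = 1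
            rw [MulChar.ofUnitHom_coe, ← Units.val_pow_eq_pow_val, ← map_pow, pow_card_eq_one',
              map_one, Units.val_one]
        show red M (-gaussSum (χ h) ψ) = 0
        rw [gaussSum, red_neg (sum_mem fun a _ => mul_mem (hmem a).1 (hmem a).2),
          red_sum _ (fun a _ => mul_mem (hmem a).1 (hmem a).2),
          sum_congr rfl (g := fun a => red M (χ h a)) (fun a _ => by
            rw [red_mul (hmem a).1 (hmem a).2, red_pPow_root hM (x := ψ a) (k := 1) (by rw [pow_one]; exact hψp a),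
              mul_one]),
          ← red_sum _ (fun a _ => (hmem a).1), hsum, red_zero, neg_zero]
      · have hconj : conj (gaussSum (χ h) ψ) = gaussSum (χ h)⁻¹ ψ⁻¹ := by
          simp only [gaussSum, map_sum, map_mul]
          refine sum_congr rfl fun a _ => ?_
          congr 1
          · by_cases ha : a = 0
            · rw [ha, MulChar.map_zero, MulChar.map_zero, map_zero]
            · have hrt : (χ h a) ^ Nat.card Rˣ = 1 := by
                show (MulChar.ofUnitHom (β (u h)) ((Units.mk0 a ha : Rˣ) : R)) ^ _ = 1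
                rw [MulChar.ofUnitHom_coe, ← Units.val_pow_eq_pow_val, ← map_pow, pow_card_eq_one',
                  map_one, Units.val_one]
              rw [MulChar.inv_apply_eq_inv']
              exact (Complex.inv_eq_conj (Complex.norm_eq_one_of_pow_eq_one hrt Nat.card_pos.ne')).symm
          · rw [AddChar.inv_apply, AddChar.map_neg_eq_inv]
            exact (Complex.inv_eq_conj (Complex.norm_eq_one_of_pow_eq_one (hψp a) hp.out.ne_zero)).symm
        show -gaussSum (χ h) ψ * conj (-gaussSum (χ h) ψ) = _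
        rw [map_neg, neg_mul_neg, hconj, gaussSum_mul_gaussSum_eq_card hχ hψ]
      · have hfix : Nat.card {a : A // ρ h a = a} = 1 := by
          haveI : Subsingleton {a : A // ρ h a = a} := by
            refine ⟨fun a b => Subtype.ext ?_⟩
            have hne : ((u h : R) - 1) ≠ 0 := sub_ne_zero.mpr fun h1 => hh (Units.ext h1)
            apply hinj _ hne
            show ρ h a.1 - a.1 = ρ h b.1 - b.1
            rw [a.2, b.2, sub_self, sub_self]
          haveI : Nonempty {a : A // ρ h a = a} := ⟨⟨0, map_zero _⟩⟩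
          exact Nat.card_unique
        rw [hfix, mul_one, hcardR, Nat.card_eq_fintype_card]

theorem exists_good {H : Type u} [Group H] [Fintype H] (hcomm : ∀ a b : H, a * b = b * a)
    (hcop : (Nat.card H).Coprime p) {N : ℕ} (hpN : p ∣ N) {M : Ideal Cfsg.AlgInt} [M.IsPrime]
    (hM : IsPModular p M) : ∀ (n : ℕ) (A : Type u) [AddCommGroup A] [Finite A] [Module (ZMod p) A]
      (ρ : Representation (ZMod p) H A), Nat.card A = n → ∃ ω, Good N M (fun h a => ρ h a) ω := by
  intro n
  induction n using Nat.strong_induction_on with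
  | _ n ih =>
  intro A _ _ _ ρ hn
  by_cases hA : Nontrivial A
  swap
  · haveI : Subsingleton A := not_nontrivial_iff_subsingleton.mp hA
    exact ⟨fun _ => 1, comb_one, rfl, fun h => ⟨Or.inl fun a => Subsingleton.elim _ _, 1, by simp,
      by rw [one_mul]; exact Finite.card_subtype_le _⟩⟩
  by_cases hirr : ∀ W : Submodule (ZMod p) A, (∀ h, ∀ w ∈ W, ρ h w ∈ W) → W = ⊥ ∨ W = ⊤
  · exact simple_case hcomm hpN hM ρ hirr
  push Not at hirr
  obtain ⟨W, hW, hWbot, hWtop⟩ := hirr
  let ρW : Representation (ZMod p) H W :=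
    { toFun := fun h => (ρ h).restrict (hW h)
      map_one' := by ext w; simp [LinearMap.restrict_apply]
      map_mul' := fun a b => by ext w; simp [LinearMap.restrict_apply] }
  let ρQ : Representation (ZMod p) H (A ⧸ W) :=
    { toFun := fun h => W.mapQ W (ρ h) (fun w hw => hW h w hw)
      map_one' := by ext a; simp
      map_mul' := fun a b => by ext x; simp }
  haveI : Finite (A ⧸ W) := Finite.of_surjective _ (Submodule.mkQ_surjective W)
  have hcard : Nat.card A = Nat.card W * Nat.card (A ⧸ W) := W.card_eq_card_quotient_mul_card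
  have hW1 : 1 < Nat.card W :=
    Finite.one_lt_card_iff_nontrivial.mpr ((Submodule.nontrivial_iff_ne_bot).mpr hWbot)
  have hQ1 : 1 < Nat.card (A ⧸ W) :=
    Finite.one_lt_card_iff_nontrivial.mpr (Submodule.Quotient.nontrivial_iff.mpr hWtop)
  obtain ⟨ω₁, hc₁, h1₁, hg₁⟩ := ih (Nat.card W) (by rw [← hn, hcard]; exact lt_mul_of_one_lt_right (by omega) hQ1) W ρW rfl
  obtain ⟨ω₂, hc₂, h1₂, hg₂⟩ := ih (Nat.card (A ⧸ W)) (by rw [← hn, hcard]; exact lt_mul_of_one_lt_left (by omega) hW1) (A ⧸ W) ρQ rfl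
  refine ⟨ω₁ * ω₂, comb_mul hc₁ hc₂, by simp [h1₁, h1₂], fun h => ?_⟩
  obtain ⟨hr₁, n₁, hn₁, hle₁⟩ := hg₁ h
  obtain ⟨hr₂, n₂, hn₂, hle₂⟩ := hg₂ h
  refine ⟨?_, n₁ * n₂, ?_, ?_⟩
  · rcases hr₁ with ht₁ | hr₁
    swap
    · right
      rw [Pi.mul_apply, red_mul (hc₁.mem_locRing h) (hc₂.mem_locRing h), hr₁, zero_mul]
    rcases hr₂ with ht₂ | hr₂
    swap
    · right
      rw [Pi.mul_apply, red_mul (hc₁.mem_locRing h) (hc₂.mem_locRing h), hr₂, mul_zero]
    left
    intro a
    have hd : ρ h a - a ∈ W := (Submodule.Quotient.eq W).mp (ht₂ (Submodule.Quotient.mk a))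
    set d := ρ h a - a with hddef
    have hfix : ∀ w ∈ W, ρ h w = w := fun w hw => congrArg Subtype.val (ht₁ ⟨w, hw⟩)
    have hpow : ∀ k : ℕ, ρ (h ^ k) a = a + k • d := by
      intro k
      induction k with
      | zero => simp
      | succ k ihk =>
        rw [pow_succ', map_mul, Module.End.mul_apply, ihk, map_add, map_nsmul, hfix d hd, succ_nsmul,
          hddef]
        abel
    have h1 := hpow (Nat.card H)
    rw [pow_card_eq_one', map_one, Module.End.one_apply, left_eq_add,
      ← Nat.cast_smul_eq_nsmul (ZMod p), smul_eq_zero] at h1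
    rcases h1 with h1 | h1
    · exact absurd ((ZMod.natCast_eq_zero_iff _ _).mp h1) ((hp.out.coprime_iff_not_dvd).mp hcop.symm)
    · exact sub_eq_zero.mp h1
  · rw [Pi.mul_apply, map_mul]
    push_cast
    rw [← hn₁, ← hn₂]; ring
  · have hsplit : Nat.card {a : A // ρ h a = a} ≤
        Nat.card {a : W // ρW h a = a} * Nat.card {a : A ⧸ W // ρQ h a = a} := by
      let F : {a : A // ρ h a = a} → {a : A ⧸ W // ρQ h a = a} := fun a =>
        ⟨Submodule.Quotient.mk a.1, congrArg Submodule.Quotient.mk a.2⟩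
      let sec : {a : A ⧸ W // ρQ h a = a} → A := fun q =>
        if hq : ∃ a, F a = q then (Classical.choose hq).1 else 0
      rw [← Nat.card_prod]
      refine Nat.card_le_card_of_injective (fun a => (⟨⟨a.1 - sec (F a), ?_⟩, ?_⟩, F a)) ?_
      · have hq : ∃ b, F b = F a := ⟨a, rfl⟩
        simp only [sec, dif_pos hq]
        exact (Submodule.Quotient.eq W).mp (congrArg Subtype.val (Classical.choose_spec hq)).symm
      · have hq : ∃ b, F b = F a := ⟨a, rfl⟩
        refine Subtype.ext ?_
        show ρ h (a.1 - sec (F a)) = a.1 - sec (F a)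
        simp only [sec, dif_pos hq, map_sub, a.2, (Classical.choose hq).2]
      · intro a b hab
        rw [Prod.mk.injEq] at hab
        have h1 := congrArg (fun z : {a : W // ρW h a = a} => ((z.1 : W) : A)) hab.1
        simp only [hab.2] at h1
        exact Subtype.ext (sub_left_injective h1)
    calc n₁ * n₂ * Nat.card {a : A // ρ h a = a}
        ≤ n₁ * n₂ * (Nat.card {a : W // ρW h a = a} * Nat.card {a : A ⧸ W // ρQ h a = a}) :=
          Nat.mul_le_mul_left _ hsplit
      _ = (n₁ * Nat.card {a : W // ρW h a = a}) * (n₂ * Nat.card {a : A ⧸ W // ρQ h a = a}) := by ring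
      _ ≤ Nat.card W * Nat.card (A ⧸ W) := Nat.mul_le_mul hle₁ hle₂
      _ = Nat.card A := hcard.symm

end Cfsg.Lib.Blocks.GaussOmega
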