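import Cfsg.Agent.Lib.Blocks.GlaubermanSolvable
import Cfsg.Agent.Lib.Blocks.MajorSubsection
import Cfsg.Agent.Lib.Blocks.PrincipalRestriction
import Cfsg.Agent.Lib.Characters.CoprimeCoset
import Cfsg.Agent.Lib.Characters.Extension
import Cfsg.Agent.Lib.Characters.Gallagher
import Cfsg.Agent.Lib.Characters.Galois
import Cfsg.Agent.Lib.Characters.PowerConj
import Cfsg.Prelude.Def_CharExt

/-!
# The Glauberman correspondence for a cyclic operator group
-/

namespace Cfsg.Lib.GlaubermanCyclic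

open Cfsg.Lib.Characters Cfsg.Lib.Blocks Finset
open scoped ComplexConjugate Classical

set_option linter.unusedSectionVars false
set_option linter.style.haveILetI false
set_option linter.style.longLine false

variable {Γ : Type*} [Group Γ] [Fintype Γ]

/-- The data: `Γ = G ⟨s⟩` with coprime orders and `C` the centralizer of `s` in `G`. -/
structure Setup (G C : Subgroup Γ) (s : Γ) : Prop where
  cop : (Nat.card G).Coprime (orderOf s)
  gen : G ⊔ Subgroup.zpowers s = ⊤
  memC : ∀ c : Γ, c ∈ C ↔ c ∈ G ∧ Commute c s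

variable {G C : Subgroup Γ} {s : Γ}

namespace Setup

variable [G.Normal] (h : Setup G C s)
include h

theorem le : C ≤ G := fun c hc => ((h.memC c).mp hc).1

theorem index_eq : G.index = orderOf s ∧ IsCyclic (Γ ⧸ G) := by
  set φ : Subgroup.zpowers s →* Γ ⧸ G := (QuotientGroup.mk' G).comp (Subgroup.zpowers s).subtype with hφ
  have hsur : Function.Surjective φ := by
    intro q
    obtain ⟨x, rfl⟩ := QuotientGroup.mk_surjective q
    have hx : x ∈ G ⊔ Subgroup.zpowers s := by rw [h.gen]; trivial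
    obtain ⟨g, hg, z, hz, rfl⟩ := Subgroup.mem_sup_of_normal_left.mp hx
    refine ⟨⟨z, hz⟩, ?_⟩
    show (z : Γ ⧸ G) = ((g * z : Γ) : Γ ⧸ G)
    rw [QuotientGroup.mk_mul, (QuotientGroup.eq_one_iff g).mpr hg, one_mul]
  have hinj : Function.Injective φ := by
    rw [injective_iff_map_eq_one]
    rintro ⟨z, hz⟩ he
    have hzG : z ∈ G := (QuotientGroup.eq_one_iff z).mp he
    have : z ∈ (⊥ : Subgroup Γ) := by
      rw [← Cfsg.Lib.Solv.inf_eq_bot_of_coprime_card (H := G) (K := Subgroup.zpowers s)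
        (by rw [Nat.card_zpowers]; exact h.cop)]
      exact ⟨hzG, hz⟩
    exact Subtype.ext (Subgroup.mem_bot.mp this)
  refine ⟨?_, isCyclic_of_surjective φ hsur⟩
  rw [Subgroup.index, ← Nat.card_congr (Equiv.ofBijective φ ⟨hinj, hsur⟩), Nat.card_zpowers]

theorem card_eq : Nat.card Γ = Nat.card G * orderOf s := by
  rw [← h.index_eq.1, Subgroup.card_mul_index]

theorem pow_card_mem (x : Γ) : x ^ orderOf s ∈ G := by
  rw [← h.index_eq.1]
  exact G.pow_index_mem x

/-- An exponent picking the `s`-part. -/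
theorem exists_exp : ∃ e : ℕ, e ≡ 1 [MOD orderOf s] ∧ Nat.card G ∣ e := exists_piExp h.cop.symm

theorem pow_exp {e : ℕ} (he1 : e ≡ 1 [MOD orderOf s]) (he0 : Nat.card G ∣ e) {c : Γ} (hc : c ∈ C) :
    (c * s) ^ e = s := by
  rw [Commute.mul_pow ((h.memC c).mp hc).2, pow_piExp_of_left he1 (pow_orderOf_eq_one s),
    pow_piExp_of_right he0 (orderOf_dvd_iff_pow_eq_one.mp (Subgroup.orderOf_dvd_natCard G (h.le hc))), one_mul]

theorem conj_mem {y c c' : Γ} (hy : y ∈ G) (hc : c ∈ C) (hc' : c' ∈ C)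
    (he : y * (c * s) * y⁻¹ = c' * s) : y ∈ C ∧ y * c * y⁻¹ = c' := by
  obtain ⟨e, he1, he0⟩ := h.exists_exp
  have h1 : y * s * y⁻¹ = s := by
    calc y * s * y⁻¹ = (y * (c * s) * y⁻¹) ^ e := by rw [conj_pow, h.pow_exp he1 he0 hc]
      _ = s := by rw [he, h.pow_exp he1 he0 hc']
  refine ⟨(h.memC y).mpr ⟨hy, mul_inv_eq_iff_eq_mul.mp h1⟩, ?_⟩
  have : y * c * y⁻¹ * (y * s * y⁻¹) = c' * (y * s * y⁻¹) := by
    conv_rhs => rw [h1, ← he]
    group
  exact mul_right_cancel this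

theorem exists_conj {g : Γ} (hg : g ∈ G) : ∃ n ∈ G, ∃ c ∈ C, n * (g * s) * n⁻¹ = c * s := by
  obtain ⟨n, hn, c, hc, hcs, he, -⟩ := exists_conj_coprime_coset (N := G) (x := s)
    (by rw [Subgroup.normalizer_eq_top]; trivial) h.cop.symm hg
  exact ⟨n, hn, c, (h.memC c).mpr ⟨hc, hcs⟩, he⟩

/-- Class functions sum over the coset as over `C`. -/
theorem sum_coset [Fintype G] [Fintype C] {F : Γ → ℂ} (hF : IsClassFunction Γ F) :
    (Nat.card C : ℂ) * ∑ g : G, F ((g : Γ) * s) = (Nat.card G : ℂ) * ∑ c : C, F ((c : Γ) * s) := by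
  have hcoset : ∀ p : G × C, (p.1 : Γ) * ((p.2 : Γ) * s) * (p.1 : Γ)⁻¹ * s⁻¹ ∈ G := by
    intro p
    have h1 : (p.1 : Γ) * (p.2 : Γ) ∈ G := mul_mem p.1.2 (h.le p.2.2)
    have h2 : s * (p.1 : Γ)⁻¹ * s⁻¹ ∈ G := (inferInstance : G.Normal).conj_mem _ (inv_mem p.1.2) s
    have h3 := mul_mem h1 h2
    simpa [mul_assoc] using h3
  let F' : G × C → G := fun p => ⟨_, hcoset p⟩
  have hF' : ∀ p, ((F' p : G) : Γ) * s = (p.1 : Γ) * ((p.2 : Γ) * s) * (p.1 : Γ)⁻¹ := fun p =>
    inv_mul_cancel_right _ _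
  have hfib : ∀ g : G, (univ.filter fun p : G × C => F' p = g).card = Nat.card C := by
    intro g
    obtain ⟨n, hn, c, hc, he⟩ := h.exists_conj g.2
    have he' : n⁻¹ * (c * s) * n = (g : Γ) * s := by rw [← he]; group
    rw [Nat.card_eq_fintype_card, ← Fintype.card_subtype]
    refine (Fintype.card_congr (Equiv.ofBijective
      (fun y : C => (⟨(⟨n⁻¹ * (y : Γ), mul_mem (inv_mem hn) (h.le y.2)⟩, y⁻¹ * ⟨c, hc⟩ * y), ?_⟩ :
        {p : G × C // F' p = g})) ⟨?_, ?_⟩)).symm
    · apply Subtype.ext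
      apply mul_right_cancel (b := s)
      rw [hF', ← he']
      have hys : s * (y : Γ)⁻¹ = (y : Γ)⁻¹ * s := ((h.memC _).mp y.2).2.inv_left.eq.symm
      simp only [Subgroup.coe_mul, Subgroup.coe_inv, mul_assoc, mul_inv_rev, inv_inv]
      rw [← mul_assoc s (y : Γ)⁻¹ n, hys, mul_assoc]
      group
    · intro y y' hyy
      exact Subtype.ext (mul_left_cancel (congrArg (fun q => ((q.1.1 : G) : Γ)) hyy))
    · rintro ⟨⟨x, c'⟩, hp⟩
      have hx : (x : Γ) * ((c' : Γ) * s) * (x : Γ)⁻¹ = (g : Γ) * s := by rw [← hF' (x, c'), hp]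
      obtain ⟨hy, hyc⟩ := h.conj_mem (y := n * (x : Γ)) (mul_mem hn x.2) c'.2 hc
        (by calc n * (x : Γ) * ((c' : Γ) * s) * (n * (x : Γ))⁻¹
                = n * ((x : Γ) * ((c' : Γ) * s) * (x : Γ)⁻¹) * n⁻¹ := by group
              _ = c * s := by rw [hx, he])
      refine ⟨⟨_, hy⟩, Subtype.ext (Prod.ext (Subtype.ext ?_) (Subtype.ext ?_))⟩
      · show n⁻¹ * (n * (x : Γ)) = (x : Γ)
        group
      · show (n * (x : Γ))⁻¹ * c * (n * (x : Γ)) = (c' : Γ)
        rw [← hyc]; group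
  have h1 : ∑ p : G × C, F ((F' p : Γ) * s) = (Nat.card C : ℂ) * ∑ g : G, F ((g : Γ) * s) := by
    rw [← Finset.sum_fiberwise_of_maps_to (g := F') (t := univ) (fun _ _ => mem_univ _), Finset.mul_sum]
    refine Finset.sum_congr rfl fun g _ => ?_
    rw [Finset.sum_congr rfl (g := fun _ => F ((g : Γ) * s)) fun p hp => by rw [(Finset.mem_filter.mp hp).2],
      Finset.sum_const, hfib, nsmul_eq_mul]
  rw [← h1, Finset.sum_congr rfl (g := fun p : G × C => F ((p.2 : Γ) * s)) fun p _ => by rw [hF', hF],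
    Fintype.sum_prod_type]
  show ∑ _x : G, ∑ c : C, F ((c : Γ) * s) = _
  rw [Finset.sum_const, nsmul_eq_mul, Finset.card_univ, Nat.card_eq_fintype_card]

/-- The canonical extensions: those with determinant of order prime to the order of `s`. -/
def Canon (_h : Setup G C s) (χ : Γ → ℂ) : Prop := ∀ x, detChar χ x ^ Nat.card G = 1

theorem canon_of_coprime {χ : Γ → ℂ} (hχ : IsCharacter Γ χ)
    (hcop : (detOrder χ).Coprime (orderOf s)) : h.Canon χ := by
  obtain ⟨D, hD, -⟩ := exists_detHom hχ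
  have h1 : detChar χ ^ (Nat.card G * orderOf s) = 1 := by
    funext x
    rw [Pi.pow_apply, ← hD, ← h.card_eq, ← Units.val_pow_eq_pow_val, ← map_pow, pow_card_eq_one', map_one,
      Units.val_one, Pi.one_apply]
  have h2 : orderOf (detChar χ) ∣ Nat.card G :=
    (Nat.Coprime.dvd_mul_right hcop).mp (orderOf_dvd_of_pow_eq_one h1)
  intro x
  exact congrFun (orderOf_dvd_iff_pow_eq_one.mp h2) x

theorem coprime_of_canon {χ : Γ → ℂ} (hχ : h.Canon χ) : (detOrder χ).Coprime (orderOf s) :=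
  h.cop.coprime_dvd_left (orderOf_dvd_of_pow_eq_one (funext hχ))

theorem degree_coprime [Fintype G] {χ : Γ → ℂ} (hres : IsIrrCharacter G fun g : G => χ g) {d : ℕ}
    (hd : χ 1 = d) : (d * Nat.card G).Coprime (orderOf s) := by
  have h1 : d ∣ Nat.card G := degree_dvd_card hres (by simpa using hd)
  exact Nat.Coprime.mul_left (h.cop.coprime_dvd_left h1) h.cop

theorem linear_eq_one [Fintype G] {χ χ' : Γ → ℂ} (hχ : IsCharacter Γ χ)
    (hres : IsIrrCharacter G fun g : G => χ g) (hc : h.Canon χ) (hc' : h.Canon χ') (μ : Γ →* ℂˣ)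
    (hμ : ∀ g ∈ G, μ g = 1) (he : ∀ x, χ' x = (μ x : ℂ) * χ x) : μ = 1 := by
  obtain ⟨d, hd⟩ := exists_degree hχ
  have hcop := h.degree_coprime hres hd
  refine MonoidHom.ext fun x => ?_
  have h2 : μ x ^ orderOf s = 1 := by rw [← map_pow, hμ _ (h.pow_card_mem x)]
  have h1 : μ x ^ (d * Nat.card G) = 1 := by
    apply Units.ext
    have h3 := hc' x
    rw [show χ' = fun y => (μ y : ℂ) * χ y from funext he, detChar_linear_mul hχ hd, mul_pow, hc x, mul_one,
      ← pow_mul] at h3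
    rw [Units.val_pow_eq_pow_val, Units.val_one]
    exact h3
  have := pow_gcd_eq_one.mpr ⟨h1, h2⟩
  rwa [hcop, pow_one] at this

/-- Extensions with canonical determinant are unique. -/
theorem canon_unique [Fintype G] {χ χ' : Γ → ℂ} (hχ : IsIrrCharacter Γ χ) (hχ' : IsIrrCharacter Γ χ')
    (hres : IsIrrCharacter G fun g : G => χ g) (hc : h.Canon χ) (hc' : h.Canon χ')
    (he : ∀ g : G, χ' g = χ g) : χ' = χ := by
  obtain ⟨μ, hμ, hμe⟩ := exists_linear_of_extensions hχ hχ' (M := G) (fun g => he g) hres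
  have h1 := h.linear_eq_one hχ.isCharacter hres hc hc' μ hμ fun x => (hμe x).symm
  funext x
  rw [← hμe x, h1, MonoidHom.one_apply, Units.val_one, one_mul]

theorem exists_canon [Fintype G] (χ : IrrCharacter G) (hinv : ∀ g : G, ∀ y : Γ, ∀ g' : G,
      (g' : Γ) = y * g * y⁻¹ → (χ : G → ℂ) g' = (χ : G → ℂ) g) :
    ∃ χh : IrrCharacter Γ, h.Canon (χh : Γ → ℂ) ∧ ∀ g : G, (χh : Γ → ℂ) g = (χ : G → ℂ) g := by
  obtain ⟨η, hη, hηr⟩ := exists_extension_of_cyclic h.index_eq.2 χ.2 fun y => by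
    funext g
    rw [conjFn_apply]
    exact hinv g y _ rfl
  obtain ⟨d, hd⟩ := exists_degree hη.isCharacter
  have hres : IsIrrCharacter G fun g : G => η g := by
    simp only [hηr]; exact χ.2
  have hcop := h.degree_coprime hres hd
  obtain ⟨D, hD, -⟩ := exists_detHom hη.isCharacter
  obtain ⟨j, hj⟩ : ∃ j : ℕ, orderOf s ∣ j * (d * Nat.card G) + 1 := by
    obtain ⟨a, b, hab⟩ := (Nat.isCoprime_iff_coprime.mpr hcop :
      IsCoprime ((d * Nat.card G : ℕ) : ℤ) (orderOf s : ℤ))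
    have hn : 0 < orderOf s := orderOf_pos s
    refine ⟨((-a) % (orderOf s : ℤ)).toNat, ?_⟩
    rw [← Int.natCast_dvd_natCast]
    push_cast
    rw [Int.toNat_of_nonneg (Int.emod_nonneg _ (by omega))]
    refine ⟨b - ((-a) / (orderOf s : ℤ)) * ((d : ℤ) * (Nat.card G : ℤ)), ?_⟩
    rw [Int.emod_def]
    push_cast at hab
    linear_combination -hab
  set μ : Γ →* ℂˣ := (powMonoidHom (j * Nat.card G)).comp D with hμ
  have hμG : ∀ g ∈ G, μ g = 1 := by
    intro g hg
    show D g ^ (j * Nat.card G) = 1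
    rw [← map_pow, mul_comm, pow_mul, orderOf_dvd_iff_pow_eq_one.mp (Subgroup.orderOf_dvd_natCard G hg),
      one_pow, map_one]
  refine ⟨⟨fun x => (μ x : ℂ) * η x, isIrrCharacter_linear_mul μ hη⟩, fun x => ?_, fun g => ?_⟩
  · show detChar (fun x => (μ x : ℂ) * η x) x ^ Nat.card G = 1
    rw [detChar_linear_mul hη.isCharacter hd, ← hD, ← Units.val_pow_eq_pow_val, ← Units.val_mul,
      ← Units.val_pow_eq_pow_val, Units.val_eq_one]
    show ((D x ^ (j * Nat.card G)) ^ d * D x) ^ Nat.card G = 1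
    obtain ⟨q, hq⟩ := hj
    rw [← pow_mul, ← pow_succ, ← pow_mul,
      show (j * Nat.card G * d + 1) * Nat.card G = Nat.card Γ * q by
        rw [h.card_eq, mul_assoc j, mul_comm (Nat.card G) d, hq]; ring,
      pow_mul, ← map_pow, pow_card_eq_one', map_one, one_pow]
  · show (μ g : ℂ) * η g = _
    rw [hμG _ g.2, Units.val_one, one_mul, hηr]

theorem sum_coset_mul_conj [Fintype G] (χ χ' : IrrCharacter Γ)
    (hne : ∀ μ : Γ →* ℂˣ, (∀ g ∈ G, μ g = 1) → μ ≠ 1 →
      (fun x => (μ x : ℂ) * (χ : Γ → ℂ) x) ≠ (χ' : Γ → ℂ)) :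
    ∑ g : G, (χ : Γ → ℂ) ((g : Γ) * s) * conj ((χ' : Γ → ℂ) ((g : Γ) * s))
      = if χ = χ' then (Nat.card G : ℂ) else 0 := by
  haveI := h.index_eq.2
  haveI := Fintype.ofFinite (Γ ⧸ G)
  haveI : IsMulCommutative (Γ ⧸ G) := IsCyclic.isMulCommutative
  set F : Γ → ℂ := fun x => (χ : Γ → ℂ) x * conj ((χ' : Γ → ℂ) x) with hF
  choose lam hlam using fun ν : IrrCharacter (Γ ⧸ G) =>
    exists_hom_of_degree_one ν.2.isCharacter (degree_one_of_isMulCommutative ν.2)
  have hcol : ∀ x : Γ, ∑ ν : IrrCharacter (Γ ⧸ G),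
      (ν : Γ ⧸ G → ℂ) x * conj ((ν : Γ ⧸ G → ℂ) s) = if x * s⁻¹ ∈ G then (orderOf s : ℂ) else 0 := by
    intro x
    rw [column_orthogonality]
    have e1 : IsConj (x : Γ ⧸ G) (s : Γ ⧸ G) ↔ x * s⁻¹ ∈ G := by
      rw [← QuotientGroup.eq_one_iff, QuotientGroup.mk_mul, QuotientGroup.mk_inv, mul_inv_eq_one]
      exact ⟨fun hc => by
        obtain ⟨c, hc⟩ := isConj_iff.mp hc
        rwa [mul_comm' c, mul_inv_cancel_right] at hc, fun hc => hc ▸ IsConj.refl _⟩
    have hidx : Nat.card (Γ ⧸ G) = orderOf s := h.index_eq.1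
    refine if_congr e1 ?_ rfl
    have hc : ∀ z : Γ ⧸ G, Subgroup.centralizer ({z} : Set (Γ ⧸ G)) = ⊤ := fun z => by
      rw [eq_top_iff]; intro y _; rw [Subgroup.mem_centralizer_singleton_iff, mul_comm']
    rw [hc, Subgroup.card_top, hidx]
  have hsum : (orderOf s : ℂ) * ∑ g : G, F ((g : Γ) * s)
      = ∑ ν : IrrCharacter (Γ ⧸ G), conj ((ν : Γ ⧸ G → ℂ) s) * ∑ x : Γ, (ν : Γ ⧸ G → ℂ) x * F x := by
    simp only [Finset.mul_sum]
    conv_rhs => rw [Finset.sum_comm]
    rw [Finset.sum_congr rfl (g := fun x : Γ => (if x * s⁻¹ ∈ G then (orderOf s : ℂ) else 0) * F x)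
      (fun x _ => by rw [← hcol x, Finset.sum_mul]; exact Finset.sum_congr rfl fun ν _ => by ring)]
    simp only [ite_mul, zero_mul, ← Finset.sum_filter]
    refine Finset.sum_bij (fun g _ => (g : Γ) * s) (fun g _ => by simp) (fun a _ b _ hab => ?_)
      (fun x hx => ⟨⟨x * s⁻¹, (Finset.mem_filter.mp hx).2⟩, mem_univ _, by simp⟩) (fun g _ => rfl)
    exact Subtype.ext (mul_right_cancel hab)
  have hterm : ∀ ν : IrrCharacter (Γ ⧸ G), conj ((ν : Γ ⧸ G → ℂ) s) * ∑ x : Γ, (ν : Γ ⧸ G → ℂ) x * F x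
      = if ν = trivChar (Γ ⧸ G) then (if χ = χ' then (Nat.card Γ : ℂ) else 0) else 0 := by
    intro ν
    set μ : Γ →* ℂˣ := (lam ν).comp (QuotientGroup.mk' G) with hμ
    have hval : ∀ x : Γ, (μ x : ℂ) = (ν : Γ ⧸ G → ℂ) x := fun x => by rw [hlam ν]; rfl
    have hinner : ∑ x : Γ, (ν : Γ ⧸ G → ℂ) x * F x
        = (Nat.card Γ : ℂ) * classInner (fun x => (μ x : ℂ) * (χ : Γ → ℂ) x) (χ' : Γ → ℂ) := by
      rw [classInner, ← mul_assoc, mul_inv_cancel₀ (Nat.cast_ne_zero.mpr Nat.card_pos.ne'), one_mul]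
      exact Finset.sum_congr rfl fun x _ => by rw [hval, hF]; ring
    rw [hinner, classInner_irr (isIrrCharacter_linear_mul μ χ.2) χ'.2]
    split_ifs with h1 h2 h3 h4
    · rw [h2, trivChar_apply, map_one, one_mul, mul_one]
    · exfalso
      refine hne μ (fun g hg => Units.ext ?_) (fun hμ1 => h3 ?_) h1
      · rw [hval, (QuotientGroup.eq_one_iff g).mpr hg, hlam ν]; simp
      · subst h2
        apply Subtype.ext
        rw [← h1, hμ1]
        funext x; simp
    · exfalso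
      refine h2 (Subtype.ext (funext fun q => ?_))
      have hμ1 : μ = 1 := by
        by_contra hμ1
        exact hne μ (fun g hg => Units.ext (by rw [hval, (QuotientGroup.eq_one_iff g).mpr hg, hlam ν]; simp)) hμ1 h1
      obtain ⟨x, rfl⟩ := QuotientGroup.mk_surjective q
      rw [← hval x, hμ1, trivChar_apply]; simp
    all_goals first
      | ring1
      | (exfalso; apply h1
         subst_vars
         funext x
         rw [hval, trivChar_apply, one_mul])
  rw [Finset.sum_congr rfl fun ν _ => hterm ν, Finset.sum_ite_eq' univ (trivChar (Γ ⧸ G)),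
    if_pos (mem_univ _)] at hsum
  have hn : (orderOf s : ℂ) ≠ 0 := Nat.cast_ne_zero.mpr (orderOf_pos s).ne'
  apply mul_left_cancel₀ hn
  rw [hsum, h.card_eq]
  split_ifs
  · push_cast; ring
  · ring

/-- The values on `C s` do not depend on the generator. -/
theorem value_generator [Fintype G] {χ : Γ → ℂ} (hχ : IsIrrCharacter Γ χ)
    (hres : IsIrrCharacter G fun g : G => χ g) (hc : h.Canon χ) {y : Γ} (hy : y ∈ C) {k : ℕ}
    (hk : k.Coprime (orderOf s)) : χ (y * s ^ k) = χ (y * s) := by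
  obtain ⟨k', hk1, hk2⟩ := Nat.chineseRemainder h.cop 1 k
  have hk'G : k'.Coprime (Nat.card G) := by
    rw [Nat.coprime_iff_gcd_eq_one, Nat.ModEq.gcd_eq hk1, Nat.gcd_one_left]
  have hk'n : k'.Coprime (orderOf s) := by
    rw [Nat.coprime_iff_gcd_eq_one, Nat.ModEq.gcd_eq hk2]; exact hk
  have hk' : (Nat.card Γ).Coprime k' := by
    rw [h.card_eq]; exact (Nat.Coprime.mul_right hk'G hk'n).symm
  have hirr := isIrrCharacter_comp_pow hχ hk'
  have hG : ∀ g ∈ G, g ^ k' = g := fun g hg =>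
    pow_piExp_of_left hk1 (orderOf_dvd_iff_pow_eq_one.mp (Subgroup.orderOf_dvd_natCard G hg))
  obtain ⟨D, hD, -⟩ := exists_detHom hχ.isCharacter
  have hc' : h.Canon fun x => χ (x ^ k') := by
    intro x
    set Z := Subgroup.zpowers x
    let f : Z →* Γ :=
      { toFun := fun z => (z : Γ) ^ k'
        map_one' := by simp
        map_mul' := fun a b => by
          rw [Subgroup.coe_mul, Commute.mul_pow]
          exact congrArg Subtype.val (mul_comm' a b) }
    have h1 := detChar_comp hirr.isCharacter Z.subtype ⟨x, Subgroup.mem_zpowers x⟩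
    have h2 := detChar_comp hχ.isCharacter f ⟨x, Subgroup.mem_zpowers x⟩
    change detChar (fun g => χ (g ^ k')) (Z.subtype ⟨x, Subgroup.mem_zpowers x⟩) ^ _ = 1
    rw [← h1]
    show detChar (fun y : Z => χ ((y : Γ) ^ k')) _ ^ _ = 1
    rw [show (fun y : Z => χ ((y : Γ) ^ k')) = fun y : Z => χ (f y) from rfl, h2]
    exact hc _
  have heq := h.canon_unique hχ hirr hres hc hc' fun g => by
    show χ ((g : Γ) ^ k') = χ g
    rw [hG g g.2]
  calc χ (y * s ^ k) = χ ((y * s) ^ k') := by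
        rw [Commute.mul_pow ((h.memC y).mp hy).2, hG y (h.le hy)]
        congr 2
        exact (pow_eq_pow_iff_modEq.mpr hk2).symm
    _ = χ (y * s) := congrFun heq _

theorem exists_coeff [Fintype G] [Fintype C] {χ : Γ → ℂ} (hχ : IsIrrCharacter Γ χ)
    (hres : IsIrrCharacter G fun g : G => χ g) (hc : h.Canon χ) (β : IrrCharacter C) :
    ∃ a : ℤ, classInner (fun c : C => χ ((c : Γ) * s)) (β : C → ℂ) = (a : ℂ) ∧
      (a ≠ 0 → classInner (fun c : C => χ (c : Γ)) (β : C → ℂ) ≠ 0) := by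
  -- decompose on `C⟨s⟩`, where `s` is central
  set E : Subgroup Γ := C ⊔ Subgroup.zpowers s with hE
  haveI := Fintype.ofFinite E
  have hsE : s ∈ E := (le_sup_right : Subgroup.zpowers s ≤ E) (Subgroup.mem_zpowers s)
  have hCE : C ≤ E := le_sup_left
  have hsc : (⟨s, hsE⟩ : E) ∈ Subgroup.center E := by
    refine Subgroup.mem_center_iff.mpr fun e => Subtype.ext ?_
    have hle : E ≤ Subgroup.centralizer ({s} : Set Γ) := sup_le
      (fun c hcC => Subgroup.mem_centralizer_singleton_iff.mpr ((h.memC c).mp hcC).2)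
      (Subgroup.zpowers_le.mpr (Subgroup.mem_centralizer_singleton_iff.mpr rfl))
    exact Subgroup.mem_centralizer_singleton_iff.mp (hle e.2)
  obtain ⟨M, hM⟩ := exists_decomposition (isCharacter_restrict hχ.isCharacter E)
  choose ω hω hωmul using fun ψ : IrrCharacter E => exists_central_root ψ hsc
  choose q hq using fun ψ : IrrCharacter E =>
    classInner_nat (isCharacter_comp ψ.2.isCharacter (Subgroup.inclusion hCE)) β.2.isCharacter
  have hv : ∀ x : E, χ (x : Γ) = ∑ ψ : IrrCharacter E, (M ψ : ℂ) * (ψ : E → ℂ) x := fun x => by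
    have := congrFun hM x
    simpa [Finset.sum_apply] using this
  have h1 : classInner (fun c : C => χ ((c : Γ) * s)) (β : C → ℂ)
      = ∑ ψ : IrrCharacter E, (M ψ : ℂ) * ω ψ * (q ψ : ℂ) := by
    rw [show (fun c : C => χ ((c : Γ) * s)) = ∑ ψ : IrrCharacter E,
        ((M ψ : ℂ) * ω ψ) • fun c : C => (ψ : E → ℂ) (Subgroup.inclusion hCE c) from funext fun c => by
      have hcs : (c : Γ) * s = ((⟨s, hsE⟩ * Subgroup.inclusion hCE c : E) : Γ) :=
        ((h.memC _).mp c.2).2.eq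
      rw [hcs, hv, Finset.sum_apply]
      exact Finset.sum_congr rfl fun ψ _ => by rw [hωmul, Pi.smul_apply, smul_eq_mul, mul_assoc],
      classInner_sum_left]
    exact Finset.sum_congr rfl fun ψ _ => by rw [classInner_smul_left, hq]
  have h2 : classInner (fun c : C => χ (c : Γ)) (β : C → ℂ)
      = ((∑ ψ : IrrCharacter E, M ψ * q ψ : ℕ) : ℂ) := by
    rw [show (fun c : C => χ (c : Γ)) = ∑ ψ : IrrCharacter E,
        (M ψ : ℂ) • fun c : C => (ψ : E → ℂ) (Subgroup.inclusion hCE c) from funext fun c => by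
      rw [show (c : Γ) = ((Subgroup.inclusion hCE c : E) : Γ) from rfl, hv, Finset.sum_apply]
      rfl, classInner_sum_left, Nat.cast_sum]
    exact Finset.sum_congr rfl fun ψ _ => by rw [classInner_smul_left, hq, Nat.cast_mul]
  have hint : IsIntegral ℤ (classInner (fun c : C => χ ((c : Γ) * s)) (β : C → ℂ)) := by
    rw [h1]
    refine IsIntegral.sum _ fun ψ _ => ((isIntegral_natCast _).mul ?_).mul (isIntegral_natCast _)
    exact isIntegral_root_of_unity (orderOf_pos _) (hω ψ)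
  -- rationality
  set N := Nat.card Γ
  haveI : NeZero N := ⟨Nat.card_pos.ne'⟩
  have hζ : IsPrimitiveRoot (Complex.exp (2 * Real.pi * Complex.I / N)) N :=
    Complex.isPrimitiveRoot_exp N Nat.card_pos.ne'
  set ζ := Complex.exp (2 * Real.pi * Complex.I / N)
  choose z hz hzφ using fun c : C => char_galois hζ hχ.isCharacter (g := (c : Γ) * s)
    (orderOf_dvd_iff_pow_eq_one.mp (orderOf_dvd_natCard _))
  choose z' hz' hzφ' using fun c : C => char_galois hζ β.2.isCharacter (g := c⁻¹) (n := N)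
    (orderOf_dvd_iff_pow_eq_one.mp ((orderOf_dvd_natCard _).trans (Subgroup.card_subgroup_dvd_card C)))
  let A : IntermediateField.adjoin ℚ ({ζ} : Set ℂ) := (Nat.card C : IntermediateField.adjoin ℚ ({ζ} : Set ℂ))⁻¹ * ∑ c : C, z c * z' c
  have hA : (A : ℂ) = classInner (fun c : C => χ ((c : Γ) * s)) (β : C → ℂ) := by
    simp only [A, classInner, IntermediateField.coe_sum, IntermediateField.coe_inv,
      IntermediateField.coe_mul, hz, hz']
    exact congrArg _ (Finset.sum_congr rfl fun c _ => by rw [char_inv_eq_conj β.2.isCharacter])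
  obtain ⟨r, hr⟩ := rat_of_fixed hζ A fun φ => by
    obtain ⟨k, hk, hφ⟩ := galois_hom_gen hζ φ
    have hkC : (Nat.card C).Coprime k := (hk.coprime_dvd_right (Subgroup.card_subgroup_dvd_card C)).symm
    rw [hA, classInner]
    simp only [A, map_sum, map_mul, map_inv₀, map_natCast]
    congr 1
    refine Fintype.sum_equiv (powCoprime hkC) _ _ fun c => ?_
    rw [hzφ c φ k hφ, hzφ' c φ k hφ, powCoprime_apply, ← char_inv_eq_conj β.2.isCharacter, inv_pow,
      Commute.mul_pow ((h.memC _).mp c.2).2, SubmonoidClass.coe_pow]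
    congr 1
    exact h.value_generator hχ hres hc (pow_mem c.2 k) (hk.coprime_dvd_right
      (Dvd.intro_left _ h.card_eq.symm))
  rw [hA] at hr
  rw [hr] at hint
  obtain ⟨a, ha⟩ := exists_int_of_isIntegral hint
  refine ⟨a, hr.trans ha, fun ha0 h0 => ?_⟩
  rw [h2, Nat.cast_eq_zero, Finset.sum_eq_zero_iff] at h0
  apply ha0
  have hz0 : classInner (fun c : C => χ ((c : Γ) * s)) (β : C → ℂ) = 0 := by
    rw [h1]
    refine Finset.sum_eq_zero fun ψ hψ => ?_
    rcases mul_eq_zero.mp (h0 ψ hψ) with h' | h' <;> simp [h']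
  rw [hr, ha] at hz0
  exact_mod_cast hz0

theorem inner_f [Fintype G] [Fintype C] (χ χ' : IrrCharacter Γ)
    (hne : ∀ μ : Γ →* ℂˣ, (∀ g ∈ G, μ g = 1) → μ ≠ 1 →
      (fun x => (μ x : ℂ) * (χ : Γ → ℂ) x) ≠ (χ' : Γ → ℂ)) :
    classInner (fun c : C => (χ : Γ → ℂ) ((c : Γ) * s)) (fun c : C => (χ' : Γ → ℂ) ((c : Γ) * s))
      = if χ = χ' then 1 else 0 := by
  have hF : IsClassFunction Γ fun x => (χ : Γ → ℂ) x * conj ((χ' : Γ → ℂ) x) := fun x y => by
    simp only [χ.2.isClassFunction x y, χ'.2.isClassFunction x y]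
  have h1 := h.sum_coset hF
  rw [h.sum_coset_mul_conj χ χ' hne] at h1
  have hm : (Nat.card G : ℂ) ≠ 0 := Nat.cast_ne_zero.mpr Nat.card_pos.ne'
  have hc : (Nat.card C : ℂ) ≠ 0 := Nat.cast_ne_zero.mpr Nat.card_pos.ne'
  apply mul_left_cancel₀ hc
  apply mul_left_cancel₀ hm
  rw [classInner, ← mul_assoc (Nat.card C : ℂ), mul_inv_cancel₀ hc, one_mul, ← h1]
  split_ifs <;> ring

theorem isClassFunction_f {χ : Γ → ℂ} (hχ : IsClassFunction Γ χ) :
    IsClassFunction C fun c : C => χ ((c : Γ) * s) := by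
  intro c y
  show χ (((y * c * y⁻¹ : C) : Γ) * s) = χ ((c : Γ) * s)
  rw [← hχ ((c : Γ) * s) (y : Γ)]
  congr 1
  have hys : s * (y : Γ)⁻¹ = (y : Γ)⁻¹ * s := ((h.memC _).mp y.2).2.inv_left.eq.symm
  push_cast
  simp only [mul_assoc, hys]

/-- The correspondent of a canonical extension. -/
theorem exists_pm [Fintype G] [Fintype C] {χ : Γ → ℂ} (hχ : IsIrrCharacter Γ χ)
    (hres : IsIrrCharacter G fun g : G => χ g) (hc : h.Canon χ) :
    ∃ β : IrrCharacter C, ∃ ε : ℤ, (ε = 1 ∨ ε = -1) ∧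
      (∀ c : C, χ ((c : Γ) * s) = (ε : ℂ) * (β : C → ℂ) c) ∧
      classInner (fun c : C => χ (c : Γ)) (β : C → ℂ) ≠ 0 := by
  choose a ha hane using fun β : IrrCharacter C => h.exists_coeff hχ hres hc β
  set f := fun c : C => χ ((c : Γ) * s) with hf
  have hfc := h.isClassFunction_f hχ.isClassFunction
  have hnorm : classInner f f = 1 := by
    have := h.inner_f (χ := ⟨χ, hχ⟩) (χ' := ⟨χ, hχ⟩) fun μ hμ hμ1 he => hμ1
      (h.linear_eq_one hχ.isCharacter hres hc hc μ hμ fun x => (congrFun he x).symm)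
    simpa using this
  have hexp : f = ∑ β : IrrCharacter C, (a β : ℂ) • (β : C → ℂ) := by
    refine (classFunction_expansion hfc).trans ?_
    exact Finset.sum_congr rfl fun β _ => by rw [ha]
  have hsq : ∑ β : IrrCharacter C, a β * a β = 1 := by
    have h1 : classInner f f = ∑ β : IrrCharacter C, (a β : ℂ) * (a β : ℂ) := by
      nth_rewrite 1 [hexp]
      rw [classInner_sum_left]
      refine Finset.sum_congr rfl fun β _ => ?_
      rw [classInner_smul_left, ← conj_classInner, ha, map_intCast]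
    rw [hnorm] at h1
    exact_mod_cast h1.symm
  obtain ⟨β, -, hβ⟩ : ∃ β ∈ (univ : Finset (IrrCharacter C)), a β ≠ 0 := by
    by_contra hno
    push Not at hno
    rw [Finset.sum_eq_zero fun β hβ => by rw [hno β hβ, mul_zero]] at hsq
    exact zero_ne_one hsq
  have h1 : a β * a β + ∑ β' ∈ univ.erase β, a β' * a β' = 1 := by
    rw [Finset.add_sum_erase univ (fun b => a b * a b) (mem_univ β)]; exact hsq
  have h2 : 0 ≤ ∑ β' ∈ univ.erase β, a β' * a β' := Finset.sum_nonneg fun _ _ => mul_self_nonneg _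
  have h3 : 1 ≤ a β * a β := mul_self_pos.mpr hβ
  have h4 : ∀ β' ∈ univ.erase β, a β' = 0 := fun β' hβ' => by
    have := (Finset.sum_eq_zero_iff_of_nonneg fun _ _ => mul_self_nonneg _).mp
      (show ∑ β' ∈ univ.erase β, a β' * a β' = 0 by omega) β' hβ'
    simpa using this
  refine ⟨β, a β, mul_self_eq_one_iff.mp (by omega), fun c => ?_, hane β hβ⟩
  have := congrFun hexp c
  rw [Finset.sum_apply, Finset.sum_eq_single β (fun β' _ hne => by
    rw [h4 β' (Finset.mem_erase.mpr ⟨hne, mem_univ _⟩)]; simp) (by simp)] at this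
  simpa using this

end Setup

end Cfsg.Lib.GlaubermanCyclic
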