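import Cfsg.Agent.Lib.Blocks.CoveringDefect
import Cfsg.Agent.Lib.Blocks.ExtendedFirstMain

/-!
# Covering blocks through the normalizer of a defect group
-/

namespace Cfsg.Lib.Blocks

open Cfsg.Lib.Characters Finset
open scoped ComplexConjugate Classical

set_option linter.unusedSectionVars false
set_option linter.style.longLine false
set_option linter.style.haveILetI false
set_option maxHeartbeats 1000000

universe u

section Pull

variable {A B : Type*} [Group A] [Group B] [Fintype A] [Fintype B]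
variable {M : Ideal Cfsg.AlgInt} [M.IsPrime] {p : ℕ} [hp : Fact p.Prime]

theorem brNe_pull (f : A ≃* B) (D : Subgroup B) (u : MonoidAlgebra (ResF M) B) :
    BrNe (D.comap f.toMonoidHom) (pullElt f u) ↔ BrNe D u := by
  constructor
  · rintro ⟨c, hc, hne⟩
    refine ⟨f c, Subgroup.mem_centralizer_iff.mpr fun s hs => ?_, by rwa [coeff_pullElt] at hne⟩
    have h := Subgroup.mem_centralizer_iff.mp hc (f.symm s)
      (show f (f.symm s) ∈ D by rwa [f.apply_symm_apply])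
    simpa using congrArg f h
  · rintro ⟨c, hc, hne⟩
    refine ⟨f.symm c, Subgroup.mem_centralizer_iff.mpr fun s hs => f.injective ?_, ?_⟩
    · simpa using Subgroup.mem_centralizer_iff.mp hc (f s) hs
    · rwa [coeff_pullElt, f.apply_symm_apply]

theorem isDefectGroup_iff_max (hM : IsPModular p M) {S : Set (IrrCharacter B)} (hS : IsPBlock M S)
    {D : Subgroup B} : IsDefectGroup p M S D ↔ IsPGroup p D ∧ BrNe D (bIdem M S) ∧
      ∀ E : Subgroup B, IsPGroup p E → BrNe E (bIdem M S) → Nat.card E ≤ Nat.card D := by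
  constructor
  · refine fun hD => ⟨isPGroup_defectGroup hD, brNe_defectGroup hD, fun E hE hbr => ?_⟩
    obtain ⟨x, hx⟩ := (brNe_bIdem_iff hM hS hD hE).mp hbr
    rw [← card_conjSub x E]
    exact Subgroup.card_le_of_le hx
  · rintro ⟨hDp, hbr, hmax⟩
    obtain ⟨D', hD'⟩ := exists_defectGroup hM hS
    obtain ⟨x, hx⟩ := (brNe_bIdem_iff hM hS hD' hDp).mp hbr
    have h2 : conjSub x D = D' := Subgroup.eq_of_le_of_card_ge hx (by
      rw [card_conjSub]; exact hmax D' (isPGroup_defectGroup hD') (brNe_defectGroup hD'))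
    have h3 := IsDefectGroup.conjSub hS (h2 ▸ hD') x⁻¹
    rwa [conjSub_conjSub, inv_mul_cancel, conjSub_one] at h3

theorem card_comap_equiv (f : A ≃* B) (D : Subgroup B) : Nat.card (D.comap f.toMonoidHom) = Nat.card D := by
  refine Nat.card_congr
    ⟨fun a => ⟨f a, a.2⟩, fun d => ⟨f.symm d, show f (f.symm d) ∈ D by rw [f.apply_symm_apply]; exact d.2⟩,
      fun a => Subtype.ext (by simp), fun d => Subtype.ext (by simp)⟩

theorem isDefectGroup_pull (hM : IsPModular p M) (f : A ≃* B) {S : Set (IrrCharacter B)}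
    (hS : IsPBlock M S) {D : Subgroup B} (hD : IsDefectGroup p M S D) :
    IsDefectGroup p M (pullBlock f S) (D.comap f.toMonoidHom) := by
  obtain ⟨h1, h2, h3⟩ := (isDefectGroup_iff_max hM hS).mp hD
  refine (isDefectGroup_iff_max hM (isPBlock_pull f hS)).mpr
    ⟨h1.comap_of_injective _ f.injective, ?_, fun E hE hbr => ?_⟩
  · rw [bIdem_pull f hS, brNe_pull]; exact h2
  · rw [card_comap_equiv]
    have hEc : (E.comap f.symm.toMonoidHom).comap f.toMonoidHom = E := by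
      ext a; simp
    have h4 : BrNe (E.comap f.symm.toMonoidHom) (bIdem M S) := by
      rw [← brNe_pull f, hEc, ← bIdem_pull f hS]; exact hbr
    have h5 := h3 _ (hE.comap_of_injective _ f.symm.injective) h4
    rwa [card_comap_equiv] at h5

end Pull

section Local

variable {G : Type u} [Group G] [Fintype G] {M : Ideal Cfsg.AlgInt} [M.IsPrime]
variable {p : ℕ} [hp : Fact p.Prime]
variable (Q : Subgroup G) {N : Subgroup G} [hN : N.Normal] [Fintype N]

local notation "𝐇" => Subgroup.normalizer (Q : Set G)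
local notation "𝐋" => Subgroup.subgroupOf N (Subgroup.normalizer (Q : Set G))

/-- The embedding of `N_N(Q)`, read inside `N_G(Q)`, into `N`. -/
def toN : ↥(𝐋) →* N where
  toFun x := ⟨((x : ↥(𝐇)) : G), x.2⟩
  map_one' := rfl
  map_mul' _ _ := rfl

theorem mem_normalizer_subgroupOf (hQN : Q ≤ N) (n : N) :
    n ∈ Subgroup.normalizer ((Q.subgroupOf N : Subgroup N) : Set N) ↔ (n : G) ∈ 𝐇 := by
  rw [Subgroup.mem_normalizer_iff, Subgroup.mem_normalizer_iff]
  refine ⟨fun h x => ?_, fun h x => ?_⟩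
  · constructor
    · intro hx
      exact (h ⟨x, hQN hx⟩).mp hx
    · intro hx
      have hxN : x ∈ N := by
        simpa [mul_assoc] using hN.conj_mem _ (hQN hx) (n : G)⁻¹
      exact (h ⟨x, hxN⟩).mpr hx
  · exact h (x : G)

/-- The two readings of `N_N(Q)`. -/
def kN (hQN : Q ≤ N) : ↥(Subgroup.normalizer ((Q.subgroupOf N : Subgroup N) : Set N)) ≃* ↥(𝐋) where
  toFun x := ⟨⟨((x : N) : G), (mem_normalizer_subgroupOf Q hQN _).mp x.2⟩, (x : N).2⟩
  invFun y := ⟨toN Q y, (mem_normalizer_subgroupOf Q hQN _).mpr (y : ↥(𝐇)).2⟩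
  left_inv _ := rfl
  right_inv _ := rfl
  map_mul' _ _ := rfl

variable (M) in
/-- The block of `θ` is induced by the block of `ξ`. -/
def IndTo (ξ : IrrCharacter ↥(𝐋)) (θ : IrrCharacter N) : Prop :=
  ∀ u : MonoidAlgebra (ResF M) N, IsClassElt u → lam M ξ (resHom (toN Q) u) = lam M θ u

theorem lam_pull_kN (hQN : Q ≤ N) (ξ : IrrCharacter ↥(𝐋)) {u : MonoidAlgebra (ResF M) N}
    (hu : IsClassElt u) :
    lam M (irrPull (kN Q hQN) ξ) (resSub (Subgroup.normalizer ((Q.subgroupOf N : Subgroup N) : Set N)) u)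
      = lam M ξ (resHom (toN Q) u) := by
  rw [← lam_pull (kN Q hQN) ξ (hu.resHom (toN Q))]
  congr 1
  refine gr_ext fun x => ?_
  rw [coeff_resSub, coeff_pullElt, coeff_resHom]
  rfl

theorem exists_indTo (hM : IsPModular p M) (hQ : IsPGroup p Q) (hQN : Q ≤ N) (ξ : IrrCharacter ↥(𝐋)) :
    ∃ θ : IrrCharacter N, IndTo M Q ξ θ := by
  set ξ1 := irrPull (kN Q hQN) ξ
  have hb : IsPBlock M (blockOf M (ξ1 : _ → ℂ)) := ⟨ξ1, rfl⟩
  have hQ' : IsPGroup p (Q.subgroupOf N) := hQ.comap_of_injective N.subtype N.subtype_injective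
  obtain ⟨d, hd⟩ := (exists_induced_of_mul hb (mem_blockOf_self M ξ1)
    (lam_resSub_mul_local hM hQ' Subgroup.le_normalizer (Subgroup.centralizer_le_normalizer _) le_rfl ξ1)).1
  obtain ⟨θ, hθ⟩ := IsPBlock.nonempty hd.2.1
  refine ⟨θ, fun u hu => ?_⟩
  rw [← lam_pull_kN Q hQN ξ hu]
  exact (isInducedBlock_iff hb hd.2.1 (mem_blockOf_self M ξ1) hθ).mp hd u hu

theorem indTo_induced (hQN : Q ≤ N) {ξ : IrrCharacter ↥(𝐋)} {θ : IrrCharacter N} (h : IndTo M Q ξ θ) :
    IsInducedBlock M (Subgroup.normalizer ((Q.subgroupOf N : Subgroup N) : Set N))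
      (blockOf M (irrPull (kN Q hQN) ξ : _ → ℂ)) (blockOf M (θ : N → ℂ)) :=
  (isInducedBlock_iff ⟨_, rfl⟩ ⟨θ, rfl⟩ (mem_blockOf_self M _) (mem_blockOf_self M θ)).mpr fun u hu => by
    rw [lam_pull_kN Q hQN ξ hu, h u hu]

/-- Induction commutes with conjugation by elements of `N_G(Q)`. -/
theorem indTo_conj {ξ : IrrCharacter ↥(𝐋)} {θ : IrrCharacter N} (h : IndTo M Q ξ θ) (x : ↥(𝐇)) :
    IndTo M Q (cjIrr ξ x) (cjIrr θ (x : G)) := by
  intro u hu
  set f : N ≃* N := MulAut.conjNormal (x : G)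
  set f' : ↥(𝐋) ≃* ↥(𝐋) := MulAut.conjNormal x
  set u' := pullElt f.symm u
  have hu' : IsClassElt u' := isClassElt_pullElt _ hu
  have e1 : u = pullElt f u' := gr_ext fun a => by simp [u', coeff_pullElt]
  have e2 : resHom (toN Q) u = pullElt f' (resHom (toN Q) u') := by
    refine gr_ext fun a => ?_
    rw [coeff_resHom, coeff_pullElt, coeff_resHom, coeff_pullElt]
    congr 1
    rw [MulEquiv.eq_symm_apply]
    apply Subtype.ext
    simp [f, f', toN]
  have h3 : lam M (irrPull f' ξ) (pullElt f' (resHom (toN Q) u')) = lam M (irrPull f θ) (pullElt f u') := by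
    rw [lam_pull f' ξ (hu'.resHom _), lam_pull f θ hu']
    exact h u' hu'
  rw [← e1, ← e2] at h3
  exact h3

/-- Forward: an induced block covers what the covered block induces. -/
theorem covers_induced (hM : IsPModular p M) (hQ : IsPGroup p Q) (hQN : Q ≤ N)
    {c : Set (IrrCharacter ↥(𝐇))} {B : Set (IrrCharacter G)} (hind : IsInducedBlock M 𝐇 c B)
    {ψ : IrrCharacter ↥(𝐇)} (hψ : ψ ∈ c) {ξ : IrrCharacter ↥(𝐋)}
    (hξ : classInner (fun l : ↥(𝐋) => (ψ : ↥(𝐇) → ℂ) l) (ξ : ↥(𝐋) → ℂ) ≠ 0)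
    {θ : IrrCharacter N} (hθ : IndTo M Q ξ θ) :
    ∃ χ ∈ B, ∃ θ' ∈ blockOf M (θ : N → ℂ), classInner (fun n : N => (χ : G → ℂ) n) (θ' : N → ℂ) ≠ 0 := by
  refine (covers_iff_centralChar hind.2.1 ⟨θ, rfl⟩).mpr fun χ hχ θ' hθ' n => ?_
  set cl := classSum (ResF M) (n : G)
  have hcl : IsClassElt cl := isClassElt_classSum _ _
  have hl := inducedCentralChar_mem (M := M) θ' (n : G)
  have hQH : Q ≤ 𝐇 := Subgroup.le_normalizer
  have hl2 : red M (inducedCentralChar N (θ' : N → ℂ) (n : G))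
      = lam M θ' (resSub N (classSum (ResF M) (n : G))) := by convert hl.2
  rw [memLocalIdeal_sub_iff (centralChar_mem_locRing M χ _) hl.1, hl2, ← lam_classSum,
    ← lam_eq_of_sameBlock M (hθ' : SameBlock M (θ : N → ℂ) (θ' : N → ℂ)) (resSub N (classSum (ResF M) (n : G))),
    ← hθ _ (hcl.resSub N), ← (isInducedBlock_iff hind.1 hind.2.1 hψ hχ).mp hind cl hcl,
    ← lam_brSub_eq hM hQ hQH le_rfl]
  -- through the constituent
  set u0 := brSub Q 𝐇 (classSum ℂ (n : G)) with hu0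
  have hu0m : u0 ∈ locCenter ↥(𝐇) M := brSub_classSum_mem le_rfl _
  have hred : redG M u0 = brSub Q 𝐇 cl := gr_ext fun h => by
    rw [coeff_redG, hu0, coeff_brSub, coeff_brSub, show cl = redG M (classSum ℂ (n : G)) from (redG_classSum M _).symm,
      coeff_redG]
    split_ifs <;> simp
  have hsupp : ∀ g, g ∉ 𝐋 → u0.coeff g = 0 := fun g hg => by
    rw [hu0, coeff_brSub, coeff_classSum]
    by_cases hc : IsConj (n : G) (g : G)
    · exact absurd (Subgroup.mem_subgroupOf.mpr (isConj_mem_normal hc)) hg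
    · rw [if_neg hc, ite_self]
  have hres : resSub 𝐋 u0 ∈ locCenter ↥(𝐋) M :=
    ⟨hu0m.1.resSub _, fun l => by rw [coeff_resSub]; exact hu0m.2 _⟩
  have hstep : lam M ψ (brSub Q 𝐇 cl) = lam M ξ (resSub 𝐋 (brSub Q 𝐇 cl)) := by
    rw [← hred, lam_redG M ψ hu0m, omega_eq_omega_res ψ ξ hξ hu0m.1 hsupp, ← lam_redG M ξ hres]
    congr 1
    exact gr_ext fun l => by simp [coeff_redG]
  rw [hstep, ← sub_eq_zero, ← lam_sub]
  have hQL : ((Q.subgroupOf 𝐇).subgroupOf 𝐋).Normal := by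
    haveI : (Q.subgroupOf 𝐇).Normal := (Subgroup.normal_subgroupOf_iff_le_normalizer hQH).mpr le_rfl
    infer_instance
  haveI := hQL
  have hQLp : IsPGroup p ((Q.subgroupOf 𝐇).subgroupOf 𝐋) :=
    (hQ.comap_of_injective _ (Subgroup.subtype_injective _)).comap_of_injective _ (Subgroup.subtype_injective _)
  refine lam_eq_zero_of_support ξ fun l hne => red_centralChar_eq_zero_of_notMem hM hQLp ξ fun hc => hne ?_
  have hcG : ((l : ↥(𝐇)) : G) ∈ Subgroup.centralizer (Q : Set G) := Subgroup.mem_centralizer_iff.mpr fun q hq =>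
    congrArg (fun z : ↥(𝐋) => ((z : ↥(𝐇)) : G))
      (Subgroup.mem_centralizer_iff.mp hc ⟨⟨q, hQH hq⟩, hQN hq⟩ hq)
  rw [gr_sub_apply, coeff_resSub, coeff_brSub, if_pos hcG, coeff_resHom, coeff_resSub]
  exact sub_self _

/-- Defect groups along induction from `N_N(Q)` to `N`. -/
theorem defect_of_indTo (hM : IsPModular p M) (hQ : IsPGroup p Q) (hQN : Q ≤ N)
    {ξ : IrrCharacter ↥(𝐋)} {θ : IrrCharacter N} (h : IndTo M Q ξ θ) {F : Subgroup N}
    (hF : IsDefectGroup p M (blockOf M (θ : N → ℂ)) F) (hcard : Nat.card F = Nat.card (Q.subgroupOf N)) :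
    IsDefectGroup p M (blockOf M (θ : N → ℂ)) (Q.subgroupOf N) ∧
      IsDefectGroup p M (blockOf M (irrPull (kN Q hQN) ξ : _ → ℂ))
        ((Q.subgroupOf N).subgroupOf (Subgroup.normalizer ((Q.subgroupOf N : Subgroup N) : Set N))) := by
  set L1 := Subgroup.normalizer ((Q.subgroupOf N : Subgroup N) : Set N) with hL1
  have hQ' : IsPGroup p (Q.subgroupOf N) := hQ.comap_of_injective N.subtype N.subtype_injective
  have hle : Q.subgroupOf N ≤ L1 := Subgroup.le_normalizer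
  haveI : ((Q.subgroupOf N).subgroupOf L1).Normal := (Subgroup.normal_subgroupOf_iff_le_normalizer hle).mpr le_rfl
  have hind := indTo_induced Q hQN h
  obtain ⟨E, hE⟩ := exists_defectGroup hM hind.1
  have hQE := normal_le_defectGroup hM hind.1 hE (P := (Q.subgroupOf N).subgroupOf L1)
    (hQ'.comap_of_injective L1.subtype L1.subtype_injective)
  obtain ⟨E', hE', hle'⟩ := exists_defectGroup_ge hM hind hE
  have h1 : Q.subgroupOf N ≤ E.map L1.subtype := by
    rw [← Subgroup.map_subgroupOf_eq_of_le hle]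
    exact Subgroup.map_mono hQE
  have hc : Nat.card E' ≤ Nat.card (Q.subgroupOf N) := (card_defectGroup_eq hM hind.2.1 hE' hF).trans hcard |>.le
  have hEQ : E' = Q.subgroupOf N := (Subgroup.eq_of_le_of_card_ge (h1.trans hle') hc).symm
  refine ⟨hEQ ▸ hE', ?_⟩
  have h2 : E.map L1.subtype = Q.subgroupOf N := le_antisymm (hEQ ▸ hle') h1
  have h3 : E = (Q.subgroupOf N).subgroupOf L1 :=
    (Subgroup.comap_map_eq_self_of_injective L1.subtype_injective E).symm.trans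
      (congrArg (Subgroup.comap L1.subtype) h2)
  exact h3 ▸ hE

theorem cjIrr_mem (θ : IrrCharacter N) (n : N) : cjIrr θ (n : G) = θ :=
  Subtype.ext (by rw [coe_cjIrr]; exact conjFn_mem θ.2.isClassFunction n)

/-- Backward: a block inducing a block covering `d` covers the correspondent of `d`. -/
theorem covers_correspondent (hM : IsPModular p M) (hQ : IsPGroup p Q) (hQN : Q ≤ N)
    {d : Set (IrrCharacter N)} (hd : IsPBlock M d) (hdQ : IsDefectGroup p M d (Q.subgroupOf N))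
    {e1 : Set (IrrCharacter ↥(Subgroup.normalizer ((Q.subgroupOf N : Subgroup N) : Set N)))}
    (he1 : IsPBlock M e1)
    (he1Q : IsDefectGroup p M e1
      ((Q.subgroupOf N).subgroupOf (Subgroup.normalizer ((Q.subgroupOf N : Subgroup N) : Set N))))
    (he1d : IsInducedBlock M (Subgroup.normalizer ((Q.subgroupOf N : Subgroup N) : Set N)) e1 d)
    {c : Set (IrrCharacter ↥(𝐇))} {B : Set (IrrCharacter G)} (hind : IsInducedBlock M 𝐇 c B)
    {χ : IrrCharacter G} (hχ : χ ∈ B) {θd : IrrCharacter N} (hθd : θd ∈ d)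
    (hcov : classInner (fun n : N => (χ : G → ℂ) n) (θd : N → ℂ) ≠ 0) :
    ∃ ψ ∈ c, ∃ ξ : IrrCharacter ↥(𝐋), irrPull (kN Q hQN) ξ ∈ e1 ∧
      classInner (fun l : ↥(𝐋) => (ψ : ↥(𝐇) → ℂ) l) (ξ : ↥(𝐋) → ℂ) ≠ 0 := by
  obtain ⟨ψ, hψ⟩ := IsPBlock.nonempty hind.1
  obtain ⟨ξ, hξ⟩ := exists_res_constituent (N := 𝐋) ψ
  obtain ⟨θ, hθ⟩ := exists_indTo Q hM hQ hQN ξ
  obtain ⟨χ', hχ', θ', hθ', hcov'⟩ := covers_induced Q hM hQ hQN hind hψ hξ hθ
  obtain ⟨g, hg⟩ := covered_mem_cjUnion hd (IsPBlock.sameBlock hind.2.1 hχ hχ') hθd hcov hcov'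
  have hg' : cjIrr θ g ∈ d := IsPBlock.mem_of_sameBlock hd hg
    (sameBlock_symm M (sameBlock_cjIrr (hθ' : SameBlock M (θ : N → ℂ) (θ' : N → ℂ)) g))
  -- the block of `θ` is a conjugate of `d`
  set f : N ≃* N := MulAut.conjNormal g⁻¹ with hf
  have hθeq : irrPull f (cjIrr θ g) = θ := by
    show cjIrr (cjIrr θ g) g⁻¹ = θ
    rw [cjIrr_cjIrr, mul_inv_cancel, cjIrr_one]
  have hblk : blockOf M (θ : N → ℂ) = pullBlock f d :=
    (IsPBlock.eq_blockOf (isPBlock_pull f hd) (hθeq ▸ (mem_pullBlock f d _).mpr hg')).symm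
  have hF : IsDefectGroup p M (blockOf M (θ : N → ℂ)) ((Q.subgroupOf N).comap f.toMonoidHom) :=
    hblk ▸ isDefectGroup_pull hM f hd hdQ
  obtain ⟨hθQ, -⟩ := defect_of_indTo Q hM hQ hQN hθ hF (card_comap_equiv f _)
  obtain ⟨n, hn⟩ := defectGroup_conj hM ⟨θ, rfl⟩ hθQ hF
  -- correct `g` into the normalizer
  have hmem : (n : G)⁻¹ * g ∈ 𝐇 := by
    have hconj : conjSub ((n : G)⁻¹ * g) Q = Q := by
      refine Subgroup.eq_of_le_of_card_ge (fun z hz => ?_) (le_of_eq (card_conjSub _ _).symm)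
      rw [mem_conjSub] at hz
      set w := g⁻¹ * ((n : G) * z * (n : G)⁻¹) * g with hw
      have hw' : w ∈ Q := by rw [hw]; simpa [mul_assoc] using hz
      have hyN : (n : G) * z * (n : G)⁻¹ ∈ N := by
        simpa [hw, mul_assoc] using hN.conj_mem _ (hQN hw') g
      have hy : (⟨_, hyN⟩ : N) ∈ (Q.subgroupOf N).comap f.toMonoidHom := by
        show ((f ⟨_, hyN⟩ : N) : G) ∈ Q
        simpa [hw, hf, mul_assoc] using hw'
      rw [← hn, mem_conjSub, Subgroup.mem_subgroupOf] at hy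
      simpa [mul_assoc] using hy
    rw [Subgroup.mem_normalizer_iff]
    intro z
    conv_rhs => rw [← hconj, mem_conjSub]
    simp [mul_assoc]
  have hθh : cjIrr θ ((n : G)⁻¹ * g) ∈ d := by
    rw [← cjIrr_cjIrr, show (n : G)⁻¹ = ((n⁻¹ : N) : G) from rfl, cjIrr_mem]
    exact hg'
  set x : ↥(𝐇) := ⟨_, hmem⟩
  have hIx := indTo_conj Q hθ x
  have hblk' : blockOf M (cjIrr θ (x : G) : N → ℂ) = d := (IsPBlock.eq_blockOf hd hθh).symm
  obtain ⟨-, hξQ⟩ := defect_of_indTo Q hM hQ hQN hIx (hblk'.symm ▸ hdQ) rfl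
  have huniq := first_main_backward hM (hQ.comap_of_injective N.subtype N.subtype_injective :
    IsPGroup p (Q.subgroupOf N)) hd hdQ
  have hi := indTo_induced Q hQN hIx
  have hee : blockOf M (irrPull (kN Q hQN) (cjIrr ξ x) : _ → ℂ) = e1 :=
    huniq.unique ⟨⟨_, rfl⟩, hξQ, hblk' ▸ hi⟩ ⟨he1, he1Q, he1d⟩
  refine ⟨ψ, hψ, cjIrr ξ x, hee ▸ mem_blockOf_self M _, ?_⟩
  rwa [classInner_res_cjIrr]

/-- A defect group of a block of the normalizer, seen in `G`, with its Brauer agreement. -/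
theorem normalizer_le_of_inf (D : Subgroup G) (h : D ⊓ N = Q) : Subgroup.normalizer (D : Set G) ≤ 𝐇 := by
  intro x hx
  rw [Subgroup.mem_normalizer_iff] at hx ⊢
  intro z
  have hiff : z ∈ N ↔ x * z * x⁻¹ ∈ N :=
    ⟨fun hz => hN.conj_mem z hz x, fun hz => by simpa [mul_assoc] using hN.conj_mem _ hz x⁻¹⟩
  rw [← h, Subgroup.mem_inf, Subgroup.mem_inf, hx z, hiff]

/-- An inducing block agrees with the induced block on the centralizer of its defect group. -/
theorem resSub_mul_of_induced (hM : IsPModular p M) (hQ : IsPGroup p Q) {D : Subgroup G}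
    (hDp : IsPGroup p D) (hQD : Q ≤ D) (hDH : D ≤ 𝐇) {c : Set (IrrCharacter ↥(𝐇))} {B : Set (IrrCharacter G)}
    (hind : IsInducedBlock M 𝐇 c B) :
    resSub (Subgroup.centralizer (D : Set G)) (bIdem M B)
        * resSub (Subgroup.centralizer (D : Set G)) (incSub 𝐇 (bIdem M c))
      = resSub (Subgroup.centralizer (D : Set G)) (incSub 𝐇 (bIdem M c)) := by
  have hQH : Q ≤ 𝐇 := Subgroup.le_normalizer
  have hCH : Subgroup.centralizer (Q : Set G) ≤ 𝐇 := Subgroup.centralizer_le_normalizer _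
  set w := brSub Q 𝐇 (bIdem M B)
  have hw : IsClassElt w := (isClassElt_bIdem B).brSub le_rfl
  have hwc : w * bIdem M c = bIdem M c := by
    have hsq : w * w = w := by
      rw [← brSub_mul (red_p hM) hQ hCH (isClassElt_bIdem B) (isClassElt_bIdem B), bIdem_sq hind.2.1]
    refine idem_eq_of_lam (hw.mul (isClassElt_bIdem c)) (isClassElt_bIdem c) ?_ (bIdem_sq hind.1) fun ξ => ?_
    · calc w * bIdem M c * (w * bIdem M c) = w * (bIdem M c * w) * bIdem M c := by simp only [mul_assoc]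
        _ = w * (w * bIdem M c) * bIdem M c := by rw [IsClassElt.mul_comm (isClassElt_bIdem c) w]
        _ = (w * w) * (bIdem M c * bIdem M c) := by simp only [mul_assoc]
        _ = _ := by rw [hsq, bIdem_sq hind.1]
    · rw [lam_mul M ξ hw (isClassElt_bIdem c), lam_bIdem hind.1]
      split_ifs with hξ
      · rw [lam_brSub_eq hM hQ hQH le_rfl, lam_resSub_resSub_eq hind hξ hind.2.1, if_pos rfl, mul_one]
      · rw [mul_zero]
  have hB : resSub (Subgroup.centralizer (D : Set G)) (bIdem M B)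
      = resSub (Subgroup.centralizer (D : Set G)) (incSub 𝐇 w) := by
    refine gr_ext fun t => ?_
    have hQt : (t : G) ∈ Subgroup.centralizer (Q : Set G) := Subgroup.centralizer_le hQD t.2
    rw [coeff_resSub, coeff_resSub, show (t : G) = ((⟨t, hCH hQt⟩ : ↥(𝐇)) : G) from rfl, coeff_incSub_mem,
      coeff_brSub, if_pos hQt]
  rw [hB, ← resSub_mul (red_p hM) hDp ((isStableUnder_incSub hw).mono hDH)
    ((isStableUnder_incSub (isClassElt_bIdem c)).mono hDH), ← map_mul, hwc]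

/-- The data of a block of the normalizer covering blocks of `N_N(Q)` with defect group `Q`. -/
theorem induced_defect (hM : IsPModular p M) (hQ : IsPGroup p Q) (hQN : Q ≤ N)
    {c : Set (IrrCharacter ↥(𝐇))} {B : Set (IrrCharacter G)} (hind : IsInducedBlock M 𝐇 c B)
    {ψ : IrrCharacter ↥(𝐇)} (hψ : ψ ∈ c) {ξ : IrrCharacter ↥(𝐋)}
    (hξ : classInner (fun l : ↥(𝐋) => (ψ : ↥(𝐇) → ℂ) l) (ξ : ↥(𝐋) → ℂ) ≠ 0)
    (hξQ : IsDefectGroup p M (blockOf M (ξ : ↥(𝐋) → ℂ)) ((Q.subgroupOf 𝐇).subgroupOf 𝐋)) :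
    ∃ D : Subgroup G, D ⊓ N = Q ∧ D ≤ 𝐇 ∧ IsDefectGroup p M c (D.subgroupOf 𝐇) ∧ IsDefectGroup p M B D ∧
      resSub (Subgroup.centralizer (D : Set G)) (bIdem M B)
        = resSub (Subgroup.centralizer (D : Set G)) (incSub 𝐇 (bIdem M c)) := by
  have hQH : Q ≤ 𝐇 := Subgroup.le_normalizer
  have hQL : Q.subgroupOf 𝐇 ≤ 𝐋 := fun x hx => hQN hx
  obtain ⟨DH, hDH, hinf⟩ := exists_defectGroup_inf_eq hM hind.1 ⟨ξ, rfl⟩ hQL hξQ hψ (mem_blockOf_self M ξ) hξ
  set D := DH.map (Subgroup.subtype 𝐇) with hD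
  have hDle : D ≤ 𝐇 := Subgroup.map_subtype_le _
  have hDsub : D.subgroupOf 𝐇 = DH := Subgroup.comap_map_eq_self_of_injective (Subgroup.subtype_injective _) _
  have hDN : D ⊓ N = Q := by
    ext z
    constructor
    · rintro ⟨hz, hzN⟩
      have : (⟨z, hDle hz⟩ : ↥(𝐇)) ∈ DH ⊓ 𝐋 := ⟨hDsub ▸ (show _ ∈ D.subgroupOf 𝐇 from hz), hzN⟩
      rw [hinf] at this
      exact this
    · intro hz
      have : (⟨z, hQH hz⟩ : ↥(𝐇)) ∈ DH ⊓ 𝐋 := hinf ▸ (show _ ∈ Q.subgroupOf 𝐇 from hz)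
      exact ⟨⟨_, this.1, rfl⟩, this.2⟩
  have hDp : IsPGroup p D := (isPGroup_defectGroup hDH).map _
  have hQD : Q ≤ D := hDN ▸ inf_le_left
  have hNH := normalizer_le_of_inf Q D hDN
  obtain ⟨B0, ⟨hB0, hB0D, heq⟩, -⟩ := (brauer_correspondence hM hDp hNH).2 c hind.1 (hDsub.symm ▸ hDH)
  have hbr : BrNe D (bIdem M B0) := brNe_defectGroup hB0D
  have hne : resSub (Subgroup.centralizer (D : Set G)) (incSub 𝐇 (bIdem M c)) ≠ 0 :=
    heq ▸ (brNe_iff D _).mp hbr
  have hBB : B = B0 := by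
    by_contra hne'
    apply hne
    rw [← resSub_mul_of_induced Q hM hQ hDp hQD hDle hind, ← heq, ← resSub_mul (red_p hM) hDp
      ((isClassElt_bIdem B).stable D) ((isClassElt_bIdem B0).stable D), bIdem_mul hind.2.1 hB0, if_neg hne', map_zero]
  exact ⟨D, hDN, hDle, hDsub.symm ▸ hDH, hBB ▸ hB0D, hBB ▸ heq⟩

/-- At most one inducing block covers blocks with defect group `Q`. -/
theorem induced_unique (hM : IsPModular p M) (hQ : IsPGroup p Q) (hQN : Q ≤ N)
    {c c' : Set (IrrCharacter ↥(𝐇))} {B : Set (IrrCharacter G)} (hind : IsInducedBlock M 𝐇 c B)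
    (hind' : IsInducedBlock M 𝐇 c' B)
    {ψ ψ' : IrrCharacter ↥(𝐇)} (hψ : ψ ∈ c) (hψ' : ψ' ∈ c') {ξ ξ' : IrrCharacter ↥(𝐋)}
    (hξ : classInner (fun l : ↥(𝐋) => (ψ : ↥(𝐇) → ℂ) l) (ξ : ↥(𝐋) → ℂ) ≠ 0)
    (hξ' : classInner (fun l : ↥(𝐋) => (ψ' : ↥(𝐇) → ℂ) l) (ξ' : ↥(𝐋) → ℂ) ≠ 0)
    (hξQ : IsDefectGroup p M (blockOf M (ξ : ↥(𝐋) → ℂ)) ((Q.subgroupOf 𝐇).subgroupOf 𝐋))
    (hξQ' : IsDefectGroup p M (blockOf M (ξ' : ↥(𝐋) → ℂ)) ((Q.subgroupOf 𝐇).subgroupOf 𝐋)) : c = c' := by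
  obtain ⟨D, hDN, hDH, hcD, hBD, heq⟩ := induced_defect Q hM hQ hQN hind hψ hξ hξQ
  obtain ⟨D', hDN', hDH', hcD', hBD', -⟩ := induced_defect Q hM hQ hQN hind' hψ' hξ' hξQ'
  obtain ⟨g, hg⟩ := defectGroup_conj hM hind.2.1 hBD' hBD
  have hgH : g ∈ 𝐇 := by
    rw [Subgroup.mem_normalizer_iff]
    intro z
    have hiff : z ∈ N ↔ g * z * g⁻¹ ∈ N :=
      ⟨fun hz => hN.conj_mem z hz g, fun hz => by simpa [mul_assoc] using hN.conj_mem _ hz g⁻¹⟩
    have hm : g * z * g⁻¹ ∈ D ↔ z ∈ D' := by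
      rw [← hg, mem_conjSub]; simp [mul_assoc]
    conv_lhs => rw [← hDN']
    conv_rhs => rw [← hDN]
    rw [Subgroup.mem_inf, Subgroup.mem_inf, hm, hiff]
  have hcD2 : IsDefectGroup p M c' (D.subgroupOf 𝐇) := by
    have h := IsDefectGroup.conjSub hind'.1 hcD' (⟨g, hgH⟩ : ↥(𝐇))
    have he : conjSub (⟨g, hgH⟩ : ↥(𝐇)) (D'.subgroupOf 𝐇) = D.subgroupOf 𝐇 := by
      ext z
      rw [mem_conjSub, Subgroup.mem_subgroupOf, Subgroup.mem_subgroupOf, ← hg, mem_conjSub]
      simp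
    rwa [he] at h
  have hDp : IsPGroup p D := isPGroup_defectGroup hBD
  have hQD : Q ≤ D := hDN ▸ inf_le_left
  by_contra hne
  have h1 := resSub_mul_of_induced Q hM hQ hDp hQD hDH hind'
  rw [heq, ← resSub_mul (red_p hM) hDp ((isStableUnder_incSub (isClassElt_bIdem c)).mono hDH)
    ((isStableUnder_incSub (isClassElt_bIdem c')).mono hDH), ← map_mul, bIdem_mul hind.1 hind'.1, if_neg hne,
    map_zero, map_zero] at h1
  refine (brNe_iff D _).mp ?_ h1.symm
  exact (brNe_subgroupOf_iff hDH (fun g hg => coeff_incSub_notMem _ _ hg)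
    fun t => (coeff_incSub_mem _ _ t).symm).mp (brNe_defectGroup hcD2)

end Local

end Cfsg.Lib.Blocks
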