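/-
The centre of the Hecke algebra `e ℂG e` of a subgroup and the constituents of the permutation character.
-/
import Cfsg.Prelude.Def_ParabolicCharacters
import Cfsg.Agent.Lib.Blocks.DefectZero
import Cfsg.Agent.Lib.Characters.Induction

set_option autoImplicit false
set_option linter.unusedSectionVars false

namespace Cfsg.Lib.Blocks.HeckeChar

open Cfsg.Lib.Characters Cfsg.Lib.Blocks
open scoped Classical ComplexConjugate

variable {G : Type*} [Group G] [Fintype G]

/-- the idempotent of a subgroup -/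
noncomputable def eH (H : Subgroup G) : MonoidAlgebra ℂ G :=
  gOfFun fun g => if g ∈ H then (Nat.card H : ℂ)⁻¹ else 0

/-- the adjoint -/
noncomputable def st (x : MonoidAlgebra ℂ G) : MonoidAlgebra ℂ G := gOfFun fun g => conj (x.coeff g⁻¹)

theorem sum_mem (H : Subgroup G) (f : G → ℂ) : (∑ g : G, if g ∈ H then f g else 0) = ∑ h : H, f h := by
  rw [← Finset.sum_filter]
  exact (Finset.sum_subtype _ (fun x => by simp) f)

theorem eH_mul_apply (H : Subgroup G) (x : MonoidAlgebra ℂ G) (c : G) :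
    (eH H * x).coeff c = (Nat.card H : ℂ)⁻¹ * ∑ h : H, x.coeff ((h : G)⁻¹ * c) := by
  rw [gr_mul_apply, Finset.mul_sum, ← sum_mem H fun g => (Nat.card H : ℂ)⁻¹ * x.coeff (g⁻¹ * c)]
  refine Finset.sum_congr rfl fun g _ => ?_
  simp only [eH, coeff_gOfFun]
  split <;> simp

theorem mul_eH_apply (H : Subgroup G) (x : MonoidAlgebra ℂ G) (c : G) :
    (x * eH H).coeff c = (Nat.card H : ℂ)⁻¹ * ∑ h : H, x.coeff (c * (h : G)⁻¹) := by
  rw [gr_mul_apply', Finset.mul_sum, ← sum_mem H fun g => (Nat.card H : ℂ)⁻¹ * x.coeff (c * g⁻¹)]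
  refine Finset.sum_congr rfl fun g _ => ?_
  simp only [eH, coeff_gOfFun]
  split <;> ring

theorem eH_sq (H : Subgroup G) : eH H * eH H = eH H := by
  refine gr_ext fun c => ?_
  rw [eH_mul_apply]
  simp only [eH, coeff_gOfFun]
  by_cases hc : c ∈ H
  · rw [if_pos hc, Finset.sum_congr rfl fun h _ => if_pos (mul_mem (inv_mem h.2) hc), Finset.sum_const,
      Finset.card_univ, ← Nat.card_eq_fintype_card, nsmul_eq_mul, mul_inv_cancel₀ (Nat.cast_ne_zero.2 Nat.card_pos.ne'),
      mul_one]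
  · rw [if_neg hc, Finset.sum_eq_zero fun h _ => if_neg fun hh => hc (by
      simpa using mul_mem h.2 hh), mul_zero]

theorem st_eH (H : Subgroup G) : st (eH H) = eH H := by
  refine gr_ext fun c => ?_
  simp only [st, eH, coeff_gOfFun, inv_mem_iff]
  split <;> simp

theorem st_mul (x y : MonoidAlgebra ℂ G) : st (x * y) = st y * st x := by
  refine gr_ext fun c => ?_
  simp only [st, coeff_gOfFun, gr_mul_apply]
  rw [map_sum]
  refine Fintype.sum_equiv (Equiv.mulLeft c) _ _ fun a => ?_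
  simp only [Equiv.coe_mulLeft, coeff_gOfFun, map_mul, mul_inv_rev, inv_inv]
  rw [mul_comm, inv_mul_cancel_left]

theorem st_single (g : G) : st (MonoidAlgebra.single g (1 : ℂ)) = MonoidAlgebra.single g⁻¹ 1 := by
  refine gr_ext fun c => ?_
  simp only [st, coeff_gOfFun, MonoidAlgebra.coeff_single, Finsupp.single_apply, inv_eq_iff_eq_inv]
  split <;> simp

theorem eq_zero_of_st_mul {y : MonoidAlgebra ℂ G} (h : (st y * y).coeff 1 = 0) : y = 0 := by
  have e : (st y * y).coeff 1 = ((∑ g, Complex.normSq (y.coeff g) : ℝ) : ℂ) := by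
    rw [gr_mul_apply, Complex.ofReal_sum]
    refine Fintype.sum_equiv (Equiv.inv G) _ _ fun a => ?_
    simp [st, Complex.normSq_eq_conj_mul_self]
  rw [e, Complex.ofReal_eq_zero] at h
  exact gr_ext fun g => by
    simpa using (Finset.sum_eq_zero_iff_of_nonneg fun g _ => Complex.normSq_nonneg _).1 h g (Finset.mem_univ _)

/-- the central element `∑ g e g⁻¹` -/
noncomputable def cH (H : Subgroup G) : MonoidAlgebra ℂ G :=
  ∑ g : G, MonoidAlgebra.single g 1 * eH H * MonoidAlgebra.single g⁻¹ 1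

/-- the centre of the Hecke algebra -/
def zH (H : Subgroup G) : Submodule ℂ (MonoidAlgebra ℂ G) where
  carrier := {x | eH H * x = x ∧ x * eH H = x ∧ ∀ y, eH H * y = y → y * eH H = y → x * y = y * x}
  add_mem' := by
    rintro a b ⟨a1, a2, a3⟩ ⟨b1, b2, b3⟩
    exact ⟨by rw [mul_add, a1, b1], by rw [add_mul, a2, b2], fun y h1 h2 => by
      rw [add_mul, mul_add, a3 y h1 h2, b3 y h1 h2]⟩
  zero_mem' := ⟨by rw [mul_zero], by rw [zero_mul], fun y _ _ => by rw [zero_mul, mul_zero]⟩
  smul_mem' := by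
    rintro c a ⟨a1, a2, a3⟩
    exact ⟨by rw [mul_smul_comm, a1], by rw [smul_mul_assoc, a2], fun y h1 h2 => by
      rw [smul_mul_assoc, mul_smul_comm, a3 y h1 h2]⟩

/-- the central idempotent of a character -/
noncomputable def pE (χ : IrrCharacter G) : MonoidAlgebra ℂ G := blockE {χ}

theorem omega_pE (χ ψ : IrrCharacter G) : omega ψ (pE χ) = if ψ = χ then 1 else 0 := by
  rw [pE, omega_blockE]; simp

theorem coeff_pE (χ : IrrCharacter G) (g : G) :
    (pE χ).coeff g = (Nat.card G : ℂ)⁻¹ * ((χ : G → ℂ) 1 * conj ((χ : G → ℂ) g)) := by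
  simp [pE, blockCoeff_eq]

theorem isClassElt_pE (χ : IrrCharacter G) : IsClassElt (pE χ) := isClassElt_blockE _

theorem pE_mul (χ ψ : IrrCharacter G) : pE χ * pE ψ = if χ = ψ then pE χ else 0 := by
  split_ifs with h
  · subst h
    refine ext_omega ((isClassElt_pE χ).mul (isClassElt_pE χ)) (isClassElt_pE χ) fun ρ => ?_
    rw [omega_mul ρ (isClassElt_pE χ) (isClassElt_pE χ), omega_pE]
    split <;> simp
  · refine ext_omega ((isClassElt_pE χ).mul (isClassElt_pE ψ)) IsClassElt.zero fun ρ => ?_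
    rw [omega_mul ρ (isClassElt_pE χ) (isClassElt_pE ψ), omega_pE, omega_pE, omega_zero]
    split_ifs with h1 h2 <;> simp
    exact h (h1.symm.trans h2)

theorem st_pE (χ : IrrCharacter G) : st (pE χ) = pE χ := by
  refine gr_ext fun g => ?_
  simp only [st, coeff_gOfFun, coeff_pE, map_mul, map_inv₀, map_natCast, Complex.conj_conj]
  rw [char_inv_eq_conj χ.2.isCharacter, ← coe_charDegree, map_natCast]

theorem eq_sum_pE {z : MonoidAlgebra ℂ G} (hz : IsClassElt z) : z = ∑ χ, omega χ z • pE χ := by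
  have hcl : IsClassElt (∑ χ, omega χ z • pE χ) := IsClassElt.sum _ fun χ _ => (isClassElt_pE χ).smul _
  refine ext_omega hz hcl fun ψ => ?_
  have hsum : ∀ s : Finset (IrrCharacter G),
      omega ψ (∑ χ ∈ s, omega χ z • pE χ) = ∑ χ ∈ s, omega χ z * omega ψ (pE χ) := by
    intro s
    induction s using Finset.induction with
    | empty => simp
    | insert a s ha ih => rw [Finset.sum_insert ha, Finset.sum_insert ha, omega_add, omega_smul, ih]
  rw [hsum]
  simp [omega_pE]

theorem coeff_one_pE_mul_eH (H : Subgroup G) (χ : IrrCharacter G) :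
    (pE χ * eH H).coeff 1 = (Nat.card H : ℂ)⁻¹ * ((Nat.card G : ℂ)⁻¹ * ((χ : G → ℂ) 1 * ∑ h : H, (χ : G → ℂ) h)) := by
  rw [mul_eH_apply, Finset.mul_sum _ _ ((χ : G → ℂ) 1), Finset.mul_sum _ _ ((Nat.card G : ℂ)⁻¹)]
  congr 1
  refine Finset.sum_congr rfl fun h _ => ?_
  rw [one_mul, coeff_pE, char_inv_eq_conj χ.2.isCharacter, Complex.conj_conj]

theorem pE_mul_eH_eq_zero (H : Subgroup G) {χ : IrrCharacter G} (h : ∑ x : H, (χ : G → ℂ) x = 0) :
    pE χ * eH H = 0 := by
  refine eq_zero_of_st_mul ?_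
  have e : st (pE χ * eH H) * (pE χ * eH H) = pE χ * eH H := by
    rw [st_mul, st_pE, st_eH, mul_assoc, ← mul_assoc (pE χ), pE_mul, if_pos rfl, ← mul_assoc,
      ← (isClassElt_pE χ).mul_comm, mul_assoc, eH_sq]
  rw [e, coeff_one_pE_mul_eH, h, mul_zero, mul_zero, mul_zero]

theorem isClassElt_avg (x : MonoidAlgebra ℂ G) :
    IsClassElt (∑ g : G, MonoidAlgebra.single g 1 * x * MonoidAlgebra.single g⁻¹ 1) := by
  intro a c
  rw [gr_sum_apply, gr_sum_apply]
  refine Fintype.sum_equiv (Equiv.mulLeft a⁻¹) _ _ fun g => ?_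
  have coe : ∀ b d : G, (MonoidAlgebra.single b 1 * x * MonoidAlgebra.single b⁻¹ 1).coeff d = x.coeff (b⁻¹ * d * b) := by
    intro b d
    rw [gr_mul_apply', Finset.sum_eq_single b⁻¹]
    · rw [gr_mul_apply, Finset.sum_eq_single b]
      · simp [mul_assoc]
      · intro y _ hy; simp [Ne.symm hy]
      · simp
    · intro y _ hy; simp [Ne.symm hy]
    · simp
  rw [coe, coe, Equiv.coe_mulLeft]
  congr 1
  group

theorem finrank_zH (H : Subgroup G) :
    Module.finrank ℂ (zH H) = Nat.card {χ : IrrCharacter G // ∑ x : H, (χ : G → ℂ) x ≠ 0} := by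
  let v : {χ : IrrCharacter G // ∑ x : H, (χ : G → ℂ) x ≠ 0} → MonoidAlgebra ℂ G := fun χ => pE χ.1 * eH H
  have hv0 : ∀ χ, v χ ≠ 0 := by
    intro χ h0
    have h1 := coeff_one_pE_mul_eH H χ.1
    rw [show pE χ.1 * eH H = 0 from h0] at h1
    simp [χ.2, χ.1.2.one_ne_zero] at h1
  have hli : LinearIndependent ℂ v := by
    rw [Fintype.linearIndependent_iff]
    intro c hc χ
    have h1 := congrArg (fun x => pE χ.1 * x) hc
    simp only [mul_zero, Finset.mul_sum, mul_smul_comm, v, ← mul_assoc, pE_mul] at h1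
    rw [Finset.sum_eq_single χ] at h1
    · rw [if_pos rfl] at h1
      exact (smul_eq_zero.1 h1).resolve_right (hv0 χ)
    · intro ψ _ hne
      rw [if_neg (fun e => hne (Subtype.ext e.symm)), zero_mul, smul_zero]
    · simp
  set V := Submodule.span ℂ (Set.range v)
  have hle : V ≤ zH H := by
    rw [Submodule.span_le]
    rintro _ ⟨χ, rfl⟩
    refine ⟨?_, by rw [mul_assoc, eH_sq], fun y h1 h2 => ?_⟩
    · show eH H * (pE χ.1 * eH H) = _
      rw [← mul_assoc, ← (isClassElt_pE _).mul_comm, mul_assoc, eH_sq]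
    · show pE χ.1 * eH H * y = y * (pE χ.1 * eH H)
      rw [mul_assoc, h1, (isClassElt_pE _).mul_comm, ← mul_assoc, ← (isClassElt_pE _).mul_comm y, mul_assoc,
        h2, (isClassElt_pE _).mul_comm]
  have hC : IsClassElt (cH H) := isClassElt_avg _
  have himg : ∀ z ∈ zH H, cH H * z ∈ V := by
    rintro z ⟨z1, z2, z3⟩
    have e : cH H * z = (∑ g : G, MonoidAlgebra.single g 1 * z * MonoidAlgebra.single g⁻¹ 1) * eH H := by
      rw [cH, Finset.sum_mul, Finset.sum_mul]
      refine Finset.sum_congr rfl fun g _ => ?_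
      have h3 := z3 (eH H * MonoidAlgebra.single g⁻¹ 1 * eH H) (by rw [← mul_assoc, ← mul_assoc, eH_sq])
        (by rw [mul_assoc, eH_sq])
      calc MonoidAlgebra.single g 1 * eH H * MonoidAlgebra.single g⁻¹ 1 * z
          = MonoidAlgebra.single g 1 * ((eH H * MonoidAlgebra.single g⁻¹ 1 * eH H) * z) := by
            rw [mul_assoc (eH H * MonoidAlgebra.single g⁻¹ 1), z1]; simp only [mul_assoc]
        _ = MonoidAlgebra.single g 1 * (z * (eH H * MonoidAlgebra.single g⁻¹ 1 * eH H)) := by rw [h3]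
        _ = _ := by rw [← mul_assoc z, ← mul_assoc z, z2]; simp only [mul_assoc]
    rw [e]
    rw [eq_sum_pE (isClassElt_avg z), Finset.sum_mul]
    refine Submodule.sum_mem _ fun χ _ => ?_
    rw [smul_mul_assoc]
    refine Submodule.smul_mem _ _ ?_
    by_cases h : ∑ x : H, (χ : G → ℂ) x = 0
    · rw [pE_mul_eH_eq_zero H h]; exact zero_mem _
    · exact Submodule.subset_span ⟨⟨χ, h⟩, rfl⟩
  let T : zH H →ₗ[ℂ] V :=
    { toFun := fun z => ⟨cH H * z, himg z z.2⟩
      map_add' := fun a b => Subtype.ext (mul_add _ _ _)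
      map_smul' := fun c a => Subtype.ext (mul_smul_comm c _ _) }
  have hinj : Function.Injective T := by
    rw [injective_iff_map_eq_zero]
    intro z hz
    have hz' : cH H * (z : MonoidAlgebra ℂ G) = 0 := congrArg Subtype.val hz
    set y := fun g : G => eH H * MonoidAlgebra.single g⁻¹ 1 * (z : MonoidAlgebra ℂ G)
    have hsum : ∑ g, st (y g) * y g = 0 := by
      rw [← mul_zero (st (z : MonoidAlgebra ℂ G)), ← hz', cH, Finset.sum_mul, Finset.mul_sum]
      refine Finset.sum_congr rfl fun g _ => ?_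
      simp only [y]
      rw [st_mul, st_mul, st_single, inv_inv, st_eH]
      simp only [mul_assoc]
      rw [← mul_assoc (eH H) (eH H), eH_sq]
    have h1 := congrArg (fun x : MonoidAlgebra ℂ G => x.coeff 1) hsum
    simp only [gr_sum_apply] at h1
    have e : ∀ g, (st (y g) * y g).coeff 1 = ((∑ a, Complex.normSq ((y g).coeff a) : ℝ) : ℂ) := by
      intro g
      rw [gr_mul_apply, Complex.ofReal_sum]
      refine Fintype.sum_equiv (Equiv.inv G) _ _ fun a => ?_
      simp [st, Complex.normSq_eq_conj_mul_self]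
    simp only [e, ← Complex.ofReal_sum, MonoidAlgebra.coeff_zero, Finsupp.coe_zero, Pi.zero_apply,
      Complex.ofReal_eq_zero] at h1
    have h2 := (Finset.sum_eq_zero_iff_of_nonneg
      fun g _ => Finset.sum_nonneg fun a _ => Complex.normSq_nonneg _).1 h1 1 (Finset.mem_univ _)
    have hy : y 1 = 0 := gr_ext fun a => by
      simpa using (Finset.sum_eq_zero_iff_of_nonneg fun a _ => Complex.normSq_nonneg _).1 h2 a (Finset.mem_univ _)
    refine Subtype.ext ?_
    rw [show (z : MonoidAlgebra ℂ G) = y 1 by simp only [y, inv_one]; rw [← MonoidAlgebra.one_def, mul_one, z.2.1], hy]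
    rfl
  haveI : FiniteDimensional ℂ (MonoidAlgebra ℂ G) := inferInstance
  have h1 := LinearMap.finrank_le_finrank_of_injective hinj
  have h2 := Submodule.finrank_mono hle
  have h3 : Module.finrank ℂ V = _ := finrank_span_eq_card hli
  rw [Nat.card_eq_fintype_card]
  omega

theorem fixedPointCharacter_eq_indFun (H : Subgroup G) :
    Cfsg.fixedPointCharacter H = Cfsg.indFun H (1 : H → ℂ) := by
  funext g
  have key : ∀ x : G, (Cfsg.extendByZero H (1 : H → ℂ)) (x⁻¹ * g * x) =
      if g • (x : G ⧸ H) = x then 1 else 0 := by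
    intro x
    have : g • (x : G ⧸ H) = x ↔ x⁻¹ * g * x ∈ H := by
      rw [MulAction.Quotient.smul_mk, eq_comm, QuotientGroup.eq, smul_eq_mul, mul_assoc]
    by_cases h : x⁻¹ * g * x ∈ H
    · rw [extendByZero_mem _ h, if_pos (this.2 h)]; rfl
    · rw [extendByZero_not_mem _ h, if_neg (this.not.2 h)]
  have hc : (Finset.univ.filter fun x : G => g • (x : G ⧸ H) = x).card =
      Nat.card H * Nat.card (MulAction.fixedBy (G ⧸ H) g) := by
    rw [← Nat.card_prod, ← Nat.card_eq_finsetCard]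
    refine Nat.card_congr ((Equiv.subtypeEquivRight fun x => ?_).trans
      (QuotientGroup.preimageMkEquivSubgroupProdSet H (MulAction.fixedBy (G ⧸ H) g)))
    rw [Finset.mem_filter, and_iff_right (Finset.mem_univ x)]
    rfl
  unfold Cfsg.indFun Cfsg.fixedPointCharacter
  simp only [key, Finset.sum_boole, hc, Nat.cast_mul]
  rw [← mul_assoc, inv_mul_cancel₀ (Nat.cast_ne_zero.2 Nat.card_pos.ne'), one_mul]

theorem constituent_iff (H : Subgroup G) (χ : IrrCharacter G) :
    (∃ φ : G → ℂ, IsCharacter G φ ∧ Cfsg.fixedPointCharacter H = (χ : G → ℂ) + φ) ↔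
      ∑ x : H, (χ : G → ℂ) x ≠ 0 := by
  have hone : IsCharacter H (1 : H → ℂ) := isCharacter_one
  have hchar : IsCharacter G (Cfsg.fixedPointCharacter H) := by
    rw [fixedPointCharacter_eq_indFun]; exact isCharacter_indFun H hone
  have hinner : classInner (Cfsg.fixedPointCharacter H) (χ : G → ℂ) =
      (Nat.card H : ℂ)⁻¹ * conj (∑ x : H, (χ : G → ℂ) x) := by
    rw [fixedPointCharacter_eq_indFun, classInner_indFun H _ χ.2.isClassFunction, classInner, map_sum]
    simp
  have hiff : classInner (Cfsg.fixedPointCharacter H) (χ : G → ℂ) ≠ 0 ↔ ∑ x : H, (χ : G → ℂ) x ≠ 0 := by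
    rw [hinner, mul_ne_zero_iff, map_ne_zero, and_iff_right (inv_ne_zero (Nat.cast_ne_zero.2 Nat.card_pos.ne'))]
  rw [← hiff]
  constructor
  · rintro ⟨φ, hφ, e⟩
    obtain ⟨k, hk⟩ := classInner_nat hφ χ.2.isCharacter
    rw [e, classInner_add_left, classInner_irr_self χ.2, hk, ← Nat.cast_one, ← Nat.cast_add]
    exact Nat.cast_ne_zero.2 (by omega)
  · intro hne
    refine ⟨Cfsg.fixedPointCharacter H - (χ : G → ℂ), isCharacter_of_classInner ?_ fun ψ => ?_, by abel⟩
    · intro g k
      simp only [Pi.sub_apply]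
      rw [isClassFunction_of_isCharacter hchar g k, χ.2.isClassFunction g k]
    · obtain ⟨k, hk⟩ := classInner_nat hchar ψ.2.isCharacter
      rw [classInner_sub_left, hk]
      by_cases e : χ = ψ
      · subst e
        rw [hk, Nat.cast_ne_zero] at hne
        exact ⟨k - 1, by rw [classInner_irr_self χ.2, Nat.cast_sub (Nat.one_le_iff_ne_zero.2 hne), Nat.cast_one]⟩
      · exact ⟨k, by rw [classInner_irr_ne χ.2 ψ.2 (fun h => e (Subtype.ext h)), sub_zero]⟩

theorem card_constituents (H : Subgroup G) :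
    Nat.card {χ : IrrCharacter G // ∃ φ : G → ℂ, IsCharacter G φ ∧
      Cfsg.fixedPointCharacter H = (χ : G → ℂ) + φ} = Module.finrank ℂ (zH H) := by
  rw [finrank_zH]
  exact Nat.card_congr (Equiv.subtypeEquivRight fun χ => constituent_iff H χ)

end Cfsg.Lib.Blocks.HeckeChar
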