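import Mathlib
import Cfsg.Agent.Lib.Blocks.GaussOmega
import Cfsg.Agent.Lib.Blocks.Heights
import Cfsg.Agent.Lib.Characters.Degree

/-!
# A criterion for `k(GV) ≤ |V|`
-/

set_option autoImplicit false
set_option linter.unusedSectionVars false

namespace Cfsg.Lib.Blocks.GaussOmega

open Cfsg.Lib.Characters Finset
open scoped ComplexConjugate Classical

universe u

theorem Comb.isClassFunction {H : Type u} [Group H] [Finite H] {N : ℕ} {f : H → ℂ} (hf : Comb N f) :
    IsClassFunction H f := by
  obtain ⟨k, a, φ, -, hφ, rfl⟩ := hf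
  intro g x
  simp only [Finset.sum_apply, Pi.smul_apply]
  exact sum_congr rfl fun i _ => by rw [isClassFunction_of_isCharacter (hφ i) g x]

theorem comb_translate {H : Type u} {Z : Type u} [Group H] [Finite H] [CommGroup Z] [Finite Z]
    {N : ℕ} (hN : Nat.card Z ∣ N) {χ : Z × H → ℂ} (hχ : IsCharacter (Z × H) χ) (z : Z) :
    Comb N (fun h => χ (z, h)) := by
  haveI : Fintype H := Fintype.ofFinite H
  haveI : Fintype Z := Fintype.ofFinite Z
  obtain ⟨m, hm⟩ := exists_decomposition hχ
  have key : ∀ ν : IrrCharacter (Z × H), ∃ c : ℂ, c ^ Nat.card Z = 1 ∧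
      ∀ h, (ν : Z × H → ℂ) (z, h) = c * (ν : Z × H → ℂ) (1, h) := by
    intro ν
    obtain ⟨n, ρ, hρ, hν⟩ := id ν.2
    have hn : n ≠ 0 := by
      rintro rfl
      exact ν.2.one_ne_zero (by rw [← hν, Representation.char_one]; simp)
    obtain ⟨c, hc⟩ := schur_scalar ρ (ρ (z, (1 : H))) fun x => by
      rw [← map_mul, ← map_mul]
      exact congrArg ρ (Prod.ext (mul_comm _ _) (by simp))
    refine ⟨c, ?_, fun h => ?_⟩
    · have h1 : ρ ((z, (1 : H)) ^ Nat.card Z) = 1 := by
        rw [Prod.pow_mk, pow_card_eq_one', one_pow]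
        exact map_one ρ
      rw [map_pow, hc, smul_pow, ← Module.End.one_eq_id, one_pow, ← Algebra.algebraMap_eq_smul_one] at h1
      haveI : Nontrivial (Fin n → ℂ) := by
        haveI : Nonempty (Fin n) := ⟨⟨0, Nat.pos_of_ne_zero hn⟩⟩
        infer_instance
      exact (algebraMap ℂ (Module.End ℂ (Fin n → ℂ))).injective (h1.trans (map_one _).symm)
    · rw [← hν, Representation.character, Representation.character,
        show ((z, h) : Z × H) = (z, 1) * (1, h) by simp, map_mul, hc, smul_mul_assoc,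
        ← Module.End.one_eq_id, one_mul, map_smul, smul_eq_mul]
  choose c hc hch using key
  have : (fun h => χ (z, h)) = ∑ ν : IrrCharacter (Z × H), ((m ν : ℂ) * c ν) • fun h => (ν : Z × H → ℂ) (1, h) := by
    funext h
    rw [hm]
    simp only [Finset.sum_apply, Pi.smul_apply, smul_eq_mul, hch, mul_assoc]
  rw [this]
  refine comb_of_fintype _ _ (fun ν => ⟨?_, ?_⟩) fun ν => isCharacter_comp ν.2.isCharacter (MonoidHom.inr Z H)
  · exact (by simpa using isIntegral_algebraMap (R := ℤ) (A := ℂ) (x := (m ν : ℤ)) : IsIntegral ℤ (m ν : ℂ)).mul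
      (IsIntegral.of_pow Nat.card_pos (by rw [hc ν]; exact isIntegral_one))
  · refine mul_mem (natCast_mem _ _) (root_mem_rootField ?_)
    obtain ⟨e, he⟩ := hN
    rw [he, pow_mul, hc ν, one_pow]

theorem exists_good_linear {H : Type u} [Group H] [Fintype H] {p : ℕ} [Fact p.Prime]
    (hcomm : ∀ a b : H, a * b = b * a) (hcop : (Nat.card H).Coprime p) {N : ℕ} (hpN : p ∣ N)
    {M : Ideal Cfsg.AlgInt} [M.IsPrime] (hM : IsPModular p M) {A : Type u} [CommGroup A] [Finite A]
    [Module (ZMod p) (Additive A)] (f : H →* MulAut A) :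
    ∃ ω, Good N M (fun h a => Additive.ofMul (f h (Additive.toMul a))) ω := by
  let ρ : Representation (ZMod p) H (Additive A) :=
    { toFun := fun h => AddMonoidHom.toZModLinearMap p (MonoidHom.toAdditive (f h).toMonoidHom)
      map_one' := LinearMap.ext fun x => congrArg Additive.ofMul (DFunLike.congr_fun (map_one f) (Additive.toMul x))
      map_mul' := fun a b => LinearMap.ext fun x => congrArg Additive.ofMul (DFunLike.congr_fun (map_mul f a b) (Additive.toMul x)) }
  exact exists_good hcomm hcop hpN hM _ (Additive A) ρ rfl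

/-- The generalised character for an action by automorphisms. -/
theorem exists_good_mulAut {H : Type u} [Group H] [Fintype H] {p : ℕ} [hp : Fact p.Prime]
    {A : Type u} [CommGroup A] [Finite A] (hcomm : ∀ a b : H, a * b = b * a)
    (hcop : (Nat.card H).Coprime p) {N : ℕ} (hpN : p ∣ N) {M : Ideal Cfsg.AlgInt} [M.IsPrime]
    (hM : IsPModular p M) (hexp : ∀ a : A, a ^ p = 1) (f : H →* MulAut A) :
    ∃ ω : H → ℂ, Comb N ω ∧ ω 1 = 1 ∧ ∀ h, ((∀ a, f h a = a) ∨ red M (ω h) = 0) ∧
      ∃ n : ℕ, ω h * conj (ω h) = n ∧ n * Nat.card {a : A // f h a = a} ≤ Nat.card A := by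
  obtain ⟨ω, h1, h2, h3⟩ := @exists_good_linear H _ _ p hp hcomm hcop N hpN M _ hM A _ _
    (AddCommGroup.zmodModule fun x => congrArg Additive.ofMul (hexp (Additive.toMul x))) f
  refine ⟨ω, h1, h2, fun h => ?_⟩
  obtain ⟨h4, n, hn, hle⟩ := h3 h
  refine ⟨h4.imp_left (fun ht a => congrArg Additive.toMul (ht (Additive.ofMul a))), n, hn, ?_⟩
  have hc : Nat.card {a : Additive A // Additive.ofMul (f h (Additive.toMul a)) = a} =
      Nat.card {a : A // f h a = a} :=
    Nat.card_congr (Additive.toMul.subtypeEquiv (q := fun a : A => f h a = a)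
      (fun a => ⟨fun e => congrArg Additive.toMul e, fun e => congrArg Additive.ofMul e⟩))
  rw [← hc, ← Nat.card_congr (Additive.toMul : Additive A ≃ A)]
  exact hle

variable {X : Type u} [Group X] [Finite X] {p : ℕ} [hp : Fact p.Prime]

theorem card_conjClasses_le (V : Subgroup X) [V.Normal] (hVexp : ∀ v ∈ V, v ^ p = 1)
    (hab : ∀ a ∈ V, ∀ b ∈ V, a * b = b * a) (hidx : ¬ p ∣ V.index) (G : Subgroup X)
    (hGV : Subgroup.IsComplement' V G) (v : X) (hv : v ∈ V) {M : Ideal Cfsg.AlgInt} [M.IsPrime]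
    (hM : IsPModular p M) {N : ℕ} (hN : Nat.card X ∣ N) (hN0 : 0 < N)
    (H : Subgroup X) (hHmem : ∀ x, x ∈ H ↔ x ∈ G ∧ x * v = v * x)
    (ω : H → ℂ) (hω : Comb N ω) (hω1 : ω 1 = 1)
    (hred : ∀ h, h ≠ 1 → red M (ω h) = 0)
    (hbound : ∀ h : H, ∃ n : ℕ, ω h * conj (ω h) = n ∧
      n * Nat.card {a : V // (h : X) * a * (h : X)⁻¹ = a} ≤ Nat.card V) :
    Nat.card (ConjClasses X) ≤ Nat.card V := by
  haveI : Fintype X := Fintype.ofFinite X
  haveI : Fintype H := Fintype.ofFinite H
  choose n hn hnle using hbound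
  have hHG : H ≤ G := fun x hx => ((hHmem x).mp hx).1
  have hvh : ∀ h : H, v * (h : X) = (h : X) * v := fun h => ((hHmem _).mp h.2).2.symm
  -- order of the complement
  have hGcard : Nat.card G = V.index := (hGV.symm.index_eq_card).symm
  have hHp : ¬ p ∣ Nat.card H := fun h =>
    hidx (hGcard ▸ h.trans (Subgroup.card_dvd_of_le hHG))
  have hvo : ∃ k : ℕ, orderOf v = p ^ k := by
    obtain ⟨k, -, hk⟩ := (Nat.dvd_prime_pow hp.out).mp
      (show orderOf v ∣ p ^ 1 by rw [pow_one]; exact orderOf_dvd_of_pow_eq_one (hVexp v hv))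
    exact ⟨k, hk⟩
  -- the translated characters
  let D : Subgroup.zpowers v × H →* X := (Subgroup.zpowers v).subtype.noncommCoprod H.subtype (by
    rintro ⟨a, ha⟩ h
    obtain ⟨i, rfl⟩ := ha
    exact (Commute.zpow_left (hvh h) i))
  let φ : IrrCharacter X → H → ℂ := fun χ h => (χ : X → ℂ) (v * h)
  have hφ : ∀ χ, Comb N (φ χ) := by
    intro χ
    letI : CommGroup (Subgroup.zpowers v) := IsCyclic.commGroup
    exact comb_translate ((Subgroup.card_subgroup_dvd_card _).trans hN)
      (isCharacter_comp χ.2.isCharacter D) ⟨v, Subgroup.mem_zpowers v⟩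
  let f : IrrCharacter X → H → ℂ := fun χ => ω * φ χ
  have hf : ∀ χ, Comb N (f χ) := fun χ => comb_mul hω (hφ χ)
  -- the coefficients
  let c : IrrCharacter X × IrrCharacter H → ℂ := fun z => classInner (f z.1) (z.2 : H → ℂ)
  have hcne : ∀ z, c z ≠ 0 := by
    rintro ⟨χ, ψ⟩ h0
    have hmemψ : ∀ h : H, conj ((ψ : H → ℂ) h) ∈ locRing M := fun h =>
      isIntegral_mem_locRing M (isIntegral_conj (char_isIntegral ψ.2.isCharacter h))
    have hsum : ∑ h : H, f χ h * conj ((ψ : H → ℂ) h) = 0 := by
      have h1 := h0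
      simp only [c, classInner] at h1
      exact (mul_eq_zero.mp h1).resolve_left (inv_ne_zero (Nat.cast_ne_zero.mpr Nat.card_pos.ne'))
    have h2 := congrArg (red M) hsum
    rw [red_zero, red_sum _ (fun h _ => mul_mem ((hf χ).mem_locRing h) (hmemψ h)),
      sum_eq_single (1 : H) (fun h _ hh => by
        rw [red_mul ((hf χ).mem_locRing h) (hmemψ h), show f χ h = ω h * φ χ h from rfl,
          red_mul (hω.mem_locRing h) ((hφ χ).mem_locRing h), hred h hh, zero_mul, zero_mul])
        (fun h => absurd (mem_univ _) h),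
      red_mul ((hf χ).mem_locRing 1) (hmemψ 1), show f χ 1 = ω 1 * φ χ 1 from rfl, hω1, one_mul] at h2
    have h3 : red M (φ χ 1) = ((charDegree (χ : X → ℂ) : ℕ) : ResF M) := by
      have h4 := red_char_mul_pPart hM χ (Commute.one_right v) hvo
        (by rw [orderOf_one]; exact hp.out.not_dvd_one)
      show red M ((χ : X → ℂ) (v * ((1 : H) : X))) = _
      rw [OneMemClass.coe_one, h4, ← coe_charDegree χ, red_natCast]
    rw [h3, ← coe_charDegree ψ, map_natCast, red_natCast, ← Nat.cast_mul,
      natCast_resF_eq_zero hM] at h2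
    rcases (Nat.Prime.dvd_mul hp.out).mp h2 with h5 | h5
    · haveI : IsMulCommutative V := ⟨⟨fun a b => Subtype.ext (hab _ a.2 _ b.2)⟩⟩
      exact hidx (h5.trans (degree_dvd_index_of_abelian χ.2 V (coe_charDegree χ).symm))
    · exact hHp (h5.trans (degree_dvd_card ψ.2 (coe_charDegree ψ).symm))
  set Q := ∑ h : H, n h * Nat.card (Subgroup.centralizer ({v * (h : X)} : Set X)) with hQ
  have htotal : ∑ z, c z * conj (c z) = (Q : ℂ) / (Nat.card H : ℂ) := by
    rw [Fintype.sum_prod_type]
    calc ∑ χ, ∑ ψ, c (χ, ψ) * conj (c (χ, ψ)) = ∑ χ, classInner (f χ) (f χ) := by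
          refine sum_congr rfl fun χ _ => ?_
          rw [classInner_eq_sum (hf χ).isClassFunction]
          exact sum_congr rfl fun ψ _ => by rw [conj_classInner]
      _ = (Nat.card H : ℂ)⁻¹ * ∑ h : H, (n h : ℂ) *
            ∑ χ : IrrCharacter X, (χ : X → ℂ) (v * h) * conj ((χ : X → ℂ) (v * h)) := by
          simp only [classInner, ← mul_sum]
          congr 1
          rw [sum_comm]
          refine sum_congr rfl fun h _ => ?_
          rw [mul_sum]
          refine sum_congr rfl fun χ _ => ?_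
          rw [← hn h]
          show ω h * (χ : X → ℂ) (v * h) * conj (ω h * (χ : X → ℂ) (v * h)) = _
          rw [map_mul]; ring
      _ = _ := by
          rw [hQ, div_eq_inv_mul]
          push_cast
          congr 1
          exact sum_congr rfl fun h _ => by rw [column_orthogonality, if_pos (IsConj.refl _)]
  have hdvd : Nat.card H ∣ Q := by
    refine dvd_of_isIntegral_div Nat.card_pos.ne' ?_
    rw [← htotal]
    exact IsIntegral.sum _ fun z _ => ((hf z.1).coeff z.2.2).1.mul (isIntegral_conj ((hf z.1).coeff z.2.2).1)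
  obtain ⟨r, hr⟩ := hdvd
  have hle := card_le_of_sum_mul_conj hN0 c (fun z => ((hf z.1).coeff z.2.2).2)
    (fun z => ((hf z.1).coeff z.2.2).1) hcne r (by
      rw [htotal, hr, Nat.cast_mul, mul_div_cancel_left₀ _ (Nat.cast_ne_zero.mpr Nat.card_pos.ne')])
  -- bound Q
  have hQle : Q ≤ Nat.card V * (Nat.card (ConjClasses H) * Nat.card H) := by
    have hcomm : Nat.card (ConjClasses H) * Nat.card H =
        ∑ h : H, Nat.card {g : H // Commute h g} := by
      rw [← card_comm_eq_card_conjClasses_mul_card, ← Nat.card_sigma]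
      exact Nat.card_congr (Equiv.subtypeProdEquivSigmaSubtype _)
    rw [hcomm, hQ, mul_sum]
    refine sum_le_sum fun h _ => ?_
    have hsub : Nat.card (Subgroup.centralizer ({v * (h : X)} : Set X)) ≤
        Nat.card {a : V // (h : X) * a * (h : X)⁻¹ = a} * Nat.card {g : H // Commute h g} := by
      rw [← Nat.card_prod]
      have key : ∀ y ∈ Subgroup.centralizer ({v * (h : X)} : Set X), ∀ (a : V) (g : G),
          (a : X) * g = y → (g : X) ∈ H ∧ (h : X) * a * (h : X)⁻¹ = a ∧ (g : X) * h = h * g := by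
        intro y hy a g hag
        rw [Subgroup.mem_centralizer_singleton_iff] at hy
        have hcomm' : Commute y (v * (h : X)) := hy
        have hcopo : (orderOf v).Coprime (orderOf (h : X)) := by
          obtain ⟨k, hk⟩ := hvo
          rw [hk, Subgroup.orderOf_coe]
          exact Nat.Coprime.pow_left _
            ((hp.out.coprime_iff_not_dvd).mpr fun hd => hHp (hd.trans (orderOf_dvd_natCard h)))
        obtain ⟨e, he1, he2⟩ := Nat.chineseRemainder hcopo 1 0
        have hve : (v * (h : X)) ^ e = v := by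
          have h1 : v ^ e = v := by
            conv_rhs => rw [← pow_one v]
            exact pow_eq_pow_iff_modEq.mpr he1
          have h2 : (h : X) ^ e = 1 := by
            rw [← pow_zero (h : X)]
            exact pow_eq_pow_iff_modEq.mpr he2
          rw [Commute.mul_pow (hvh h), h1, h2, mul_one]
        have hyv : Commute y v := hve ▸ hcomm'.pow_right e
        have hyh : Commute y (h : X) := by
          have := hyv.inv_right.mul_right hcomm'
          simpa using this
        have hgv : (g : X) * v = v * g := by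
          have h1 : (a : X) * ((g : X) * v) = (a : X) * (v * g) := by
            rw [← mul_assoc, hag, hyv.eq, ← hag, ← mul_assoc, ← mul_assoc, hab v hv a a.2]
          exact mul_left_cancel h1
        have hgH : (g : X) ∈ H := (hHmem _).mpr ⟨g.2, hgv⟩
        let hG : G := ⟨h, hHG h.2⟩
        let a' : V := ⟨(h : X) * a * (h : X)⁻¹, (inferInstance : V.Normal).conj_mem _ a.2 _⟩
        have huniq : ((a', hG * g) : V × G) = ((a, g * hG) : V × G) := hGV.1 (by
          show (h : X) * a * (h : X)⁻¹ * ((h : X) * g) = (a : X) * ((g : X) * h)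
          rw [← mul_assoc (a : X), hag, hyh.eq, ← hag]
          group)
        obtain ⟨e1, e2⟩ := Prod.ext_iff.mp huniq
        exact ⟨hgH, congrArg Subtype.val e1, (congrArg Subtype.val e2).symm⟩
      have hdec : ∀ y : Subgroup.centralizer ({v * (h : X)} : Set X), ∃ z : V × G, (z.1 : X) * z.2 = y :=
        fun y => hGV.2 (y : X)
      choose z hz using hdec
      refine Nat.card_le_card_of_injective (fun y =>
        ((⟨(z y).1, (key _ y.2 _ _ (hz y)).2.1⟩ : {a : V // (h : X) * a * (h : X)⁻¹ = a}),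
          (⟨⟨(z y).2, (key _ y.2 _ _ (hz y)).1⟩, Subtype.ext (key _ y.2 _ _ (hz y)).2.2.symm⟩ :
            {g : H // Commute h g}))) ?_
      intro y y' hyy
      rw [Prod.mk.injEq] at hyy
      have h1 := congrArg (fun q : {a : V // (h : X) * a * (h : X)⁻¹ = a} => (q.1 : X)) hyy.1
      have h2 := congrArg (fun q : {g : H // Commute h g} => (q.1 : X)) hyy.2
      simp only at h1 h2
      exact Subtype.ext (by rw [← hz y, ← hz y', h1, h2])
    calc n h * Nat.card (Subgroup.centralizer ({v * (h : X)} : Set X))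
        ≤ n h * (Nat.card {a : V // (h : X) * a * (h : X)⁻¹ = a} * Nat.card {g : H // Commute h g}) :=
          Nat.mul_le_mul_left _ hsub
      _ ≤ Nat.card V * Nat.card {g : H // Commute h g} := by
          rw [← mul_assoc]; exact Nat.mul_le_mul_right _ (hnle h)
  have hr' : r ≤ Nat.card V * Nat.card (ConjClasses H) := by
    refine Nat.le_of_mul_le_mul_left ?_ (Nat.card_pos (α := H))
    rw [← hr]
    linarith
  rw [Fintype.card_prod, ← Nat.card_eq_fintype_card, ← Nat.card_eq_fintype_card,
    card_irr_eq_card_conjClasses, card_irr_eq_card_conjClasses] at hle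
  exact Nat.le_of_mul_le_mul_right (hle.trans hr') Nat.card_pos

/-- The abelian stabiliser criterion. -/
theorem abelian_stabilizer (V : Subgroup X) [V.Normal] (hVexp : ∀ v ∈ V, v ^ p = 1)
    (hab : ∀ a ∈ V, ∀ b ∈ V, a * b = b * a) (hidx : ¬ p ∣ V.index) (G : Subgroup X)
    (hGV : Subgroup.IsComplement' V G) (hfaith : ∀ g ∈ G, (∀ a ∈ V, g * a * g⁻¹ = a) → g = 1)
    (v : X) (hv : v ∈ V)
    (hcomm : ∀ a ∈ G ⊓ Subgroup.centralizer ({v} : Set X),
      ∀ b ∈ G ⊓ Subgroup.centralizer ({v} : Set X), a * b = b * a) :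
    Nat.card (ConjClasses X) ≤ Nat.card V := by
  set H := G ⊓ Subgroup.centralizer ({v} : Set X) with hH
  haveI : Fintype H := Fintype.ofFinite H
  obtain ⟨M, hM⟩ := exists_isPModular p
  haveI : M.IsPrime := hM.2.1.isPrime
  letI : CommGroup V :=
    { (inferInstance : Group V) with mul_comm := fun a b => Subtype.ext (hab _ a.2 _ b.2) }
  have hHp : (Nat.card H).Coprime p := by
    rw [Nat.coprime_comm, hp.out.coprime_iff_not_dvd]
    exact fun h => hidx ((hGV.symm.index_eq_card).symm ▸ h.trans (Subgroup.card_dvd_of_le inf_le_left))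
  obtain ⟨ω, hω, hω1, hg⟩ := exists_good_mulAut (A := V) (fun a b : H => Subtype.ext (hcomm _ a.2 _ b.2)) hHp
    (N := Nat.card X * p) (dvd_mul_left p _) hM
    (fun x => Subtype.ext (by simpa using hVexp _ x.2)) (MulAut.conjNormal.comp H.subtype)
  have hval : ∀ (h : H) (a : V),
      (MulAut.conjNormal.comp H.subtype) h a = a ↔ (h : X) * a * (h : X)⁻¹ = a := by
    intro h a
    rw [MonoidHom.comp_apply, Subgroup.coe_subtype, Subtype.ext_iff, MulAut.conjNormal_apply]
  refine card_conjClasses_le V hVexp hab hidx G hGV v hv hM (dvd_mul_right _ p)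
    (Nat.mul_pos Nat.card_pos hp.out.pos) H (fun x => Subgroup.mem_inf.trans
      (and_congr_right fun _ => Subgroup.mem_centralizer_singleton_iff)) ω hω hω1 (fun h hh => ?_) fun h => ?_
  · rcases (hg h).1 with ht | hr
    · exfalso
      exact hh (Subtype.ext (hfaith _ (Subgroup.mem_inf.mp h.2).1 fun a ha =>
        (hval h ⟨a, ha⟩).mp (ht _)))
    · exact hr
  · obtain ⟨n, hn, hle⟩ := (hg h).2
    exact ⟨n, hn, by rwa [Nat.card_congr (Equiv.subtypeEquivRight fun a => hval h a)] at hle⟩

end Cfsg.Lib.Blocks.GaussOmega
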