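import Cfsg.Agent.Lib.Characters.Correspondence
import Cfsg.Agent.Lib.Characters.Integrality
import Cfsg.Agent.Lib.Characters.Degree
import Cfsg.Agent.Lib.Characters.PowerConj
import Cfsg.Agent.Lib.Blocks.Codegree
import Cfsg.Agent.Lib.Blocks.GaloisConjDegrees
import Cfsg.Agent.Lib.Characters.Thompson

/-!
# Groups with an abelian normal subgroup and nilpotent quotient are monomial; Taketa's step
-/

namespace Cfsg.Lib.Blocks.MonomialTaketa

open Cfsg Cfsg.Lib.Characters Cfsg.Lib.Blocks.GaloisConj
open scoped Classical ComplexConjugate commutatorElement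

set_option autoImplicit false
set_option linter.style.longLine false
set_option linter.style.haveILetI false
set_option linter.unusedSectionVars false

universe u

variable {G : Type u} [Group G]

/-- The values of a character are bounded by its degree. -/
theorem norm_le_one [Finite G] {f : G → ℂ} (hf : IsCharacter G f) {d : ℕ} (hd : f 1 = d) (g : G) : ‖f g‖ ≤ d := by
  haveI : Fintype G := Fintype.ofFinite G
  obtain ⟨n, ρ, rfl⟩ := hf
  rw [Representation.char_one, Module.finrank_fin_fun, Nat.cast_inj] at hd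
  subst hd
  obtain ⟨μ, hμ, -, hk', -⟩ := exists_eigenvalues ρ g
  rw [show ρ.character g = ∑ i, μ i by simpa using hk' 1]
  refine (norm_sum_le _ _).trans (le_of_eq ?_)
  simp [Complex.norm_eq_one_of_pow_eq_one (hμ _) (orderOf_pos g).ne']

/-- An irreducible character which is scalar on a set of generators up to one element is linear. -/
theorem linear_of_scalar_extend [Finite G] {φ : G → ℂ} (hφ : IsIrrCharacter G φ) (x : G) (A : Subgroup G)
    (hA : ∀ a ∈ A, ‖φ a‖ = ‖φ 1‖) (hgen : A ⊔ Subgroup.zpowers x = ⊤) : φ 1 = 1 := by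
  haveI : Fintype G := Fintype.ofFinite G
  obtain ⟨d, ρ, hρ, rfl⟩ := id hφ
  haveI := hρ
  have hd : ρ.character 1 = (d : ℂ) := by rw [Representation.char_one, Module.finrank_fin_fun]
  have hsA : ∀ a ∈ A, ∃ ω : ℂ, ρ a = ω • LinearMap.id := fun a ha =>
    exists_scalar_of_norm_eq ρ a (by rw [hA a ha, hd, Complex.norm_natCast, Module.finrank_fin_fun])
  let C : Subgroup G := {
    carrier := {g | Commute (ρ g) (ρ x)}
    one_mem' := by simp
    mul_mem' := fun {a b} ha hb => by simp only [Set.mem_setOf_eq, map_mul] at *; exact ha.mul_left hb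
    inv_mem' := fun {a} ha => by
      simp only [Set.mem_setOf_eq] at *
      have h1 : ρ a⁻¹ * ρ a = 1 := by rw [← map_mul, inv_mul_cancel, map_one]
      have h2 : ρ a * ρ a⁻¹ = 1 := by rw [← map_mul, mul_inv_cancel, map_one]
      exact (Commute.units_inv_left (u := ⟨ρ a, ρ a⁻¹, h2, h1⟩) ha) }
  have hC : C = ⊤ := by
    rw [eq_top_iff, ← hgen]
    refine sup_le (fun a ha => ?_) (Subgroup.zpowers_le.2 (Commute.refl _))
    obtain ⟨ω, hω⟩ := hsA a ha
    show Commute (ρ a) (ρ x)
    rw [hω, ← Module.End.one_eq_id]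
    exact (Commute.one_left _).smul_left ω
  obtain ⟨c, hc⟩ := schur_scalar ρ (ρ x) fun g => ((show g ∈ C from hC ▸ Subgroup.mem_top g) : Commute (ρ g) (ρ x)).eq.symm
  have hall : ∀ g : G, ∃ ω : ℂ, ρ g = ω • LinearMap.id := by
    intro g
    refine schur_scalar ρ (ρ g) fun y => ?_
    let D : Subgroup G := {
      carrier := {u | Commute (ρ u) (ρ y)}
      one_mem' := by simp
      mul_mem' := fun {a b} ha hb => by simp only [Set.mem_setOf_eq, map_mul] at *; exact ha.mul_left hb
      inv_mem' := fun {a} ha => by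
        simp only [Set.mem_setOf_eq] at *
        have h1 : ρ a⁻¹ * ρ a = 1 := by rw [← map_mul, inv_mul_cancel, map_one]
        have h2 : ρ a * ρ a⁻¹ = 1 := by rw [← map_mul, mul_inv_cancel, map_one]
        exact (Commute.units_inv_left (u := ⟨ρ a, ρ a⁻¹, h2, h1⟩) ha) }
    have hD : D = ⊤ := by
      rw [eq_top_iff, ← hgen]
      refine sup_le (fun a ha => ?_) (Subgroup.zpowers_le.2 ?_)
      · obtain ⟨ω, hω⟩ := hsA a ha
        show Commute (ρ a) (ρ y)
        rw [hω, ← Module.End.one_eq_id]
        exact (Commute.one_left _).smul_left ω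
      · show Commute (ρ x) (ρ y)
        rw [hc, ← Module.End.one_eq_id]
        exact (Commute.one_left _).smul_left c
    exact ((show g ∈ D from hD ▸ Subgroup.mem_top g) : Commute (ρ g) (ρ y)).eq
  have hnorm : ∀ g : G, ‖ρ.character g‖ = d := by
    intro g
    obtain ⟨ω, hω⟩ := hall g
    have hdn : d ≠ 0 := fun e => hφ.one_ne_zero (by rw [hd, e, Nat.cast_zero])
    have hp : ω ^ orderOf g = 1 := by
      have h : ρ (g ^ orderOf g) = 1 := by rw [pow_orderOf_eq_one, map_one]
      rw [map_pow, hω, ← Module.End.one_eq_id, smul_pow, one_pow] at h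
      have := congrArg (LinearMap.trace ℂ (Fin d → ℂ)) h
      rw [map_smul, Module.End.one_eq_id, LinearMap.trace_id, Module.finrank_fin_fun, smul_eq_mul] at this
      exact mul_right_cancel₀ (Nat.cast_ne_zero.2 hdn) (this.trans (one_mul _).symm)
    rw [Representation.character, hω, map_smul, LinearMap.trace_id, Module.finrank_fin_fun, smul_eq_mul, norm_mul,
      Complex.norm_eq_one_of_pow_eq_one hp (orderOf_pos g).ne', one_mul, Complex.norm_natCast]
  have h1 := Cfsg.Lib.Blocks.degree_sq_le hφ hd ⊤ fun z _ => hnorm z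
  rw [Subgroup.card_top] at h1
  have hd1 : d ^ 2 ≤ 1 := Nat.le_of_mul_le_mul_left (h1.trans (mul_one _).ge) Nat.card_pos
  have hd2 : d = 1 := by
    have hdn : d ≠ 0 := fun e => hφ.one_ne_zero (by rw [hd, e, Nat.cast_zero])
    have : d ≤ 1 := by nlinarith
    omega
  rw [hd, hd2, Nat.cast_one]

theorem indFun_congr [Fintype G] {H H' : Subgroup G} (h : H = H') (θ : H → ℂ) (θ' : H' → ℂ)
    (hθ : ∀ x : H, θ x = θ' ⟨x, h ▸ x.2⟩) : indFun H θ = indFun H' θ' := by
  subst h
  exact congrArg _ (funext hθ)

/-- A character with only linear constituents on a normal subgroup with nilpotent quotient is monomial. -/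
theorem monomial_aux : ∀ (n : ℕ) (G : Type u) [Group G] [Fintype G] (A : Subgroup G) [A.Normal],
    Nat.card G + A.index = n → Group.IsNilpotent (G ⧸ A) → ∀ χ : G → ℂ, IsIrrCharacter G χ →
    (∀ θ : IrrCharacter A, classInner (fun a : A => χ a) (θ : A → ℂ) ≠ 0 → (θ : A → ℂ) 1 = 1) →
    ∃ (H : Subgroup G) (lam : H →* ℂˣ), indFun H (fun x => (lam x : ℂ)) = χ := by
  intro n
  induction n using Nat.strong_induction_on with
  | _ n ih =>
    intro G _ _ A _ hn hnil χ hχ hlin
    obtain ⟨θ, hθ, hne⟩ := classInner_res_ne_zero (N := A) hχ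
    have hθ1 : θ 1 = 1 := hlin ⟨θ, hθ⟩ hne
    obtain ⟨f, hf⟩ := exists_hom_of_degree_one hθ.isCharacter hθ1
    obtain ⟨d, hd0, hd⟩ := hχ.exists_degree_pos
    by_cases hAtop : A = ⊤
    · refine ⟨A, f, ?_⟩
      rw [← hf]
      refine eq_of_constituent_degree_le (isCharacter_indFun A hθ.isCharacter) hχ ?_ hd (e := 1) ?_ (by omega)
      · rw [classInner_indFun A θ hχ.isClassFunction, ← conj_classInner]
        simpa using hne
      · rw [indFun_one_apply, hθ1, hAtop, Subgroup.index_top]; simp
    set T := inertia A θ with hT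
    have hAT : A ≤ T := le_inertia hθ.isClassFunction
    by_cases hTtop : T = ⊤
    · -- enlarge the subgroup
      have horb : orbitFinset A θ = {θ} := by
        ext ψ
        rw [mem_orbitFinset, Finset.mem_singleton]
        refine ⟨?_, fun h => ⟨1, by rw [h, conjFn_one]⟩⟩
        rintro ⟨g, rfl⟩
        exact mem_inertia.1 (show g ∈ inertia A θ by rw [← hT, hTtop]; exact Subgroup.mem_top g)
      have hnormA : ∀ a ∈ A, ‖χ a‖ = ‖χ 1‖ := by
        intro a ha
        have hc := clifford hχ hθ hne
        rw [horb, Finset.sum_singleton] at hc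
        have h1 := congrFun hc ⟨a, ha⟩
        have h2 := congrFun hc 1
        simp only [Pi.smul_apply, smul_eq_mul, OneMemClass.coe_one] at h1 h2
        rw [h1, h2, hθ1, mul_one, norm_mul, hf]
        have hp : ((f ⟨a, ha⟩ : ℂˣ) : ℂ) ^ orderOf (⟨a, ha⟩ : A) = 1 := by
          rw [← Units.val_pow_eq_pow_val, ← map_pow, pow_orderOf_eq_one, map_one, Units.val_one]
        show _ * ‖((f ⟨a, ha⟩ : ℂˣ) : ℂ)‖ = _
        rw [Complex.norm_eq_one_of_pow_eq_one hp (orderOf_pos _).ne', mul_one]
      haveI := hnil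
      haveI : Nontrivial (G ⧸ A) := by
        rw [← Finite.one_lt_card_iff_nontrivial, ← Subgroup.index_eq_card]
        exact Nat.one_lt_iff_ne_zero_and_ne_one.2 ⟨Subgroup.index_ne_zero_of_finite, fun h => hAtop (Subgroup.index_eq_one.1 h)⟩
      obtain ⟨q, hq, hq1⟩ := (Subgroup.bot_or_exists_ne_one (Subgroup.center (G ⧸ A))).resolve_left
        (Group.IsNilpotent.center_ne_bot (G ⧸ A))
      obtain ⟨x, rfl⟩ := QuotientGroup.mk'_surjective A q
      set A' := (Subgroup.zpowers (QuotientGroup.mk' A x)).comap (QuotientGroup.mk' A) with hA'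
      haveI : (Subgroup.zpowers (QuotientGroup.mk' A x)).Normal := ⟨fun n hn g => by
        rw [Subgroup.mem_center_iff.1 (Subgroup.zpowers_le.2 hq hn) g, mul_inv_cancel_right]
        exact hn⟩
      haveI : A'.Normal := Subgroup.Normal.comap inferInstance _
      have hAA' : A ≤ A' := fun a ha => by
        rw [hA', Subgroup.mem_comap, show QuotientGroup.mk' A a = 1 from (QuotientGroup.eq_one_iff a).2 ha]
        exact one_mem _
      have hxA' : x ∈ A' := Subgroup.mem_zpowers _
      have hxA : x ∉ A := fun h => hq1 ((QuotientGroup.eq_one_iff x).2 h)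
      refine ih (Nat.card G + A'.index) ?_ G A' rfl ?_ χ hχ ?_
      · rw [← hn]
        exact Nat.add_lt_add_left (Subgroup.index_strictAnti (lt_of_le_of_ne hAA' fun e => hxA (e ▸ hxA'))) _
      · exact nilpotent_of_surjective (QuotientGroup.map A A' (MonoidHom.id G) (by simpa using hAA'))
          (fun z => by obtain ⟨g, rfl⟩ := QuotientGroup.mk_surjective z; exact ⟨g, rfl⟩)
      · intro φ hφ
        obtain ⟨m, hm⟩ := exists_decomposition (isCharacter_restrict hχ.isCharacter A')
        have hmφ : m φ ≠ 0 := by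
          intro h0
          refine hφ ?_
          rw [hm, classInner_sum_irr, h0, Nat.cast_zero]
        choose dg hdg using fun ψ : IrrCharacter A' => exists_degree ψ.2.isCharacter
        refine linear_of_scalar_extend φ.2 ⟨x, hxA'⟩ (A.subgroupOf A') (fun a ha => ?_) ?_
        · have hsum : (d : ℝ) = ∑ ψ, (m ψ : ℝ) * dg ψ := by
            have h1 := congrFun hm 1
            simp only [OneMemClass.coe_one, hd, Finset.sum_apply, Pi.smul_apply, smul_eq_mul, hdg] at h1
            exact_mod_cast h1
          have hle : (d : ℝ) ≤ ∑ ψ, (m ψ : ℝ) * ‖(ψ : A' → ℂ) a‖ := by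
            have h1 := congrFun hm a
            simp only [Finset.sum_apply, Pi.smul_apply, smul_eq_mul] at h1
            have h2 := hnormA (a : G) ha
            rw [hd, Complex.norm_natCast] at h2
            rw [← h2, h1]
            refine (norm_sum_le _ _).trans (le_of_eq (Finset.sum_congr rfl fun ψ _ => ?_))
            rw [norm_mul, Complex.norm_natCast]
          have hz : ∑ ψ, (m ψ : ℝ) * ((dg ψ : ℝ) - ‖(ψ : A' → ℂ) a‖) = 0 := by
            refine le_antisymm ?_ (Finset.sum_nonneg fun ψ _ => mul_nonneg (Nat.cast_nonneg _)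
              (sub_nonneg.2 (norm_le_one ψ.2.isCharacter (hdg ψ) a)))
            simp only [mul_sub, Finset.sum_sub_distrib]
            linarith
          have h3 := (Finset.sum_eq_zero_iff_of_nonneg fun ψ _ => mul_nonneg (Nat.cast_nonneg _)
              (sub_nonneg.2 (norm_le_one ψ.2.isCharacter (hdg ψ) a))).1 hz φ (Finset.mem_univ _)
          rw [mul_eq_zero, sub_eq_zero] at h3
          rw [hdg φ, Complex.norm_natCast]
          exact (h3.resolve_left (Nat.cast_ne_zero.2 hmφ)).symm
        · rw [eq_top_iff]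
          rintro ⟨y, hy⟩ -
          obtain ⟨k, hk⟩ := Subgroup.mem_zpowers_iff.1 hy
          have hmem : (x ^ k)⁻¹ * y ∈ A := by
            refine QuotientGroup.eq.1 ?_
            rw [QuotientGroup.mk_zpow]
            exact hk
          have e : (⟨y, hy⟩ : A') = (⟨x, hxA'⟩ : A') ^ k * ⟨(x ^ k)⁻¹ * y, hAA' hmem⟩ := Subtype.ext (by
            simp)
          rw [e]
          exact mul_mem (Subgroup.mem_sup_right ⟨k, rfl⟩) (Subgroup.mem_sup_left hmem)
    · -- induce from the inertia group
      obtain ⟨ψ, hψ, hind, hmult⟩ := exists_indFun_eq hθ T rfl hAT hχ hne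
      set AT := A.subgroupOf T with hATdef
      haveI : AT.Normal := inferInstance
      have hlt : Nat.card T + AT.index < n := by
        rw [← hn]
        have h1 : Nat.card T < Nat.card G := lt_of_le_of_ne (Subgroup.card_le_card_group T)
          fun e => hTtop (Subgroup.eq_top_of_card_eq T e)
        have h2 : AT.index ≤ A.index := by
          show A.relIndex T ≤ A.index
          exact Nat.le_of_dvd (Nat.pos_of_ne_zero Subgroup.index_ne_zero_of_finite) (Subgroup.relIndex_dvd_index_of_normal A T)
        omega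
      have hnilT : Group.IsNilpotent (T ⧸ AT) := by
        haveI := hnil
        let g : (T ⧸ AT) →* G ⧸ A := QuotientGroup.map AT A T.subtype fun x hx => hx
        have hg : Function.Injective g := by
          rw [injective_iff_map_eq_one]
          intro z hz
          obtain ⟨t, rfl⟩ := QuotientGroup.mk_surjective z
          exact (QuotientGroup.eq_one_iff t).2 ((QuotientGroup.eq_one_iff (t : G)).1 hz)
        exact nilpotent_of_surjective (MonoidHom.ofInjective hg).symm.toMonoidHom (MonoidHom.ofInjective hg).symm.surjective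
      obtain ⟨H, lam, hH⟩ := ih _ hlt T AT rfl hnilT ψ hψ fun φ hφ => by
        let e : AT ≃* A := Subgroup.subgroupOfEquivOfLe hAT
        have hθ' : IsIrrCharacter AT (fun y => θ (e y)) := isIrrCharacter_mulEquiv hθ e
        have hc : classInner (fun y : AT => ψ y) (fun y => θ (e y)) ≠ 0 := by
          have h5 := classInner_comp_equiv e (fun n : A => ψ ⟨(n : G), hAT n.2⟩) θ
          rw [hmult] at h5
          rw [← h5] at hne
          exact hne
        obtain ⟨t, ht⟩ := exists_conjFn_eq hψ hθ' φ.2 hc hφ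
        rw [ht, conjFn_apply]
        have : (fun y => θ (e y)) 1 = 1 := by show θ (e 1) = 1; rw [map_one]; exact hθ1
        convert this using 2
        exact Subtype.ext (by simp)
      refine ⟨H.map T.subtype, lam.comp ((H.equivMapOfInjective T.subtype T.subtype_injective).symm.toMonoidHom), ?_⟩
      rw [← indFun_trans (H.map T.subtype) T (Subgroup.map_subtype_le H), ← hind]
      congr 1
      rw [← hH]
      refine indFun_congr (Subgroup.comap_map_eq_self_of_injective T.subtype_injective H : (H.map T.subtype).subgroupOf T = H) _ _ fun y => ?_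
      show ((lam ((H.equivMapOfInjective T.subtype T.subtype_injective).symm ⟨((y : T) : G), _⟩) : ℂˣ) : ℂ) = _
      congr 2
      rw [MulEquiv.symm_apply_eq]
      exact Subtype.ext rfl

/-- A subgroup of index equal to the nontrivial degree contains the derived subgroup. -/
theorem commutator_le_of_index [Fintype G] (H : Subgroup G) {m : ℕ} (hidx : H.index = m)
    (hcd : ∀ θ : IrrCharacter G, charDegree (θ : G → ℂ) = 1 ∨ charDegree (θ : G → ℂ) = m) :
    commutator G ≤ H := by
  set η := indFun H (fun _ : H => (1 : ℂ)) with hη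
  have hηc : IsCharacter G η := isCharacter_indFun H isIrrCharacter_one.isCharacter
  have hη1 : η 1 = (m : ℂ) := by rw [hη, indFun_one_apply, hidx, mul_one]
  obtain ⟨k, hk⟩ := exists_decomposition hηc
  let tr : IrrCharacter G := ⟨_, isIrrCharacter_one⟩
  have htr : k tr = 1 := by
    have h1 : classInner η (tr : G → ℂ) = (k tr : ℂ) := by rw [hk]; exact classInner_sum_irr _ _
    rw [hη, classInner_indFun H _ isIrrCharacter_one.isClassFunction] at h1
    have h2 : classInner (fun _ : H => (1 : ℂ)) (fun h : H => (tr : G → ℂ) h) = 1 :=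
      classInner_irr_self (isIrrCharacter_one (G := H))
    rw [h2] at h1
    exact_mod_cast h1.symm
  have hsum : m = ∑ θ, k θ * charDegree (θ : G → ℂ) := by
    have h1 := congrFun hk 1
    rw [hη1] at h1
    simp only [Finset.sum_apply, Pi.smul_apply, smul_eq_mul, deg_spec (Subtype.prop _ : IsIrrCharacter G _).isCharacter] at h1
    exact_mod_cast h1
  have hlin : ∀ θ, k θ ≠ 0 → charDegree (θ : G → ℂ) = 1 := by
    intro θ hθ
    rcases hcd θ with h | h
    · exact h
    by_cases ht : θ = tr
    · have : charDegree (tr : G → ℂ) = 1 := by simp [charDegree, tr]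
      rw [ht, this]
    exfalso
    have h2 := Finset.sum_le_sum_of_subset (f := fun θ => k θ * charDegree (θ : G → ℂ)) (Finset.subset_univ {tr, θ})
    rw [Finset.sum_pair (Ne.symm ht), ← hsum, htr, h] at h2
    have : charDegree (tr : G → ℂ) = 1 := by simp [charDegree, tr]
    rw [this] at h2
    have := Nat.le_mul_of_pos_left m (Nat.pos_of_ne_zero hθ)
    omega
  intro g hg
  have hv : η g = (m : ℂ) := by
    rw [← hη1, hk]
    simp only [Finset.sum_apply, Pi.smul_apply, smul_eq_mul]
    refine Finset.sum_congr rfl fun θ _ => ?_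
    rcases eq_or_ne (k θ) 0 with h | h
    · simp [h]
    · rw [apply_commutator_of_linear (hlin θ h) hg]
  by_contra hgH
  rw [hη, indFun] at hv
  have hlt : ‖∑ x : G, extendByZero H (fun _ : H => (1 : ℂ)) (x⁻¹ * g * x)‖ < (Nat.card G : ℝ) := by
    refine (norm_sum_le _ _).trans_lt ?_
    rw [Nat.card_eq_fintype_card, ← Finset.card_univ, ← nsmul_one, ← Finset.sum_const]
    refine Finset.sum_lt_sum (fun x _ => ?_) ⟨1, Finset.mem_univ _, ?_⟩
    · by_cases hx : x⁻¹ * g * x ∈ H
      · rw [extendByZero_mem _ hx, norm_one]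
      · rw [extendByZero_not_mem _ hx, norm_zero]; exact zero_le_one
    · rw [inv_one, one_mul, mul_one, extendByZero_not_mem _ hgH, norm_zero]; exact zero_lt_one
  have h1 := congrArg (fun z : ℂ => (Nat.card H : ℂ) * z) hv
  simp only [← mul_assoc, mul_inv_cancel₀ (Nat.cast_ne_zero.2 Nat.card_pos.ne' : (Nat.card H : ℂ) ≠ 0), one_mul] at h1
  rw [h1, ← Nat.cast_mul, ← hidx, Subgroup.card_mul_index, Complex.norm_natCast] at hlt
  exact lt_irrefl _ hlt

/-- Taketa's step: the second derived subgroup lies in the kernel. -/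
theorem taketa_step [Fintype G] {χ : G → ℂ} (hχ : IsIrrCharacter G χ) {m : ℕ} (hm : χ 1 = m)
    (hcd : ∀ θ : IrrCharacter G, charDegree (θ : G → ℂ) = 1 ∨ charDegree (θ : G → ℂ) = m)
    (H : Subgroup G) (lam : H →* ℂˣ) (hind : indFun H (fun x => (lam x : ℂ)) = χ)
    {u : G} (hu : u ∈ ⁅commutator G, commutator G⁆) : χ u = χ 1 := by
  have hidx : H.index = m := by
    have := congrFun hind 1
    rw [indFun_one_apply, hm] at this
    simpa using this
  have hG' : ∀ g ∈ commutator G, g ∈ H := fun g hg => commutator_le_of_index H hidx hcd hg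
  have hker : ⁅commutator G, commutator G⁆ ≤ (lam.ker).map H.subtype := by
    refine (Subgroup.commutator_le).2 fun a ha b hb => ⟨⁅(⟨a, hG' a ha⟩ : H), ⟨b, hG' b hb⟩⁆, ?_, ?_⟩
    · rw [SetLike.mem_coe, MonoidHom.mem_ker, map_commutatorElement, commutatorElement_eq_one_iff_mul_comm]
      exact mul_comm _ _
    · simp [commutatorElement_def]
  have hval : ∀ x : G, extendByZero H (fun x => (lam x : ℂ)) (x⁻¹ * u * x) = 1 := by
    intro x
    have hmem : x⁻¹ * u * x ∈ ⁅commutator G, commutator G⁆ := by
      haveI : (⁅commutator G, commutator G⁆).Normal := inferInstance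
      simpa using this.conj_mem u hu x⁻¹
    obtain ⟨z, hz, hzx⟩ := hker hmem
    rw [← hzx]
    show extendByZero H (fun x => (lam x : ℂ)) (z : G) = 1
    rw [extendByZero_coe]
    rw [MonoidHom.mem_ker.1 hz]
    rfl
  rw [hm, ← hind, indFun, Finset.sum_congr rfl fun x _ => hval x, Finset.sum_const, Finset.card_univ, nsmul_one,
    ← Nat.card_eq_fintype_card, ← Subgroup.card_mul_index H, hidx, Nat.cast_mul, inv_mul_cancel_left₀ (Nat.cast_ne_zero.2 Nat.card_pos.ne')]

/-- The nilpotent residual step for two degrees. -/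
theorem exists_abelian_nilpotent [Fintype G] {m : ℕ} (hm1 : m ≠ 1) (hm0 : m ≠ 0)
    (hcd : ∀ θ : IrrCharacter G, charDegree (θ : G → ℂ) = 1 ∨ charDegree (θ : G → ℂ) = m) :
    ∃ (N : Subgroup G) (_ : N.Normal), Group.IsNilpotent (G ⧸ N) ∧ (Nat.card N).Coprime m ∧ (Nat.card N).Coprime N.index ∧
      ∀ θ : IrrCharacter N, (θ : N → ℂ) 1 = 1 := by
  have hdeg : ∀ p ∈ m.primeFactors, ∀ χ : G → ℂ, IsIrrCharacter G χ → ∀ d : ℕ, χ 1 = d → d ≠ 1 → p ∣ d := by
    intro p hp χ hχ d hd hd1
    have h1 : charDegree χ = d := by simp [charDegree, hd]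
    rcases hcd ⟨χ, hχ⟩ with h | h
    · exact absurd (h1.symm.trans h) hd1
    · rw [show d = m from h1.symm.trans h]
      exact Nat.dvd_of_mem_primeFactors hp
  choose! K hKn hKc hKi using fun p (hp : p ∈ m.primeFactors) =>
    normal_complement_of_degrees (Nat.prime_of_mem_primeFactors hp) (hdeg p hp)
  set N := ⨅ p : m.primeFactors, K p with hN
  haveI hNn : N.Normal := Subgroup.normal_iInf_normal fun p => hKn p p.2
  have hcop : (Nat.card N).Coprime m := by
    refine Nat.coprime_of_dvd fun r hr h1 h2 => ?_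
    have hrm : r ∈ m.primeFactors := Nat.mem_primeFactors.2 ⟨hr, h2, hm0⟩
    exact hr.coprime_iff_not_dvd.1 (hKc r hrm).symm
      (h1.trans (Subgroup.card_dvd_of_le (iInf_le (fun p : m.primeFactors => K p) ⟨r, hrm⟩)))
  have hidx : ∀ s : Finset m.primeFactors, ∀ r : ℕ, r.Prime → r ∣ (s.inf fun p : m.primeFactors => K p).index → r ∈ m.primeFactors := by
    intro s
    induction s using Finset.induction with
    | empty => intro r hr h; rw [Finset.inf_empty, Subgroup.index_top] at h; exact absurd h hr.not_dvd_one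
    | insert a t _ ih =>
      intro r hr h
      haveI := hKn a a.2
      rw [Finset.inf_insert, ← Subgroup.relIndex_mul_index (inf_le_right : K a ⊓ t.inf (fun p : m.primeFactors => K p) ≤ _)] at h
      rcases (Nat.Prime.dvd_mul hr).1 h with h' | h'
      · rw [Subgroup.inf_relIndex_right] at h'
        obtain ⟨e, he⟩ := hKi a a.2
        have := hr.dvd_of_dvd_pow (he ▸ h'.trans (Subgroup.relIndex_dvd_index_of_normal _ _))
        rw [(Nat.prime_dvd_prime_iff_eq hr (Nat.prime_of_mem_primeFactors a.2)).1 this]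
        exact a.2
      · exact ih r hr h'
  have hcopidx : (Nat.card N).Coprime N.index := Nat.coprime_of_dvd fun r hr h1 h2 => by
    have hrm := hidx Finset.univ r hr (by rwa [Finset.inf_univ_eq_iInf])
    exact hr.not_dvd_one (Nat.Coprime.eq_one_of_dvd (hcop.coprime_dvd_left h1) (Nat.dvd_of_mem_primeFactors hrm) ▸ dvd_rfl)
  refine ⟨N, hNn, ?_, hcop, hcopidx, fun θ => ?_⟩
  · have hlcs : ∀ p : m.primeFactors, ∃ k, (⊤ : Subgroup G).lowerCentralSeries k ≤ K p := by
      intro p
      haveI := hKn p p.2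
      haveI : Fact (p : ℕ).Prime := ⟨Nat.prime_of_mem_primeFactors p.2⟩
      obtain ⟨e, he⟩ := hKi p p.2
      haveI : Group.IsNilpotent (G ⧸ K p) := (IsPGroup.of_card (p := (p : ℕ)) (by rw [← Subgroup.index_eq_card, he])).isNilpotent
      obtain ⟨k, hk⟩ := (Subgroup.nilpotent_iff_lowerCentralSeries (G := G ⧸ K p)).1 inferInstance
      refine ⟨k, ?_⟩
      have h1 := Subgroup.map_lowerCentralSeries (⊤ : Subgroup G) (QuotientGroup.mk' (K p)) k
      rw [Subgroup.map_top_of_surjective _ (QuotientGroup.mk'_surjective _), hk, Subgroup.map_eq_bot_iff, QuotientGroup.ker_mk'] at h1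
      exact h1
    choose k hk using hlcs
    rw [Subgroup.nilpotent_iff_lowerCentralSeries]
    refine ⟨Finset.univ.sup k, ?_⟩
    rw [← Subgroup.map_top_of_surjective _ (QuotientGroup.mk'_surjective N), ← Subgroup.map_lowerCentralSeries,
      Subgroup.map_eq_bot_iff, QuotientGroup.ker_mk']
    exact le_iInf fun p => ((⊤ : Subgroup G).lowerCentralSeries_antitone (Finset.le_sup (Finset.mem_univ p))).trans (hk p)
  · obtain ⟨d, hd0, hd⟩ := θ.2.exists_degree_pos
    obtain ⟨χ, hχ, hne⟩ := exists_constituent (isCharacter_indFun N θ.2.isCharacter)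
      (by rw [indFun_one_apply]; exact mul_ne_zero (Nat.cast_ne_zero.mpr Subgroup.index_ne_zero_of_finite) θ.2.one_ne_zero)
    rw [classInner_indFun N _ hχ.isClassFunction, ← conj_classInner] at hne
    have hne' : classInner (fun n : N => χ n) (θ : N → ℂ) ≠ 0 := fun e => hne (by rw [e, map_zero])
    obtain ⟨e, he⟩ := classInner_nat (isCharacter_restrict hχ.isCharacter N) θ.2.isCharacter
    have hc := congrFun (clifford hχ θ.2 hne') 1
    rw [he, Pi.smul_apply, Finset.sum_apply] at hc
    have hval : ∀ φ ∈ orbitFinset N (θ : N → ℂ), φ 1 = (d : ℂ) := by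
      intro φ hφ
      obtain ⟨g, rfl⟩ := mem_orbitFinset.mp hφ
      rw [conjFn_apply, ← hd]
      exact congrArg (θ : N → ℂ) (Subtype.ext (by simp))
    rw [Finset.sum_congr rfl hval, Finset.sum_const] at hc
    simp only [OneMemClass.coe_one, nsmul_eq_mul, smul_eq_mul] at hc
    obtain ⟨D, hD⟩ := exists_degree hχ.isCharacter
    rw [hD] at hc
    have hDd : d ∣ D := ⟨e * (orbitFinset N (θ : N → ℂ)).card, by
      have : D = e * ((orbitFinset N (θ : N → ℂ)).card * d) := by exact_mod_cast hc
      rw [this]; ring⟩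
    have hdm : d ∣ m := by
      have h1 : charDegree χ = D := by simp [charDegree, hD]
      rcases hcd ⟨χ, hχ⟩ with h | h
      · rw [show D = 1 from h1.symm.trans h] at hDd
        exact hDd.trans (one_dvd m)
      · rwa [show D = m from h1.symm.trans h] at hDd
    have hdN : d ∣ Nat.card N := by
      have := Cfsg.Lib.Blocks.charDegree_dvd_card θ
      rwa [show charDegree (θ : N → ℂ) = d by simp [charDegree, hd]] at this
    rw [hd, Nat.eq_one_of_dvd_coprimes hcop hdN hdm, Nat.cast_one]

/-- With two degrees the second derived subgroup is trivial. -/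
theorem derived_two_bot [Fintype G] {m : ℕ} (hm1 : m ≠ 1) (hm0 : m ≠ 0)
    (hcd : ∀ θ : IrrCharacter G, charDegree (θ : G → ℂ) = 1 ∨ charDegree (θ : G → ℂ) = m) :
    ⁅commutator G, commutator G⁆ = ⊥ := by
  obtain ⟨N, hNn, hnil, -, -, hlin⟩ := exists_abelian_nilpotent hm1 hm0 hcd
  rw [eq_bot_iff]
  intro u hu
  rw [Subgroup.mem_bot]
  by_contra hu1
  obtain ⟨χ, hχu⟩ := exists_irr_ne hu1
  apply hχu
  rcases hcd χ with h1 | hmm
  · exact apply_commutator_of_linear h1 (Subgroup.commutator_mono le_top le_top hu)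
  · obtain ⟨H, lam, hind⟩ := monomial_aux _ G N rfl hnil χ χ.2 fun θ _ => hlin θ
    exact taketa_step χ.2 (by rw [deg_spec χ.2.isCharacter, hmm]) hcd H lam hind hu

end Cfsg.Lib.Blocks.MonomialTaketa
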