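import Cfsg.Agent.Lib.Blocks.Covering
import Cfsg.Agent.Lib.Blocks.BlockFusion

/-!
# Nilpotency along a stable block of a normal subgroup of `p`-power index
-/

namespace Cfsg.Lib.Blocks

open Cfsg.Lib.Characters Finset
open scoped ComplexConjugate Classical

set_option linter.unusedSectionVars false
set_option linter.style.haveILetI false
set_option linter.style.longLine false
set_option maxHeartbeats 1000000

universe u

section Abstract

variable {C : Type u} [Group C] [Fintype C] {K : Subgroup C} [K.Normal] [Fintype K]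
variable {M : Ideal Cfsg.AlgInt} [M.IsPrime] {p : ℕ} [hp : Fact p.Prime]

theorem classInner_pull_res (α : C ≃* C) (β : K ≃* K) (hβ : ∀ k : K, ((β k : K) : C) = α k)
    (ψ : IrrCharacter C) (θ : IrrCharacter K) :
    classInner (fun k : K => (irrPull α ψ : C → ℂ) k) (irrPull β θ : K → ℂ)
      = classInner (fun k : K => (ψ : C → ℂ) k) (θ : K → ℂ) := by
  unfold Cfsg.classInner
  congr 1
  refine Fintype.sum_equiv β.toEquiv _ _ fun k => ?_
  simp [hβ]

/-- A block over a stable block is stable. -/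
theorem sameBlock_of_stable_under (hM : IsPModular p M) (hK : ∃ k : ℕ, K.index = p ^ k)
    (α : C ≃* C) (β : K ≃* K) (hβ : ∀ k : K, ((β k : K) : C) = α k) {ψ : IrrCharacter C}
    {θ : IrrCharacter K} (hθ : classInner (fun k : K => (ψ : C → ℂ) k) (θ : K → ℂ) ≠ 0)
    (hst : irrPull β θ ∈ blockOf M (θ : K → ℂ)) :
    SameBlock M (ψ : C → ℂ) (irrPull α ψ : C → ℂ) :=
  sameBlock_of_pPow_index hM hK (b := blockOf M (θ : K → ℂ)) ⟨θ, rfl⟩ (mem_blockOf_self M θ) hst hθ
    (by rwa [classInner_pull_res α β hβ])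

/-- An automorphism of `q`-power order fixing a block fixes a covered block. -/
theorem exists_fixed_covered (hM : IsPModular p M) (hK : ∃ k : ℕ, K.index = p ^ k)
    (α : C ≃* C) (β : K ≃* K) (hβ : ∀ k : K, ((β k : K) : C) = α k) {ψ : IrrCharacter C}
    (hψ : irrPull α ψ ∈ blockOf M (ψ : C → ℂ)) {q n : ℕ} [Fact q.Prime] (hqp : q ≠ p)
    (hord : ∀ k : K, (⇑β)^[q ^ n] k = k) :
    ∃ (ψ' : IrrCharacter C) (θ : IrrCharacter K), ψ' ∈ blockOf M (ψ : C → ℂ) ∧
      classInner (fun k : K => (ψ' : C → ℂ) k) (θ : K → ℂ) ≠ 0 ∧ irrPull β θ ∈ blockOf M (θ : K → ℂ) := by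
  set e := blockOf M (ψ : C → ℂ)
  have he : IsPBlock M e := ⟨ψ, rfl⟩
  let Bl := {b : Set (IrrCharacter K) // IsPBlock M b}
  letI : MulAction C Bl :=
    { smul := fun g b => ⟨pullBlock (MulAut.conjNormal g : K ≃* K).symm b.1, isPBlock_pull _ b.2⟩
      one_smul := fun b => Subtype.ext (Set.ext fun θ => by
        show cjIrr θ 1 ∈ b.1 ↔ θ ∈ b.1
        rw [cjIrr_one])
      mul_smul := fun g h b => Subtype.ext (Set.ext fun θ => by
        show cjIrr θ (g * h) ∈ b.1 ↔ cjIrr (cjIrr θ g) h ∈ b.1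
        rw [cjIrr_cjIrr]) }
  have hsmul : ∀ (g : C) (b : Bl) (θ : IrrCharacter K), θ ∈ (g • b).1 ↔ cjIrr θ g ∈ b.1 :=
    fun g b θ => Iff.rfl
  -- the covered blocks
  let P : Bl → Prop := fun b => ∃ ψ' ∈ e, ∃ θ ∈ b.1, classInner (fun k : K => (ψ' : C → ℂ) k) (θ : K → ℂ) ≠ 0
  obtain ⟨θ0, hθ0⟩ := exists_res_constituent (N := K) ψ
  let b0 : Bl := ⟨blockOf M (θ0 : K → ℂ), θ0, rfl⟩
  have horb : ∀ b : Bl, P b ↔ b ∈ MulAction.orbit C b0 := by
    intro b
    constructor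
    · rintro ⟨ψ', hψ', θ, hθ, hc⟩
      obtain ⟨g, hg⟩ := covered_mem_cjUnion (b := b0.1) b0.2 (hψ' : SameBlock M (ψ : C → ℂ) (ψ' : C → ℂ))
        (mem_blockOf_self M θ0) hθ0 hc
      refine ⟨g, Subtype.ext (IsPBlock.eq_of_mem (g • b0).2 b.2 ((hsmul g b0 θ).mpr hg) hθ)⟩
    · rintro ⟨g, rfl⟩
      refine ⟨ψ, mem_blockOf_self M ψ, cjIrr θ0 g⁻¹, ?_, by rwa [classInner_res_cjIrr]⟩
      show cjIrr θ0 g⁻¹ ∈ (g • b0).1
      rw [hsmul, cjIrr_cjIrr, inv_mul_cancel, cjIrr_one]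
      exact mem_blockOf_self M θ0
  -- their number is a power of `p`
  have hKst : K ≤ MulAction.stabilizer C b0 := fun g hg => by
    refine Subtype.ext (IsPBlock.eq_of_mem (g • b0).2 b0.2 ?_ (mem_blockOf_self M θ0))
    rw [hsmul]
    have : cjIrr θ0 g = θ0 :=
      Subtype.ext (by rw [coe_cjIrr]; exact conjFn_mem θ0.2.isClassFunction ⟨g, hg⟩)
    rw [this]
    exact mem_blockOf_self M θ0
  haveI : Finite Bl := Subtype.finite
  haveI : Fintype {b : Bl // P b} := Fintype.ofFinite _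
  have hqd : ¬ q ∣ Fintype.card {b : Bl // P b} := by
    rw [← Nat.card_eq_fintype_card, Nat.card_congr (Equiv.subtypeEquivRight horb)]
    intro hd
    obtain ⟨k, hk⟩ := hK
    have h1 : Nat.card (MulAction.orbit C b0) = (MulAction.stabilizer C b0).index := by
      rw [MulAction.index_stabilizer, Nat.card_coe_set_eq]
    have h2 : q ∣ p ^ k := by
      rw [← hk]
      exact (hd.trans (dvd_of_eq h1)).trans (Subgroup.index_dvd_of_le hKst)
    exact hqp ((Nat.prime_dvd_prime_iff_eq Fact.out hp.out).mp ((Fact.out : q.Prime).dvd_of_dvd_pow h2))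
  -- the permutation
  have hαe : ∀ ψ' ∈ e, irrPull α ψ' ∈ e := fun ψ' h => by
    have h1 : SameBlock M (irrPull α ψ : C → ℂ) (irrPull α ψ' : C → ℂ) :=
      (sameBlock_pull (M := M) α _ _).mpr h
    exact sameBlock_trans M hψ h1
  let f : {b : Bl // P b} → {b : Bl // P b} := fun b => ⟨⟨pullBlock β b.1.1, isPBlock_pull β b.1.2⟩, by
    obtain ⟨ψ', hψ', θ, hθ, hc⟩ := b.2
    exact ⟨irrPull α ψ', hαe ψ' hψ', irrPull β θ, (mem_pullBlock β b.1.1 θ).mpr hθ,
      by rwa [classInner_pull_res α β hβ]⟩⟩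
  have hfinj : Function.Injective f := fun b b' h => by
    have h' : pullBlock β b.1.1 = pullBlock β b'.1.1 := congrArg (fun z : {b : Bl // P b} => z.1.1) h
    refine Subtype.ext (Subtype.ext (Set.ext fun θ => ?_))
    rw [← mem_pullBlock β b.1.1, h', mem_pullBlock]
  let σ : Equiv.Perm {b : Bl // P b} := Equiv.ofBijective f (Finite.injective_iff_bijective.mp hfinj)
  have hit : ∀ (m : ℕ) (b : {b : Bl // P b}) (θ θ' : IrrCharacter K),
      (∀ k : K, (θ' : K → ℂ) k = (θ : K → ℂ) ((⇑β)^[m] k)) → θ ∈ b.1.1 → θ' ∈ ((σ ^ m) b).1.1 := by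
    intro m
    induction m with
    | zero =>
      intro b θ θ' h hθ
      rwa [show θ' = θ from Subtype.ext (funext fun k => by simpa using h k)]
    | succ m ih =>
      intro b θ θ' h hθ
      rw [pow_succ', Equiv.Perm.mul_apply]
      have h1 := ih b θ (irrPull β.symm θ') (fun k => by
        rw [irrPull_apply, h, Function.iterate_succ_apply, β.apply_symm_apply]) hθ
      show θ' ∈ pullBlock β _
      exact h1
  have hpow : σ ^ q ^ n = 1 := by
    refine Equiv.ext fun b => ?_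
    obtain ⟨-, -, θ, hθ, -⟩ := b.2
    refine Subtype.ext (Subtype.ext ?_)
    exact IsPBlock.eq_of_mem ((σ ^ q ^ n) b).1.2 b.1.2 (hit _ b θ θ (fun k => by rw [hord k]) hθ) hθ
  obtain ⟨b, hb⟩ := Equiv.Perm.exists_fixed_point_of_prime (p := q) (n := n) hqd hpow
  obtain ⟨ψ', hψ', θ, hθ, hc⟩ := b.2
  refine ⟨ψ', θ, hψ', hc, ?_⟩
  rw [← IsPBlock.eq_blockOf b.1.2 hθ]
  have : irrPull β θ ∈ (σ b).1.1 := (mem_pullBlock β b.1.1 θ).mpr hθ
  rwa [hb] at this

end Abstract

section Main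

variable {G : Type u} [Group G] [Fintype G] {M : Ideal Cfsg.AlgInt} [M.IsPrime]
variable {p : ℕ} [hp : Fact p.Prime] {N : Subgroup G} [hN : N.Normal] [Fintype N]

local notation "𝐂m" Q:max => Subgroup.centralizer ((Subgroup.map (Subgroup.subtype _) Q : Subgroup G) : Set G)

theorem mem_centralizer_map (Q : Subgroup N) (n : N) :
    n ∈ Subgroup.centralizer (Q : Set N) ↔ (n : G) ∈ 𝐂m Q := by
  rw [Subgroup.mem_centralizer_iff, Subgroup.mem_centralizer_iff]
  constructor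
  · rintro h - ⟨q, hq, rfl⟩
    exact congrArg Subtype.val (h q hq)
  · exact fun h q hq => Subtype.ext (h _ ⟨q, hq, rfl⟩)

/-- The two readings of `C_N(Q)`. -/
def kC (Q : Subgroup N) : ↥(Subgroup.centralizer (Q : Set N)) ≃* ↥(N.subgroupOf (𝐂m Q)) where
  toFun x := ⟨⟨((x : N) : G), (mem_centralizer_map Q _).mp x.2⟩, (x : N).2⟩
  invFun y := ⟨⟨((y : ↥(𝐂m Q)) : G), y.2⟩, (mem_centralizer_map Q _).mpr (y : ↥(𝐂m Q)).2⟩
  left_inv _ := rfl
  right_inv _ := rfl
  map_mul' _ _ := rfl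

theorem index_subgroupOf_pPow {k : ℕ} (hk : N.index = p ^ k) (H : Subgroup G) :
    ∃ j : ℕ, (N.subgroupOf H).index = p ^ j := by
  have hd : (N.subgroupOf H).index ∣ p ^ k := hk ▸ Subgroup.relIndex_dvd_index_of_normal N H
  obtain ⟨j, -, hj⟩ := (Nat.dvd_prime_pow hp.out).mp hd
  exact ⟨j, hj⟩

/-- Pairs of `B` and of `c` correspond along covering. -/
theorem pairOf_iff (hM : IsPModular p M) {c : Set (IrrCharacter N)} (hc : IsPBlock M c)
    {B : Set (IrrCharacter G)} (hB : IsPBlock M B) (hBc : ∀ g : G, blockCoeff B g = subgroupBlockCoeff N c g)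
    (Q : Subgroup N) (hQ : IsPGroup p Q) (ψ : IrrCharacter ↥(𝐂m Q)) (θ : IrrCharacter ↥(N.subgroupOf (𝐂m Q)))
    (hθ : classInner (fun x : ↥(N.subgroupOf (𝐂m Q)) => (ψ : ↥(𝐂m Q) → ℂ) x)
      (θ : ↥(N.subgroupOf (𝐂m Q)) → ℂ) ≠ 0) :
    IsBrauerPairOf p M B (Q.map N.subtype) (blockOf M (ψ : ↥(𝐂m Q) → ℂ)) ↔
      IsBrauerPairOf p M c Q (blockOf M (irrPull (kC Q) θ : _ → ℂ)) := by
  have hQm : IsPGroup p (Q.map N.subtype) := hQ.map _
  rw [isBrauerPairOf_iff hM, isBrauerPairOf_iff hM, and_iff_right hQm, and_iff_right hQ,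
    (exists_induced_of_mul ⟨ψ, rfl⟩ (mem_blockOf_self M ψ) (lam_resSub_centralizer_mul hM hQm ψ)).2 B hB,
    (exists_induced_of_mul ⟨_, rfl⟩ (mem_blockOf_self M _) (lam_resSub_centralizer_mul hM hQ (irrPull (kC Q) θ))).2 c hc]
  set z := resSub (𝐂m Q) (blockE B) with hz
  have hzm : z ∈ locCenter ↥(𝐂m Q) M := ⟨(isClassElt_blockE B).resSub _, fun x => by
    rw [hz, coeff_resSub, coeff_blockE]; exact blockCoeff_mem_locRing hB _⟩
  have hsupp : ∀ x : ↥(𝐂m Q), x ∉ N.subgroupOf (𝐂m Q) → z.coeff x = 0 := fun x hx => by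
    rw [hz, coeff_resSub, coeff_blockE, hBc, subgroupBlockCoeff]; exact dif_neg hx
  set z' := resSub (Subgroup.centralizer (Q : Set N)) (blockE c) with hz'
  have hzm' : z' ∈ locCenter ↥(Subgroup.centralizer (Q : Set N)) M := ⟨(isClassElt_blockE c).resSub _, fun x => by
    rw [hz', coeff_resSub, coeff_blockE]; exact blockCoeff_mem_locRing hc _⟩
  have h1 : redG M z = resSub (𝐂m Q) (bIdem M B) := gr_ext fun x => by
    rw [coeff_redG, hz, coeff_resSub, coeff_resSub, coeff_blockE, coeff_bIdem]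
  have h2 : redG M z' = resSub (Subgroup.centralizer (Q : Set N)) (bIdem M c) := gr_ext fun x => by
    rw [coeff_redG, hz', coeff_resSub, coeff_resSub, coeff_blockE, coeff_bIdem]
  have h3 : pullElt (kC Q) (resSub (N.subgroupOf (𝐂m Q)) z) = z' := gr_ext fun x => by
    rw [coeff_pullElt, coeff_resSub, hz, coeff_resSub, coeff_blockE, hz', coeff_resSub, coeff_blockE, hBc,
      subgroupBlockCoeff, dif_pos (show (((kC Q x : ↥(N.subgroupOf (𝐂m Q))) : ↥(𝐂m Q)) : G) ∈ N from (x : N).2)]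
    rfl
  have h4 : omega ψ z = omega (irrPull (kC Q) θ) z' := by
    rw [omega_eq_omega_res ψ θ hθ hzm.1 hsupp, ← h3, omega_pull]
  rw [← h1, ← h2, lam_redG M ψ hzm, lam_redG M _ hzm', h4]

theorem mem_normalizer_map (Q : Subgroup N) {x : N}
    (hx : x ∈ Subgroup.normalizer (Q : Set N)) :
    (x : G) ∈ Subgroup.normalizer ((Q.map N.subtype : Subgroup G) : Set G) := by
  rw [Subgroup.mem_normalizer_iff] at hx ⊢
  intro z
  constructor
  · rintro ⟨q, hq, rfl⟩
    exact ⟨x * q * x⁻¹, (hx q).mp hq, rfl⟩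
  · rintro ⟨q, hq, hqz⟩
    refine ⟨x⁻¹ * q * x, ?_, ?_⟩
    · exact (hx _).mpr (by simpa [mul_assoc] using hq)
    · simp only [map_mul, map_inv, hqz, Subgroup.coe_subtype]
      group

/-- Conjugation by an element normalizing `Q`, on `C_N(Q)` inside `C_G(Q)`. -/
def conjK (H : Subgroup G) {x : G} (hx : x ∈ Subgroup.normalizer (H : Set G)) :
    ↥(N.subgroupOf H) ≃* ↥(N.subgroupOf H) where
  toFun k := ⟨normConj H hx k, show x * ((k : H) : G) * x⁻¹ ∈ N from hN.conj_mem _ k.2 x⟩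
  invFun k := ⟨(normConj H hx).symm k, show x⁻¹ * ((k : H) : G) * x ∈ N by simpa using hN.conj_mem _ k.2 x⁻¹⟩
  left_inv k := Subtype.ext ((normConj H hx).symm_apply_apply k)
  right_inv k := Subtype.ext ((normConj H hx).apply_symm_apply k)
  map_mul' a b := Subtype.ext (map_mul (normConj H hx) (a : H) b)

theorem stabilizes_iff_mem {A : Type*} [Group A] [Fintype A] {H : Subgroup A} {x : A}
    (hx : x ∈ Subgroup.normalizer (H : Set A)) {θ : IrrCharacter H} :
    StabilizesBlock H (blockOf M (θ : H → ℂ)) x ↔ irrPull (normConj H hx) θ ∈ blockOf M (θ : H → ℂ) := by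
  rw [stabilizesBlock_iff]
  constructor
  · rintro ⟨hx', h⟩
    exact h ▸ (mem_pullBlock (normConj H hx') _ θ).mpr (mem_blockOf_self M θ)
  · intro h
    exact ⟨hx, IsPBlock.eq_of_mem (isPBlock_pull _ ⟨θ, rfl⟩) ⟨θ, rfl⟩
      ((mem_pullBlock (normConj H hx) _ θ).mpr (mem_blockOf_self M θ)) h⟩

/-- If `B` is nilpotent, so is `c`. -/
theorem nilpotent_down (hM : IsPModular p M) {k : ℕ} (hk : N.index = p ^ k) {c : Set (IrrCharacter N)}
    (hc : IsPBlock M c) {B : Set (IrrCharacter G)} (hB : IsPBlock M B)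
    (hBc : ∀ g : G, blockCoeff B g = subgroupBlockCoeff N c g) (hnil : IsNilpotentBlock p M B) :
    IsNilpotentBlock p M c := by
  refine ⟨hc, fun Q f hf x hxQ hst hreg => ?_⟩
  obtain ⟨η, hη⟩ := IsPBlock.nonempty hf.1.2
  obtain rfl : f = blockOf M (η : _ → ℂ) := IsPBlock.eq_blockOf hf.1.2 hη
  set θ : IrrCharacter ↥(N.subgroupOf (𝐂m Q)) := irrPull (kC Q).symm η
  have hθη : irrPull (kC Q) θ = η := irrPull_symm _ η
  obtain ⟨ψ, hψ⟩ := exists_irr_over (G := ↥(𝐂m Q)) θ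
  have hpair : IsBrauerPairOf p M B (Q.map N.subtype) (blockOf M (ψ : ↥(𝐂m Q) → ℂ)) :=
    (pairOf_iff hM hc hB hBc Q hf.1.1 ψ θ hψ).mpr (by rw [hθη]; exact hf)
  have hxQm := mem_normalizer_map Q hxQ
  have hxC := normalizer_le_normalizer_centralizer' _ hxQm
  have hxCN := normalizer_le_normalizer_centralizer' _ hxQ
  rw [stabilizes_iff_mem hxCN] at hst
  have hstK : irrPull (conjK (N := N) (𝐂m Q) hxC) θ ∈ blockOf M (θ : _ → ℂ) := by
    have h1 : irrPull (conjK (N := N) (𝐂m Q) hxC) θ = irrPull (kC Q).symm (irrPull (normConj _ hxCN) η) := by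
      refine Subtype.ext (funext fun y => ?_)
      simp only [θ, irrPull_apply]
      exact congrArg (η : ↥(Subgroup.centralizer (Q : Set N)) → ℂ) (Subtype.ext (Subtype.ext rfl))
    rw [h1, show blockOf M (θ : _ → ℂ) = pullBlock (kC Q).symm (blockOf M (η : _ → ℂ)) from
      (pullBlock_blockOf _ η).symm, mem_pullBlock]
    exact hst
  have hsame := sameBlock_of_stable_under hM (index_subgroupOf_pPow hk _) (normConj _ hxC)
    (conjK (N := N) (𝐂m Q) hxC) (fun _ => rfl) hψ hstK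
  have hreg' : IsPRegular p (x : G) := by
    unfold IsPRegular at hreg ⊢
    rwa [Subgroup.orderOf_coe]
  exact (mem_centralizer_map Q x).mpr
    (hnil.2 _ _ hpair (x : G) hxQm ((stabilizes_iff_mem hxC).mpr hsame) hreg')

/-- If `c` is nilpotent, a stabilizing element of prime power order prime to `p` centralizes. -/
theorem nilpotent_up_prime (hM : IsPModular p M) {k : ℕ} (hk : N.index = p ^ k) {c : Set (IrrCharacter N)}
    (hc : IsPBlock M c) {B : Set (IrrCharacter G)} (hB : IsPBlock M B)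
    (hBc : ∀ g : G, blockCoeff B g = subgroupBlockCoeff N c g) (hnil : IsNilpotentBlock p M c)
    {Q : Subgroup G} {e : Set (IrrCharacter (Subgroup.centralizer (Q : Set G)))}
    (he : IsBrauerPairOf p M B Q e) {x : G} (hx : x ∈ pairStab M ⊤ Q e)
    {q n : ℕ} [Fact q.Prime] (hqp : q ≠ p) (hord : orderOf x = q ^ n) :
    x ∈ Subgroup.centralizer (Q : Set G) := by
  have hreg : ¬ p ∣ orderOf x := fun h => hqp
    ((Nat.prime_dvd_prime_iff_eq hp.out Fact.out).mp (hp.out.dvd_of_dvd_pow (hord ▸ h))).symm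
  have hxN : x ∈ N := regular_mem_of_index_pPow hk hreg
  set Q0 := Q.subgroupOf N
  have hQ0m : Q0.map N.subtype ≤ Q := Subgroup.map_le_iff_le_comap.mpr le_rfl
  have hQ0p : IsPGroup p Q0 := he.1.1.comap_of_injective N.subtype N.subtype_injective
  obtain ⟨f0, hf0, hle⟩ := exists_subpair hM he.1 hQ0m
  have hf0B : IsBrauerPairOf p M B (Q0.map N.subtype) f0 := (isBrauerPairOf_of_subpairLE hM he.1 hle).mpr he
  have hxQ0 : (⟨x, hxN⟩ : N) ∈ Subgroup.normalizer (Q0 : Set N) := by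
    rw [Subgroup.mem_normalizer_iff]
    intro z
    exact (Subgroup.mem_normalizer_iff.mp hx.2.1 (z : G))
  have hxQm := mem_normalizer_map Q0 hxQ0
  have hconj : subE M (Q0.map N.subtype) f0 = cjE x (subE M (Q0.map N.subtype) f0) := by
    have h1 := subpairLE_congr_right (conjBlock_eq_self he.1.2 hx) (subpairLE_conj hM hle x)
    have hmap : (Q0.map N.subtype).map (MulAut.conj x).toMonoidHom = Q0.map N.subtype := by
      ext a
      rw [mem_map_conj]
      have := Subgroup.mem_normalizer_iff.mp hxQm (x⁻¹ * a * x)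
      simpa [mul_assoc] using this
    have h2 := subE_eq_of_idx (M := M) (pairIdx_unique hM he.1 hmap.symm hle h1)
    rwa [subE_conjBlock hf0.2] at h2
  have hxC := normalizer_le_normalizer_centralizer' _ hxQm
  obtain ⟨ψ, hψ⟩ := IsPBlock.nonempty hf0.2
  have hψst : irrPull (normConj _ hxC) ψ ∈ blockOf M (ψ : _ → ℂ) := by
    rw [← stabilizes_iff_mem hxC, ← IsPBlock.eq_blockOf hf0.2 hψ, stabilizesBlock_iff_cjE hf0.2 hxQm]
    exact hconj.symm
  have hit : ∀ (m : ℕ) (y : ↥(N.subgroupOf (𝐂m Q0))),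
      ((((⇑(conjK (N := N) _ hxC))^[m] y : ↥(N.subgroupOf (𝐂m Q0))) : ↥(𝐂m Q0)) : G)
        = x ^ m * ((y : ↥(𝐂m Q0)) : G) * (x ^ m)⁻¹ := by
    intro m
    induction m with
    | zero => intro y; simp; rfl
    | succ m ih =>
      intro y
      rw [Function.iterate_succ_apply', pow_succ']
      show x * _ * x⁻¹ = _
      rw [ih]
      group
  obtain ⟨ψ', θ, hψ', hc', hθst⟩ := exists_fixed_covered hM (index_subgroupOf_pPow hk _)
    (normConj _ hxC) (conjK (N := N) _ hxC) (fun _ => rfl) hψst (q := q) (n := n) hqp fun y =>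
      Subtype.ext (Subtype.ext (by rw [hit, ← hord, pow_orderOf_eq_one]; simp))
  have hψ'0 : blockOf M (ψ' : _ → ℂ) = f0 := by
    rw [IsPBlock.eq_blockOf hf0.2 hψ]
    exact (blockOf_eq_of_sameBlock M hψ').symm
  have hpair := (pairOf_iff hM hc hB hBc Q0 hQ0p ψ' θ hc').mp (hψ'0.symm ▸ hf0B)
  have hxCN := normalizer_le_normalizer_centralizer' _ hxQ0
  have hst : StabilizesBlock (Subgroup.centralizer (Q0 : Set N))
      (blockOf M (irrPull (kC Q0) θ : _ → ℂ)) (⟨x, hxN⟩ : N) := by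
    rw [stabilizes_iff_mem hxCN]
    have h1 : irrPull (normConj _ hxCN) (irrPull (kC Q0) θ) = irrPull (kC Q0) (irrPull (conjK (N := N) _ hxC) θ) := by
      refine Subtype.ext (funext fun y => ?_)
      simp only [irrPull_apply]
      exact congrArg (θ : ↥(N.subgroupOf (𝐂m Q0)) → ℂ) (Subtype.ext (Subtype.ext rfl))
    rw [h1, ← pullBlock_blockOf, mem_pullBlock]
    exact hθst
  have hxc := (mem_centralizer_map Q0 _).mp (hnil.2 Q0 _ hpair _ hxQ0 hst (by
    unfold IsPRegular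
    rwa [Subgroup.orderOf_mk]))
  rw [Subgroup.mem_centralizer_iff]
  intro y hy
  -- `x y x⁻¹ = z y` with `z ∈ Q ∩ N`
  set z := x * y * x⁻¹ * y⁻¹ with hz
  have hzQ : z ∈ Q := mul_mem ((Subgroup.mem_normalizer_iff.mp hx.2.1 y).mp hy) (inv_mem hy)
  have hzN : z ∈ N := by
    rw [hz, show x * y * x⁻¹ * y⁻¹ = x * (y * x⁻¹ * y⁻¹) by group]
    exact mul_mem hxN (hN.conj_mem _ (inv_mem hxN) y)
  have hzc : Commute z x :=
    Subgroup.mem_centralizer_iff.mp hxc z ⟨⟨z, hzN⟩, hzQ, rfl⟩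
  have hiter : ∀ m : ℕ, x ^ m * y * (x ^ m)⁻¹ = z ^ m * y := by
    intro m
    induction m with
    | zero => simp
    | succ m ih =>
      calc x ^ (m + 1) * y * (x ^ (m + 1))⁻¹ = x * (x ^ m * y * (x ^ m)⁻¹) * x⁻¹ := by rw [pow_succ']; group
        _ = x * (z ^ m * y) * x⁻¹ := by rw [ih]
        _ = z ^ m * (x * y * x⁻¹) := by
            rw [← mul_assoc x, ← (hzc.pow_left m).eq]; group
        _ = z ^ (m + 1) * y := by rw [pow_succ, hz]; group
  have h1 := hiter (orderOf x)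
  rw [pow_orderOf_eq_one, one_mul, inv_one, mul_one] at h1
  have h2 : z ^ orderOf x = 1 := mul_eq_right.mp h1.symm
  have hz1 : z = 1 := by
    obtain ⟨j, hj⟩ := he.1.1.exists_orderOf_eq_pow ⟨z, hzQ⟩ |>.imp fun j h => h
    rw [Subgroup.orderOf_mk] at hj
    have h3 := orderOf_dvd_of_pow_eq_one h2
    rw [hj] at h3
    cases j with
    | zero => rwa [pow_zero, orderOf_eq_one_iff] at hj
    | succ j => exact absurd ((dvd_pow_self p (Nat.succ_ne_zero j)).trans h3) hreg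
  rw [hz, mul_inv_eq_one] at hz1
  conv_lhs => rw [← hz1]
  group

/-- If `c` is nilpotent, so is `B`. -/
theorem nilpotent_up (hM : IsPModular p M) {k : ℕ} (hk : N.index = p ^ k) {c : Set (IrrCharacter N)}
    (hc : IsPBlock M c) {B : Set (IrrCharacter G)} (hB : IsPBlock M B)
    (hBc : ∀ g : G, blockCoeff B g = subgroupBlockCoeff N c g) (hnil : IsNilpotentBlock p M c) :
    IsNilpotentBlock p M B := by
  refine ⟨hB, fun Q e he x hxQ hst hreg => ?_⟩
  have hxS : x ∈ pairStab M ⊤ Q e := ⟨Subgroup.mem_top _, hxQ, (stabilizesBlock_iff_cjE he.1.2 hxQ).mp hst⟩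
  clear hst hxQ
  change ¬ p ∣ orderOf x at hreg
  induction hn : orderOf x using Nat.strong_induction_on generalizing x with
  | _ d ih =>
    by_cases hd1 : d = 1
    · rw [hd1, orderOf_eq_one_iff] at hn
      rw [hn]; exact one_mem _
    obtain ⟨q, hq, hqd⟩ := Nat.exists_prime_and_dvd hd1
    haveI := Fact.mk hq
    have hd0 : d ≠ 0 := fun h => (orderOf_pos x).ne' (hn.trans h)
    obtain ⟨a, b, hb, hab⟩ := Nat.exists_eq_pow_mul_and_not_dvd hd0 q hq.ne_one
    have ha : a ≠ 0 := fun h => hb (by rwa [hab, h, pow_zero, one_mul] at hqd)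
    have hqp : q ≠ p := fun h => hreg (by rw [hn, ← h]; exact hqd)
    by_cases hb1 : b = 1
    · exact nilpotent_up_prime hM hk hc hB hBc hnil he hxS (q := q) (n := a) hqp (by rw [hn, hab, hb1, mul_one])
    have hcop : Nat.Coprime (q ^ a) b := Nat.Coprime.pow_left _ ((hq.coprime_iff_not_dvd).mpr hb)
    have hb0 : b ≠ 0 := fun h => hd0 (by rw [hab, h, mul_zero])
    have key : ∀ s t : ℕ, d = s * t → 1 < t → x ^ t ∈ Subgroup.centralizer (Q : Set G) := by
      intro s t hst ht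
      have hs : s ≠ 0 := fun h => hd0 (by rw [hst, h, zero_mul])
      have ho : orderOf (x ^ t) = s := by
        rw [orderOf_pow' x (by omega), hn, hst, Nat.gcd_eq_right (Dvd.intro_left s rfl),
          Nat.mul_div_cancel _ (by omega)]
      refine ih s ?_ (x ^ t) (pow_mem hxS t) (fun h => hreg ?_) ho
      · rw [hst]; exact lt_mul_of_one_lt_right (Nat.pos_of_ne_zero hs) ht
      · rw [hn, hst]; exact (ho ▸ h).mul_right t
    have h1 := key (q ^ a) b hab (by omega)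
    have h2 := key b (q ^ a) (by rw [hab, mul_comm]) (Nat.one_lt_pow ha hq.one_lt)
    obtain ⟨u, v, huv⟩ : ∃ u v : ℤ, (q ^ a : ℕ) * u + (b : ℕ) * v = 1 :=
      ⟨_, _, by rw [← Nat.gcd_eq_gcd_ab, hcop.gcd_eq_one]; norm_num⟩
    have hx' : x = (x ^ (q ^ a)) ^ u * (x ^ b) ^ v := by
      rw [← zpow_natCast, ← zpow_natCast, ← zpow_mul, ← zpow_mul, ← zpow_add, huv, zpow_one]
    rw [hx']
    exact mul_mem (zpow_mem h2 u) (zpow_mem h1 v)

end Main

end Cfsg.Lib.Blocks
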