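import Mathlib
import Cfsg.Agent.Lib.Blocks.Garrison

/-!
# The nilpotent length is at most the number of character degrees
-/

set_option autoImplicit false

namespace Cfsg.Lib.Blocks.Garrison

open Cfsg.Lib.Characters

universe u

/-- the set of degrees -/
noncomputable def degSet (G : Type u) [Group G] [Fintype G] : Set ℕ :=
  Set.range fun χ : IrrCharacter G => charDegree (χ : G → ℂ)

variable {G : Type u} [Group G]

/-- The factor `B/A` is nilpotent. -/
def NilFactor (A B : Subgroup G) : Prop :=
  ∀ _h : (A.subgroupOf B).Normal, Group.IsNilpotent (B ⧸ A.subgroupOf B)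

theorem nilFactor_self (A : Subgroup G) : NilFactor A A := by
  intro _
  haveI : Subsingleton (A ⧸ A.subgroupOf A) := by
    rw [Subgroup.subgroupOf_self]
    exact QuotientGroup.subsingleton_quotient_top
  infer_instance

theorem nilFactor_comap {H : Type u} [Group H] (f : G →* H) (A B : Subgroup H) [A.Normal]
    (h : NilFactor A B) : NilFactor (A.comap f) (B.comap f) := by
  intro _
  haveI : (A.subgroupOf B).Normal := Subgroup.normal_subgroupOf
  haveI : Group.IsNilpotent (B ⧸ A.subgroupOf B) := h inferInstance
  let g : (B.comap f) →* B := (f.comp (B.comap f).subtype).codRestrict B fun x => x.2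
  have hg : (A.comap f).subgroupOf (B.comap f) = (A.subgroupOf B).comap g := rfl
  refine isNilpotent_of_ker_le_center (QuotientGroup.map _ (A.subgroupOf B) g hg.le) ?_
  rw [QuotientGroup.ker_map, ← hg, QuotientGroup.map_mk'_self]
  exact bot_le

theorem exists_series : ∀ (m : ℕ) (G : Type u) [Group G] [Fintype G], Nat.card G ≤ m →
    Group.IsSolvable G → ∀ k, (degSet G).ncard ≤ k →
    ∃ N : ℕ → Subgroup G, N 0 = ⊥ ∧ N k = ⊤ ∧ Monotone N ∧ (∀ i, (N i).Normal) ∧
      ∀ i, NilFactor (N i) (N (i + 1)) := by
  classical
  intro m
  induction m with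
  | zero =>
    intro G _ _ hm
    have : 0 < Nat.card G := Nat.card_pos
    omega
  | succ m ih =>
    intro G _ _ hm hsolv k hk
    haveI := hsolv
    have hne : (degSet G).Nonempty :=
      ⟨charDegree (fun _ : G => (1 : ℂ)), ⟨⟨fun _ => 1, isIrrCharacter_one⟩, rfl⟩⟩
    have hfin : (degSet G).Finite := Set.finite_range _
    have hpos : 0 < (degSet G).ncard := (Set.ncard_pos hfin).mpr hne
    by_cases hF : Cfsg.fittingSubgroup G = ⊤
    · refine ⟨fun i => if i = 0 then ⊥ else ⊤, by simp, by simp; omega, ?_, ?_, ?_⟩
      · intro i j hij
        rcases Nat.eq_zero_or_pos i with h | h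
        · simp [h]
        · simp [h.ne', show j ≠ 0 by omega]
      · intro i; by_cases h : i = 0 <;> simp [h] <;> infer_instance
      · intro i
        by_cases h : i = 0
        · subst h
          haveI hn : Group.IsNilpotent (⊤ : Subgroup G) := by
            rw [← hF]; exact Cfsg.Lib.Solv.fitting_isNilpotent
          simp only [Nat.zero_add, one_ne_zero, if_false, if_true]
          intro _
          exact nilpotent_of_surjective (QuotientGroup.mk' _) (QuotientGroup.mk'_surjective _)
        · simp only [h, Nat.succ_ne_zero, if_false]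
          exact nilFactor_self _
    · set F := Cfsg.fittingSubgroup G with hFdef
      haveI : F.Normal := Cfsg.Lib.Solv.fitting_normal
      haveI : Fintype (G ⧸ F) := Fintype.ofFinite _
      haveI : Nontrivial G := by
        by_contra h
        rw [not_nontrivial_iff_subsingleton] at h
        exact hF (Subsingleton.elim _ _)
      have hFne : F ≠ ⊥ := fun hb => by
        obtain ⟨N, hNn, -, hNne, hmin⟩ :=
          Cfsg.Lib.Solv.exists_minimal_normal_le (G := G) (N := ⊤) top_ne_bot
        haveI := hNn
        obtain ⟨-, p, hp, hNp, -⟩ := Cfsg.Lib.Solv.minimal_normal_elementary hNne inferInstance hmin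
        haveI := Fact.mk hp
        exact hNne (le_bot_iff.mp (hb ▸ Cfsg.Lib.Solv.le_fitting_of_isPGroup hNp))
      have hcard : Nat.card (G ⧸ F) ≤ m := by
        have h1 := Subgroup.card_eq_card_quotient_mul_card_subgroup F
        have h2 : 2 ≤ Nat.card F := (Subgroup.one_lt_card_iff_ne_bot _).mpr hFne
        have h3 : 0 < Nat.card (G ⧸ F) := Nat.card_pos
        nlinarith
      -- the largest degree does not occur in `G ⧸ F`
      have hlt : (degSet (G ⧸ F)).ncard < (degSet G).ncard := by
        have hsub : degSet (G ⧸ F) ⊆ degSet G := by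
          rintro _ ⟨θ, rfl⟩
          exact ⟨⟨_, isIrrCharacter_comp_surjective θ.2 (QuotientGroup.mk' F)
            (QuotientGroup.mk'_surjective F)⟩, by simp [charDegree]⟩
        refine Set.ncard_lt_ncard (hsub.ssubset_of_ne fun heq => ?_) hfin
        obtain ⟨D, hD, hmax⟩ := hfin.exists_maximalFor id _ hne
        rw [← heq] at hD
        obtain ⟨θ, hθ⟩ := hD
        set χ : IrrCharacter G := ⟨_, isIrrCharacter_comp_surjective θ.2 (QuotientGroup.mk' F)
          (QuotientGroup.mk'_surjective F)⟩ with hχ
        haveI := charKer_normal χ.2.isCharacter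
        have hFK : F ≤ charKer χ.2.isCharacter := fun x hx => by
          rw [mem_charKer]
          show (θ : G ⧸ F → ℂ) (QuotientGroup.mk' F x) = (θ : G ⧸ F → ℂ) (QuotientGroup.mk' F 1)
          rw [show QuotientGroup.mk' F x = 1 from (QuotientGroup.eq_one_iff x).mpr hx, map_one]
        obtain ⟨ψ, hψ, -⟩ := garrison χ.2 (charKer χ.2.isCharacter) (fun g => mem_charKer _) (by
          by_cases hle : charKer χ.2.isCharacter ≤ F
          · have he := le_antisymm hle hFK
            exact Or.inr ⟨he, inferInstance, he ▸ hF⟩
          · exact Or.inl hle)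
        have hχD : charDegree (χ : G → ℂ) = D := by
          rw [← hθ, hχ]; simp [charDegree]
        have := hmax ⟨ψ, rfl⟩ (show D ≤ charDegree (ψ : G → ℂ) by omega)
        simp only [id] at this
        omega
      obtain ⟨M, hM0, hMk, hmono, hnorm, hnil⟩ :=
        ih (G ⧸ F) hcard inferInstance (k - 1) (by omega)
      refine ⟨fun i => if i = 0 then ⊥ else (M (i - 1)).comap (QuotientGroup.mk' F), by simp, ?_, ?_, ?_, ?_⟩
      · simp only [show k ≠ 0 by omega, if_false, hMk, Subgroup.comap_top]
      · intro i j hij
        rcases Nat.eq_zero_or_pos i with h | h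
        · simp [h]
        · simp only [h.ne', show j ≠ 0 by omega, if_false]
          exact Subgroup.comap_mono (hmono (by omega))
      · intro i
        rcases Nat.eq_zero_or_pos i with h | h
        · simp only [h, if_true]; infer_instance
        · simp only [h.ne', if_false]
          haveI := hnorm (i - 1)
          infer_instance
      · intro i
        rcases Nat.eq_zero_or_pos i with h | h
        · subst h
          simp only [Nat.zero_add, one_ne_zero, if_false, if_true, Nat.sub_self, hM0]
          intro _
          haveI : Group.IsNilpotent (Subgroup.comap (QuotientGroup.mk' F) ⊥) := by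
            rw [MonoidHom.comap_bot, QuotientGroup.ker_mk']
            exact Cfsg.Lib.Solv.fitting_isNilpotent
          exact nilpotent_of_surjective (QuotientGroup.mk' _) (QuotientGroup.mk'_surjective _)
        · simp only [h.ne', Nat.succ_ne_zero, if_false, Nat.add_sub_cancel]
          haveI := hnorm (i - 1)
          have h' := hnil (i - 1)
          rw [Nat.sub_add_cancel h] at h'
          exact nilFactor_comap _ _ _ h'

end Cfsg.Lib.Blocks.Garrison
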