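import Cfsg.Agent.Lib.Blocks.ExtendedFirstMain
import Cfsg.Agent.Lib.Blocks.CoveringDefect
import Cfsg.Agent.Lib.Solv.Cores

/-!
# Normal `p'`-subgroups in the kernels of Brauer pairs
-/

namespace Cfsg.Lib.Blocks

open Cfsg.Lib.Characters Finset
open scoped ComplexConjugate Classical

set_option linter.unusedSectionVars false
set_option linter.style.haveILetI false
set_option linter.style.longLine false

universe u

variable {G : Type u} [Group G] [Fintype G] {M : Ideal Cfsg.AlgInt} [M.IsPrime]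
variable {p : ℕ} [hp : Fact p.Prime]

local notation "𝐂" Q:max => Subgroup.centralizer ((Q : Subgroup G) : Set G)

/-- All members of `f` are trivial on the part of `L` in `H`. -/
def Kills {H : Subgroup G} (f : Set (IrrCharacter H)) (L : Subgroup G) : Prop :=
  ∀ χ ∈ f, ∀ h : H, (h : G) ∈ L → (χ : H → ℂ) h = (χ : H → ℂ) 1

theorem Kills.mono {H : Subgroup G} {f : Set (IrrCharacter H)} {L L' : Subgroup G} (h : Kills f L)
    (hle : ∀ x ∈ H, x ∈ L' → x ∈ L) : Kills f L' := fun χ hχ x hx => h χ hχ x (hle x x.2 hx)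

theorem resSub_subSum (R : Type*) [CommRing R] (H L : Subgroup G) :
    resSub H (subSum R L) = subSum R (L.subgroupOf H) := gr_ext fun h => by
  rw [coeff_resSub, coeff_subSum, coeff_subSum]
  exact if_congr Subgroup.mem_subgroupOf.symm rfl rfl

/-- The sum over a normal `p'`-subgroup detects its being in the kernel. -/
theorem lam_subSum_ne_zero_iff (hM : IsPModular p M) {H : Type*} [Group H] [Fintype H] (N : Subgroup H)
    [N.Normal] (hN : ¬ p ∣ Nat.card N) (χ : IrrCharacter H) :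
    lam M χ (subSum (ResF M) N) ≠ 0 ↔ ∀ n ∈ N, (χ : H → ℂ) n = (χ : H → ℂ) 1 := by
  have e : (subSum (ResF M) N) = redG M (subSum ℂ N) := gr_ext fun h => by
    rw [coeff_subSum, coeff_redG, coeff_subSum]
    split_ifs <;> simp
  rw [e, lam_redG M χ (subSum_mem_locCenter N)]
  constructor
  · intro h
    exact ker_of_omega_subSum_ne_zero N fun h0 => h (by rw [h0, red_zero])
  · intro h
    rw [omega_subSum_of_ker N h, red_natCast, ne_eq, natCast_resF_eq_zero hM]
    exact hN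

theorem subSum_sq_resF (N : Subgroup G) :
    subSum (ResF M) N * subSum (ResF M) N = (Nat.card N : ResF M) • subSum (ResF M) N :=
  gr_ext fun g => by
    rw [gr_mul_apply, gr_smul_apply]
    simp only [coeff_subSum, ite_mul, _root_.one_mul, zero_mul]
    rw [← Finset.sum_filter]
    by_cases hg : g ∈ N
    · rw [if_pos hg, mul_one, Finset.sum_congr rfl (g := fun _ => (1 : ResF M)) fun a ha => by
        rw [if_pos (N.mul_mem (N.inv_mem (Finset.mem_filter.mp ha).2) hg)]]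
      simp [Nat.card_eq_fintype_card, Fintype.card_subtype]
    · rw [if_neg hg, mul_zero, Finset.sum_eq_zero fun a ha => by
        rw [if_neg fun h => hg (by simpa using N.mul_mem (Finset.mem_filter.mp ha).2 h)]]

omit [Fintype G] [M.IsPrime] in
theorem normal_subgroupOf {H L : Subgroup G} (hn : ∀ h ∈ H, ∀ l ∈ L, h * l * h⁻¹ ∈ L) :
    (L.subgroupOf H).Normal :=
  ⟨fun n hnm g => Subgroup.mem_subgroupOf.mpr (by
    simpa using hn g g.2 n (Subgroup.mem_subgroupOf.mp hnm))⟩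

theorem incSub_smul' (H : Subgroup G) (c : ResF M) (x : MonoidAlgebra (ResF M) H) :
    incSub H (c • x) = c • incSub H x := gr_ext fun g => by
  by_cases hg : g ∈ H
  · rw [show g = ((⟨g, hg⟩ : H) : G) from rfl, coeff_incSub_mem, gr_smul_apply, gr_smul_apply, coeff_incSub_mem]
  · rw [coeff_incSub_notMem _ _ hg, gr_smul_apply, coeff_incSub_notMem _ _ hg, mul_zero]

theorem resSub_smul' (H : Subgroup G) (c : ResF M) (x : MonoidAlgebra (ResF M) G) :
    resSub H (c • x) = c • resSub H x := gr_ext fun g => by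
  simp only [coeff_resSub, gr_smul_apply]

/-- Either the block idempotent absorbs the sum over a normal `p'`-subgroup, or annihilates it. -/
theorem bIdem_mul_subSum (hM : IsPModular p M) {H : Type u} [Group H] [Fintype H] (N : Subgroup H)
    [N.Normal] (hN : ¬ p ∣ Nat.card N) {f : Set (IrrCharacter H)} (hf : IsPBlock M f) :
    bIdem M f * subSum (ResF M) N
      = if (∀ χ ∈ f, ∀ n ∈ N, (χ : H → ℂ) n = (χ : H → ℂ) 1)
          then (Nat.card N : ResF M) • bIdem M f else 0 := by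
  set c : ResF M := (Nat.card N : ResF M) with hc
  have hc0 : c ≠ 0 := by rw [hc, ne_eq, natCast_resF_eq_zero hM]; exact hN
  have hu := isClassElt_subSum (ResF M) N
  set w : MonoidAlgebra (ResF M) H := c⁻¹ • (bIdem M f * subSum (ResF M) N) with hw
  have hwcl : IsClassElt w := ((isClassElt_bIdem f).mul hu).smul _
  have hwsq : w * w = w := by
    have h2 : bIdem M f * subSum (ResF M) N * (bIdem M f * subSum (ResF M) N)
        = c • (bIdem M f * subSum (ResF M) N) := by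
      rw [mul_assoc, ← mul_assoc (subSum (ResF M) N), hu.mul_comm (bIdem M f),
        mul_assoc (bIdem M f) (subSum (ResF M) N), ← mul_assoc (bIdem M f) (bIdem M f), bIdem_sq hf,
        subSum_sq_resF, ← hc, mul_smul_comm]
    rw [hw, smul_mul_smul_comm, h2, smul_smul]
    congr 1
    field_simp
  have hlw : ∀ χ : IrrCharacter H, lam M χ w
      = if χ ∈ f then c⁻¹ * lam M χ (subSum (ResF M) N) else 0 := fun χ => by
    rw [hw, lam_smul, lam_mul M χ (isClassElt_bIdem f) hu, lam_bIdem hf]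
    split_ifs <;> simp
  split_ifs with hker
  · have : w = bIdem M f := idem_eq_of_lam hwcl (isClassElt_bIdem f) hwsq (bIdem_sq hf) fun χ => by
      rw [hlw, lam_bIdem hf]
      split_ifs with hχ
      · have h1 : lam M χ (subSum (ResF M) N) = c := by
          rw [hc, show subSum (ResF M) N = redG M (subSum ℂ N) from gr_ext fun h => by
              rw [coeff_subSum, coeff_redG, coeff_subSum]; split_ifs <;> simp,
            lam_redG M χ (subSum_mem_locCenter N), omega_subSum_of_ker N (hker χ hχ), red_natCast]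
        rw [h1, inv_mul_cancel₀ hc0]
      · rfl
    conv_rhs => rw [← this, hw, smul_smul, mul_inv_cancel₀ hc0, one_smul]
  · have : w = 0 := idem_eq_of_lam hwcl IsClassElt.zero hwsq (zero_mul _) fun χ => by
      rw [hlw, lam_zero]
      split_ifs with hχ
      · refine mul_eq_zero_of_right _ (by_contra fun hne => hker fun ψ hψ => ?_)
        exact ker_of_sameBlock hM N hN (IsPBlock.sameBlock hf hχ hψ)
          ((lam_subSum_ne_zero_iff hM N hN χ).mp hne)
      · rfl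
    rw [hw, smul_eq_zero] at this
    exact this.resolve_left (inv_ne_zero hc0)

/-- Along the Brauer map, being trivial on `L` is equivalent to being trivial on `L ∩ C(R)`. -/
theorem kills_iff (hM : IsPModular p M) {H L R : Subgroup G} (hR : IsPGroup p R) (hCH : 𝐂 R ≤ H)
    (hLH : L ≤ H) (hnH : ∀ h ∈ H, ∀ l ∈ L, h * l * h⁻¹ ∈ L) (hnR : ∀ r ∈ R, ∀ l ∈ L, r * l * r⁻¹ ∈ L)
    (hL : ¬ p ∣ Nat.card L) {f : Set (IrrCharacter H)} (hf : IsPBlock M f)
    (hstab : IsStableUnder R (incSub H (bIdem M f))) {e : Set (IrrCharacter (𝐂 R))} (he : IsPBlock M e)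
    {ξ : IrrCharacter (𝐂 R)} (hξ : ξ ∈ e)
    (h1 : lam M ξ (resSub (𝐂 R) (incSub H (bIdem M f))) = 1) :
    Kills f L ↔ Kills e L := by
  haveI := normal_subgroupOf hnH
  haveI : (L.subgroupOf (𝐂 R)).Normal := normal_subgroupOf fun h hh => hnH h (hCH hh)
  have hLc : ¬ p ∣ Nat.card (L.subgroupOf H) := by
    rwa [Nat.card_congr (Subgroup.subgroupOfEquivOfLe hLH).toEquiv]
  have hLd : ¬ p ∣ Nat.card (L.subgroupOf (𝐂 R)) := fun h => hL (h.trans
    (Subgroup.card_dvd_of_injective ((L.subgroupOf (𝐂 R)).subtype.comp (MonoidHom.id _) |> fun _ =>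
      ({ toFun := fun x => ⟨((x : 𝐂 R) : G), Subgroup.mem_subgroupOf.mp x.2⟩
         map_one' := rfl
         map_mul' := fun _ _ => rfl } : L.subgroupOf (𝐂 R) →* L))
      fun a b hab => Subtype.ext (Subtype.ext (congrArg (fun z : L => (z : G)) hab))))
  have hSR : IsStableUnder R (subSum (ResF M) L) := fun r hr a => by
    rw [coeff_subSum, coeff_subSum]
    refine if_congr ⟨fun h => ?_, fun h => hnR r hr a h⟩ rfl rfl
    simpa [mul_assoc] using hnR r⁻¹ (inv_mem hr) _ h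
  have hSH : IsStableUnder H (subSum (ResF M) L) := fun r hr a => by
    rw [coeff_subSum, coeff_subSum]
    refine if_congr ⟨fun h => ?_, fun h => hnH r hr a h⟩ rfl rfl
    simpa [mul_assoc] using hnH r⁻¹ (inv_mem hr) _ h
  have hEH := isStableUnder_incSub (G := G) (isClassElt_bIdem (M := M) f)
  have hmul := lam_resSub_mul hM hR ξ hstab hSR (hEH.mono hCH) (hSH.mono hCH)
  rw [h1, _root_.one_mul, resSub_subSum] at hmul
  have hprod : incSub H (bIdem M f) * subSum (ResF M) L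
      = incSub H (bIdem M f * subSum (ResF M) (L.subgroupOf H)) := by
    rw [map_mul]
    congr 1
    refine gr_ext fun g => ?_
    by_cases hg : g ∈ H
    · rw [show g = ((⟨g, hg⟩ : H) : G) from rfl, coeff_incSub_mem, coeff_subSum, coeff_subSum]
      exact if_congr Subgroup.mem_subgroupOf.symm rfl rfl
    · rw [coeff_incSub_notMem _ _ hg, coeff_subSum, if_neg fun h => hg (hLH h)]
  rw [hprod, bIdem_mul_subSum hM _ hLc hf] at hmul
  constructor
  · intro hk
    rw [if_pos fun χ hχ n hn => hk χ hχ n (Subgroup.mem_subgroupOf.mp hn)] at hmul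
    have hne : lam M ξ (subSum (ResF M) (L.subgroupOf (𝐂 R))) ≠ 0 := by
      rw [← hmul, incSub_smul', resSub_smul', lam_smul, h1, mul_one, ne_eq, natCast_resF_eq_zero hM]
      exact hLc
    intro ψ hψ n hn
    exact ker_of_sameBlock hM _ hLd (IsPBlock.sameBlock he hξ hψ)
      ((lam_subSum_ne_zero_iff hM _ hLd ξ).mp hne) n (Subgroup.mem_subgroupOf.mpr hn)
  · intro hk
    by_contra hnot
    rw [if_neg fun h => hnot fun χ hχ n hn => h χ hχ n (Subgroup.mem_subgroupOf.mpr hn), map_zero, map_zero,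
      lam_zero] at hmul
    exact (lam_subSum_ne_zero_iff hM _ hLd ξ).mpr
      (fun n hn => hk ξ hξ n (Subgroup.mem_subgroupOf.mp hn)) hmul.symm

/-! ### The largest normal `π'`-subgroup of a subgroup -/

/-- `O_π'(X)` inside `G`. -/
def oq (π : Set ℕ) (X : Subgroup G) : Subgroup G := (piCore {q | q ∉ π} X).map X.subtype

variable {π : Set ℕ}

omit [M.IsPrime] in
theorem oq_le (X : Subgroup G) : oq π X ≤ X := Subgroup.map_subtype_le _

omit [M.IsPrime] in
theorem mem_oq_iff {X : Subgroup G} (x : X) : (x : G) ∈ oq π X ↔ x ∈ piCore {q | q ∉ π} X :=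
  ⟨fun ⟨y, hy, h⟩ => Subtype.ext h ▸ hy, fun h => ⟨x, h, rfl⟩⟩

omit [M.IsPrime] in
theorem oq_primes (X : Subgroup G) {q : ℕ} (hq : q.Prime) (hd : q ∣ Nat.card (oq π X)) : q ∉ π := by
  rw [oq, Subgroup.card_subtype] at hd
  exact Cfsg.Lib.Solv.piCore_primes (G := X) _ q hq hd

omit [M.IsPrime] in
theorem oq_orderOf {X : Subgroup G} {x : G} (hx : x ∈ oq π X) {q : ℕ} (hq : q.Prime)
    (hd : q ∣ orderOf x) : q ∉ π := by
  refine oq_primes X hq (hd.trans ?_)
  rw [show orderOf x = orderOf (⟨x, hx⟩ : oq π X) from (Subgroup.orderOf_mk x hx).symm]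
  exact orderOf_dvd_natCard _

omit [M.IsPrime] in
theorem not_dvd_card_oq (hpπ : p ∈ π) (X : Subgroup G) : ¬ p ∣ Nat.card (oq π X) :=
  fun h => oq_primes X hp.out h hpπ

omit [M.IsPrime] in
theorem le_oq {X K : Subgroup G} (hKX : K ≤ X) (hn : ∀ x ∈ X, ∀ k ∈ K, x * k * x⁻¹ ∈ K)
    (hK : ∀ q : ℕ, q.Prime → q ∣ Nat.card K → q ∉ π) : K ≤ oq π X := by
  intro k hk
  exact (mem_oq_iff ⟨k, hKX hk⟩).mpr (Cfsg.Lib.Solv.le_piCore (normal_subgroupOf hn)
    (fun q hq hd => hK q hq (by rwa [Nat.card_congr (Subgroup.subgroupOfEquivOfLe hKX).toEquiv] at hd))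
    (Subgroup.mem_subgroupOf.mpr hk))

omit [M.IsPrime] in
theorem oq_conj_mem {X : Subgroup G} {g : G} (hg : ∀ x ∈ X, g * x * g⁻¹ ∈ X) (hg' : ∀ x ∈ X, g⁻¹ * x * g ∈ X)
    {l : G} (hl : l ∈ oq π X) : g * l * g⁻¹ ∈ oq π X := by
  refine le_oq (K := (oq π X).map (MulAut.conj g).toMonoidHom) ?_ ?_ ?_ (Subgroup.mem_map.mpr ⟨l, hl, rfl⟩)
  · rintro _ ⟨a, ha, rfl⟩
    exact hg a (oq_le X ha)
  · rintro x hx _ ⟨a, ha, rfl⟩
    refine ⟨(g⁻¹ * x * g) * a * (g⁻¹ * x * g)⁻¹, ?_, by simp [mul_assoc]⟩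
    obtain ⟨y, hy, rfl⟩ := ha
    exact ⟨⟨_, hg' x hx⟩ * y * ⟨_, hg' x hx⟩⁻¹, (piCore_normal _ _).conj_mem y hy _, rfl⟩
  · intro q hq hd
    rw [Nat.card_congr ((oq π X).equivMapOfInjective _ (MulAut.conj g).injective).toEquiv.symm] at hd
    exact oq_primes X hq hd

omit [M.IsPrime] in
theorem oq_self_conj (X : Subgroup G) : ∀ x ∈ X, ∀ l ∈ oq π X, x * l * x⁻¹ ∈ oq π X := fun x hx l hl =>
  oq_conj_mem (fun a ha => mul_mem (mul_mem hx ha) (inv_mem hx))
    (fun a ha => mul_mem (mul_mem (inv_mem hx) ha) hx) hl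

omit [M.IsPrime] in
theorem oq_centralizer_conj {Q : Subgroup G} {g : G} (hg : g ∈ Subgroup.normalizer (Q : Set G))
    {l : G} (hl : l ∈ oq π (𝐂 Q)) : g * l * g⁻¹ ∈ oq π (𝐂 Q) :=
  oq_conj_mem (fun x hx => (conj_mem_centralizer hg).mpr hx) (fun x hx => by
    simpa using (conj_mem_centralizer (inv_mem hg)).mpr hx) hl

omit [M.IsPrime] in
/-- `O_π'` of a larger group meets a smaller normalized one inside its `O_π'`. -/
theorem oq_inf_le {X Y : Subgroup G} (hYX : ∀ y ∈ Y, ∀ l ∈ oq π X, y * l * y⁻¹ ∈ oq π X) :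
    oq π X ⊓ Y ≤ oq π Y := by
  refine le_oq inf_le_right (fun y hy k hk => ⟨hYX y hy k hk.1, Y.mul_mem (Y.mul_mem hy hk.2) (Y.inv_mem hy)⟩) ?_
  exact fun q hq hd => oq_primes X hq (hd.trans (Subgroup.card_dvd_of_le inf_le_left))

/-- Triviality on `O_π'` passes down. -/
theorem kills_of_normalSubpair (hM : IsPModular p M) (hpπ : p ∈ π) {Q P : Subgroup G}
    {f : Set (IrrCharacter (𝐂 Q))} {e : Set (IrrCharacter (𝐂 P))} (h : IsNormalSubpair p M Q f P e)
    (he : Kills e (oq π (𝐂 P))) : Kills f (oq π (𝐂 Q)) := by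
  obtain ⟨hf, he', hle, hN, hst, h1⟩ := (isNormalSubpair_iff hM).mp h
  obtain ⟨ξ, hξ⟩ := IsPBlock.nonempty he'.2
  refine (kills_iff hM he'.1 (centralizer_le' hle) (oq_le _) (oq_self_conj _)
    (fun r hr l hl => oq_centralizer_conj (hN hr) hl) (not_dvd_card_oq hpπ _) hf.2 hst he'.2 hξ (h1 ξ hξ)).mpr
    (he.mono fun x hx hl => oq_inf_le (fun y hy l hl => oq_self_conj _ y (centralizer_le' hle hy) l hl) ⟨hl, hx⟩)

theorem kills_of_subpairLE (hM : IsPModular p M) (hpπ : p ∈ π) {Q P : Subgroup G}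
    {f : Set (IrrCharacter (𝐂 Q))} {e : Set (IrrCharacter (𝐂 P))} (h : SubpairLE p M Q f P e)
    (he : Kills e (oq π (𝐂 P))) : Kills f (oq π (𝐂 Q)) := by
  have key : ∀ a b : BrauerPairIdx G, Relation.ReflTransGen (NormalSubpairRel p M) a b →
      Kills b.2 (oq π (𝐂 b.1)) → Kills a.2 (oq π (𝐂 a.1)) := by
    intro a b hab
    induction hab with
    | refl => exact id
    | tail _ hbc ih => exact fun hc => ih (kills_of_normalSubpair hM hpπ hbc hc)
  exact key ⟨Q, f⟩ ⟨P, e⟩ h he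

/-- Above a subgroup whose centralizer has a normal Hall `π'`-subgroup, triviality passes up. -/
theorem kills_up (hM : IsPModular p M) (hpπ : p ∈ π) {D₀ : Subgroup G}
    (hcompl : ∀ x ∈ 𝐂 D₀, (∀ q : ℕ, q.Prime → q ∣ orderOf x → q ∉ π) → x ∈ oq π (𝐂 D₀))
    {f : Set (IrrCharacter (𝐂 D₀))} (hf : Kills f (oq π (𝐂 D₀))) {P : Subgroup G}
    {e : Set (IrrCharacter (𝐂 P))} (h : SubpairLE p M D₀ f P e) : Kills e (oq π (𝐂 P)) := by
  have key : ∀ b : BrauerPairIdx G, Relation.ReflTransGen (NormalSubpairRel p M) ⟨D₀, f⟩ b →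
      D₀ ≤ b.1 ∧ Kills b.2 (oq π (𝐂 b.1)) := by
    intro b hb
    induction hb with
    | refl => exact ⟨le_rfl, hf⟩
    | @tail b c hab hbc ih =>
      obtain ⟨hf', he', hle, hN, hst, h1⟩ := (isNormalSubpair_iff hM).mp hbc
      obtain ⟨ξ, hξ⟩ := IsPBlock.nonempty he'.2
      refine ⟨ih.1.trans hle, ?_⟩
      have hk := (kills_iff hM he'.1 (centralizer_le' hle) (oq_le _) (oq_self_conj _)
        (fun r hr l hl => oq_centralizer_conj (hN hr) hl) (not_dvd_card_oq hpπ _) hf'.2 hst he'.2 hξ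
        (h1 ξ hξ)).mp ih.2
      refine hk.mono fun x hx hl => oq_inf_le (X := 𝐂 D₀)
        (fun y hy l hl' => oq_self_conj _ y (centralizer_le' ih.1 hy) l hl')
        ⟨hcompl x (centralizer_le' (ih.1.trans hle) hx) fun q hq hd => oq_orderOf hl hq hd,
          centralizer_le' hle hx⟩
  exact (key ⟨P, e⟩ h).2

theorem kills_conjBlock {Q : Subgroup G} {f : Set (IrrCharacter (𝐂 Q))} (hf : Kills f (oq π (𝐂 Q)))
    (x : G) : Kills (conjBlock Q x f) (oq π (𝐂 (Q.map (MulAut.conj x).toMonoidHom))) := by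
  rintro ξ' ⟨ξ, hξ, h⟩ c' hc'
  have hmem : x⁻¹ * (c' : G) * x ∈ 𝐂 Q := by
    rw [mem_centralizer_map_conj Q x, show x * (x⁻¹ * (c' : G) * x) * x⁻¹ = c' by group]
    exact c'.2
  have h1 : (ξ' : _ → ℂ) c' = (ξ : _ → ℂ) (⟨_, hmem⟩ : 𝐂 Q) := h _ c' (by simp [mul_assoc])
  have h2 : ξ'.1 1 = ξ.1 1 := h 1 1 (by simp)
  rw [h1, h2]
  refine hf ξ hξ _ ?_
  refine le_oq (K := (oq π (𝐂 (Q.map (MulAut.conj x).toMonoidHom))).map (MulAut.conj x⁻¹).toMonoidHom)
    ?_ ?_ ?_ (Subgroup.mem_map.mpr ⟨c', hc', by simp⟩)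
  · rintro _ ⟨a, ha, rfl⟩
    refine (mem_centralizer_map_conj Q x _).mpr ?_
    simpa [mul_assoc] using oq_le _ ha
  · rintro y hy _ ⟨a, ha, rfl⟩
    refine ⟨(x * y * x⁻¹) * a * (x * y * x⁻¹)⁻¹, ?_, by simp [mul_assoc]⟩
    exact oq_self_conj _ _ ((mem_centralizer_map_conj Q x y).mp hy) a ha
  · intro q hq hd
    rw [Nat.card_congr (Subgroup.equivMapOfInjective _ _ (MulAut.conj x⁻¹).injective).toEquiv.symm] at hd
    exact oq_primes _ hq hd

/-- All maximal pairs behave alike. -/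
theorem kills_maximal (hM : IsPModular p M) {B : Set (IrrCharacter G)} {P R : Subgroup G}
    {e : Set (IrrCharacter (𝐂 P))} {g : Set (IrrCharacter (𝐂 R))}
    (he : IsMaximalBrauerPair p M B P e) (hg : IsMaximalBrauerPair p M B R g)
    (h : Kills g (oq π (𝐂 R))) : Kills e (oq π (𝐂 P)) := by
  obtain ⟨x, hx⟩ := maximal_conj hM he hg
  have key : ∀ a b : BrauerPairIdx G, a = b → Kills b.2 (oq π (𝐂 b.1)) → Kills a.2 (oq π (𝐂 a.1)) :=
    fun a b hab hb => hab ▸ hb
  exact key _ _ hx (kills_conjBlock h x)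

/-- A pair of `B` under a block of a subgroup inducing `B`. -/
theorem exists_pair_of_induced (hM : IsPModular p M) {B : Set (IrrCharacter G)} {H : Subgroup G}
    {B₀ : Set (IrrCharacter H)} (hB₀ : IsInducedBlock M H B₀ B) {R : Subgroup G} (hR : IsPGroup p R)
    (hRH : R ≤ H) (hCH : 𝐂 R ≤ H) (hbr : BrNe R (incSub H (bIdem M B₀))) :
    ∃ η : IrrCharacter (𝐂 R), lam M η (resSub (𝐂 R) (incSub H (bIdem M B₀))) = 1 ∧
      IsBrauerPairOf p M B R (blockOf M (η : 𝐂 R → ℂ)) := by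
  have hst := isStableUnder_incSub (G := G) (isClassElt_bIdem (M := M) B₀)
  obtain ⟨η, hη⟩ := exists_lam_one_of_brNe hM hR (hst.mono hRH) (hst.mono hCH) (incSub_bIdem_sq hB₀.1) hbr
  refine ⟨η, hη, (isBrauerPairOf_iff hM).mpr ⟨hR, ?_⟩⟩
  refine ((exists_induced_of_mul ⟨η, rfl⟩ (mem_blockOf_self M η)
    (lam_resSub_centralizer_mul hM hR η)).2 B hB₀.2.1).mpr ?_
  obtain ⟨ψ, hψ⟩ := IsPBlock.nonempty hB₀.1
  obtain ⟨χ, hχ⟩ := IsPBlock.nonempty hB₀.2.1
  rw [lam_pair_eq hM hR hRH hCH hB₀.1 hη hψ ((isClassElt_bIdem B).stable H),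
    (isInducedBlock_iff hB₀.1 hB₀.2.1 hψ hχ).mp hB₀ _ (isClassElt_bIdem B), lam_bIdem hB₀.2.1, if_pos hχ]

set_option maxHeartbeats 1000000 in
/-- The condition on the Brauer correspondent, for maximal pairs. -/
theorem kills_iff_correspondent (hM : IsPModular p M) (hpπ : p ∈ π) {B : Set (IrrCharacter G)}
    {D : Subgroup G} (hBD : IsDefectGroup p M B D)
    {B₁ : Set (IrrCharacter ↥(Subgroup.normalizer (D : Set G)))}
    (hB₁ : IsInducedBlock M (Subgroup.normalizer (D : Set G)) B₁ B)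
    (hB₁D : IsDefectGroup p M B₁ (D.subgroupOf (Subgroup.normalizer (D : Set G)))) :
    ∃ e : Set (IrrCharacter (𝐂 D)), IsMaximalBrauerPair p M B D e ∧
      (Kills B₁ (oq π (Subgroup.normalizer (D : Set G))) ↔ Kills e (oq π (𝐂 D))) := by
  have hbr : BrNe D (incSub (Subgroup.normalizer (D : Set G)) (bIdem M B₁)) :=
    (brNe_subgroupOf_iff Subgroup.le_normalizer (fun g hg => coeff_incSub_notMem _ _ hg)
      fun t => (coeff_incSub_mem _ _ t).symm).mp (brNe_defectGroup hB₁D)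
  have hDN : D ≤ (Subgroup.normalizer (D : Set G)) := Subgroup.le_normalizer
  have hCN : 𝐂 D ≤ (Subgroup.normalizer (D : Set G)) := Subgroup.centralizer_le_normalizer _
  have hDp := isPGroup_defectGroup hBD
  obtain ⟨η, hη, hpair⟩ := exists_pair_of_induced hM hB₁ hDp hDN hCN hbr
  refine ⟨_, maximal_of_defect hM hpair hBD, ?_⟩
  have hst : IsStableUnder D (incSub (Subgroup.normalizer (D : Set G)) (bIdem M B₁)) := (isStableUnder_incSub (isClassElt_bIdem B₁)).mono hDN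
  have hP : IsPBlock M (blockOf M (η : 𝐂 D → ℂ)) := ⟨η, rfl⟩
  have hiff := kills_iff (H := Subgroup.normalizer (D : Set G)) (L := oq π (Subgroup.normalizer (D : Set G))) (R := D) hM hDp hCN (oq_le (Subgroup.normalizer (D : Set G))) (oq_self_conj (Subgroup.normalizer (D : Set G)))
    (fun r hr => oq_self_conj (Subgroup.normalizer (D : Set G)) r (hDN hr)) (not_dvd_card_oq hpπ (Subgroup.normalizer (D : Set G))) (f := B₁) hB₁.1 hst
    (e := blockOf M (η : 𝐂 D → ℂ)) hP (ξ := η) (mem_blockOf_self M η) hη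
  refine hiff.trans ?_
  constructor
  · intro h
    refine h.mono fun x _ hx => ?_
    exact le_oq (X := Subgroup.normalizer (D : Set G)) (K := oq π (𝐂 D)) ((oq_le _).trans hCN) (fun n hn k hk => oq_centralizer_conj hn hk)
      (fun q hq hd => oq_primes _ hq hd) hx
  · intro h
    exact h.mono fun x hxC hx => oq_inf_le (X := Subgroup.normalizer (D : Set G)) (Y := 𝐂 D) (fun y hy l hl => oq_self_conj (Subgroup.normalizer (D : Set G)) y (hCN hy) l hl) ⟨hx, hxC⟩

/-- S4734 in library form. -/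
theorem kills_of_correspondent (hM : IsPModular p M) (hpπ : p ∈ π) {B : Set (IrrCharacter G)}
    {D : Subgroup G} (hBD : IsDefectGroup p M B D)
    {B₁ : Set (IrrCharacter ↥(Subgroup.normalizer (D : Set G)))}
    (hB₁ : IsInducedBlock M (Subgroup.normalizer (D : Set G)) B₁ B)
    (hB₁D : IsDefectGroup p M B₁ (D.subgroupOf (Subgroup.normalizer (D : Set G))))
    (hker : Kills B₁ (oq π (Subgroup.normalizer (D : Set G)))) {H : Subgroup G}
    {B₀ : Set (IrrCharacter H)} (hB₀ : IsInducedBlock M H B₀ B) {R : Subgroup G} (hRH : R ≤ H)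
    (hR : IsPGroup p R) (hCH : 𝐂 R ≤ H) (hbr : BrNe R (incSub H (bIdem M B₀))) :
    Kills B₀ (oq π H) := by
  obtain ⟨η, hη, hpair⟩ := exists_pair_of_induced hM hB₀ hR hRH hCH hbr
  obtain ⟨e, hemax, hiff⟩ := kills_iff_correspondent hM hpπ hBD hB₁ hB₁D
  obtain ⟨P, eP, hmax, hle⟩ := exists_maximal_above hM hpair
  have hk := kills_of_subpairLE hM hpπ hle (kills_maximal hM hmax hemax (hiff.mp hker))
  refine (kills_iff hM hR hCH (oq_le H) (oq_self_conj H) (fun r hr => oq_self_conj H r (hRH hr))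
    (not_dvd_card_oq hpπ H) hB₀.1 ((isStableUnder_incSub (isClassElt_bIdem B₀)).mono hRH) ⟨η, rfl⟩
    (mem_blockOf_self M η) hη).mpr (hk.mono fun x hxC hx => ?_)
  exact oq_inf_le (X := H) (fun y hy l hl => oq_self_conj H y (hCH hy) l hl) ⟨hx, hxC⟩

/-- S4728 in library form. -/
theorem correspondent_kills (hM : IsPModular p M) (hpπ : p ∈ π) {B : Set (IrrCharacter G)}
    {D : Subgroup G} (hBD : IsDefectGroup p M B D)
    {B₁ : Set (IrrCharacter ↥(Subgroup.normalizer (D : Set G)))}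
    (hB₁ : IsInducedBlock M (Subgroup.normalizer (D : Set G)) B₁ B)
    (hB₁D : IsDefectGroup p M B₁ (D.subgroupOf (Subgroup.normalizer (D : Set G))))
    {D₀ : Subgroup G} (hD₀ : IsPGroup p D₀) {b : Set (IrrCharacter ↥(D₀ ⊔ 𝐂 D₀))}
    (hb : IsInducedBlock M (D₀ ⊔ 𝐂 D₀) b B)
    (hcompl : ∀ x ∈ 𝐂 D₀, (∀ q : ℕ, q.Prime → q ∣ orderOf x → q ∉ π) → x ∈ oq π (𝐂 D₀))
    (hkerb : Kills b (oq π (𝐂 D₀))) : Kills B₁ (oq π (Subgroup.normalizer (D : Set G))) := by
  obtain ⟨e₀, he₀, hcoef, -⟩ := exists_pair_of_localBlock hM hD₀ hb.1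
  have hpair := (inducedBlock_local_iff hM hD₀ hb.1 he₀ hcoef hb.2.1).mp hb
  obtain ⟨η, hη⟩ := IsPBlock.nonempty he₀
  have hCH : 𝐂 D₀ ≤ D₀ ⊔ 𝐂 D₀ := le_sup_right
  have h1 : lam M η (resSub (𝐂 D₀) (incSub (D₀ ⊔ 𝐂 D₀) (bIdem M b))) = 1 := by
    rw [show resSub (𝐂 D₀) (incSub (D₀ ⊔ 𝐂 D₀) (bIdem M b)) = bIdem M e₀ from gr_ext fun c => by
        rw [coeff_resSub, show (c : G) = ((⟨(c : G), hCH c.2⟩ : ↥(D₀ ⊔ 𝐂 D₀)) : G) from rfl, coeff_incSub_mem,
          hcoef, bIdem_eq_subE], lam_bIdem he₀, if_pos hη]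
  have hn : D₀ ⊔ 𝐂 D₀ ≤ Subgroup.normalizer (D₀ : Set G) := local_le_normalizer D₀
  have hk : Kills e₀ (oq π (𝐂 D₀)) := (kills_iff hM hD₀ hCH ((oq_le _).trans hCH)
    (fun h hh l hl => oq_centralizer_conj (hn hh) hl)
    (fun r hr l hl => oq_centralizer_conj (Subgroup.le_normalizer hr) hl) (not_dvd_card_oq hpπ _) hb.1
    ((isStableUnder_incSub (isClassElt_bIdem b)).mono le_sup_left) he₀ hη h1).mp hkerb
  obtain ⟨e, hemax, hiff⟩ := kills_iff_correspondent (π := π) hM hpπ hBD hB₁ hB₁D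
  obtain ⟨P, eP, hmax, hle⟩ := exists_maximal_above hM hpair
  exact hiff.mpr (kills_maximal hM hemax hmax (kills_up hM hpπ hcompl hk hle))

/-- S4727 in library form. -/
theorem value_of_kills (hM : IsPModular p M) (hpπ : p ∈ π) {B : Set (IrrCharacter G)}
    {D : Subgroup G} (hBD : IsDefectGroup p M B D) (hB : IsPBlock M B)
    {B₁ : Set (IrrCharacter ↥(Subgroup.normalizer (D : Set G)))}
    (hB₁ : IsInducedBlock M (Subgroup.normalizer (D : Set G)) B₁ B)
    (hB₁D : IsDefectGroup p M B₁ (D.subgroupOf (Subgroup.normalizer (D : Set G))))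
    (hker : Kills B₁ (oq π (Subgroup.normalizer (D : Set G)))) {y : G} (hy : ∃ k : ℕ, orderOf y = p ^ k)
    {H : Subgroup G} (hH : H = Subgroup.centralizer ({y} : Set G))
    (hC : ∀ x ∈ H, (∀ q : ℕ, q.Prime → q ∣ orderOf x → q ∉ π) → x ∈ oq π H)
    {χ : IrrCharacter G} (hχ : χ ∈ B) {x : G} (hx : x ∈ H)
    (hxπ : ∀ q : ℕ, q.Prime → q ∣ orderOf x → q ∉ π) : (χ : G → ℂ) (y * x) = (χ : G → ℂ) y := by
  have hyH : y ∈ H := hH ▸ Subgroup.mem_centralizer_singleton_iff.mpr rfl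
  -- every block of `H` inducing `B` is trivial on `x`
  have hind : ∀ ξ ∈ indSet M H B, (ξ : H → ℂ) ⟨x, hx⟩ = (ξ : H → ℂ) 1 := by
    intro ξ hξ
    have hξ' : IsInducedBlock M H (blockOf M (ξ : H → ℂ)) B := hξ
    obtain ⟨D₀, hD₀⟩ := exists_defectGroup hM hξ'.1
    haveI : ((Subgroup.zpowers y).subgroupOf H).Normal := normal_subgroupOf fun h hh l hl => by
      obtain ⟨j, rfl⟩ := Subgroup.mem_zpowers_iff.mp hl
      have hc : Commute h y := Subgroup.mem_centralizer_singleton_iff.mp (hH.le hh)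
      rw [(hc.zpow_right j).eq, mul_inv_cancel_right]
      exact Subgroup.zpow_mem_zpowers y j
    have hyD := normal_le_defectGroup hM hξ'.1 hD₀ (P := (Subgroup.zpowers y).subgroupOf H)
      ((isPGroup_zpowers hy).of_equiv (Subgroup.subgroupOfEquivOfLe (Subgroup.zpowers_le.mpr hyH)).symm)
    have hRH : D₀.map H.subtype ≤ H := Subgroup.map_subtype_le _
    have hyR : y ∈ D₀.map H.subtype :=
      ⟨⟨y, hyH⟩, hyD (Subgroup.mem_subgroupOf.mpr (Subgroup.mem_zpowers y)), rfl⟩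
    have hsub : (D₀.map H.subtype).subgroupOf H = D₀ :=
      Subgroup.comap_map_eq_self_of_injective H.subtype_injective D₀
    have hbr : BrNe (D₀.map H.subtype) (incSub H (bIdem M (blockOf M (ξ : H → ℂ)))) :=
      (brNe_subgroupOf_iff hRH (fun g hg => coeff_incSub_notMem _ _ hg)
        fun t => (coeff_incSub_mem _ _ t).symm).mp (by rw [hsub]; exact brNe_defectGroup hD₀)
    have hCH : 𝐂 (D₀.map H.subtype) ≤ H := fun c hc => by
      rw [hH]
      exact Subgroup.mem_centralizer_singleton_iff.mpr (Subgroup.mem_centralizer_iff.mp hc y hyR).symm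
    exact kills_of_correspondent hM hpπ hBD hB₁ hB₁D hker hξ' hRH ((isPGroup_defectGroup hD₀).map _) hCH hbr
      ξ (mem_blockOf_self M ξ) ⟨x, hx⟩ (hC x hx hxπ)
  have hxr : ¬ p ∣ orderOf x := fun hd => hxπ p hp.out hd hpπ
  have hxc : Commute y x := (Subgroup.mem_centralizer_singleton_iff.mp (hH.le hx)).symm
  have hker' : ∀ g : G, kerB B (y * x) g = kerB B y g := by
    intro g
    obtain ⟨a, c, hac, hcomm, ha, hc⟩ := exists_pPart_commute (p := p) g
    have h1 : ¬ p ∣ orderOf (1 : G) := by simpa using hp.out.ne_one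
    by_cases hconj : IsConj y a
    · obtain ⟨t, rfl⟩ := isConj_iff.mp hconj
      have hc' : t⁻¹ * c * t ∈ H := by
        rw [hH, Subgroup.mem_centralizer_singleton_iff]
        calc t⁻¹ * c * t * y = t⁻¹ * (c * (t * y * t⁻¹)) * t := by group
          _ = t⁻¹ * ((t * y * t⁻¹) * c) * t := by rw [hcomm.eq]
          _ = y * (t⁻¹ * c * t) := by group
      have hg : IsConj g (y * (t⁻¹ * c * t)) :=
        isConj_iff.mpr ⟨t⁻¹, by rw [← hac]; group⟩
      have hco : ∀ z : H, orderOf z = orderOf (z : G) := fun z => (Subgroup.orderOf_coe z).symm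
      have hcr : ¬ p ∣ orderOf (⟨_, hc'⟩ : H) := by
        rw [hco]
        show ¬ p ∣ orderOf (t⁻¹ * c * t)
        rwa [show t⁻¹ * c * t = MulAut.conj t⁻¹ c by simp, MulEquiv.orderOf_eq]
      have k1 := kerB_mul_eq hM hB hy hH ⟨x, hx⟩ ⟨_, hc'⟩ (by rwa [hco]) hcr
      have k2 := kerB_mul_eq hM hB hy hH 1 ⟨_, hc'⟩ (by rw [hco]; simpa using hp.out.ne_one) hcr
      rw [OneMemClass.coe_one, mul_one] at k2
      rw [kerB_congr_isConj B (IsConj.refl (y * x)) hg, kerB_congr_isConj B (IsConj.refl y) hg, k1, k2,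
        kerB_eq_filter, kerB_eq_filter]
      exact Finset.sum_congr rfl fun ξ hξ => by rw [hind ξ (Finset.mem_filter.mp hξ).2]
    · rw [kerB_eq_zero_of_not_isConj hM hB (x := y) (x' := a) ⟨x, rfl, hxc, hy, hxr⟩
          ⟨c, hac, hcomm, ha, hc⟩ hconj,
        kerB_eq_zero_of_not_isConj hM hB (x := y) (x' := a) ⟨1, mul_one y, Commute.one_right y, hy, h1⟩
          ⟨c, hac, hcomm, ha, hc⟩ hconj]
  rw [← blockPart_self χ hχ (y * x), ← blockPart_self χ hχ y]
  simp only [hker']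

end Cfsg.Lib.Blocks
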