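import Cfsg.Agent.Lib.Blocks.RankTwo
import Cfsg.Agent.Lib.Blocks.KleinFour

/-!
# Blocks of regular rank one
-/

namespace Cfsg.Lib.Blocks

open Cfsg.Lib.Characters Finset
open scoped ComplexConjugate Classical

set_option linter.unusedSectionVars false
set_option linter.style.haveILetI false
set_option linter.style.longLine false

universe u

variable {G : Type u} [Group G] [Fintype G] {M : Ideal Cfsg.AlgInt} [M.IsPrime]
variable {p : ℕ} [hp : Fact p.Prime]

theorem regular_proportional {B : Set (IrrCharacter G)} (hl : blockRank p B = 1) {χ ψ : IrrCharacter G}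
    (hχ : χ ∈ B) (hψ : ψ ∈ B) {y : G} (hy : ¬ p ∣ orderOf y) :
    (χ : G → ℂ) y * (ψ : G → ℂ) 1 = (χ : G → ℂ) 1 * (ψ : G → ℂ) y := by
  set V := Submodule.span ℂ ((fun χ : IrrCharacter G => pRegularPart p (χ : G → ℂ)) '' B)
  have hv : (⟨_, Submodule.subset_span ⟨ψ, hψ, rfl⟩⟩ : V) ≠ 0 := fun h0 => by
    have h := congrArg (fun v : V => (v : G → ℂ) 1) h0
    simp only [pRegularPart_apply, orderOf_one, if_neg hp.out.not_dvd_one, Submodule.coe_zero, Pi.zero_apply] at h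
    exact ψ.2.one_ne_zero h
  obtain ⟨c, hc⟩ := (finrank_eq_one_iff_of_nonzero' _ hv).mp hl ⟨_, Submodule.subset_span ⟨χ, hχ, rfl⟩⟩
  have h1 := congrArg (fun v : V => (v : G → ℂ) y) hc
  have h2 := congrArg (fun v : V => (v : G → ℂ) 1) hc
  simp only [Submodule.coe_smul, Pi.smul_apply, smul_eq_mul, pRegularPart_apply, orderOf_one,
    if_neg hp.out.not_dvd_one, if_neg hy] at h1 h2
  rw [← h1, ← h2]
  ring

/-- A block of rank one: the integral degree vector with squared norm the order of a defect group. -/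
theorem exists_degree_vector (hM : IsPModular p M) {B : Set (IrrCharacter G)} (hB : IsPBlock M B)
    (hl : blockRank p B = 1) :
    ∃ (g : ℕ) (d : IrrCharacter G → ℕ) (n : IrrCharacter G → ℤ), 0 < g ∧
      (∀ χ ∈ B, charDegree (χ : G → ℂ) = g * d χ) ∧ (∑ ψ ∈ univ.filter (· ∈ B), n ψ * (d ψ : ℤ) = 1) ∧
      (∀ χ ∈ B, ∀ ψ ∈ B, blockC p B χ ψ = (d χ : ℤ) * d ψ) ∧
      ∑ χ ∈ univ.filter (· ∈ B), d χ ^ 2 = p ^ blockDefect p B := by
  set S := univ.filter (· ∈ B)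
  obtain ⟨θ, hθ, hmin⟩ := exists_height_zero p (IsPBlock.nonempty hB)
  have hθS : θ ∈ S := Finset.mem_filter.mpr ⟨Finset.mem_univ _, hθ⟩
  set deg : IrrCharacter G → ℤ := fun χ => (charDegree (χ : G → ℂ) : ℤ)
  set g := S.gcd fun χ : IrrCharacter G => charDegree (χ : G → ℂ) with hg
  have hdvd : ∀ χ ∈ B, g ∣ charDegree (χ : G → ℂ) := fun χ hχ =>
    Finset.gcd_dvd (Finset.mem_filter.mpr ⟨Finset.mem_univ _, hχ⟩)
  have hg0 : 0 < g := Nat.pos_of_dvd_of_pos (hdvd θ hθ) (charDegree_pos θ)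
  set d : IrrCharacter G → ℕ := fun χ => charDegree (χ : G → ℂ) / g
  have hd : ∀ χ ∈ B, charDegree (χ : G → ℂ) = g * d χ := fun χ hχ => (Nat.mul_div_cancel' (hdvd χ hχ)).symm
  obtain ⟨n, hn⟩ : ∃ n : IrrCharacter G → ℤ, ∑ ψ ∈ S, n ψ * (d ψ : ℤ) = 1 := by
    have h1 : S.gcd (fun χ => (d χ : ℤ)) = 1 := by
      have h2 : S.gcd d = 1 := Finset.gcd_div_eq_one hθS (charDegree_pos θ).ne'
      refine Int.eq_one_of_dvd_one ?_ ?_
      · have := Finset.normalize_gcd (s := S) (f := fun χ => (d χ : ℤ))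
        rw [← this, ← Int.abs_eq_normalize]; exact abs_nonneg _
      · obtain ⟨m, hm⟩ : ∃ m : ℕ, (S.gcd (fun χ => (d χ : ℤ))).natAbs = m := ⟨_, rfl⟩
        have h3 : m ∣ S.gcd d := Finset.dvd_gcd fun χ hχ => by
          rw [← hm, ← Int.natCast_dvd_natCast]
          exact (Int.natAbs_dvd).mpr (Finset.gcd_dvd hχ)
        rw [h2, Nat.dvd_one] at h3
        rw [h3] at hm
        exact Int.natAbs_dvd.mp (by rw [hm]; rfl)
    obtain ⟨n, hn⟩ := Finset.gcd_eq_sum_mul S (fun χ => (d χ : ℤ))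
    exact ⟨n, by rw [← h1, hn]; exact Finset.sum_congr rfl fun χ _ => mul_comm _ _⟩
  -- proportionality of the contributions
  have hC : ∀ χ ∈ B, ∀ ψ ∈ B, blockC p B χ ψ * ((d θ : ℤ) * d θ) = blockC p B θ θ * ((d χ : ℤ) * d ψ) := by
    intro χ hχ ψ hψ
    have hreg : regInner p (χ : G → ℂ) (ψ : G → ℂ) * ((θ : G → ℂ) 1 * (θ : G → ℂ) 1)
        = regInner p (θ : G → ℂ) (θ : G → ℂ) * ((χ : G → ℂ) 1 * (ψ : G → ℂ) 1) := by
      simp only [regInner, Finset.sum_mul]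
      refine Finset.sum_congr rfl fun y _ => ?_
      split_ifs with hy
      · simp
      · have h1 := regular_proportional hl hχ hθ hy
        have h2 := regular_proportional hl hψ hθ (y := y⁻¹) (by rwa [orderOf_inv])
        linear_combination ((ψ : G → ℂ) y⁻¹ * (θ : G → ℂ) 1) * h1 + ((χ : G → ℂ) 1 * (θ : G → ℂ) y) * h2
    have h : (blockC p B χ ψ : ℂ) * ((θ : G → ℂ) 1 * (θ : G → ℂ) 1)
        = (blockC p B θ θ : ℂ) * ((χ : G → ℂ) 1 * (ψ : G → ℂ) 1) := by
      rw [blockC_eq_regInner hM hB hχ ψ, blockC_eq_regInner hM hB hθ θ, mul_assoc, hreg, ← mul_assoc]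
    rw [← coe_charDegree θ, ← coe_charDegree χ, ← coe_charDegree ψ] at h
    simp only [hd θ hθ, hd χ hχ, hd ψ hψ] at h
    have hg' : (g : ℂ) * g ≠ 0 := mul_ne_zero (Nat.cast_ne_zero.mpr hg0.ne') (Nat.cast_ne_zero.mpr hg0.ne')
    have h' : (blockC p B χ ψ : ℂ) * ((d θ : ℂ) * d θ) = (blockC p B θ θ : ℂ) * ((d χ : ℂ) * d ψ) := by
      refine mul_left_cancel₀ hg' ?_
      push_cast at h
      linear_combination h
    exact_mod_cast h'
  set c : ℤ := ∑ χ ∈ S, ∑ ψ ∈ S, n χ * n ψ * blockC p B χ ψ with hc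
  have hdθ : (d θ : ℤ) * d θ ≠ 0 := by
    have h : d θ ≠ 0 := fun h => (charDegree_pos θ).ne' (by rw [hd θ hθ, h, mul_zero])
    exact mul_ne_zero (Int.natCast_ne_zero.mpr h) (Int.natCast_ne_zero.mpr h)
  have hcθ : c * ((d θ : ℤ) * d θ) = blockC p B θ θ := by
    calc c * ((d θ : ℤ) * d θ) = ∑ χ ∈ S, ∑ ψ ∈ S, blockC p B θ θ * (n χ * d χ) * (n ψ * d ψ) := by
          rw [hc, Finset.sum_mul]
          refine Finset.sum_congr rfl fun χ hχ => ?_
          rw [Finset.sum_mul]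
          refine Finset.sum_congr rfl fun ψ hψ => ?_
          have := hC χ (Finset.mem_filter.mp hχ).2 ψ (Finset.mem_filter.mp hψ).2
          linear_combination (n χ * n ψ) * this
      _ = _ := by
          rw [Finset.sum_congr rfl fun χ _ => (Finset.mul_sum S (fun ψ => n ψ * (d ψ : ℤ)) (blockC p B θ θ * (n χ * d χ))).symm]
          simp only [hn, mul_one]
          rw [← Finset.mul_sum, hn, mul_one]
  have hCc : ∀ χ ∈ B, ∀ ψ ∈ B, blockC p B χ ψ = c * ((d χ : ℤ) * d ψ) := by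
    intro χ hχ ψ hψ
    refine mul_right_cancel₀ hdθ ?_
    rw [hC χ hχ ψ hψ, ← hcθ]
    ring
  have htr := sum_blockC_self hM hB
  rw [hl, Nat.cast_one, mul_one, ← Finset.sum_subtype S (fun χ => by simp [S]) (fun χ => blockC p B χ χ),
    Finset.sum_congr rfl fun χ hχ => hCc χ (Finset.mem_filter.mp hχ).2 χ (Finset.mem_filter.mp hχ).2,
    ← Finset.mul_sum] at htr
  -- the scalar is one
  have hnd : ¬ (p : ℤ) ∣ blockC p B θ θ := by
    intro hdvd'
    have hh0 : blockHeight p B (θ : G → ℂ) = 0 := (blockHeight_eq_zero_iff p hθ).mpr hmin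
    obtain ⟨hN, hfac⟩ := (regN_valuation hM hB hθ hθ).2.mp hh0
    have hspec := blockC_spec hM hB hθ θ
    rw [← hmin] at hspec
    have h2 : p ^ ((charDegree (θ : G → ℂ)).factorization p + 1) ∣ (regN p θ θ).natAbs := by
      rw [← Int.natCast_dvd, hspec, pow_succ, Nat.cast_mul]
      exact mul_dvd_mul_left _ hdvd'
    rw [hp.out.pow_dvd_iff_le_factorization (Int.natAbs_ne_zero.mpr hN), hfac] at h2
    omega
  have hpos : 0 < ∑ χ ∈ S, (d χ : ℤ) * d χ := lt_of_lt_of_le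
    (lt_of_le_of_ne (mul_self_nonneg _) (Ne.symm hdθ))
    (Finset.single_le_sum (f := fun χ => (d χ : ℤ) * d χ) (fun _ _ => mul_self_nonneg _) hθS)
  have hcpos : 0 < c := pos_of_mul_pos_left (by rw [htr]; exact_mod_cast pow_pos hp.out.pos _) hpos.le
  have hc1 : c = 1 := by
    have hcd : c.natAbs ∣ p ^ blockDefect p B := Int.natCast_dvd_natCast.mp (Int.natAbs_dvd.mpr ⟨_, htr.symm⟩)
    obtain ⟨i, -, hi⟩ := (Nat.dvd_prime_pow hp.out).mp hcd
    rcases i with - | i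
    · have := Int.natAbs_of_nonneg hcpos.le
      rw [hi] at this; simpa using this.symm
    · refine absurd ?_ hnd
      rw [← hcθ, ← Int.natAbs_of_nonneg hcpos.le, hi, pow_succ, Nat.cast_mul]
      exact ((dvd_mul_left _ _).mul_right _)
  refine ⟨g, d, n, hg0, hd, hn, fun χ hχ ψ hψ => by rw [hCc χ hχ ψ hψ, hc1, one_mul], ?_⟩
  rw [hc1, one_mul] at htr
  have h : ((∑ χ ∈ S, d χ ^ 2 : ℕ) : ℤ) = ((p ^ blockDefect p B : ℕ) : ℤ) := by
    rw [← htr]; push_cast
    exact Finset.sum_congr rfl fun χ _ => sq (d χ : ℤ)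
  exact_mod_cast h

end Cfsg.Lib.Blocks
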