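import Cfsg.Agent.Lib.Blocks.RegInner

/-!
# Restriction and induction across induced blocks
-/

namespace Cfsg.Lib.Blocks

open Cfsg.Lib.Characters Finset
open scoped ComplexConjugate Classical

set_option linter.unusedSectionVars false
set_option linter.style.haveILetI false
set_option linter.style.longLine false

variable {G : Type*} [Group G] [Fintype G]

theorem blockPart_one_eq_sum (B : Set (IrrCharacter G)) (θ : G → ℂ) :
    blockPart B θ 1
      = ∑ χ ∈ univ.filter (· ∈ B), classInner θ (χ : G → ℂ) * (χ : G → ℂ) 1 := by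
  rw [blockPart_eq_kerB, Finset.sum_filter]
  simp only [kerB, Finset.mul_sum]
  rw [Finset.sum_comm]
  refine Finset.sum_congr rfl fun χ _ => ?_
  split_ifs
  · simp only [classInner, Finset.mul_sum, Finset.sum_mul]
    refine Finset.sum_congr rfl fun h _ => ?_
    rw [char_inv_eq_conj χ.2.isCharacter]
    ring
  · simp

theorem blockPart_indFun_one_eq (H : Subgroup G) (B : Set (IrrCharacter G))
    (ξ : IrrCharacter H) :
    blockPart B (indFun H (ξ : H → ℂ)) 1
      = indFun H (ξ : H → ℂ) 1 * omega ξ (resSub H (blockE B)) := by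
  have h1 : (∑ h : H, (resSub H (blockE B)).coeff h * (ξ : H → ℂ) h)
      = (Nat.card G : ℂ)⁻¹ * ∑ χ ∈ univ.filter (· ∈ B),
          (χ : G → ℂ) 1 * ∑ h : H, (ξ : H → ℂ) h * conj ((χ : G → ℂ) h) := by
    simp only [coeff_resSub, coeff_blockE, blockCoeff_eq, Finset.mul_sum, Finset.sum_mul]
    rw [Finset.sum_comm, Finset.sum_filter]
    refine Finset.sum_congr rfl fun χ _ => ?_
    split_ifs
    · exact Finset.sum_congr rfl fun h _ => by ring
    · simp
  rw [blockPart_one_eq_sum, omega, h1, indFun_one_apply, ← mul_div_assoc, mul_comm (H.index : ℂ),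
    mul_assoc ((ξ : H → ℂ) 1), mul_div_assoc, mul_div_cancel₀ _ ξ.2.one_ne_zero, Finset.mul_sum,
    Finset.mul_sum]
  refine Finset.sum_congr rfl fun χ _ => ?_
  rw [classInner_indFun H _ χ.2.isClassFunction, classInner, ← H.card_mul_index, Nat.cast_mul]
  have := (Nat.cast_ne_zero (R := ℂ)).mpr (H.index_ne_zero_of_finite)
  have := (Nat.cast_ne_zero (R := ℂ)).mpr (Nat.card_pos (α := H)).ne'
  field_simp

variable {M : Ideal Cfsg.AlgInt} [M.IsPrime] {p : ℕ} [hp : Fact p.Prime]

theorem resSub_blockE_mem {B : Set (IrrCharacter G)} (hB : IsPBlock M B) (H : Subgroup G) :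
    resSub H (blockE B) ∈ locCenter H M :=
  ⟨(isClassElt_blockE B).resSub H, fun h => by
    rw [coeff_resSub, coeff_blockE]; exact blockCoeff_mem_locRing hB _⟩

theorem red_omega_resSub_blockE {H : Subgroup G} {b : Set (IrrCharacter H)}
    {B B₀ : Set (IrrCharacter G)} (hind : IsInducedBlock M H b B₀) {ξ : IrrCharacter H} (hξ : ξ ∈ b)
    (hB : IsPBlock M B) :
    red M (omega ξ (resSub H (blockE B))) = if B = B₀ then 1 else 0 := by
  rw [← lam_redG M ξ (resSub_blockE_mem hB H), ← resSub_redG, ← bIdem]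
  exact lam_resSub_resSub_eq hind hξ hB

theorem charDegree_indFun (H : Subgroup G) (ξ : IrrCharacter H) :
    ((charDegree (indFun H (ξ : H → ℂ)) : ℕ) : ℂ) = indFun H (ξ : H → ℂ) 1 ∧
      charDegree (indFun H (ξ : H → ℂ)) ≠ 0 := by
  have h : indFun H (ξ : H → ℂ) 1 = ((H.index * charDegree (ξ : H → ℂ) : ℕ) : ℂ) := by
    rw [indFun_one_apply, Nat.cast_mul, coe_charDegree]
  rw [charDegree_eq h]
  exact ⟨h.symm, Nat.mul_ne_zero H.index_ne_zero_of_finite (charDegree_pos ξ).ne'⟩

/-- The degree of the block projection of an induced character. -/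
theorem exists_nat_blockPart_indFun (hM : IsPModular p M) {H : Subgroup G}
    {b : Set (IrrCharacter H)} {B₀ : Set (IrrCharacter G)} (hind : IsInducedBlock M H b B₀)
    {ξ : IrrCharacter H} (hξ : ξ ∈ b) {B : Set (IrrCharacter G)} (hB : IsPBlock M B) :
    ∃ n : ℕ, blockPart B (indFun H (ξ : H → ℂ)) 1 = (n : ℂ) ∧
      (B = B₀ → n ≠ 0 ∧
        n.factorization p = (charDegree (indFun H (ξ : H → ℂ))).factorization p) ∧
      (B ≠ B₀ → n = 0 ∨
        (charDegree (indFun H (ξ : H → ℂ))).factorization p < n.factorization p) := by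
  obtain ⟨hD, hD0⟩ := charDegree_indFun H ξ
  set D := charDegree (indFun H (ξ : H → ℂ))
  have hnat : ∀ χ : IrrCharacter G, ∃ k : ℕ, classInner (indFun H (ξ : H → ℂ)) (χ : G → ℂ) = k :=
    fun χ => classInner_nat (isCharacter_indFun H ξ.2.isCharacter) χ.2.isCharacter
  choose k hk using hnat
  refine ⟨∑ χ ∈ univ.filter (· ∈ B), k χ * charDegree (χ : G → ℂ), ?_, ?_⟩
  · rw [blockPart_one_eq_sum]
    push_cast
    exact Finset.sum_congr rfl fun χ _ => by rw [hk, coe_charDegree]
  set n := ∑ χ ∈ univ.filter (· ∈ B), k χ * charDegree (χ : G → ℂ) with hn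
  have hbp : (n : ℂ) = blockPart B (indFun H (ξ : H → ℂ)) 1 := by
    rw [blockPart_one_eq_sum, hn]
    push_cast
    exact Finset.sum_congr rfl fun χ _ => by rw [hk, coe_charDegree]
  set w := omega ξ (resSub H (blockE B))
  have hw : w ∈ locRing M := omega_mem_locRing M ξ (resSub_blockE_mem hB H)
  have hnw : (n : ℂ) / (D : ℂ) = w := by
    rw [hbp, blockPart_indFun_one_eq, ← hD]
    exact mul_div_cancel_left₀ _ (Nat.cast_ne_zero.mpr hD0)
  have hred : red M w = if B = B₀ then 1 else 0 := red_omega_resSub_blockE hind hξ hB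
  constructor
  · intro h
    rw [if_pos h] at hred
    have hn0 : n ≠ 0 := fun h0 => by
      rw [h0, Nat.cast_zero, zero_div] at hnw
      rw [← hnw, red_zero] at hred
      exact zero_ne_one hred
    obtain ⟨h1, h2⟩ := natDiv_mem_iff hM hn0 hD0
    refine ⟨hn0, le_antisymm ?_ (h1.mp (hnw ▸ hw))⟩
    by_contra hlt
    push Not at hlt
    have := (memLocalIdeal_iff.mp (h2.mpr hlt)).2
    rw [hnw, hred] at this
    exact one_ne_zero this
  · intro h
    rw [if_neg h] at hred
    rcases eq_or_ne n 0 with h0 | hn0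
    · exact Or.inl h0
    · exact Or.inr ((natDiv_mem_iff hM hn0 hD0).2.mp (hnw ▸ memLocalIdeal_iff.mpr ⟨hw, hred⟩))

theorem exists_constituent (hM : IsPModular p M) {H : Subgroup G}
    {b : Set (IrrCharacter H)} {B : Set (IrrCharacter G)} (hind : IsInducedBlock M H b B)
    {ξ : IrrCharacter H} (hξ : ξ ∈ b) :
    ∃ χ ∈ B, classInner (fun h : H => (χ : G → ℂ) h) (ξ : H → ℂ) ≠ 0 := by
  obtain ⟨n, hn, h, -⟩ := exists_nat_blockPart_indFun hM hind hξ hind.2.1
  rw [blockPart_one_eq_sum] at hn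
  have hne : (n : ℂ) ≠ 0 := Nat.cast_ne_zero.mpr (h rfl).1
  rw [← hn] at hne
  obtain ⟨χ, hχ, hne⟩ := Finset.exists_ne_zero_of_sum_ne_zero hne
  refine ⟨χ, (Finset.mem_filter.mp hχ).2, fun h0 => hne ?_⟩
  rw [classInner_indFun H _ χ.2.isClassFunction, ← conj_classInner, h0, map_zero, zero_mul]

/-- A height zero character of the induced block has a height zero constituent of multiplicity
prime to `p` in the inducing block. -/
theorem exists_height_zero_constituent (hM : IsPModular p M) {H : Subgroup G}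
    {b : Set (IrrCharacter H)} {B : Set (IrrCharacter G)} (hind : IsInducedBlock M H b B)
    {χ : IrrCharacter G} (hχ : χ ∈ B) (h0 : blockHeight p B (χ : G → ℂ) = 0) :
    ∃ ξ ∈ b, blockHeight p b (ξ : H → ℂ) = 0 ∧
      ∃ n : ℕ, classInner (fun h : H => (χ : G → ℂ) h) (ξ : H → ℂ) = (n : ℂ) ∧ ¬ p ∣ n := by
  obtain ⟨ψ, hψ⟩ := IsPBlock.nonempty hind.1
  set θ : H → ℂ := fun h => (χ : G → ℂ) h with hθdef
  have hθ : IsCharacter H θ := isCharacter_restrict χ.2.isCharacter H
  have h1 : lam M ψ (redG M (zc p θ)) ≠ 0 := by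
    rw [hθdef, ← resSub_redG_zc p (χ : G → ℂ) H, (isInducedBlock_iff hind.1 hind.2.1 hψ hχ).mp hind _
      (isClassElt_redG M (zc_mem_locCenter (M := M) p χ.2.isCharacter).1)]
    exact (lam_zc_ne_zero_iff hM hind.2.1 hχ hχ).mpr h0
  obtain ⟨m, hm⟩ := exists_decomposition hθ
  have hdiv : regInner p θ (ψ : H → ℂ) / (ψ : H → ℂ) 1
      = ∑ ξ : IrrCharacter H, (m ξ : ℂ) * (regInner p (ξ : H → ℂ) (ψ : H → ℂ) / (ψ : H → ℂ) 1) := by
    conv_lhs => rw [hm, regInner_sum_left, Finset.sum_div]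
    exact Finset.sum_congr rfl fun ξ _ => mul_div_assoc _ _ _
  rw [lam_zc p hθ, hdiv, red_sum _ fun ξ _ =>
    mul_mem (natCast_mem _ _) (regInner_div_mem p ξ.2.isCharacter ψ)] at h1
  obtain ⟨ξ, -, hξ⟩ := Finset.exists_ne_zero_of_sum_ne_zero h1
  rw [red_mul (natCast_mem _ _) (regInner_div_mem p ξ.2.isCharacter ψ), mul_ne_zero_iff, red_natCast,
    ne_eq, natCast_resF_eq_zero hM, ← lam_zc p ξ.2.isCharacter] at hξ
  have hξb : ξ ∈ b := by
    by_contra hne
    exact hξ.2 (lam_zc_eq_zero hM fun hs => hne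
      (IsPBlock.mem_of_sameBlock hind.1 hψ (sameBlock_symm M hs)))
  refine ⟨ξ, hξb, (lam_zc_ne_zero_iff hM hind.1 hξb hψ).mp hξ.2, m ξ, ?_, hξ.1⟩
  conv_lhs => rw [hm]
  exact classInner_sum_irr (fun ψ => (m ψ : ℂ)) ξ

end Cfsg.Lib.Blocks
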