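import Cfsg.Agent.Lib.Blocks.Heights
import Cfsg.Agent.Lib.Blocks.SumSquares
import Cfsg.Agent.Lib.Blocks.Counting
import Cfsg.Agent.Lib.Blocks.Induction

/-!
# Robinson's count of blocks with a given normal defect group, and Green's Sylow intersection theorem
-/

namespace Cfsg.Lib.Blocks

open Cfsg.Lib.Characters Finset
open scoped ComplexConjugate Classical

set_option linter.unusedSectionVars false
set_option linter.style.longLine false
set_option linter.style.haveILetI false
set_option maxHeartbeats 1000000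

/-- The rank of a matrix does not change under an extension of fields. -/
theorem matrix_rank_map {K L m n : Type*} [Field K] [Field L] [Fintype m] [Fintype n]
    (f : K →+* L) (A : Matrix m n K) : (A.map f).rank = A.rank := by
  set T := Matrix.toLin' A
  set r := Module.finrank K (LinearMap.range T)
  set b := Module.finBasis K (LinearMap.range T)
  set inc : (Fin r → K) →ₗ[K] (m → K) := (LinearMap.range T).subtype ∘ₗ b.equivFun.symm.toLinearMap
  set cor : (n → K) →ₗ[K] (Fin r → K) := b.equivFun.toLinearMap ∘ₗ T.rangeRestrict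
  have hinc : LinearMap.ker inc = ⊥ := LinearMap.ker_eq_bot.mpr
    ((Submodule.injective_subtype _).comp b.equivFun.symm.injective)
  have hcor : LinearMap.range cor = ⊤ := LinearMap.range_eq_top.mpr
    (b.equivFun.surjective.comp T.surjective_rangeRestrict)
  obtain ⟨g, hg⟩ := inc.exists_leftInverse_of_injective hinc
  obtain ⟨h, hh⟩ := cor.exists_rightInverse_of_surjective hcor
  have hA : A = LinearMap.toMatrix' inc * LinearMap.toMatrix' cor := by
    rw [← LinearMap.toMatrix'_comp]
    have : inc ∘ₗ cor = T := by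
      ext v
      simp [inc, cor]
    rw [this, LinearMap.toMatrix'_toLin']
  set P := LinearMap.toMatrix' inc
  set Q := LinearMap.toMatrix' cor
  have hP : LinearMap.toMatrix' g * P = 1 := by
    rw [← LinearMap.toMatrix'_comp, hg, LinearMap.toMatrix'_id]
  have hQ : Q * LinearMap.toMatrix' h = 1 := by
    rw [← LinearMap.toMatrix'_comp, hh, LinearMap.toMatrix'_id]
  have key : ∀ {F : Type _} [Field F] (φ : K →+* F), (A.map φ).rank = r := by
    intro F _ φ
    refine le_antisymm ?_ ?_
    · rw [hA, Matrix.map_mul]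
      exact (Matrix.rank_mul_le_left _ _).trans ((Matrix.rank_le_card_width _).trans (by simp))
    · have h1 : (LinearMap.toMatrix' g).map φ * A.map φ * (LinearMap.toMatrix' h).map φ = 1 := by
        rw [← Matrix.map_mul, ← Matrix.map_mul, hA,
          show LinearMap.toMatrix' g * (P * Q) * LinearMap.toMatrix' h
            = (LinearMap.toMatrix' g * P) * (Q * LinearMap.toMatrix' h) by simp only [Matrix.mul_assoc],
          hP, hQ, one_mul, Matrix.map_one _ (map_zero φ) (map_one φ)]
      have h2 := congrArg Matrix.rank h1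
      rw [Matrix.rank_one, Fintype.card_fin] at h2
      rw [← h2]
      exact (Matrix.rank_mul_le_left _ _).trans (Matrix.rank_mul_le_right _ _)
  have hK : A.rank = r := rfl
  rw [key f, hK]

variable {G : Type*} [Group G] [Fintype G]
variable {p : ℕ} [hp : Fact p.Prime]

/-! ### The combinatorial count -/

/-- The right cosets of `S` split the pairs `(y, z)` with `z * y⁻¹ ∈ S`; unless some coset gives
`D` as intersection, the number of pairs is divisible by one more power of `p` than generic. -/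
theorem pairs_dvd {D : Subgroup G} [D.Normal] (hD : IsPGroup p D) (S : Sylow p G) (C₁ C₂ : ConjClasses G)
    (h₁ : ∀ y ∈ C₁.carrier, IsSylCent p y D) (h₂ : ∀ y ∈ C₂.carrier, IsSylCent p y D) :
    p ^ ((Nat.card G).factorization p - (Nat.card D).factorization p) ∣
        Nat.card {yz : G × G // yz.1 ∈ C₁.carrier ∧ yz.2 ∈ C₂.carrier ∧ yz.2 * yz.1⁻¹ ∈ (S : Subgroup G)} ∧
    ((∀ y ∈ C₁.carrier, (S : Subgroup G) ⊓ (S : Subgroup G).map (MulAut.conj y⁻¹).toMonoidHom ≠ D) →
      p ^ ((Nat.card G).factorization p - (Nat.card D).factorization p + 1) ∣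
        Nat.card {yz : G × G // yz.1 ∈ C₁.carrier ∧ yz.2 ∈ C₂.carrier ∧ yz.2 * yz.1⁻¹ ∈ (S : Subgroup G)}) := by
  set S' := (S : Subgroup G)
  set d := (Nat.card D).factorization p
  set a := (Nat.card G).factorization p
  have hDS : D ≤ S' := by
    obtain ⟨Q, hQ⟩ := hD.exists_le_sylow
    obtain ⟨g, hg⟩ := MulAction.exists_smul_eq G Q S
    intro x hx
    rw [show S' = ((g • Q : Sylow p G) : Subgroup G) from congrArg Sylow.toSubgroup hg.symm,
      Sylow.coe_subgroup_smul, Subgroup.mem_pointwise_smul_iff_inv_smul_mem]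
    exact hQ ((inferInstance : D.Normal).conj_mem x hx g⁻¹ |> fun h => by simpa [MulDistribMulAction.toMulAut] using h)
  have hcardD : Nat.card D = p ^ d := by
    obtain ⟨k, hk⟩ := hD.exists_card_eq
    simp only [d, hk, hp.out.factorization_pow, Finsupp.single_eq_same]
  have hcardS : Nat.card S' = p ^ a := S.card_eq_multiplicity
  set A : ConjClasses G → G ⧸ S' → Type _ := fun C c =>
    {y : G // y ∈ C.carrier ∧ (QuotientGroup.mk y⁻¹ : G ⧸ S') = c}
  have e : {yz : G × G // yz.1 ∈ C₁.carrier ∧ yz.2 ∈ C₂.carrier ∧ yz.2 * yz.1⁻¹ ∈ S'}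
      ≃ Σ c : G ⧸ S', A C₁ c × A C₂ c :=
    { toFun := fun w => ⟨QuotientGroup.mk w.1.1⁻¹, ⟨w.1.1, w.2.1, rfl⟩, ⟨w.1.2, w.2.2.1, by
        rw [QuotientGroup.eq, inv_inv]; exact w.2.2.2⟩⟩
      invFun := fun w => ⟨(w.2.1.1, w.2.2.1), w.2.1.2.1, w.2.2.2.1, by
        have := w.2.2.2.2.trans w.2.1.2.2.symm
        rw [QuotientGroup.eq, inv_inv] at this
        exact this⟩
      left_inv := fun w => rfl
      right_inv := by
        rintro ⟨c, ⟨y, hy, rfl⟩, ⟨z, hz, hzc⟩⟩
        rfl }
  rw [Nat.card_congr e, Nat.card_sigma]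
  simp only [Nat.card_prod]
  set f : G ⧸ S' → ℕ := fun c => Nat.card (A C₁ c) * Nat.card (A C₂ c)
  set R : G ⧸ S' → Subgroup S' := fun c => MulAction.stabilizer S' c
  have hRmem : ∀ (c : G ⧸ S') (y : G) (s : S'), (QuotientGroup.mk y⁻¹ : G ⧸ S') = c →
      (s ∈ R c ↔ y * (s : G) * y⁻¹ ∈ S') := by
    intro c y s hc
    rw [MulAction.mem_stabilizer_iff, ← hc]
    show (QuotientGroup.mk ((s : G) * y⁻¹) : G ⧸ S') = QuotientGroup.mk y⁻¹ ↔ _
    rw [QuotientGroup.eq]
    rw [show ((s : G) * y⁻¹)⁻¹ * y⁻¹ = (y * (s : G) * y⁻¹)⁻¹ by group, inv_mem_iff]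
  have hA : ∀ (C : ConjClasses G), (∀ y ∈ C.carrier, IsSylCent p y D) → ∀ c : G ⧸ S',
      ∀ q : ℕ, Nat.card (R c) = p ^ (d + q) → p ^ q ∣ Nat.card (A C c) := by
    intro C hC c q hq
    let act : MulAction (R c) (A C c) :=
      { smul := fun s y => ⟨((s : S') : G) * y.1 * ((s : S') : G)⁻¹, by
            have h1 := y.2.1
            rw [ConjClasses.mem_carrier_iff_mk_eq] at h1 ⊢
            exact (ConjClasses.mk_eq_mk_iff_isConj.mpr (isConj_iff.mpr ⟨((s : S') : G), rfl⟩).symm).trans h1, by
            refine Eq.trans ?_ ((congrArg (fun z : G ⧸ S' => (s : S') • z) y.2.2).trans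
              (MulAction.mem_stabilizer_iff.mp s.2))
            show QuotientGroup.mk _ = QuotientGroup.mk (((s : S') : G) * y.1⁻¹)
            rw [QuotientGroup.eq]
            simpa [mul_assoc] using inv_mem (s : S').2⟩
        one_smul := fun y => Subtype.ext
          (show (((1 : R c) : S') : G) * y.1 * (((1 : R c) : S') : G)⁻¹ = y.1 by simp)
        mul_smul := fun s t y => Subtype.ext
          (show (((s * t : R c) : S') : G) * y.1 * (((s * t : R c) : S') : G)⁻¹
            = ((s : S') : G) * (((t : S') : G) * y.1 * ((t : S') : G)⁻¹) * ((s : S') : G)⁻¹ by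
              simp [mul_assoc]) }
    haveI := Fintype.ofFinite (A C c)
    have hstab : ∀ y : A C c, Nat.card (MulAction.stabilizer (R c) y) = p ^ d := by
      intro y
      rw [← hcardD]
      refine le_antisymm ?_ ?_
      · -- the stabiliser centralises `y` and lies in a `p`-group
        set T := ((MulAction.stabilizer (R c) y).map (R c).subtype).map S'.subtype
        have hTp : IsPGroup p T := ((S.isPGroup'.to_subgroup _).to_subgroup _).map _ |>.map _
        have hTc : T ≤ Subgroup.centralizer ({y.1} : Set G) := by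
          rintro _ ⟨_, ⟨s, hs, rfl⟩, rfl⟩
          rw [Subgroup.mem_centralizer_singleton_iff]
          exact mul_inv_eq_iff_eq_mul.mp (congrArg Subtype.val (MulAction.mem_stabilizer_iff.mp hs))
        obtain ⟨x, -, hx⟩ := (hC y.1 y.2.1).exists_le hTp hTc
        have h := Subgroup.card_le_of_le hx
        rwa [card_conjSub, Subgroup.card_subtype, Subgroup.card_subtype] at h
      · refine Nat.card_le_card_of_injective (fun u : D =>
          (⟨⟨⟨(u : G), hDS u.2⟩, (hRmem c y.1 _ y.2.2).mpr
            (hDS ((inferInstance : D.Normal).conj_mem _ u.2 _))⟩,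
            MulAction.mem_stabilizer_iff.mpr (Subtype.ext ?_)⟩ : MulAction.stabilizer (R c) y))
          fun u v h => Subtype.ext (congrArg (fun w : MulAction.stabilizer (R c) y => (((w : R c) : S') : G)) h :)
        show (u : G) * y.1 * (u : G)⁻¹ = y.1
        rw [Subgroup.mem_centralizer_singleton_iff.mp ((hC y.1 y.2.1).le u.2), mul_inv_cancel_right]
    have horb : ∀ ω : MulAction.orbitRel.Quotient (R c) (A C c), Nat.card ω.orbit = p ^ q := by
      intro ω
      induction ω using Quotient.inductionOn' with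
      | h y =>
        show Nat.card (MulAction.orbit (R c) y) = _
        have h1 := MulAction.index_stabilizer (R c) y
        have h2 := (MulAction.stabilizer (R c) y).card_mul_index
        rw [hstab, h1, hq, pow_add, ← Nat.card_coe_set_eq] at h2
        exact Nat.eq_of_mul_eq_mul_left (pow_pos hp.out.pos d) h2
    rw [Nat.card_congr (MulAction.selfEquivSigmaOrbits' (R c) (A C c))]
    haveI := Fintype.ofFinite (MulAction.orbitRel.Quotient (R c) (A C c))
    rw [Nat.card_sigma, Finset.sum_congr rfl fun ω _ => horb ω, Finset.sum_const, smul_eq_mul]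
    exact dvd_mul_left _ _
  -- the contribution of an orbit of cosets
  have horbit : ∀ c : G ⧸ S', p ^ (a - d) ∣ Nat.card (MulAction.orbit S' c) * f c ∧
      ((∀ y ∈ C₁.carrier, S' ⊓ S'.map (MulAut.conj y⁻¹).toMonoidHom ≠ D) →
        p ^ (a - d + 1) ∣ Nat.card (MulAction.orbit S' c) * f c) := by
    intro c
    rcases isEmpty_or_nonempty (A C₁ c) with hE | ⟨⟨y⟩⟩
    · simp [f]
    obtain ⟨k, hk⟩ : ∃ k, Nat.card (R c) = p ^ k := (S.isPGroup'.to_subgroup _).exists_card_eq
    set DR := D.subgroupOf S'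
    have hDR : DR ≤ R c := fun s hs => (hRmem c y.1 s y.2.2).mpr
      (hDS ((inferInstance : D.Normal).conj_mem _ hs _))
    have hDRc : Nat.card DR = p ^ d :=
      (Nat.card_congr (Subgroup.subgroupOfEquivOfLe hDS).toEquiv).trans hcardD
    have hdk : d ≤ k := by
      have := Subgroup.card_le_of_le hDR
      rwa [hDRc, hk, Nat.pow_le_pow_iff_right hp.out.one_lt] at this
    obtain ⟨q, rfl⟩ := Nat.exists_eq_add_of_le hdk
    obtain ⟨u, hu⟩ := hA C₁ h₁ c q hk
    obtain ⟨v, hv⟩ := hA C₂ h₂ c q hk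
    have horb : Nat.card (MulAction.orbit S' c) * p ^ (d + q) = p ^ a := by
      rw [← hk, ← hcardS, Nat.card_coe_set_eq, ← MulAction.index_stabilizer, mul_comm]
      exact (R c).card_mul_index
    have hqa : d + q ≤ a := by
      have := Subgroup.card_le_card_group (R c)
      rwa [hk, hcardS, Nat.pow_le_pow_iff_right hp.out.one_lt] at this
    have horb' : Nat.card (MulAction.orbit S' c) * p ^ q = p ^ (a - d) := by
      refine Nat.eq_of_mul_eq_mul_right (pow_pos hp.out.pos d) ?_
      rw [mul_assoc, ← pow_add, ← pow_add, add_comm q d, horb, Nat.sub_add_cancel (by omega)]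
    have hprod : Nat.card (MulAction.orbit S' c) * f c = p ^ (a - d) * (p ^ q * (u * v)) := by
      simp only [f, hu, hv]
      rw [← horb']; ring
    refine ⟨hprod ▸ dvd_mul_right _ _, fun hne => ?_⟩
    rw [hprod, pow_succ]
    refine Nat.mul_dvd_mul_left _ ((dvd_pow_self p fun hq0 => hne y.1 y.2.1 ?_).mul_right _)
    subst hq0
    have heq : DR = R c := Subgroup.eq_of_le_of_card_ge hDR (by rw [hk, hDRc, add_zero])
    ext g
    rw [Subgroup.mem_inf, Subgroup.mem_map]
    constructor
    · rintro ⟨hg, w, hw, rfl⟩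
      have : (⟨_, hg⟩ : S') ∈ DR := heq ▸ (hRmem c y.1 _ y.2.2).mpr (by simpa [mul_assoc] using hw)
      exact this
    · intro hg
      exact ⟨hDS hg, y.1 * g * y.1⁻¹, hDS ((inferInstance : D.Normal).conj_mem _ hg _), by
        simp [mul_assoc]⟩
  have hf : ∀ (s : S') (c : G ⧸ S'), f (s • c) = f c := by
    have hconst : ∀ (C : ConjClasses G) (s : S') (c : G ⧸ S'),
        Nat.card (A C c) ≤ Nat.card (A C (s • c)) := by
      intro C s c
      refine Nat.card_le_card_of_injective
        (fun y : A C c => (⟨(s : G) * y.1 * (s : G)⁻¹, ?_, ?_⟩ : A C (s • c))) fun y z h => ?_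
      · have h1 := y.2.1
        rw [ConjClasses.mem_carrier_iff_mk_eq] at h1 ⊢
        exact (ConjClasses.mk_eq_mk_iff_isConj.mpr (isConj_iff.mpr ⟨(s : G), rfl⟩).symm).trans h1
      · refine Eq.trans ?_ (congrArg (fun z : G ⧸ S' => s • z) y.2.2)
        show QuotientGroup.mk _ = QuotientGroup.mk ((s : G) * y.1⁻¹)
        rw [QuotientGroup.eq]
        simpa [mul_assoc] using inv_mem s.2
      · exact Subtype.ext (mul_left_cancel (mul_right_cancel (congrArg Subtype.val h)))
    intro s c
    have h1 : ∀ C, Nat.card (A C (s • c)) = Nat.card (A C c) := fun C =>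
      le_antisymm (by simpa using hconst C s⁻¹ (s • c)) (hconst C s c)
    simp only [f, h1]
  have hsum : ∀ N : ℕ, (∀ c : G ⧸ S', N ∣ Nat.card (MulAction.orbit S' c) * f c) →
      N ∣ ∑ c : G ⧸ S', f c := by
    intro N hN
    rw [← Finset.sum_fiberwise_of_maps_to (s := univ)
      (t := univ) (g := fun c => (Quotient.mk'' c : MulAction.orbitRel.Quotient S' (G ⧸ S')))
      (fun _ _ => Finset.mem_univ _)]
    refine Finset.dvd_sum fun ω _ => ?_
    induction ω using Quotient.inductionOn' with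
    | h c =>
      refine (hN c).trans (dvd_of_eq ?_)
      rw [Finset.sum_congr rfl (g := fun _ => f c) fun c' hc' => ?_, Finset.sum_const, smul_eq_mul]
      swap
      · obtain ⟨s, rfl⟩ := Quotient.eq''.mp (Finset.mem_filter.mp hc').2
        exact hf s c
      · congr 1
        rw [Nat.card_eq_fintype_card, ← Fintype.card_coe]
        refine Fintype.card_congr (Equiv.subtypeEquivRight fun c' => ?_)
        simp only [Finset.mem_filter, Finset.mem_univ, true_and, Quotient.eq'']
        rfl
  exact ⟨hsum _ fun c => (horbit c).1, fun hne => hsum _ fun c => (horbit c).2 hne⟩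

/-! ### The character formula and the rank -/

variable {M : Ideal Cfsg.AlgInt} [M.IsPrime]

/-- The multiplicity of the trivial character in the restriction to `S`. -/
noncomputable def trivMult (S : Subgroup G) (χ : IrrCharacter G) : ℂ :=
  (∑ s : S, conj ((χ : G → ℂ) s)) / (Nat.card S : ℂ)

theorem isConj_inv {a b : G} (h : IsConj a b) : IsConj a⁻¹ b⁻¹ := by
  obtain ⟨c, rfl⟩ := isConj_iff.mp h
  exact isConj_iff.mpr ⟨c, by group⟩

theorem exists_trivMult_nat (S : Subgroup G) (χ : IrrCharacter G) : ∃ k : ℕ, trivMult S χ = k := by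
  obtain ⟨k, hk⟩ := classInner_nat (G := S) (isCharacter_one (G := S))
    (isCharacter_comp χ.2.isCharacter S.subtype)
  exact ⟨k, by rw [← hk, trivMult, classInner, div_eq_inv_mul]; simp⟩

theorem trivMult_mem (S : Subgroup G) (χ : IrrCharacter G) : trivMult S χ ∈ locRing M := by
  obtain ⟨k, hk⟩ := exists_trivMult_nat S χ
  rw [hk]
  exact natCast_mem _ _

theorem pairs_formula (S : Subgroup G) (x y : G) :
    (Nat.card {yz : G × G // yz.1 ∈ (ConjClasses.mk x).carrier ∧ yz.2 ∈ (ConjClasses.mk y).carrier ∧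
        yz.2 * yz.1⁻¹ ∈ S} : ℂ)
      = (Nat.card S : ℂ) / (Nat.card G : ℂ) * ∑ χ : IrrCharacter G,
          trivMult S χ * ((χ : G → ℂ) 1 *
            (centralChar (χ : G → ℂ) y * centralChar (χ : G → ℂ) x⁻¹)) := by
  set z := classSum ℂ y * classSum ℂ x⁻¹ with hz
  have hcl : IsClassElt z := (isClassElt_classSum ℂ y).mul (isClassElt_classSum ℂ x⁻¹)
  have h1 : (Nat.card {yz : G × G // yz.1 ∈ (ConjClasses.mk x).carrier ∧ yz.2 ∈ (ConjClasses.mk y).carrier ∧
      yz.2 * yz.1⁻¹ ∈ S} : ℂ) = ∑ s : S, z.coeff s := by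
    have hconv : ∀ g : G, (z.coeff g) = ((univ.filter fun a => IsConj y a ∧ IsConj x⁻¹ (a⁻¹ * g)).card : ℂ) := by
      intro g
      rw [hz, gr_mul_apply, Finset.card_filter, Nat.cast_sum]
      refine Finset.sum_congr rfl fun a _ => ?_
      simp only [coeff_classSum]
      by_cases h : IsConj y a <;> by_cases h' : IsConj x⁻¹ (a⁻¹ * g) <;> simp [h, h', -isConj_iff]
    rw [Finset.sum_congr rfl fun (s : S) _ => hconv (s : G), ← Nat.cast_sum, Nat.cast_inj, ← Finset.card_sigma,
      ← Nat.card_eq_finsetCard]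
    refine Nat.card_congr
      { toFun := fun w => ⟨⟨⟨w.1.2 * w.1.1⁻¹, w.2.2.2⟩, w.1.2⟩, ?_⟩
        invFun := fun w => ⟨((w.1.1 : G)⁻¹ * w.1.2, w.1.2), ?_⟩
        left_inv := fun w => Subtype.ext (Prod.ext (by simp) rfl)
        right_inv := fun w => Subtype.ext (Sigma.ext (Subtype.ext (by simp)) (heq_of_eq rfl)) }
    · have h1 := w.2.1
      have h2 := w.2.2.1
      rw [ConjClasses.mem_carrier_iff_mk_eq, ConjClasses.mk_eq_mk_iff_isConj] at h1 h2
      simp only [Finset.coe_sort_coe, Finset.mem_coe, Finset.mem_sigma, Finset.mem_univ, Finset.mem_filter, true_and]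
      refine ⟨h2.symm, ?_⟩
      rw [inv_mul_cancel_left]
      exact isConj_inv h1.symm
    · obtain ⟨-, hw⟩ := Finset.mem_sigma.mp w.2
      obtain ⟨h2, h3⟩ := (Finset.mem_filter.mp hw).2
      refine ⟨?_, ?_, by simp⟩
      · rw [ConjClasses.mem_carrier_iff_mk_eq, ConjClasses.mk_eq_mk_iff_isConj]
        simpa [-isConj_iff] using (isConj_inv h3).symm
      · rw [ConjClasses.mem_carrier_iff_mk_eq, ConjClasses.mk_eq_mk_iff_isConj]
        exact h2.symm
  rw [h1, Finset.sum_congr rfl fun (s : S) _ => coeff_eq_sum_omega hcl (s : G), ← Finset.mul_sum,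
    Finset.sum_comm, div_mul_eq_mul_div, div_eq_inv_mul, Finset.mul_sum (a := (Nat.card S : ℂ))]
  congr 1
  refine Finset.sum_congr rfl fun χ _ => ?_
  rw [← Finset.mul_sum, ← Finset.mul_sum, hz, omega_mul χ (isClassElt_classSum ℂ y) (isClassElt_classSum ℂ x⁻¹),
    omega_classSum, omega_classSum, trivMult]
  have : (Nat.card S : ℂ) ≠ 0 := Nat.cast_ne_zero.mpr Nat.card_pos.ne'
  field_simp

theorem sum_trivMult_degree (hM : IsPModular p M) {B : Set (IrrCharacter G)} (hB : IsPBlock M B)
    {S : Subgroup G} (hS : IsPGroup p S) :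
    ∑ χ ∈ univ.filter (· ∈ B), trivMult S χ * (χ : G → ℂ) 1
      = ((∑ χ ∈ univ.filter (· ∈ B), charDegree (χ : G → ℂ) ^ 2 : ℕ) : ℂ) / (Nat.card S : ℂ) := by
  simp only [trivMult, div_mul_eq_mul_div, ← Finset.sum_div, Finset.sum_mul]
  congr 1
  rw [Finset.sum_comm, Finset.sum_eq_single (1 : S)]
  · push_cast
    refine Finset.sum_congr rfl fun χ _ => ?_
    rw [← coe_charDegree χ, Complex.conj_natCast, sq]
  · intro s _ hs
    have hps : p ∣ orderOf (s : G) := by
      obtain ⟨k, hk⟩ := IsPGroup.iff_orderOf.mp hS s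
      rw [Subgroup.orderOf_coe, hk]
      rcases k with - | k
      · exact absurd (orderOf_eq_one_iff.mp (by rw [hk, pow_zero])) hs
      · exact dvd_pow_self p k.succ_ne_zero
    refine Eq.trans ?_ (kerB_eq_zero_of_regular hM hB (g := (1 : G)) (h := (s : G))
      (by simpa using hp.out.ne_one) hps)
    rw [kerB_eq_filter]
    exact Finset.sum_congr rfl fun χ _ => by rw [char_inv_eq_conj χ.2.isCharacter, mul_comm]
  · simp

theorem isSylCent_inv {D : Subgroup G} {x : G} (h : IsSylCent p x D) : IsSylCent p x⁻¹ D := by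
  have e : Subgroup.centralizer ({x⁻¹} : Set G) = Subgroup.centralizer ({x} : Set G) :=
    centralizer_inv_singleton x
  exact ⟨h.isPGroup, by rw [e]; exact h.le, by rw [e]; exact h.card_eq⟩

/-- Robinson: the number of blocks with normal defect group `D` is the rank of the matrix of pairs. -/
theorem robinson (hM : IsPModular p M) {D : Subgroup G} [D.Normal] (hD : IsPGroup p D) (S : Sylow p G)
    {ι : Type*} [Fintype ι] [DecidableEq ι] (K : ι → ConjClasses G) (hKinj : Function.Injective K)
    (hK : ∀ C : ConjClasses G, (∃ i, K i = C) ↔ ∃ x ∈ C.carrier, ¬ p ∣ orderOf x ∧ IsSylCent p x D) :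
    Nat.card {B : Set (IrrCharacter G) // IsPBlock M B ∧ IsDefectGroup p M B D}
      = (Matrix.of fun i j : ι =>
          ((Nat.card {yz : G × G // yz.1 ∈ (K i).carrier ∧ yz.2 ∈ (K j).carrier ∧
              yz.2 * yz.1⁻¹ ∈ (S : Subgroup G)}
            / p ^ ((Nat.card G).factorization p - (Nat.card D).factorization p) : ℕ) : ZMod p)).rank := by
  set S' := (S : Subgroup G)
  set d := (Nat.card D).factorization p
  set a := (Nat.card G).factorization p
  set n := a - d
  have hcardD : Nat.card D = p ^ d := by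
    obtain ⟨k, hk⟩ := hD.exists_card_eq
    simp only [d, hk, hp.out.factorization_pow, Finsupp.single_eq_same]
  have hda : d ≤ a :=
    (Nat.factorization_le_iff_dvd Nat.card_pos.ne' Nat.card_pos.ne').mpr (Subgroup.card_subgroup_dvd_card D) p
  have hcardS : Nat.card S' = p ^ a := S.card_eq_multiplicity
  have hconjD : ∀ g : G, conjSub g D = D := fun g => by
    ext y
    rw [mem_conjSub]
    exact ⟨fun h => by simpa [mul_assoc] using (inferInstance : D.Normal).conj_mem _ h g,
      fun h => by simpa [mul_assoc] using (inferInstance : D.Normal).conj_mem _ h g⁻¹⟩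
  have hclass : ∀ (i : ι), ∀ y ∈ (K i).carrier, ¬ p ∣ orderOf y ∧ IsSylCent p y D := by
    intro i y hy
    obtain ⟨x, hx, hxr, hxD⟩ := (hK _).mp ⟨i, rfl⟩
    rw [ConjClasses.mem_carrier_iff_mk_eq] at hx hy
    obtain ⟨g, rfl⟩ := isConj_iff.mp (ConjClasses.mk_eq_mk_iff_isConj.mp (hx.trans hy.symm))
    exact ⟨by rwa [← MulAut.conj_apply, MulEquiv.orderOf_eq], hconjD g ▸ hxD.conjSub g⟩
  set x : ι → G := fun i => cOut (K i)
  have hxmem : ∀ i, x i ∈ (K i).carrier := fun i =>
    ConjClasses.mem_carrier_iff_mk_eq.mpr (mk_cOut _)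
  have hmkx : ∀ i, ConjClasses.mk (x i) = K i := fun i => mk_cOut _
  -- the blocks
  set J := {B : Set (IrrCharacter G) // IsPBlock M B ∧ IsDefectGroup p M B D}
  haveI : Fintype J := Fintype.ofFinite J
  have hdJ : ∀ B : J, blockDefect p B.1 = d := fun B => by
    have h := card_defectGroup hM B.2.1 B.2.2
    rw [hcardD] at h
    exact (Nat.pow_right_injective hp.out.two_le h).symm
  choose χ₀ hχ₀ using fun B : J => IsPBlock.nonempty B.2.1
  -- inversion permutes the classes
  have hinv : ∀ i, ∃ j, K j = ConjClasses.mk (x i)⁻¹ := fun i => by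
    refine (hK _).mpr ⟨(x i)⁻¹, ConjClasses.mem_carrier_mk, ?_, isSylCent_inv (hclass i _ (hxmem i)).2⟩
    rw [orderOf_inv]; exact (hclass i _ (hxmem i)).1
  choose inv hinv' using hinv
  have hinvinv : ∀ i, inv (inv i) = i := fun i => hKinj (by
    rw [hinv', ← hmkx i, ConjClasses.mk_eq_mk_iff_isConj]
    simpa [-isConj_iff] using isConj_inv (ConjClasses.mk_eq_mk_iff_isConj.mp ((hmkx (inv i)).trans (hinv' i))))
  -- evaluation vectors and their orthogonality
  let E : Matrix J ι (ResF M) := fun B i => red M (blockCoeff B.1 (x i))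
  let R : Matrix J ι (ResF M) := fun B i => red M (centralChar (χ₀ B : G → ℂ) (x i))
  have horth : E * R.transpose = 1 := by
    ext B B'
    rw [Matrix.mul_apply, Matrix.one_apply]
    have h := sum_classes_coeff_mul B.2.1 (χ₀ B') (M := M)
    have hiff : χ₀ B' ∈ B.1 ↔ B = B' := ⟨fun hm =>
      Subtype.ext (IsPBlock.eq_of_mem B.2.1 B'.2.1 hm (hχ₀ B')), fun he => he ▸ hχ₀ B'⟩
    simp only [hiff] at h
    rw [← h]
    refine Eq.trans ?_ (Finset.sum_subset (Finset.subset_univ (univ.image K)) fun C _ hC => ?_)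
    · rw [Finset.sum_image fun i _ j _ hij => hKinj hij]
      rfl
    · by_contra h0
      obtain ⟨h1, h2⟩ := mul_ne_zero_iff.mp h0
      apply hC
      set g := cOut C
      obtain ⟨Q, hQ⟩ := exists_isSylCent p g
      obtain ⟨z, hz⟩ := le_conj_of_coeff_ne hM B.2.1 B.2.2 h1 hQ
      obtain ⟨w, hw⟩ := le_conj_of_centralChar_ne hM B'.2.1 B'.2.2 (hχ₀ B') h2 hQ
      rw [hconjD] at hw
      have hQD : D = Q := Subgroup.eq_of_le_of_card_ge hw (card_conjSub z Q ▸ Subgroup.card_le_of_le hz)
      obtain ⟨i, hi⟩ := (hK C).mpr ⟨g, ConjClasses.mem_carrier_iff_mk_eq.mpr (mk_cOut C),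
        not_dvd_of_coeff_ne hM B.2.1 h1, hQD ▸ hQ⟩
      exact Finset.mem_image.mpr ⟨i, Finset.mem_univ _, hi⟩
  -- the units attached to the blocks
  set m : IrrCharacter G → ℂ := fun χ => trivMult S' χ
  set v : ℂ := ((Nat.card G / p ^ a : ℕ) : ℂ)
  let c : J → ResF M := fun B =>
    red M ((∑ χ ∈ univ.filter (· ∈ B.1), m χ * (χ : G → ℂ) 1) / ((p ^ n : ℕ) : ℂ))
  have hpn : ((p ^ n : ℕ) : ℂ) ≠ 0 := Nat.cast_ne_zero.mpr (pow_ne_zero _ hp.out.ne_zero)
  have hdeg : ∀ B : J, ∀ χ ∈ B.1, (χ : G → ℂ) 1 / ((p ^ n : ℕ) : ℂ) ∈ locRing M := by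
    intro B χ hχ
    rw [← coe_charDegree χ]
    refine ((natDiv_mem_iff hM (charDegree_pos χ).ne' (pow_ne_zero _ hp.out.ne_zero)).1).mpr ?_
    rw [hp.out.factorization_pow, Finsupp.single_eq_same]
    have h1 := hdJ B
    rw [blockDefect] at h1
    have h2 := inf_le_factorization p hχ
    have h3 := charDegree_factorization_le (p := p) χ
    omega
  have hc : ∀ B : J, c B ≠ 0 := by
    intro B
    have hT := factorization_sum_sq hM B.2.1
    rw [hdJ] at hT
    set T := ∑ χ ∈ univ.filter (· ∈ B.1), charDegree (χ : G → ℂ) ^ 2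
    have hT0 : T ≠ 0 := by
      refine (Finset.sum_pos (fun χ _ => pow_pos (charDegree_pos χ) 2) ?_).ne'
      exact ⟨χ₀ B, Finset.mem_filter.mpr ⟨Finset.mem_univ _, hχ₀ B⟩⟩
    have he : (∑ χ ∈ univ.filter (· ∈ B.1), m χ * (χ : G → ℂ) 1) / ((p ^ n : ℕ) : ℂ)
        = (T : ℂ) / ((Nat.card S' * p ^ n : ℕ) : ℂ) := by
      rw [sum_trivMult_degree hM B.2.1 S.isPGroup', div_div, Nat.cast_mul]
    intro h0
    have hfac : (Nat.card S' * p ^ n).factorization p = a + n := by
      rw [hcardS, ← pow_add, hp.out.factorization_pow, Finsupp.single_eq_same]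
    obtain ⟨h1, h2⟩ := natDiv_mem_iff hM hT0 (mul_ne_zero Nat.card_pos.ne' (pow_ne_zero n hp.out.ne_zero))
      (a := T) (b := Nat.card S' * p ^ n)
    have hmem := h1.mpr (by rw [hfac, hT]; omega)
    have := h2.mp (memLocalIdeal_iff.mpr ⟨hmem, by rw [← he]; exact h0⟩)
    rw [hfac, hT] at this
    omega
  -- the entries
  set ω : ι → ι → ℕ := fun i j => Nat.card {yz : G × G // yz.1 ∈ (K i).carrier ∧ yz.2 ∈ (K j).carrier ∧
    yz.2 * yz.1⁻¹ ∈ S'}
  have hentry : ∀ i j, red M v * ((ω i j / p ^ n : ℕ) : ResF M)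
      = ∑ B : J, c B * (R B (inv i) * R B j) := by
    intro i j
    obtain ⟨hdvd, -⟩ := pairs_dvd hD S (K i) (K j) (fun y hy => (hclass i y hy).2) fun y hy => (hclass j y hy).2
    have hindex : ((Subgroup.centralizer ({x j} : Set G)).index).factorization p = n := by
      have h1 := (Subgroup.centralizer ({x j} : Set G)).index_mul_card
      have h2 : (Nat.card (Subgroup.centralizer ({x j} : Set G))).factorization p = d := by
        have h3 := (hclass j _ (hxmem j)).2.card_eq
        rw [hcardD] at h3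
        exact (Nat.pow_right_injective hp.out.two_le h3).symm
      have h4 := congrArg (fun k : ℕ => k.factorization p) h1
      simp only [Nat.factorization_mul Subgroup.index_ne_zero_of_finite Nat.card_pos.ne',
        Finsupp.add_apply, h2] at h4
      show _ = a - d
      omega
    set w : IrrCharacter G → ℂ := fun χ =>
      m χ * ((χ : G → ℂ) (x j) * (((Subgroup.centralizer ({x j} : Set G)).index : ℂ) / ((p ^ n : ℕ) : ℂ)))
    have hidx : ((Subgroup.centralizer ({x j} : Set G)).index : ℂ) / ((p ^ n : ℕ) : ℂ) ∈ locRing M :=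
      ((natDiv_mem_iff hM Subgroup.index_ne_zero_of_finite (pow_ne_zero _ hp.out.ne_zero)).1).mpr
        (by rw [hp.out.factorization_pow, Finsupp.single_eq_same, hindex])
    have hw : ∀ χ, w χ ∈ locRing M := fun χ =>
      mul_mem (trivMult_mem _ χ) (mul_mem (char_mem_locRing M χ _) hidx)
    have hcci : ∀ χ : IrrCharacter G, centralChar (χ : G → ℂ) (x i)⁻¹ = centralChar (χ : G → ℂ) (x (inv i)) := by
      intro χ
      have hconj : IsConj (x (inv i)) (x i)⁻¹ :=
        ConjClasses.mk_eq_mk_iff_isConj.mp ((hmkx (inv i)).trans (hinv' i))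
      rw [← omega_classSum, ← omega_classSum]
      congr 1
      refine gr_ext fun g => ?_
      simp only [coeff_classSum]
      exact if_congr ⟨fun h => hconj.trans h, fun h => hconj.symm.trans h⟩ rfl rfl
    have he : v * ((ω i j / p ^ n : ℕ) : ℂ) = ∑ χ : IrrCharacter G, w χ * centralChar (χ : G → ℂ) (x (inv i)) := by
      have hf := pairs_formula S' (x i) (x j)
      rw [hmkx, hmkx] at hf
      rw [Nat.cast_div hdvd hpn, show ((ω i j : ℕ) : ℂ) = _ from hf]
      have hG : (Nat.card G : ℂ) = v * (p ^ a : ℕ) := by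
        rw [← Nat.cast_mul, Nat.div_mul_cancel (Nat.ordProj_dvd _ _)]
      have hv : v ≠ 0 := fun h => by
        rw [h, zero_mul] at hG
        exact Nat.cast_ne_zero.mpr Nat.card_pos.ne' hG
      rw [hG, hcardS, Finset.mul_sum, Finset.sum_div, Finset.mul_sum]
      refine Finset.sum_congr rfl fun χ _ => ?_
      rw [hcci]
      have h1 := χ.2.one_ne_zero
      have hpa : ((p ^ a : ℕ) : ℂ) ≠ 0 := Nat.cast_ne_zero.mpr (pow_ne_zero _ hp.out.ne_zero)
      simp only [w, centralChar]
      field_simp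
      simp only [m, n, d, a]
      try ring
    have hsum := congrArg (red M) he
    rw [red_mul (natCast_mem _ _) (natCast_mem _ _), red_natCast (M := M) (n := ω i j / p ^ n),
      red_sum _ fun χ _ => mul_mem (hw χ) (centralChar_mem_locRing M χ _),
      Finset.sum_congr rfl fun χ _ => red_mul (hw χ) (centralChar_mem_locRing M χ _)] at hsum
    rw [hsum]
    -- only the blocks with defect group `D` contribute
    refine Eq.trans (Finset.sum_subset (Finset.subset_univ
      (univ.filter fun χ : IrrCharacter G => IsDefectGroup p M (blockOf M (χ : G → ℂ)) D))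
      fun χ _ hχ => ?_).symm ?_
    · by_contra h0
      apply hχ
      refine Finset.mem_filter.mpr ⟨Finset.mem_univ _, ?_⟩
      have hB : IsPBlock M (blockOf M (χ : G → ℂ)) := ⟨χ, rfl⟩
      obtain ⟨E', hE'⟩ := exists_defectGroup hM hB
      obtain ⟨w', hw'⟩ := le_conj_of_centralChar_ne hM hB hE' (mem_blockOf_self M χ)
        (mul_ne_zero_iff.mp h0).2 (hclass _ _ (hxmem (inv i))).2
      have hle := normal_le_defectGroup hM hB hE' hD
      rwa [Subgroup.eq_of_le_of_card_ge hle (card_conjSub w' E' ▸ Subgroup.card_le_of_le hw')]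
    rw [← Finset.sum_fiberwise_of_maps_to (t := (univ : Finset J).image fun B => B.1)
      (g := fun χ : IrrCharacter G => blockOf M (χ : G → ℂ)) (fun χ hχ => Finset.mem_image.mpr
        ⟨⟨_, ⟨χ, rfl⟩, (Finset.mem_filter.mp hχ).2⟩, Finset.mem_univ _, rfl⟩),
      Finset.sum_image fun B _ B' _ h => Subtype.ext h]
    refine Finset.sum_congr rfl fun B _ => ?_
    have hfil : (univ.filter fun χ : IrrCharacter G => IsDefectGroup p M (blockOf M (χ : G → ℂ)) D).filter
        (fun χ : IrrCharacter G => blockOf M (χ : G → ℂ) = B.1) = univ.filter (· ∈ B.1) := by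
      ext χ
      simp only [Finset.mem_filter, Finset.mem_univ, true_and]
      refine ⟨fun h => h.2 ▸ mem_blockOf_self M χ, fun h => ?_⟩
      have e := (IsPBlock.eq_blockOf B.2.1 h).symm
      exact ⟨e ▸ B.2.2, e⟩
    rw [hfil]
    have hlam : ∀ χ ∈ B.1, ∀ g, red M (centralChar (χ : G → ℂ) g) = red M (centralChar (χ₀ B : G → ℂ) g) :=
      fun χ hχ g => by
        rw [← lam_classSum, ← lam_classSum]
        exact lam_eq_of_sameBlock M (IsPBlock.sameBlock B.2.1 hχ (hχ₀ B)) _
    have hterm : ∀ χ ∈ B.1, red M (w χ) * red M (centralChar (χ : G → ℂ) (x (inv i)))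
        = red M (m χ * ((χ : G → ℂ) 1 / ((p ^ n : ℕ) : ℂ))) * (R B (inv i) * R B j) := by
      intro χ hχ
      rw [show w χ = m χ * ((χ : G → ℂ) 1 / ((p ^ n : ℕ) : ℂ)) * centralChar (χ : G → ℂ) (x j) by
          have h1 := χ.2.one_ne_zero
          simp only [w, centralChar]
          field_simp,
        red_mul (mul_mem (trivMult_mem _ χ) (hdeg B χ hχ)) (centralChar_mem_locRing M χ _),
        hlam χ hχ, hlam χ hχ]
      ring
    rw [Finset.sum_congr rfl fun χ hχ => hterm χ (Finset.mem_filter.mp hχ).2, ← Finset.sum_mul,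
      ← red_sum _ fun χ hχ => mul_mem (trivMult_mem _ χ) (hdeg B χ (Finset.mem_filter.mp hχ).2)]
    congr 2
    rw [Finset.sum_div]
    exact Finset.sum_congr rfl fun χ _ => (mul_div_assoc _ _ _).symm
  -- the rank
  haveI : CharP (ResF M) p := charP_resF hM
  set A := Matrix.of fun i j : ι => ((ω i j / p ^ n : ℕ) : ZMod p)
  show Nat.card J = A.rank
  rw [← matrix_rank_map (ZMod.castHom dvd_rfl (ResF M)) A, Nat.card_eq_fintype_card]
  set A' := A.map (ZMod.castHom dvd_rfl (ResF M))
  have hv0 : red M v ≠ 0 := red_ordCompl_ne hM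
  let R' : Matrix ι J (ResF M) := fun i B => R B (inv i)
  let E' : Matrix J ι (ResF M) := fun B i => E B (inv i)
  have hmat : red M v • A' = R' * Matrix.diagonal c * R := by
    ext i j
    rw [Matrix.mul_apply, Matrix.smul_apply, smul_eq_mul]
    show red M v * ZMod.castHom dvd_rfl (ResF M) ((ω i j / p ^ n : ℕ) : ZMod p) = _
    rw [map_natCast, hentry]
    exact Finset.sum_congr rfl fun B _ => by rw [Matrix.mul_diagonal]; ring
  have hE' : E' * R' = 1 := by
    rw [← horth]
    ext B B'
    rw [Matrix.mul_apply, Matrix.mul_apply]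
    exact Fintype.sum_bijective inv
      (Function.Involutive.bijective hinvinv) _ _ fun i => rfl
  have hR : R * E.transpose = 1 := by
    have := congrArg Matrix.transpose horth
    rwa [Matrix.transpose_mul, Matrix.transpose_transpose, Matrix.transpose_one] at this
  have hAsmul : A'.rank = (red M v • A').rank := by
    refine le_antisymm ?_ ?_
    · calc A'.rank = ((((red M v)⁻¹) • (1 : Matrix ι ι (ResF M))) * (red M v • A')).rank := by
            rw [Matrix.smul_mul, one_mul, smul_smul, inv_mul_cancel₀ hv0, one_smul]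
        _ ≤ _ := Matrix.rank_mul_le_right _ _
    · rw [show red M v • A' = (red M v • (1 : Matrix ι ι (ResF M))) * A' by rw [Matrix.smul_mul, one_mul]]
      exact Matrix.rank_mul_le_right _ _
  rw [hAsmul, hmat]
  refine le_antisymm ?_ ((Matrix.rank_mul_le_right _ _).trans (Matrix.rank_le_card_height _))
  have hdiag : E' * (R' * Matrix.diagonal c * R) * E.transpose = Matrix.diagonal c := by
    rw [← Matrix.mul_assoc, ← Matrix.mul_assoc, hE', one_mul, Matrix.mul_assoc, hR, mul_one]
  have hr : (Matrix.diagonal c).rank = Fintype.card J := by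
    rw [Matrix.rank_diagonal]
    exact Fintype.card_congr (Equiv.subtypeUnivEquiv hc)
  rw [← hr]
  conv_lhs => rw [← hdiag]
  exact (Matrix.rank_mul_le_left _ _).trans (Matrix.rank_mul_le_right _ _)

/-- With a block of normal defect group `D`, some regular `x` gives `D = S ∩ xSx⁻¹`. -/
theorem exists_inter_eq_of_normal (hM : IsPModular p M) {D : Subgroup G} [D.Normal] (S : Sylow p G)
    {B : Set (IrrCharacter G)} (hB : IsPBlock M B) (hBD : IsDefectGroup p M B D) :
    ∃ x : G, ¬ p ∣ orderOf x ∧ IsSylCent p x D ∧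
      (S : Subgroup G) ⊓ (S : Subgroup G).map (MulAut.conj x).toMonoidHom = D := by
  have hD := isPGroup_defectGroup hBD
  set Q : ConjClasses G → Prop := fun C => ∃ x ∈ C.carrier, ¬ p ∣ orderOf x ∧ IsSylCent p x D
  haveI : Fintype {C : ConjClasses G // Q C} := Fintype.ofFinite _
  have h := robinson hM hD S (fun i : {C : ConjClasses G // Q C} => i.1) Subtype.val_injective
    fun C => ⟨by rintro ⟨i, rfl⟩; exact i.2, fun h => ⟨⟨C, h⟩, rfl⟩⟩
  haveI : Nonempty {B : Set (IrrCharacter G) // IsPBlock M B ∧ IsDefectGroup p M B D} := ⟨⟨B, hB, hBD⟩⟩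
  have hpos : 0 < Nat.card {B : Set (IrrCharacter G) // IsPBlock M B ∧ IsDefectGroup p M B D} := Nat.card_pos
  by_contra hne
  push Not at hne
  have hconjD : ∀ g : G, conjSub g D = D := fun g => by
    ext y
    rw [mem_conjSub]
    exact ⟨fun h => by simpa [mul_assoc] using (inferInstance : D.Normal).conj_mem _ h g,
      fun h => by simpa [mul_assoc] using (inferInstance : D.Normal).conj_mem _ h g⁻¹⟩
  have hclass : ∀ i : {C : ConjClasses G // Q C}, ∀ y ∈ i.1.carrier, ¬ p ∣ orderOf y ∧ IsSylCent p y D := by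
    intro i y hy
    obtain ⟨x, hx, hxr, hxD⟩ := i.2
    rw [ConjClasses.mem_carrier_iff_mk_eq] at hx hy
    obtain ⟨g, rfl⟩ := isConj_iff.mp (ConjClasses.mk_eq_mk_iff_isConj.mp (hx.trans hy.symm))
    exact ⟨by rwa [← MulAut.conj_apply, MulEquiv.orderOf_eq], hconjD g ▸ hxD.conjSub g⟩
  rw [h] at hpos
  refine hpos.ne' ?_
  rw [← Matrix.rank_zero (R := ZMod p) (m := {C : ConjClasses G // Q C}) (n := {C : ConjClasses G // Q C})]
  congr 1
  ext i j
  rw [Matrix.of_apply, Matrix.zero_apply, ZMod.natCast_eq_zero_iff]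
  obtain ⟨h1, h2⟩ := pairs_dvd hD S i.1 j.1 (fun y hy => (hclass i y hy).2) fun y hy => (hclass j y hy).2
  refine Nat.dvd_div_of_mul_dvd ?_
  rw [← pow_succ]
  exact h2 fun y hy => hne y⁻¹ (by rw [orderOf_inv]; exact (hclass i y hy).1) (isSylCent_inv (hclass i y hy).2)

/-- Green: a defect group is an intersection of two Sylow subgroups. -/
theorem green_intersection (hM : IsPModular p M) {B : Set (IrrCharacter G)} (hB : IsPBlock M B)
    {D : Subgroup G} (hBD : IsDefectGroup p M B D) (P : Sylow p G) (hDP : D ≤ P) :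
    ∃ x : G, ¬ p ∣ orderOf x ∧ IsSylCent p x D ∧
      (P : Subgroup G) ⊓ (P : Subgroup G).map (MulAut.conj x).toMonoidHom = D := by
  have hD := isPGroup_defectGroup hBD
  set N := Subgroup.normalizer (D : Set G)
  obtain ⟨b, ⟨hb, hbD, -⟩, -⟩ := first_main_backward hM hD hB hBD
  haveI : Fintype N := Fintype.ofFinite N
  haveI : (D.subgroupOf N).Normal :=
    (Subgroup.normal_subgroupOf_iff_le_normalizer Subgroup.le_normalizer).mpr le_rfl
  have hPN : IsPGroup p ((P : Subgroup G).subgroupOf N) :=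
    P.isPGroup'.comap_of_injective N.subtype N.subtype_injective
  obtain ⟨S, hS⟩ := hPN.exists_le_sylow
  obtain ⟨x, hxr, hxD, hx⟩ := exists_inter_eq_of_normal hM S hb hbD
  have hxD' := isSylCent_of_normalizer hD hxD
  refine ⟨x, by rw [Subgroup.orderOf_coe]; exact hxr, hxD', ?_⟩
  set I := (P : Subgroup G) ⊓ (P : Subgroup G).map (MulAut.conj (x : G)).toMonoidHom
  have hDI : D ≤ I := le_inf hDP fun u hu => by
    refine ⟨(x : G)⁻¹ * u * x, hDP ?_, by simp [mul_assoc]⟩
    have := (Subgroup.mem_normalizer_iff.mp x.2 ((x : G)⁻¹ * u * x)).mpr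
    exact this (by simpa [mul_assoc] using hu)
  by_contra hne
  have hlt := lt_normalizer_inf (P.isPGroup'.to_le inf_le_left) (lt_of_le_of_ne hDI (Ne.symm hne))
  refine hlt.not_ge fun g hg => ?_
  obtain ⟨⟨hgP, hgc⟩, hgN⟩ := hg
  obtain ⟨w, hw, hwg⟩ := hgc
  have hwN : w ∈ N := by
    have : w = (x : G)⁻¹ * g * x := by rw [← hwg]; simp [mul_assoc]
    rw [this]
    exact mul_mem (mul_mem (inv_mem x.2) hgN) x.2
  have hmem : (⟨g, hgN⟩ : N) ∈ (S : Subgroup N) ⊓ (S : Subgroup N).map (MulAut.conj x).toMonoidHom :=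
    ⟨hS hgP, ⟨⟨w, hwN⟩, hS hw, Subtype.ext (by simpa using hwg)⟩⟩
  rw [hx] at hmem
  exact hmem

end Cfsg.Lib.Blocks
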