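import Cfsg.Prelude.Def_PLocal
import Cfsg.Agent.Lib.Transfer.Basic
import Cfsg.Agent.Lib.Transfer.Action

/-!
# A self-centralising element of prime order
-/

set_option autoImplicit false
set_option linter.unusedSectionVars false

namespace Cfsg.Lib.Blocks.SelfCentral

open scoped commutatorElement
open Subgroup

variable {G : Type*} [Group G] [Finite G] {p : ℕ} [hp : Fact p.Prime] {x : G}

/-- `⟨x⟩` is a Sylow subgroup. -/
theorem exists_sylow (hx : orderOf x = p) (hC : centralizer ({x} : Set G) = zpowers x) :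
    ∃ P : Sylow p G, (P : Subgroup G) = zpowers x := by
  have hpg : IsPGroup p (zpowers x) := IsPGroup.of_card (n := 1) (by rw [Nat.card_zpowers, hx, pow_one])
  obtain ⟨P, hP⟩ := hpg.exists_le_sylow
  refine ⟨P, le_antisymm ?_ hP⟩
  haveI : Nontrivial (P : Subgroup G) := by
    rw [Subgroup.nontrivial_iff_ne_bot]
    intro h
    rw [h, le_bot_iff, zpowers_eq_bot] at hP
    rw [hP, orderOf_one] at hx
    exact hp.out.ne_one hx.symm
  haveI := P.isPGroup'.center_nontrivial
  obtain ⟨⟨z, hz⟩, hz1⟩ := exists_ne (1 : center (P : Subgroup G))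
  have hcent : ∀ g ∈ (P : Subgroup G), (g : G) * z = z * g := fun g hg =>
    congrArg Subtype.val (Subgroup.mem_center_iff.mp hz ⟨g, hg⟩)
  have hzC : (z : G) ∈ zpowers x := by
    rw [← hC, mem_centralizer_iff]
    intro y hy
    rw [Set.mem_singleton_iff] at hy
    rw [hy]
    exact hcent x (hP (mem_zpowers x))
  have hzord : orderOf (z : G) = p := by
    have h1 : orderOf (z : G) ∣ p := by
      have := Subgroup.orderOf_dvd_natCard _ hzC
      rwa [Nat.card_zpowers, hx] at this
    refine ((Nat.dvd_prime hp.out).mp h1).resolve_left fun h => hz1 ?_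
    exact Subtype.ext (Subtype.ext (orderOf_eq_one_iff.mp h))
  have hgen : zpowers (z : G) = zpowers x :=
    Subgroup.eq_of_le_of_card_ge (zpowers_le.mpr hzC) (by rw [Nat.card_zpowers, Nat.card_zpowers, hzord, hx])
  intro g hg
  rw [← hC, mem_centralizer_iff]
  intro y hy
  rw [Set.mem_singleton_iff] at hy
  rw [hy]
  obtain ⟨i, hi⟩ := mem_zpowers_iff.mp (hgen.symm ▸ mem_zpowers x)
  rw [← hi]
  exact ((show Commute g (z : G) from hcent g hg).zpow_right i).eq.symm

/-- The subgroups of order `p` are counted by the index of the normaliser. -/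
theorem card_order_p (hx : orderOf x = p) (hC : centralizer ({x} : Set G) = zpowers x) :
    Nat.card {H : Subgroup G // Nat.card H = p} = (normalizer (zpowers x : Set G)).index := by
  obtain ⟨P, hP⟩ := exists_sylow hx hC
  have hcard : p ^ (Nat.card G).factorization p = p := by
    rw [← P.card_eq_multiplicity, hP, Nat.card_zpowers, hx]
  rw [← show ((P : Subgroup G) : Set G) = zpowers x by rw [hP]]
  rw [show Subgroup.normalizer ((P : Subgroup G) : Set G) = Subgroup.normalizer (P : Set G) from rfl,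
    ← P.card_eq_index_normalizer]
  refine Nat.card_congr (Equiv.ofBijective (fun H => Sylow.ofCard H.1 (H.2.trans hcard.symm)) ⟨?_, ?_⟩)
  · intro a b h
    exact Subtype.ext (congrArg Sylow.toSubgroup h)
  · intro Q
    exact ⟨⟨(Q : Subgroup G), by rw [Q.card_eq_multiplicity, hcard]⟩, Sylow.ext rfl⟩

theorem zpowers_eq_of_mem (hx : orderOf x = p) {y : G} (hy : y ∈ zpowers x) (hy1 : y ≠ 1) :
    zpowers y = zpowers x ∧ orderOf y = p := by
  have h1 : orderOf y ∣ p := by
    have := Subgroup.orderOf_dvd_natCard _ hy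
    rwa [Nat.card_zpowers, hx] at this
  have h2 := ((Nat.dvd_prime hp.out).mp h1).resolve_left fun h => hy1 (orderOf_eq_one_iff.mp h)
  exact ⟨Subgroup.eq_of_le_of_card_ge (zpowers_le.mpr hy) (by rw [Nat.card_zpowers, Nat.card_zpowers, h2, hx]), h2⟩

/-- The classes of elements of order `p` and the automiser. -/
theorem class_count (hx : orderOf x = p) (hC : centralizer ({x} : Set G) = zpowers x) :
    ∃ e : ℕ, Nat.card (normalizer (zpowers x : Set G)) = e * p ∧
      Nat.card {C : ConjClasses G // ∃ g ∈ C.carrier, orderOf g = p} * e = p - 1 := by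
  classical
  haveI := Fintype.ofFinite G
  haveI := Fintype.ofFinite (ConjClasses G)
  obtain ⟨P, hP⟩ := exists_sylow hx hC
  have hle : zpowers x ≤ normalizer (zpowers x : Set G) := le_normalizer
  refine ⟨(zpowers x).relIndex (normalizer (zpowers x : Set G)), ?_, ?_⟩
  · have h1 := Subgroup.relIndex_mul_relIndex ⊥ (zpowers x) (normalizer (zpowers x : Set G)) bot_le hle
    rw [Subgroup.relIndex_bot_left, Subgroup.relIndex_bot_left, Nat.card_zpowers, hx] at h1
    rw [← h1, mul_comm]
  set e := (zpowers x).relIndex (normalizer (zpowers x : Set G))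
  let s : Finset G := Finset.univ.filter fun y => y ∈ zpowers x ∧ y ≠ 1
  have hs : s.card = p - 1 := by
    have : s = (Finset.univ.filter fun y => y ∈ zpowers x).erase 1 := by
      ext y; simp [s, and_comm]
    rw [this, Finset.card_erase_of_mem (by simp)]
    congr 1
    rw [← Fintype.card_subtype, ← Nat.card_eq_fintype_card]
    exact (Nat.card_zpowers x).trans hx
  have himg : ∀ C : ConjClasses G, (∃ g ∈ C.carrier, orderOf g = p) ↔ C ∈ s.image ConjClasses.mk := by
    intro C
    rw [Finset.mem_image]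
    constructor
    · rintro ⟨g, hg, hgo⟩
      obtain ⟨Q, hQ⟩ := (IsPGroup.of_card (n := 1) (by rw [Nat.card_zpowers, hgo, pow_one]) :
        IsPGroup p (zpowers g)).exists_le_sylow
      obtain ⟨c, hc⟩ := MulAction.exists_smul_eq G Q P
      have hmem : c * g * c⁻¹ ∈ (P : Subgroup G) := by
        rw [← hc, Sylow.coe_subgroup_smul]
        exact ⟨g, hQ (mem_zpowers g), rfl⟩
      refine ⟨c * g * c⁻¹, Finset.mem_filter.mpr ⟨Finset.mem_univ _, hP ▸ hmem, fun h => ?_⟩, ?_⟩
      · rw [conj_eq_one_iff] at h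
        rw [h, orderOf_one] at hgo
        exact hp.out.ne_one hgo.symm
      · rw [← ConjClasses.mem_carrier_iff_mk_eq.mp hg]
        exact (ConjClasses.mk_eq_mk_iff_isConj.mpr (isConj_iff.mpr ⟨c, rfl⟩)).symm
    · rintro ⟨y, hy, rfl⟩
      obtain ⟨-, hyC, hy1⟩ := Finset.mem_filter.mp hy
      exact ⟨y, ConjClasses.mem_carrier_mk, (zpowers_eq_of_mem hx hyC hy1).2⟩
  rw [Nat.card_congr (Equiv.subtypeEquivRight himg), Nat.card_eq_fintype_card, Fintype.card_coe, ← hs,
    Finset.card_eq_sum_card_image ConjClasses.mk s, Finset.sum_const_nat]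
  intro C hC'
  obtain ⟨y, hy, rfl⟩ := Finset.mem_image.mp hC'
  obtain ⟨-, hyC, hy1⟩ := Finset.mem_filter.mp hy
  obtain ⟨hzy, -⟩ := zpowers_eq_of_mem hx hyC hy1
  rw [← Nat.card_eq_finsetCard]
  show _ = ((zpowers x).subgroupOf (normalizer (zpowers x : Set G))).index
  rw [Subgroup.index_eq_card]
  symm
  let f : normalizer (zpowers x : Set G) ⧸ (zpowers x).subgroupOf (normalizer (zpowers x : Set G)) →
      {z // z ∈ s.filter fun a => ConjClasses.mk a = ConjClasses.mk y} := fun q =>
    Quotient.liftOn' q (fun n => ⟨(n : G) * y * (n : G)⁻¹, Finset.mem_filter.mpr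
      ⟨Finset.mem_filter.mpr ⟨Finset.mem_univ _, (Subgroup.mem_normalizer_iff.mp n.2 y).mp hyC,
        fun h => hy1 (conj_eq_one_iff.mp h)⟩,
        (ConjClasses.mk_eq_mk_iff_isConj.mpr (isConj_iff.mpr ⟨(n : G), rfl⟩)).symm⟩⟩)
      (fun a b hab => by
        rw [QuotientGroup.leftRel_apply] at hab
        have hm : (a : G)⁻¹ * b ∈ zpowers x := hab
        replace hm := mem_centralizer_iff.mp ((SetLike.ext_iff.mp hC _).mpr hm)
        have hxc : x * ((a : G)⁻¹ * b) = ((a : G)⁻¹ * b) * x := hm x rfl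
        obtain ⟨i, hi⟩ := mem_zpowers_iff.mp hyC
        refine Subtype.ext ?_
        show (a : G) * y * (a : G)⁻¹ = (b : G) * y * (b : G)⁻¹
        have hyc : Commute ((a : G)⁻¹ * b) y := by
          rw [← hi]; exact (show Commute ((a : G)⁻¹ * b) x from hxc.symm).zpow_right i
        calc (a : G) * y * (a : G)⁻¹
            = (a : G) * (y * ((a : G)⁻¹ * b)) * (b : G)⁻¹ := by group
          _ = (a : G) * (((a : G)⁻¹ * b) * y) * (b : G)⁻¹ := by rw [hyc.eq]
          _ = _ := by group)
  refine Nat.card_congr (Equiv.ofBijective f ⟨?_, ?_⟩)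
  · intro qa qb h
    induction qa using Quotient.inductionOn' with
    | h a =>
      induction qb using Quotient.inductionOn' with
      | h b =>
        have h' : (a : G) * y * (a : G)⁻¹ = (b : G) * y * (b : G)⁻¹ := congrArg Subtype.val h
        refine Quotient.sound' ?_
        rw [QuotientGroup.leftRel_apply]
        show (a : G)⁻¹ * b ∈ zpowers x
        have hc : Commute ((a : G)⁻¹ * b) y := by
          show (a : G)⁻¹ * b * y = y * ((a : G)⁻¹ * b)
          calc (a : G)⁻¹ * b * y = (a : G)⁻¹ * ((b : G) * y * (b : G)⁻¹) * b := by group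
            _ = _ := by rw [← h']; group
        refine (SetLike.ext_iff.mp hC _).mp ?_
        rw [mem_centralizer_iff]
        intro z hz
        rw [Set.mem_singleton_iff] at hz
        obtain ⟨i, hi⟩ := mem_zpowers_iff.mp (hzy.symm ▸ mem_zpowers x)
        rw [hz]
        have h5 := (hc.zpow_right i).eq
        rw [hi] at h5
        exact h5.symm
  · rintro ⟨z, hz⟩
    obtain ⟨hz1, hz2⟩ := Finset.mem_filter.mp hz
    obtain ⟨-, hzC, hzne⟩ := Finset.mem_filter.mp hz1
    obtain ⟨g, hg⟩ := isConj_iff.mp (ConjClasses.mk_eq_mk_iff_isConj.mp hz2).symm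
    obtain ⟨hzz, -⟩ := zpowers_eq_of_mem hx hzC hzne
    have hgN : g ∈ normalizer (zpowers x : Set G) := by
      have hmap : (zpowers x).map (MulAut.conj g).toMonoidHom = zpowers x := by
        rw [← hzy, MonoidHom.map_zpowers, hzy]
        show zpowers (g * y * g⁻¹) = _
        rw [hg, hzz]
      rw [Subgroup.mem_normalizer_iff]
      intro h
      conv_rhs => rw [← hmap]
      exact (Subgroup.mem_map_iff_mem (f := (MulAut.conj g).toMonoidHom) (MulAut.conj g).injective).symm
    exact ⟨Quotient.mk'' ⟨g, hgN⟩, Subtype.ext hg⟩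

/-- The quotient of the normaliser by `⟨x⟩` is abelian. -/
theorem commutator_normalizer_mem (hC : centralizer ({x} : Set G) = zpowers x) {a b : G}
    (ha : a ∈ normalizer (zpowers x : Set G)) (hb : b ∈ normalizer (zpowers x : Set G)) :
    ⁅a, b⁆ ∈ zpowers x := by
  obtain ⟨i, hi⟩ := mem_zpowers_iff.mp ((Subgroup.mem_normalizer_iff.mp ha x).mp (mem_zpowers x))
  obtain ⟨j, hj⟩ := mem_zpowers_iff.mp ((Subgroup.mem_normalizer_iff.mp hb x).mp (mem_zpowers x))
  have hab : (a * b) * x * (a * b)⁻¹ = (b * a) * x * (b * a)⁻¹ := by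
    calc (a * b) * x * (a * b)⁻¹ = a * (b * x * b⁻¹) * a⁻¹ := by group
      _ = (a * x * a⁻¹) ^ j := by rw [← hj, conj_zpow]
      _ = (b * x * b⁻¹) ^ i := by rw [← hi, ← hj, ← zpow_mul, ← zpow_mul, mul_comm]
      _ = b * (a * x * a⁻¹) * b⁻¹ := by rw [← hi, conj_zpow]
      _ = _ := by group
  have key : Commute ((b * a)⁻¹ * (a * b)) x := by
    show (b * a)⁻¹ * (a * b) * x = x * ((b * a)⁻¹ * (a * b))
    calc (b * a)⁻¹ * (a * b) * x = (b * a)⁻¹ * ((a * b) * x * (a * b)⁻¹) * (a * b) := by group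
      _ = _ := by rw [hab]; group
  have hk : (b * a)⁻¹ * (a * b) ∈ zpowers x := by
    rw [← hC, mem_centralizer_iff]
    intro z hz
    rw [Set.mem_singleton_iff] at hz
    rw [hz]; exact key.eq.symm
  rw [show ⁅a, b⁆ = (b * a) * ((b * a)⁻¹ * (a * b)) * (b * a)⁻¹ by rw [commutatorElement_def]; group]
  exact (Subgroup.mem_normalizer_iff.mp (mul_mem hb ha) _).mp hk

theorem sylow_le (hx : orderOf x = p) (hC : centralizer ({x} : Set G) = zpowers x) (S : Subgroup G) [S.Normal]
    (hS : p ∣ Nat.card S) : x ∈ S := by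
  obtain ⟨P, hP⟩ := exists_sylow hx hC
  obtain ⟨s, hs⟩ := exists_prime_orderOf_dvd_card' p hS
  obtain ⟨Q, hQ⟩ := (IsPGroup.of_card (n := 1) (by rw [Nat.card_zpowers, Subgroup.orderOf_coe, hs, pow_one]) :
    IsPGroup p (zpowers (s : G))).exists_le_sylow
  obtain ⟨c, hc⟩ := MulAction.exists_smul_eq G Q P
  have hmem : c * (s : G) * c⁻¹ ∈ (P : Subgroup G) := by
    rw [← hc, Sylow.coe_subgroup_smul]
    exact ⟨(s : G), hQ (mem_zpowers _), rfl⟩
  have hne : c * (s : G) * c⁻¹ ≠ 1 := fun h => by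
    rw [conj_eq_one_iff, ← orderOf_eq_one_iff, Subgroup.orderOf_coe, hs] at h
    exact hp.out.ne_one h
  obtain ⟨i, hi⟩ := mem_zpowers_iff.mp ((zpowers_eq_of_mem hx (hP ▸ hmem) hne).1.symm ▸ mem_zpowers x)
  rw [← hi]
  exact S.zpow_mem (‹S.Normal›.conj_mem _ s.2 c) i

/-- A normal subgroup of order divisible by `p` contains the commutator subgroup. -/
theorem commutator_le (hx : orderOf x = p) (hC : centralizer ({x} : Set G) = zpowers x) (S : Subgroup G)
    [S.Normal] (hS : p ∣ Nat.card S) : commutator G ≤ S := by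
  obtain ⟨P, hP⟩ := exists_sylow hx hC
  have hxS : zpowers x ≤ S := zpowers_le.mpr (sylow_le hx hC S hS)
  have htop := Sylow.normalizer_sup_eq_top' P (hP ▸ hxS : (P : Subgroup G) ≤ S)
  rw [commutator_def, Subgroup.commutator_le]
  intro a _ b _
  obtain ⟨n, hn, u, hu, rfl⟩ := Subgroup.mem_sup_of_normal_right.mp (htop.symm ▸ Subgroup.mem_top a)
  obtain ⟨m, hm, v, hv, rfl⟩ := Subgroup.mem_sup_of_normal_right.mp (htop.symm ▸ Subgroup.mem_top b)
  rw [← QuotientGroup.eq_one_iff]
  have hn' : n ∈ normalizer (zpowers x : Set G) := by rw [← hP]; exact hn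
  have hm' : m ∈ normalizer (zpowers x : Set G) := by rw [← hP]; exact hm
  have h1 := (QuotientGroup.eq_one_iff (N := S) _).mpr (hxS (commutator_normalizer_mem hC hn' hm'))
  simp only [commutatorElement_def, QuotientGroup.mk_mul, QuotientGroup.mk_inv,
    (QuotientGroup.eq_one_iff u).mpr hu, (QuotientGroup.eq_one_iff v).mpr hv, mul_one] at h1 ⊢
  exact h1

section coprime

variable (S : Subgroup G) [S.Normal]

theorem fpf (hx : orderOf x = p) (hC : centralizer ({x} : Set G) = zpowers x) (hS : ¬ p ∣ Nat.card S)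
    {s : G} (hs : s ∈ S) (hc : Commute s x) : s = 1 := by
  have hmem : s ∈ zpowers x := by
    rw [← hC, mem_centralizer_iff]
    intro y hy
    rw [Set.mem_singleton_iff] at hy
    rw [hy]; exact hc.eq.symm
  by_contra hne
  exact hS ((zpowers_eq_of_mem hx hmem hne).2 ▸ Subgroup.orderOf_dvd_natCard _ hs)

/-- Commutation with `x` permutes a normal `p'`-subgroup. -/
theorem exists_commutator_eq (hx : orderOf x = p) (hC : centralizer ({x} : Set G) = zpowers x)
    (hS : ¬ p ∣ Nat.card S) (s : S) : ∃ u : S, (u : G) * x * (u : G)⁻¹ * x⁻¹ = s := by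
  let f : S → S := fun u => ⟨(u : G) * x * (u : G)⁻¹ * x⁻¹, by
    have : (u : G) * (x * (u : G)⁻¹ * x⁻¹) ∈ S := mul_mem u.2 (‹S.Normal›.conj_mem _ (inv_mem u.2) x)
    simpa [mul_assoc] using this⟩
  have hf : Function.Injective f := by
    intro a b h
    have h' : (a : G) * x * (a : G)⁻¹ * x⁻¹ = (b : G) * x * (b : G)⁻¹ * x⁻¹ := congrArg Subtype.val h
    rw [mul_left_inj] at h'
    have hc : Commute ((b : G)⁻¹ * a) x := by
      show (b : G)⁻¹ * a * x = x * ((b : G)⁻¹ * a)
      calc (b : G)⁻¹ * a * x = (b : G)⁻¹ * ((a : G) * x * (a : G)⁻¹) * a := by group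
        _ = _ := by rw [h']; group
    exact (Subtype.ext (inv_mul_eq_one.mp (fpf S hx hC hS (mul_mem (inv_mem b.2) a.2) hc))).symm
  obtain ⟨u, hu⟩ := (Finite.injective_iff_surjective.mp hf) s
  exact ⟨u, congrArg Subtype.val hu⟩

theorem le_commutator_of_mem (hx : orderOf x = p) (hC : centralizer ({x} : Set G) = zpowers x)
    (hS : ¬ p ∣ Nat.card S) (T : Subgroup G) (hST : S ≤ T) (hxT : x ∈ T) : S ≤ ⁅T, T⁆ := by
  intro s hs
  obtain ⟨u, hu⟩ := exists_commutator_eq S hx hC hS ⟨s, hs⟩
  have := Subgroup.commutator_mem_commutator (hST u.2) hxT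
  rw [commutatorElement_def, hu] at this
  exact this

theorem card_mod (hx : orderOf x = p) (hC : centralizer ({x} : Set G) = zpowers x) (hS : ¬ p ∣ Nat.card S) :
    Nat.card S % p = 1 := by
  have h := Cfsg.Lib.Transfer.card_modEq_card_inf_centralizer (p := p) S (zpowers x)
    (IsPGroup.of_card (n := 1) (by rw [Nat.card_zpowers, hx, pow_one]))
    (Subgroup.normalizer_eq_top (H := S) ▸ le_top)
  rw [show S ⊓ centralizer (zpowers x : Set G) = ⊥ from ?_, Subgroup.card_bot] at h
  · rw [Nat.ModEq, Nat.mod_eq_of_lt hp.out.one_lt] at h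
    exact h
  rw [eq_bot_iff]
  rintro s ⟨hs, hc⟩
  exact Subgroup.mem_bot.mpr (fpf S hx hC hS hs ((mem_centralizer_iff.mp hc) x (mem_zpowers x)).symm)

theorem inf_normalizer (hx : orderOf x = p) (hC : centralizer ({x} : Set G) = zpowers x) (hS : ¬ p ∣ Nat.card S) :
    Disjoint S (normalizer (zpowers x : Set G)) := by
  rw [Subgroup.disjoint_def]
  intro s hs hn
  refine fpf S hx hC hS hs ?_
  have h1 : s * x * s⁻¹ * x⁻¹ ∈ zpowers x :=
    mul_mem ((Subgroup.mem_normalizer_iff.mp hn x).mp (mem_zpowers x)) (inv_mem (mem_zpowers x))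
  have h2 : s * x * s⁻¹ * x⁻¹ ∈ S := by
    have : s * (x * s⁻¹ * x⁻¹) ∈ S := mul_mem hs (‹S.Normal›.conj_mem _ (inv_mem hs) x)
    simpa [mul_assoc] using this
  have h3 : s * x * s⁻¹ * x⁻¹ = 1 := by
    by_contra hne
    exact hS ((zpowers_eq_of_mem hx h1 hne).2 ▸ Subgroup.orderOf_dvd_natCard _ h2)
  show s * x = x * s
  calc s * x = s * x * s⁻¹ * x⁻¹ * (x * s) := by group
    _ = x * s := by rw [h3, one_mul]

theorem card_dvd_index (hx : orderOf x = p) (hC : centralizer ({x} : Set G) = zpowers x) (hS : ¬ p ∣ Nat.card S) :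
    Nat.card S ∣ (normalizer (zpowers x : Set G)).index := by
  have hd := inf_normalizer S hx hC hS
  have h1 : Nat.card ↥(normalizer (zpowers x : Set G) ⊔ S) = Nat.card S * Nat.card (normalizer (zpowers x : Set G)) := by
    rw [← Nat.card_prod]
    refine (Nat.card_congr (Equiv.ofBijective (fun q : S × normalizer (zpowers x : Set G) =>
      (⟨(q.1 : G) * q.2, mul_mem (mem_sup_right q.1.2) (mem_sup_left q.2.2)⟩ : ↥(normalizer (zpowers x : Set G) ⊔ S))) ⟨?_, ?_⟩)).symm
    · rintro ⟨a, b⟩ ⟨c, d⟩ h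
      have h' : (a : G) * b = (c : G) * d := congrArg Subtype.val h
      have h2 : (c : G)⁻¹ * a = (d : G) * (b : G)⁻¹ := by
        rw [inv_mul_eq_iff_eq_mul, ← mul_assoc, eq_mul_inv_iff_mul_eq]; exact h'
      have h3 := Subgroup.disjoint_def.mp hd (mul_mem (inv_mem c.2) a.2) (h2 ▸ mul_mem d.2 (inv_mem b.2))
      have h4 : a = c := Subtype.ext (inv_mul_eq_one.mp h3).symm
      subst h4
      exact Prod.ext rfl (Subtype.ext (mul_left_cancel h'))
    · rintro ⟨g, hg⟩
      rw [sup_comm] at hg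
      obtain ⟨a, ha, b, hb, rfl⟩ := Subgroup.mem_sup_of_normal_left.mp hg
      exact ⟨(⟨a, ha⟩, ⟨b, hb⟩), rfl⟩
  have h2 := Subgroup.card_dvd_of_le (le_top : normalizer (zpowers x : Set G) ⊔ S ≤ ⊤)
  rw [h1, Subgroup.card_top, ← Subgroup.card_mul_index (normalizer (zpowers x : Set G)), mul_comm (Nat.card S)] at h2
  exact (Nat.mul_dvd_mul_iff_left Nat.card_pos).mp h2

theorem quotient_props (hx : orderOf x = p) (hC : centralizer ({x} : Set G) = zpowers x) (hS : ¬ p ∣ Nat.card S) :
    orderOf (QuotientGroup.mk x : G ⧸ S) = p ∧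
      centralizer ({(QuotientGroup.mk x : G ⧸ S)} : Set (G ⧸ S)) = zpowers (QuotientGroup.mk x : G ⧸ S) := by
  have hxS : x ∉ S := fun h => hS (hx ▸ Subgroup.orderOf_dvd_natCard _ h)
  constructor
  · have h1 : orderOf (QuotientGroup.mk x : G ⧸ S) ∣ p := hx ▸ orderOf_map_dvd (QuotientGroup.mk' S) x
    exact ((Nat.dvd_prime hp.out).mp h1).resolve_left fun h =>
      hxS ((QuotientGroup.eq_one_iff x).mp (orderOf_eq_one_iff.mp h))
  · refine le_antisymm (fun q hq => ?_) (zpowers_le.mpr (by
      rw [mem_centralizer_iff]; intro z hz; rw [Set.mem_singleton_iff] at hz; rw [hz]))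
    obtain ⟨y, rfl⟩ := QuotientGroup.mk_surjective q
    have h1 : y * x * y⁻¹ * x⁻¹ ∈ S := by
      rw [← QuotientGroup.eq_one_iff, QuotientGroup.mk_mul, QuotientGroup.mk_mul, QuotientGroup.mk_mul,
        QuotientGroup.mk_inv, QuotientGroup.mk_inv, ← (mem_centralizer_iff.mp hq) _ rfl]
      group
    obtain ⟨u, hu⟩ := exists_commutator_eq S hx hC hS ⟨_, h1⟩
    simp only [mul_left_inj] at hu
    have hc : (u : G)⁻¹ * y ∈ zpowers x := by
      rw [← hC, mem_centralizer_iff]
      intro z hz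
      rw [Set.mem_singleton_iff] at hz
      rw [hz]
      calc x * ((u : G)⁻¹ * y) = (u : G)⁻¹ * ((u : G) * x * (u : G)⁻¹) * y := by group
        _ = _ := by rw [hu]; group
    obtain ⟨i, hi⟩ := mem_zpowers_iff.mp hc
    rw [show y = (u : G) * x ^ i by rw [hi, mul_inv_cancel_left], QuotientGroup.mk_mul,
      (QuotientGroup.eq_one_iff (u : G)).mpr u.2, one_mul, QuotientGroup.mk_zpow]
    exact zpow_mem_zpowers _ _

end coprime

theorem not_dvd_pPrimeCore : ¬ p ∣ Nat.card (Cfsg.pPrimeCore p G) := fun h =>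
  hp.out.ne_one (Nat.eq_one_of_dvd_coprimes (Cfsg.Lib.Transfer.coprime_card_pPrimeCore (G := G) p) h dvd_rfl)

theorem core_le_commutator (hx : orderOf x = p) (hC : centralizer ({x} : Set G) = zpowers x) :
    Cfsg.pPrimeCore p G ≤ commutator G := by
  haveI := Cfsg.Lib.Transfer.pPrimeCore_normal (G := G) p
  exact le_commutator_of_mem _ hx hC not_dvd_pPrimeCore ⊤ le_top (mem_top x)

theorem le_core (S : Subgroup G) [S.Normal] (hS : ¬ p ∣ Nat.card S) : S ≤ Cfsg.pPrimeCore p G :=
  Cfsg.Lib.Transfer.le_pPrimeCore ‹_› ((hp.out.coprime_iff_not_dvd.mpr hS).symm)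

/-- An abelian quotient by a normal `p'`-subgroup is cyclic of order `p`. -/
theorem eq_sup_of_abelian (hx : orderOf x = p) (hC : centralizer ({x} : Set G) = zpowers x)
    (S : Subgroup G) [S.Normal] (hS : ¬ p ∣ Nat.card S) (hab : commutator G ≤ S) :
    S.index = p ∧ S ⊔ zpowers x = ⊤ := by
  obtain ⟨h1, h2⟩ := quotient_props S hx hC hS
  have htop : zpowers (QuotientGroup.mk x : G ⧸ S) = ⊤ := by
    rw [← h2, eq_top_iff]
    intro q _
    obtain ⟨y, rfl⟩ := QuotientGroup.mk_surjective q
    rw [mem_centralizer_iff]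
    intro z hz
    rw [Set.mem_singleton_iff] at hz
    rw [hz, ← QuotientGroup.mk_mul, ← QuotientGroup.mk_mul, QuotientGroup.eq]
    have h3 := hab (Subgroup.commutator_mem_commutator (mem_top y⁻¹) (mem_top x⁻¹))
    rw [commutatorElement_def] at h3
    convert h3 using 1
    group
  refine ⟨?_, ?_⟩
  · rw [Subgroup.index_eq_card, ← Subgroup.card_top, ← htop, Nat.card_zpowers, h1]
  · rw [eq_top_iff]
    intro y _
    obtain ⟨i, hi⟩ := mem_zpowers_iff.mp (htop.symm ▸ mem_top (y : G ⧸ S))
    rw [← QuotientGroup.mk_zpow, QuotientGroup.eq] at hi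
    have h4 : x ^ i * ((x ^ i)⁻¹ * y) ∈ S ⊔ zpowers x :=
      mul_mem (mem_sup_right (zpow_mem_zpowers x i)) (mem_sup_left hi)
    rwa [mul_inv_cancel_left] at h4

/-- One class per generator: `G' = O_{p'}(G)` has index `p`. -/
theorem commutator_of_max (hx : orderOf x = p) (hC : centralizer ({x} : Set G) = zpowers x)
    (ht : Nat.card {C : ConjClasses G // ∃ g ∈ C.carrier, orderOf g = p} = p - 1) :
    commutator G = Cfsg.pPrimeCore p G ∧ (commutator G).index = p ∧
      Nat.card (commutator G) = (normalizer (zpowers x : Set G)).index := by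
  obtain ⟨e, he, hte⟩ := class_count hx hC
  rw [ht] at hte
  have he1 : e = 1 := (Nat.mul_eq_left (by have := hp.out.two_le; omega)).mp hte
  subst he1
  obtain ⟨P, hP⟩ := exists_sylow hx hC
  have hN : normalizer (zpowers x : Set G) = zpowers x :=
    (Subgroup.eq_of_le_of_card_ge le_normalizer (by rw [he, one_mul, Nat.card_zpowers, hx])).symm
  have hPN : normalizer (P : Set G) ≤ centralizer (P : Set G) := by
    show normalizer ((P : Subgroup G) : Set G) ≤ centralizer ((P : Subgroup G) : Set G)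
    rw [hP, hN]
    refine zpowers_le.mpr (mem_centralizer_iff.mpr fun y hy => ?_)
    obtain ⟨i, rfl⟩ := mem_zpowers_iff.mp hy
    exact ((Commute.refl x).zpow_left i).eq
  set K := (MonoidHom.transferSylow P hPN).ker
  have hKc : Subgroup.IsComplement' K (P : Subgroup G) := MonoidHom.ker_transferSylow_isComplement' P hPN
  have hKp : ¬ p ∣ Nat.card K := MonoidHom.not_dvd_card_ker_transferSylow P hPN
  have hKi : K.index = p := by rw [hKc.symm.index_eq_card, hP, Nat.card_zpowers, hx]
  haveI := Cfsg.Lib.Transfer.pPrimeCore_normal (G := G) p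
  have hcom : commutator G ≤ K := by
    haveI : IsCyclic (G ⧸ K) := isCyclic_of_prime_card (p := p) (by rw [← Subgroup.index_eq_card, hKi])
    letI := IsCyclic.commGroup (α := G ⧸ K)
    have := Abelianization.commutator_subset_ker (QuotientGroup.mk' K)
    rwa [QuotientGroup.ker_mk'] at this
  have hle1 := le_core K hKp
  have hle2 := core_le_commutator hx hC
  have heq : commutator G = Cfsg.pPrimeCore p G := le_antisymm (hcom.trans hle1) hle2
  have hK : commutator G = K := le_antisymm hcom (hle1.trans hle2)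
  refine ⟨heq, hK ▸ hKi, ?_⟩
  rw [hN, ← hP, hKc.index_eq_card, hK]

/-- Fewer classes: `x` lies in the commutator subgroup. -/
theorem dvd_commutator (hx : orderOf x = p) (hC : centralizer ({x} : Set G) = zpowers x)
    (ht : Nat.card {C : ConjClasses G // ∃ g ∈ C.carrier, orderOf g = p} ≠ p - 1) :
    p ∣ Nat.card (commutator G) := by
  by_contra hnd
  obtain ⟨e, he, hte⟩ := class_count hx hC
  obtain ⟨-, hsup⟩ := eq_sup_of_abelian hx hC (commutator G) hnd le_rfl
  have hN : normalizer (zpowers x : Set G) ≤ zpowers x := by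
    intro n hn
    obtain ⟨s, hs, c, hc, rfl⟩ := Subgroup.mem_sup_of_normal_left.mp (hsup.symm ▸ mem_top n)
    have hs' : s ∈ normalizer (zpowers x : Set G) := by
      have := mul_mem hn (inv_mem (le_normalizer hc))
      rwa [mul_inv_cancel_right] at this
    rw [Subgroup.disjoint_def.mp (inf_normalizer _ hx hC hnd) hs hs', one_mul]
    exact hc
  have h1 := Subgroup.card_le_of_le hN
  rw [he, Nat.card_zpowers, hx] at h1
  have he1 : e = 1 := by
    have h2 : e ≤ 1 := Nat.le_of_mul_le_mul_right (by rwa [one_mul]) hp.out.pos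
    rcases Nat.eq_zero_or_pos e with rfl | h
    · have := hp.out.two_le; omega
    · omega
  subst he1
  exact ht (by simpa using hte)

theorem index_commutator_dvd (hx : orderOf x = p) (hC : centralizer ({x} : Set G) = zpowers x)
    (hd : p ∣ Nat.card (commutator G)) {e : ℕ} (he : Nat.card (normalizer (zpowers x : Set G)) = e * p) :
    (commutator G).index ∣ e := by
  obtain ⟨P, hP⟩ := exists_sylow hx hC
  have hxG : zpowers x ≤ commutator G := zpowers_le.mpr (sylow_le hx hC _ hd)
  have htop := Sylow.normalizer_sup_eq_top' P (hP ▸ hxG : (P : Subgroup G) ≤ commutator G)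
  rw [show normalizer (P : Set G) = normalizer (zpowers x : Set G) by
    show normalizer ((P : Subgroup G) : Set G) = _; rw [hP]] at htop
  have hri : (commutator G).relIndex (normalizer (zpowers x : Set G)) = (commutator G).index := by
    rw [← Subgroup.relIndex_top_right, ← htop, Subgroup.relIndex_sup_right]
  have h1 := Subgroup.relIndex_mul_relIndex ⊥ (commutator G ⊓ normalizer (zpowers x : Set G))
    (normalizer (zpowers x : Set G)) bot_le inf_le_right
  rw [Subgroup.relIndex_bot_left, Subgroup.relIndex_bot_left, Subgroup.inf_relIndex_right, hri, he] at h1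
  obtain ⟨r, hr⟩ : p ∣ Nat.card ↥(commutator G ⊓ normalizer (zpowers x : Set G)) := by
    have := Subgroup.card_dvd_of_le (le_inf hxG le_normalizer : zpowers x ≤ commutator G ⊓ normalizer (zpowers x : Set G))
    rwa [Nat.card_zpowers, hx] at this
  refine ⟨r, Nat.eq_of_mul_eq_mul_right hp.out.pos ?_⟩
  rw [← h1, hr]
  ring

end Cfsg.Lib.Blocks.SelfCentral
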