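import Cfsg.Agent.Lib.Blocks.FreeNormalizer
import Cfsg.Agent.Lib.Blocks.MajorSubsection
import Cfsg.Agent.Lib.Blocks.DefectZero
import Cfsg.Agent.Lib.Blocks.Exists
import Cfsg.Agent.Lib.Characters.Normal

/-!
# Small characters when the nonidentity elements of a Sylow subgroup share one centralizer
-/

namespace Cfsg.Lib.SmallDegree

open Cfsg.Lib.Characters Cfsg.Lib.Blocks Cfsg.Lib.FreeNormalizer Finset
open scoped ComplexConjugate Classical

set_option linter.unusedSectionVars false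
set_option linter.style.haveILetI false
set_option linter.style.longLine false

universe u

variable {G : Type u} [Group G] [Fintype G] {p : ℕ} [Fact p.Prime] {P : Sylow p G}

/-- The hypothesis: every nonidentity element of `P` has the centralizer of `P`. -/
def SameCent (P : Sylow p G) : Prop :=
  ∀ x ∈ (P : Subgroup G), x ≠ 1 →
    Subgroup.centralizer ({x} : Set G) = Subgroup.centralizer ((P : Subgroup G) : Set G)

theorem SameCent.hyp (hs : SameCent P) : Hyp P where
  comm a b := by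
    by_cases ha : a = 1
    · rw [ha, one_mul, mul_one]
    have h1 : (a : G) ∈ Subgroup.centralizer ({(a : G)} : Set G) :=
      Subgroup.mem_centralizer_singleton_iff.mpr rfl
    rw [hs a a.2 fun h => ha (Subtype.ext h)] at h1
    exact Subtype.ext (Subgroup.mem_centralizer_iff.mp h1 b b.2).symm
  free y hy hy1 := by
    rw [hs y hy hy1]
    refine inf_eq_left.mpr fun c hc => Subgroup.mem_normalizer_iff.mpr fun a => ⟨fun ha => ?_, fun ha => ?_⟩
    · rw [← Subgroup.mem_centralizer_iff.mp hc a ha, mul_inv_cancel_right]; exact ha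
    · have h1 := Subgroup.mem_centralizer_iff.mp hc _ ha
      have h2 : c * a * c⁻¹ = a := by
        calc c * a * c⁻¹ = c⁻¹ * (c * (c * a * c⁻¹)) := by group
          _ = c⁻¹ * ((c * a * c⁻¹) * c) := by rw [h1]
          _ = a := by group
      rwa [h2] at ha

theorem classInner_const_one (f : G → ℂ) :
    classInner f (fun _ => 1) = (Nat.card G : ℂ)⁻¹ * ∑ g, f g := by
  simp [classInner]

/-- The multiplicities of a character, with degree and norm. -/
theorem exists_mults {H : Type*} [Group H] [Fintype H] {f : H → ℂ} (hf : IsCharacter H f) :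
    ∃ m : IrrCharacter H → ℕ, (f = ∑ θ, (m θ : ℂ) • (θ : H → ℂ)) ∧
      (f 1 = ((∑ θ, m θ * charDegree (θ : H → ℂ) : ℕ) : ℂ)) ∧
      classInner f f = ((∑ θ, m θ ^ 2 : ℕ) : ℂ) ∧ ∀ θ : IrrCharacter H, classInner f (θ : H → ℂ) = m θ := by
  obtain ⟨m, hm⟩ := exists_decomposition hf
  have hc : ∀ θ : IrrCharacter H, classInner f (θ : H → ℂ) = m θ := fun θ => by rw [hm, classInner_sum_irr]
  refine ⟨m, hm, ?_, ?_, hc⟩
  · conv_lhs => rw [hm]
    simp [Finset.sum_apply, coe_charDegree]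
  · rw [classInner_eq_sum (isClassFunction_of_isCharacter hf)]
    push_cast
    refine Finset.sum_congr rfl fun θ _ => ?_
    rw [hc, ← conj_classInner f, hc, map_natCast, sq]

theorem classInner_le_degree {H : Type*} [Group H] [Fintype H] {f : H → ℂ} (hf : IsCharacter H f)
    {k d : ℕ} (hk : classInner f (fun _ => 1) = k) (hd : f 1 = d) : k ≤ d := by
  obtain ⟨m, -, h1, -, hc⟩ := exists_mults hf
  have hk' : k = m (trivChar H) := by exact_mod_cast hk.symm.trans (hc (trivChar H))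
  have hd' : d = ∑ θ, m θ * charDegree (θ : H → ℂ) := by exact_mod_cast hd.symm.trans h1
  rw [hk', hd']
  refine le_trans ?_ (Finset.single_le_sum (fun θ _ => Nat.zero_le _) (Finset.mem_univ (trivChar H)))
  exact Nat.le_mul_of_pos_right _ (charDegree_pos _)

theorem norm_le_sq {H : Type*} [Group H] [Fintype H] {f : H → ℂ} (hf : IsCharacter H f)
    {k d : ℕ} (hk : classInner f f = k) (hd : f 1 = d) : k ≤ d ^ 2 := by
  obtain ⟨m, -, h1, h2, -⟩ := exists_mults hf
  have hk' : k = ∑ θ, m θ ^ 2 := by exact_mod_cast hk.symm.trans h2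
  have hd' : d = ∑ θ, m θ * charDegree (θ : H → ℂ) := by exact_mod_cast hd.symm.trans h1
  rw [hk', hd']
  refine (Finset.sum_sq_le_sq_sum_of_nonneg fun θ _ => Nat.zero_le _).trans ?_
  exact Nat.pow_le_pow_left (Finset.sum_le_sum fun θ _ => Nat.le_mul_of_pos_right _ (charDegree_pos θ)) 2

theorem coef_nonneg (χ : IrrCharacter G) (lam : ↥(P : Subgroup G) →* ℂˣ) : 0 ≤ coef χ lam := by
  obtain ⟨k, hk⟩ := classInner_nat (isCharacter_restrict χ.2.isCharacter (P : Subgroup G))
    (isIrrCharacter_linear lam).isCharacter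
  have h : ((coef χ lam : ℤ) : ℂ) = ((k : ℤ) : ℂ) := by
    rw [← coef_spec, Int.cast_natCast, ← hk]; rfl
  rw [Int.cast_inj.mp h]
  exact Int.natCast_nonneg k

theorem card_mul_coef (χ : IrrCharacter G) (lam : ↥(P : Subgroup G) →* ℂˣ) :
    (Nat.card ↥(P : Subgroup G) : ℂ) * coef χ lam = (χ : G → ℂ) 1 + cc χ lam := by
  rw [cc_eq]; ring

theorem coef_le_degree (χ : IrrCharacter G) : coef χ (1 : ↥(P : Subgroup G) →* ℂˣ) ≤ charDegree (χ : G → ℂ) := by
  obtain ⟨k, hk⟩ := classInner_nat (isCharacter_restrict χ.2.isCharacter (P : Subgroup G))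
    (isCharacter_one (G := ↥(P : Subgroup G)))
  have h : ((coef χ (1 : ↥(P : Subgroup G) →* ℂˣ) : ℤ) : ℂ) = ((k : ℤ) : ℂ) := by
    rw [← coef_spec, Int.cast_natCast, ← hk, classInner_const_one]
    simp
  rw [Int.cast_inj.mp h]
  exact_mod_cast classInner_le_degree (isCharacter_restrict χ.2.isCharacter (P : Subgroup G)) hk
    (show (χ : G → ℂ) ((1 : ↥(P : Subgroup G)) : G) = (charDegree (χ : G → ℂ) : ℂ) by
      rw [OneMemClass.coe_one, coe_charDegree])

theorem le_centralizer_sylow (hs : SameCent P) :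
    (P : Subgroup G) ≤ Subgroup.centralizer ((P : Subgroup G) : Set G) :=
  fun _ ha => Subgroup.mem_centralizer_iff.mpr fun b hb =>
    congrArg Subtype.val (hs.hyp.comm ⟨b, hb⟩ ⟨_, ha⟩)

/-- Linear characters of `P` occurring in `χ` give constituents on the centralizer. -/
theorem centralizer_bound (hs : SameCent P) (χ : IrrCharacter G)
    {C : Subgroup G} [Fintype C] (hC : C = Subgroup.centralizer ((P : Subgroup G) : Set G)) :
    ∃ M1 : ℕ, classInner (fun c : C => (χ : G → ℂ) c) (fun c : C => (χ : G → ℂ) c) = M1 ∧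
      (∀ S : Finset (↥(P : Subgroup G) →* ℂˣ), (∀ lam ∈ S, coef χ lam ≠ 0) →
        S.card ≤ M1 ∧ S.card ≤ charDegree (χ : G → ℂ)) ∧
      (M1 = 1 → ∀ w ∈ (P : Subgroup G),
        (χ : G → ℂ) w * conj ((χ : G → ℂ) w) = (χ : G → ℂ) 1 * (χ : G → ℂ) 1) := by
  have hPC : (P : Subgroup G) ≤ C := hC ▸ le_centralizer_sylow hs
  have hcen : ∀ w : ↥(P : Subgroup G), (⟨w, hPC w.2⟩ : C) ∈ Subgroup.center C := fun w =>
    Subgroup.mem_center_iff.mpr fun c => Subtype.ext
      (Subgroup.mem_centralizer_iff.mp (hC.le c.2) w w.2).symm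
  have hf := isCharacter_restrict χ.2.isCharacter C
  obtain ⟨m, hm, h1, h2, hmc⟩ := exists_mults hf
  refine ⟨∑ θ, m θ ^ 2, h2, fun S hS => ?_, fun hM1 w hw => ?_⟩
  · have key : ∀ lam ∈ S, ∃ θ : IrrCharacter C, m θ ≠ 0 ∧
        ∀ w : ↥(P : Subgroup G), (θ : C → ℂ) ⟨w, hPC w.2⟩ = (lam w : ℂ) * (θ : C → ℂ) 1 := by
      intro lam hlam
      by_contra hcon
      push Not at hcon
      refine hS lam hlam ?_
      have h : ((coef χ lam : ℤ) : ℂ) = ((0 : ℤ) : ℂ) := by
        rw [← coef_spec, Int.cast_zero]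
        refine mul_eq_zero_of_right _ ?_
        have e : ∀ w : ↥(P : Subgroup G), (χ : G → ℂ) w
            = ∑ θ : IrrCharacter C, (m θ : ℂ) * (θ : C → ℂ) ⟨w, hPC w.2⟩ := fun w => by
          have := congrFun hm ⟨w, hPC w.2⟩
          simpa [Finset.sum_apply] using this
        simp only [e, Finset.sum_mul]
        rw [Finset.sum_comm]
        refine Finset.sum_eq_zero fun θ _ => ?_
        by_cases hmθ : m θ = 0
        · simp [hmθ]
        obtain ⟨w₀, hw₀⟩ := hcon θ hmθ
        obtain ⟨ω, -, hω⟩ := exists_central_root θ (hcen w₀)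
        -- translation invariance of the sum
        set T := ∑ w : ↥(P : Subgroup G), (θ : C → ℂ) ⟨w, hPC w.2⟩ * conj (lam w : ℂ)
        have hT : ω * conj (lam w₀ : ℂ) * T = T := by
          rw [Finset.mul_sum]
          refine Fintype.sum_equiv (Equiv.mulLeft w₀) _ _ fun w => ?_
          show _ = (θ : C → ℂ) ⟨((w₀ * w : ↥(P : Subgroup G)) : G), _⟩ * conj (lam (w₀ * w) : ℂ)
          rw [show (⟨((w₀ * w : ↥(P : Subgroup G)) : G), hPC (w₀ * w).2⟩ : C)
              = ⟨w₀, hPC w₀.2⟩ * ⟨w, hPC w.2⟩ from rfl, hω, map_mul, Units.val_mul, map_mul]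
          ring
        have hT0 : T = 0 := by
          by_contra hne
          have he : ω * conj (lam w₀ : ℂ) = 1 := mul_left_eq_self₀.mp hT |>.resolve_right hne
          refine hw₀ ?_
          have hω1 := hω 1
          rw [mul_one] at hω1
          rw [hω1]
          congr 1
          calc ω = ω * (conj (lam w₀ : ℂ) * (lam w₀ : ℂ)) := by
                rw [← hom_inv_conj, ← Units.val_mul, ← map_mul, inv_mul_cancel, map_one, Units.val_one,
                  mul_one]
            _ = (lam w₀ : ℂ) := by rw [← mul_assoc, he, one_mul]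
        simp only [mul_assoc, ← Finset.mul_sum]
        exact mul_eq_zero_of_right _ hT0
      exact_mod_cast h
    choose t ht htv using key
    let U : Finset (IrrCharacter C) := S.attach.image fun l => t l.1 l.2
    have hU : U.card = S.card := by
      rw [Finset.card_image_of_injective _ ?_, Finset.card_attach]
      rintro ⟨a, ha⟩ ⟨b, hb⟩ (hab : t a ha = t b hb)
      refine Subtype.ext (MonoidHom.ext fun w => Units.ext ?_)
      have h := htv a ha w
      rw [hab, htv b hb w] at h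
      exact mul_right_cancel₀ (t b hb).2.one_ne_zero h.symm
    have hpos : ∀ θ ∈ U, 1 ≤ m θ := fun θ hθ => by
      obtain ⟨l, -, rfl⟩ := Finset.mem_image.mp hθ
      exact Nat.one_le_iff_ne_zero.mpr (ht l.1 l.2)
    have hd : charDegree (χ : G → ℂ) = ∑ θ, m θ * charDegree (θ : C → ℂ) := by
      have : ((charDegree (χ : G → ℂ) : ℕ) : ℂ) = ((∑ θ, m θ * charDegree (θ : C → ℂ) : ℕ) : ℂ) := by
        rw [← h1, coe_charDegree, OneMemClass.coe_one]
      exact_mod_cast this
    refine ⟨?_, ?_⟩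
    · rw [← hU, Finset.card_eq_sum_ones]
      refine (Finset.sum_le_sum fun θ hθ => ?_).trans
        (Finset.sum_le_sum_of_subset (Finset.subset_univ U))
      exact Nat.one_le_pow _ _ (hpos θ hθ)
    · rw [hd, ← hU, Finset.card_eq_sum_ones]
      refine (Finset.sum_le_sum fun θ hθ => ?_).trans
        (Finset.sum_le_sum_of_subset (Finset.subset_univ U))
      exact Nat.one_le_iff_ne_zero.mpr (Nat.mul_ne_zero
        (Nat.one_le_iff_ne_zero.mp (hpos θ hθ)) (charDegree_pos θ).ne')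
  · have hirr : IsIrrCharacter C (fun c : C => (χ : G → ℂ) c) :=
      isIrrCharacter_of_classInner_eq_one hf (by rw [h2, hM1, Nat.cast_one])
    obtain ⟨ω, hω1, hω⟩ := exists_central_root (⟨_, hirr⟩ : IrrCharacter C) (hcen ⟨w, hw⟩)
    have h := hω 1
    rw [mul_one] at h
    have hv : (χ : G → ℂ) w = ω * (χ : G → ℂ) 1 := by simpa using h
    have hn : ω * conj ω = 1 := by
      have h2 : (χ : G → ℂ) w⁻¹ = conj ((χ : G → ℂ) w) := char_inv_eq_conj χ.2.isCharacter w
      have h3 := hω (⟨w, hPC hw⟩⁻¹ : C)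
      rw [mul_inv_cancel] at h3
      have h4 : (χ : G → ℂ) 1 = ω * (χ : G → ℂ) w⁻¹ := by simpa using h3
      rw [h2, hv, map_mul, conj_char_one χ.2.isCharacter, ← mul_assoc] at h4
      exact (mul_left_eq_self₀.mp h4.symm).resolve_right χ.2.one_ne_zero
    rw [hv, map_mul, conj_char_one χ.2.isCharacter]
    linear_combination ((χ : G → ℂ) 1 * (χ : G → ℂ) 1) * hn

variable {M : Ideal Cfsg.AlgInt} [M.IsPrime]

/-- The principal block part of a class function at a nonidentity element of `P`. -/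
theorem sum_kerB_mul (hs : SameCent P) (hM : IsPModular p M) {φ : G → ℂ} (hφ : IsClassFunction G φ)
    {C : Subgroup G} [Fintype C] (hC : C = Subgroup.centralizer ((P : Subgroup G) : Set G))
    {w : ↥(P : Subgroup G)} (hw : w ≠ 1) :
    ∑ g, φ g * kerB (principalBlock M G) (w : G) g
      = (C.index : ℂ) * (Nat.card ↥(P : Subgroup G) : ℂ) *
          ∑ v : C, if p ∣ orderOf v then 0 else φ ((w : G) * v) := by
  have hw' : (w : G) ≠ 1 := fun h => hw (Subtype.ext h)
  obtain rfl : C = Subgroup.centralizer ({(w : G)} : Set G) := hC.trans (hs w w.2 hw').symm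
  have hF : IsClassFunction G fun g => φ g * kerB (principalBlock M G) (w : G) g := fun g a => by
    show φ (a * g * a⁻¹) * _ = φ g * _
    rw [hφ g a, kerB_congr_isConj (principalBlock M G) (IsConj.refl (w : G))
      (IsConj.symm (isConj_iff.mpr ⟨a, rfl⟩))]
  have h := sum_section (p := p) (w : G) (pow_order w) hF
  rw [Finset.sum_congr rfl (g := fun g => φ g * kerB (principalBlock M G) (w : G) g) fun g _ => ?_] at h
  · rw [h, mul_assoc]
    congr 1
    rw [Finset.mul_sum]
    refine Finset.sum_congr (by ext; simp) fun v _ => ?_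
    split_ifs with hv
    · rw [mul_zero]
    have hp' : IsPPart p ((w : G) * v) (w : G) :=
      ⟨v, rfl, (Subgroup.mem_centralizer_singleton_iff.mp v.2).symm, pow_order w,
        by rwa [Subgroup.orderOf_coe]⟩
    rw [show kerB (principalBlock M G) (w : G) ((w : G) * v) = (Nat.card ↥(P : Subgroup G) : ℂ) from ?_]
    · ring
    rw [← sum_B0_mul, Finset.sum_congr rfl fun χ hχ => by
        rw [apply_section hs.hyp hM (mem_B0.mp hχ) hp' w.2 hw'], sum_B0_mul,
      kerB_sylow hs.hyp hM hw, if_pos (IsConj.refl _)]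
  · split_ifs with hg
    · rfl
    · obtain ⟨a, b, hab, hc, ha, hb⟩ := exists_pPart_commute (p := p) g
      refine (mul_eq_zero_of_right _ (kerB_eq_zero_of_not_isConj hM isPBlock_principal
        (x := (w : G)) (x' := a)
        ⟨1, mul_one _, Commute.one_right _, pow_order w, by simpa using (Fact.out : p.Prime).ne_one⟩
        ⟨b, hab, hc, ha, hb⟩ fun hconj => hg ⟨a, b, hab, hc, ha, hb, hconj⟩)).symm

/-- Multiplicity of the principal character of `P` in the principal block part of `χ * conj χ`. -/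
theorem block_mult_eq (hs : SameCent P) (hM : IsPModular p M) (hP : 1 < Nat.card ↥(P : Subgroup G))
    (χ : IrrCharacter G) {x : ℕ} (hx : (χ : G → ℂ) 1 = x) (hdeg : x ^ 2 < Nat.card ↥(P : Subgroup G))
    {C : Subgroup G} [Fintype C] (hC : C = Subgroup.centralizer ((P : Subgroup G) : Set G))
    {M1 : ℕ} (hM1 : classInner (fun c : C => (χ : G → ℂ) c) (fun c : C => (χ : G → ℂ) c) = M1) :
    ∃ n : IrrCharacter G → ℕ, n (trivChar G) = 1 ∧
      ∑ ζ ∈ B0 M, n ζ * charDegree (ζ : G → ℂ) ≤ x ^ 2 ∧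
      ∑ ζ ∈ B0 M, (n ζ : ℤ) * coef ζ (1 : ↥(P : Subgroup G) →* ℂˣ) = M1 := by
  set φ : G → ℂ := (χ : G → ℂ) * fun g => conj ((χ : G → ℂ) g) with hφdef
  have hφ : IsCharacter G φ := isCharacter_mul χ.2.isCharacter (isCharacter_conj χ.2.isCharacter)
  obtain ⟨n, hn, hn1, -, hnc⟩ := exists_mults hφ
  have hφ1 : φ 1 = ((x ^ 2 : ℕ) : ℂ) := by
    rw [hφdef, Pi.mul_apply, hx, map_natCast]; push_cast; ring
  have htriv : n (trivChar G) = 1 := by
    have h : ((n (trivChar G) : ℕ) : ℂ) = ((1 : ℕ) : ℂ) := by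
      rw [← hnc, Nat.cast_one, ← classInner_irr_self χ.2]
      show classInner φ (fun _ => (1 : ℂ)) = _
      simp [classInner, hφdef]
    exact_mod_cast h
  have hle : ∑ ζ ∈ B0 M, n ζ * charDegree (ζ : G → ℂ) ≤ x ^ 2 := by
    refine (Finset.sum_le_sum_of_subset (Finset.subset_univ _)).trans (le_of_eq ?_)
    exact_mod_cast hn1.symm.trans hφ1
  refine ⟨n, htriv, hle, ?_⟩
  set O := pPrimeCore p C
  haveI : Nontrivial ↥(P : Subgroup G) := Finite.one_lt_card_iff_nontrivial.mp hP
  obtain ⟨w₀, hw₀⟩ := exists_ne (1 : ↥(P : Subgroup G))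
  have hw₀' : (w₀ : G) ≠ 1 := fun h => hw₀ (Subtype.ext h)
  obtain ⟨hcard, hregO⟩ := centralizer_complement hs.hyp hw₀ C (hC.trans (hs _ w₀.2 hw₀').symm)
  have hOreg : ∀ v : C, v ∈ O ↔ ¬ p ∣ orderOf v := fun v => ⟨fun hv hd =>
    Cfsg.Lib.Solv.not_dvd_card_pPrimeCore (G := C) p (hd.trans (by
      rw [← Subgroup.orderOf_mk v hv]; exact orderOf_dvd_natCard _)), hregO v⟩
  obtain ⟨T1, hT1⟩ := classInner_nat (isCharacter_restrict (isCharacter_restrict χ.2.isCharacter C) O)
    (isCharacter_restrict (isCharacter_restrict χ.2.isCharacter C) O)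
  have hT1le : T1 ≤ x ^ 2 := norm_le_sq (isCharacter_restrict (isCharacter_restrict χ.2.isCharacter C) O)
    hT1 (by simpa using hx)
  have hPC : (P : Subgroup G) ≤ C := hC ▸ le_centralizer_sylow hs
  have hq : (Nat.card ↥(P : Subgroup G) : ℂ) ≠ 0 := cardP_ne
  have hG : (Nat.card G : ℂ) = (Nat.card O : ℂ) * (Nat.card ↥(P : Subgroup G) : ℂ) * (C.index : ℂ) := by
    rw [← Nat.cast_mul, ← Nat.cast_mul, hcard, Subgroup.card_mul_index]
  have hi : (C.index : ℂ) ≠ 0 := Nat.cast_ne_zero.mpr Subgroup.index_ne_zero_of_finite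
  have hO : (Nat.card O : ℂ) ≠ 0 := Nat.cast_ne_zero.mpr Nat.card_pos.ne'
  -- values of the block part on `P - 1`
  have hψ : ∀ w : ↥(P : Subgroup G), w ≠ 1 → ∑ ζ ∈ B0 M, (n ζ : ℂ) * (ζ : G → ℂ) w
      = (Nat.card O : ℂ)⁻¹ * ∑ v : O, φ ((w : G) * ((v : C) : G)) := by
    intro w hw
    have hb : blockPart (principalBlock M G) φ (w : G)
        = ∑ ζ ∈ B0 M, (n ζ : ℂ) * (ζ : G → ℂ) w := by
      rw [blockPart, finsum_mem_def, finsum_eq_sum_of_fintype, B0, Finset.sum_filter]
      refine Finset.sum_congr rfl fun ζ _ => ?_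
      rw [Set.indicator_apply]
      split_ifs with hz
      · congr 1
        rw [← hnc ζ]
        exact congrArg (fun inst => @classInner G _ inst φ (ζ : G → ℂ)) (Subsingleton.elim _ _)
      · rfl
    rw [← hb, blockPart_eq_kerB, sum_kerB_mul hs hM (isClassFunction_of_isCharacter hφ) hC hw]
    rw [hG]
    have : ∀ v : C, (if p ∣ orderOf v then (0 : ℂ) else φ ((w : G) * v))
        = if v ∈ O then φ ((w : G) * v) else 0 := fun v => by
      by_cases hv : v ∈ O
      · rw [if_pos hv, if_neg ((hOreg v).mp hv)]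
      · rw [if_neg hv, if_pos (by_contra fun h => hv ((hOreg v).mpr h))]
    rw [Finset.sum_congr rfl fun v _ => this v]
    rw [← Finset.sum_filter, Finset.sum_subtype (p := (· ∈ O)) (univ.filter (· ∈ O)) fun a => by simp]
    field_simp
  -- the sum over the centralizer splits over `P × O`
  have hsplit : ∑ w : ↥(P : Subgroup G), ∑ v : O, φ ((w : G) * ((v : C) : G)) = ∑ c : C, φ c := by
    rw [← Fintype.sum_prod_type']
    refine Fintype.sum_bijective (fun a : ↥(P : Subgroup G) × O => (⟨a.1, hPC a.1.2⟩ : C) * a.2)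
      ((Fintype.bijective_iff_injective_and_card _).mpr ⟨?_, ?_⟩) _ _ fun a => rfl
    · rintro ⟨w, v⟩ ⟨w', v'⟩ h
      have h' : (⟨(w'⁻¹ * w : ↥(P : Subgroup G)), hPC (w'⁻¹ * w).2⟩ : C) = (v' : C) * (v : C)⁻¹ := by
        rw [eq_mul_inv_iff_mul_eq]
        apply Subtype.ext
        have hh := congrArg Subtype.val h
        simp only [Subgroup.coe_mul, Subgroup.coe_inv] at hh ⊢
        rw [mul_assoc, hh, inv_mul_cancel_left]
      have hmem : (⟨(w'⁻¹ * w : ↥(P : Subgroup G)), hPC (w'⁻¹ * w).2⟩ : C) ∈ O :=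
        h' ▸ O.mul_mem v'.2 (O.inv_mem v.2)
      have hwv : w'⁻¹ * w = 1 := by
        obtain ⟨k, hk⟩ := IsPGroup.iff_orderOf.mp P.isPGroup' (w'⁻¹ * w)
        refine eq_one_of_pPow_regular hk fun hd => (hOreg _).mp hmem ?_
        rw [← Subgroup.orderOf_coe (⟨_, hPC (w'⁻¹ * w).2⟩ : C)]
        show p ∣ orderOf ((w'⁻¹ * w : ↥(P : Subgroup G)) : G)
        rwa [Subgroup.orderOf_coe]
      obtain rfl : w = w' := (inv_mul_eq_one.mp hwv).symm
      exact Prod.ext rfl (Subtype.ext (mul_left_cancel h))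
    · rw [Fintype.card_prod, ← Nat.card_eq_fintype_card, ← Nat.card_eq_fintype_card,
        ← Nat.card_eq_fintype_card, mul_comm, hcard]
  have hCsum : ∑ c : C, φ c = (Nat.card C : ℂ) * M1 := by
    rw [← hM1, classInner, mul_inv_cancel_left₀ (Nat.cast_ne_zero.mpr Nat.card_pos.ne')]
    rfl
  have hOsum : ∑ v : O, φ ((1 : G) * ((v : C) : G)) = (Nat.card O : ℂ) * T1 := by
    rw [← hT1, classInner, mul_inv_cancel_left₀ hO]
    exact Finset.sum_congr rfl fun v _ => by rw [one_mul]; rfl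
  have hkey : (Nat.card ↥(P : Subgroup G) : ℂ) *
        ((∑ ζ ∈ B0 M, (n ζ : ℤ) * coef ζ (1 : ↥(P : Subgroup G) →* ℂˣ) : ℤ) : ℂ)
      = ((∑ ζ ∈ B0 M, n ζ * charDegree (ζ : G → ℂ) : ℕ) : ℂ)
        + (Nat.card ↥(P : Subgroup G) : ℂ) * M1 - T1 := by
    have e : (Nat.card ↥(P : Subgroup G) : ℂ) *
          ((∑ ζ ∈ B0 M, (n ζ : ℤ) * coef ζ (1 : ↥(P : Subgroup G) →* ℂˣ) : ℤ) : ℂ)
        = ((∑ ζ ∈ B0 M, n ζ * charDegree (ζ : G → ℂ) : ℕ) : ℂ)
          + ∑ w ∈ (univ : Finset ↥(P : Subgroup G)).erase 1, ∑ ζ ∈ B0 M, (n ζ : ℂ) * (ζ : G → ℂ) w := by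
      rw [Finset.sum_comm (s := (univ : Finset ↥(P : Subgroup G)).erase 1)]
      push_cast
      rw [Finset.mul_sum, ← Finset.sum_add_distrib]
      refine Finset.sum_congr rfl fun ζ _ => ?_
      rw [mul_left_comm, card_mul_coef, coe_charDegree, ← Finset.mul_sum, cc]
      simp
      ring
    rw [e, Finset.sum_congr rfl fun w hw => hψ w (Finset.mem_erase.mp hw).1, ← Finset.mul_sum,
      Finset.sum_erase_eq_sub (Finset.mem_univ _), hsplit, hCsum, OneMemClass.coe_one, hOsum,
      ← hcard, Nat.cast_mul]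
    field_simp
    ring
  set a := ∑ ζ ∈ B0 M, (n ζ : ℤ) * coef ζ (1 : ↥(P : Subgroup G) →* ℂˣ)
  set d := ∑ ζ ∈ B0 M, n ζ * charDegree (ζ : G → ℂ)
  have hz : (Nat.card ↥(P : Subgroup G) : ℤ) * (a - M1) = (d : ℤ) - T1 := by
    have : (((Nat.card ↥(P : Subgroup G) : ℤ) * (a - M1) : ℤ) : ℂ) = (((d : ℤ) - T1 : ℤ) : ℂ) := by
      push_cast
      linear_combination hkey
    exact_mod_cast this
  have hd0 : (d : ℤ) - T1 = 0 := by
    refine Int.eq_zero_of_abs_lt_dvd ⟨a - M1, hz.symm⟩ ?_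
    rw [abs_lt]
    constructor <;> omega
  rw [hd0, mul_eq_zero] at hz
  have := hz.resolve_left (by omega)
  omega

omit [M.IsPrime] in
/-- A proper normal subgroup comes from a nonprincipal irreducible character trivial on `P`. -/
theorem exists_proper_of_ker {χ : IrrCharacter G} (h1 : χ ≠ trivChar G)
    (hker : ∀ w ∈ (P : Subgroup G), (χ : G → ℂ) w = (χ : G → ℂ) 1) :
    ∃ K : Subgroup G, K.Normal ∧ K ≠ ⊤ ∧ (P : Subgroup G) ≤ K := by
  refine ⟨charKer χ.2.isCharacter, charKer_normal _, fun ht => ?_, fun w hw => hker w hw⟩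
  have h0 := classInner_irr_ne χ.2 (isIrrCharacter_one (G := G)) fun h => h1 (Subtype.ext h)
  have hv : ∀ g, (χ : G → ℂ) g = (χ : G → ℂ) 1 := fun g =>
    (mem_charKer χ.2.isCharacter).mp (ht.symm ▸ Subgroup.mem_top g)
  rw [classInner_const_one, Finset.sum_congr rfl fun g _ => hv g, Finset.sum_const, Finset.card_univ,
    nsmul_eq_mul, ← Nat.card_eq_fintype_card, inv_mul_cancel_left₀ (Nat.cast_ne_zero.mpr Nat.card_pos.ne')] at h0
  exact χ.2.one_ne_zero h0

/-- Coefficient of a non-exceptional character off the trivial one. -/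
theorem coef_oth (h : Hyp P) [Fintype (↥(P : Subgroup G) →* ℂˣ)] (E : Exc M P) {ζ : IrrCharacter G}
    (hζ : ζ ∈ E.oth) (lam : ↥(P : Subgroup G) →* ℂˣ) :
    (Nat.card ↥(P : Subgroup G) : ℤ) * coef ζ lam = (charDegree (ζ : G → ℂ) : ℤ)
      + E.av ζ * ((if lam = 1 then (Nat.card ↥(P : Subgroup G) : ℤ) else 0) - 1) := by
  have h1 := card_mul_coef ζ lam
  rw [E.cc_of_mem_oth ζ hζ, ← coe_charDegree] at h1
  have : (((Nat.card ↥(P : Subgroup G) : ℤ) * coef ζ lam : ℤ) : ℂ) = (((charDegree (ζ : G → ℂ) : ℤ)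
      + E.av ζ * ((if lam = 1 then (Nat.card ↥(P : Subgroup G) : ℤ) else 0) - 1) : ℤ) : ℂ) := by
    push_cast
    rw [h1]
  exact_mod_cast this

/-- Coefficients of an exceptional character. -/
theorem coef_exc (h : Hyp P) [Fintype (↥(P : Subgroup G) →* ℂˣ)] (E : Exc M P)
    {ψ : ↥(P : Subgroup G) →* ℂˣ} (hψ : ψ ≠ 1) (lam : ↥(P : Subgroup G) →* ℂˣ) :
    (Nat.card ↥(P : Subgroup G) : ℤ) * coef (E.mu ψ) lam = (charDegree (E.mu ψ : G → ℂ) : ℤ)
      + E.dd * ((if lam = 1 then (Nat.card ↥(P : Subgroup G) : ℤ) else 0) - 1)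
      + E.sgn * ((Nat.card ↥(P : Subgroup G) : ℤ) *
          (if ∃ e : aut P, cmp ψ e = lam then 1 else 0) - (Nat.card (aut P) : ℤ)) := by
  have h1 := card_mul_coef (E.mu ψ) lam
  rw [E.cc_mu h hψ, card_orbit_filter h hψ, ← coe_charDegree] at h1
  have : (((Nat.card ↥(P : Subgroup G) : ℤ) * coef (E.mu ψ) lam : ℤ) : ℂ) = (((charDegree (E.mu ψ : G → ℂ) : ℤ)
      + E.dd * ((if lam = 1 then (Nat.card ↥(P : Subgroup G) : ℤ) else 0) - 1)
      + E.sgn * ((Nat.card ↥(P : Subgroup G) : ℤ) *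
          (if ∃ e : aut P, cmp ψ e = lam then 1 else 0) - (Nat.card (aut P) : ℤ)) : ℤ) : ℂ) := by
    push_cast
    rw [h1]
    split_ifs <;> push_cast <;> ring
  exact_mod_cast this

set_option maxHeartbeats 1000000 in
omit [M.IsPrime] in
/-- An irreducible character of small degree. -/
theorem small_degree_irr (hs : SameCent P) {q : ℕ} (hq : Nat.card ↥(P : Subgroup G) = q)
    (χ : IrrCharacter G) (hχ1 : χ ≠ trivChar G) {x : ℕ} (hx : (χ : G → ℂ) 1 = x) (hdeg : x ^ 2 + 1 < q) :
    (∃ K : Subgroup G, K.Normal ∧ K ≠ ⊤ ∧ (P : Subgroup G) ≤ K) ∨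
      ((∃ N : Subgroup G, N.Normal ∧ N.index = q) ∧ x = 1) := by
  subst hq
  have h := hs.hyp
  haveI := finite_hom_of_comm h.comm
  letI := Fintype.ofFinite (↥(P : Subgroup G) →* ℂˣ)
  obtain ⟨M, hM⟩ := exists_isPModular p
  haveI := hM.2.1.isPrime
  set q := Nat.card ↥(P : Subgroup G) with hq
  by_cases hker : ∀ w ∈ (P : Subgroup G), (χ : G → ℂ) w = (χ : G → ℂ) 1
  · exact Or.inl (exists_proper_of_ker hχ1 hker)
  have hxdeg : charDegree (χ : G → ℂ) = x := charDegree_eq hx
  have hx0 : 0 < x := hxdeg ▸ charDegree_pos χ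
  set C := Subgroup.centralizer ((P : Subgroup G) : Set G) with hC
  haveI := Fintype.ofFinite C
  obtain ⟨M1, hM1, hbound, hscal⟩ := centralizer_bound hs χ hC
  -- a nontrivial linear constituent on `P`
  obtain ⟨lam, hlam1, hlam⟩ : ∃ lam : ↥(P : Subgroup G) →* ℂˣ, lam ≠ 1 ∧ coef χ lam ≠ 0 := by
    by_contra hcon
    push Not at hcon
    refine hker fun w hw => ?_
    obtain ⟨m, hm, hm1, -, hmc⟩ := exists_mults (isCharacter_restrict χ.2.isCharacter (P : Subgroup G))
    have hz : ∀ θ : IrrCharacter ↥(P : Subgroup G), θ ≠ trivChar _ → m θ = 0 := by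
      intro θ hθ
      haveI : IsMulCommutative ↥(P : Subgroup G) := ⟨⟨h.comm⟩⟩
      obtain ⟨μ, hμ⟩ := exists_hom_of_degree_one θ.2.isCharacter (degree_one_of_isMulCommutative θ.2)
      have hμ1 : μ ≠ 1 := fun e => hθ (Subtype.ext (by rw [hμ, e]; funext g; simp))
      have hh : ((m θ : ℕ) : ℂ) = ((0 : ℕ) : ℂ) := by
        rw [← hmc, hμ, Nat.cast_zero, ← Int.cast_zero, ← hcon μ hμ1, ← coef_spec]
        rfl
      exact_mod_cast hh
    have hv : ∀ u : ↥(P : Subgroup G), (χ : G → ℂ) u = (m (trivChar _) : ℂ) := by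
      intro u
      have hh := congrFun hm u
      rw [Finset.sum_apply, Finset.sum_eq_single (trivChar _)] at hh
      · simpa using hh
      · intro θ _ hθ; simp [hz θ hθ]
      · simp
    rw [hv ⟨w, hw⟩, ← hv 1, OneMemClass.coe_one]
  set e := Nat.card (aut P) with he
  have he0 : 0 < e := Nat.card_pos
  obtain ⟨heM, hex⟩ : e ≤ M1 ∧ e ≤ x := by
    let S : Finset (↥(P : Subgroup G) →* ℂˣ) := univ.image fun a : aut P => cmp lam a
    have hS : S.card = e := by
      rw [Finset.card_image_of_injective _ fun a b hab => cmp_injective h hlam1 a b hab, Finset.card_univ,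
        he, Nat.card_eq_fintype_card]
    have := hbound S fun l hl => by
      obtain ⟨a, -, rfl⟩ := Finset.mem_image.mp hl
      rwa [coef_cmp]
    rwa [hS, hxdeg] at this
  by_cases hx1 : x = 1
  · -- a linear character: the centralizer is the normalizer
    refine Or.inr ⟨?_, hx1⟩
    have hrel : (Subgroup.centralizer ((P : Subgroup G) : Set G)).relIndex
        (Subgroup.normalizer ((P : Subgroup G) : Set G)) = 1 := by
      rw [← card_aut]; omega
    have hle := Subgroup.relIndex_eq_one.mp hrel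
    refine ⟨(MonoidHom.transferSylow P hle).ker, inferInstance, ?_⟩
    rw [(MonoidHom.ker_transferSylow_isComplement' P hle).symm.index_eq_card]
  by_cases hM11 : M1 = 1
  · -- scalar action
    left
    have hφ := isCharacter_mul χ.2.isCharacter (isCharacter_conj χ.2.isCharacter)
    refine ⟨charKer hφ, charKer_normal _, fun ht => ?_, fun w hw => (mem_charKer hφ).mpr ?_⟩
    · have hv : ∀ g, (χ : G → ℂ) g * conj ((χ : G → ℂ) g) = (x : ℂ) ^ 2 := fun g => by
        have := (mem_charKer hφ).mp (ht.symm ▸ Subgroup.mem_top g)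
        simpa [hx, sq] using this
      have h1 := classInner_irr_self χ.2
      rw [classInner, Finset.sum_congr rfl fun g _ => hv g, Finset.sum_const, Finset.card_univ,
        nsmul_eq_mul, ← Nat.card_eq_fintype_card,
        inv_mul_cancel_left₀ (Nat.cast_ne_zero.mpr Nat.card_pos.ne')] at h1
      exact hx1 (by
        have : x ^ 2 = 1 := by exact_mod_cast h1
        simpa using this)
    · simp [hscal hM11 w hw, hx]
  have hM12 : 2 ≤ M1 := by omega
  have hqgt : x ^ 2 < q := by omega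
  have hex2 : e * e ≤ x ^ 2 := by rw [sq]; exact Nat.mul_le_mul hex hex
  have hlt : Nat.card (aut P) + 1 < Nat.card ↥(P : Subgroup G) := by
    rw [← he, ← hq]; nlinarith
  obtain ⟨E⟩ := exists_exc h hM hlt
  have hP : 1 < q := by omega
  obtain ⟨n, hn1, hnle, hnsum⟩ := block_mult_eq hs hM hP χ hx hqgt hC hM1
  -- a nonprincipal constituent of the block part containing the trivial character of `P`
  have htrivB : trivChar G ∈ B0 M := mem_B0.mpr trivChar_mem_principal
  have hctriv : coef (trivChar G) (1 : ↥(P : Subgroup G) →* ℂˣ) = 1 := by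
    have : ((coef (trivChar G) (1 : ↥(P : Subgroup G) →* ℂˣ) : ℤ) : ℂ) = ((1 : ℤ) : ℂ) := by
      rw [← coef_spec]; simp
    exact_mod_cast this
  obtain ⟨ζ, hζ, hζn, hζc⟩ : ∃ ζ ∈ (B0 M).erase (trivChar G), n ζ ≠ 0 ∧
      coef ζ (1 : ↥(P : Subgroup G) →* ℂˣ) ≠ 0 := by
    by_contra hcon
    push Not at hcon
    rw [← Finset.add_sum_erase _ _ htrivB, hn1, hctriv, Finset.sum_eq_zero fun ζ hζ => ?_] at hnsum
    · push_cast at hnsum; omega
    · by_cases h0 : n ζ = 0
      · simp [h0]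
      · simp [hcon ζ hζ h0]
  obtain ⟨hζne, hζB⟩ := Finset.mem_erase.mp hζ
  set z : ℤ := (charDegree (ζ : G → ℂ) : ℤ) with hz
  set c₁ := coef ζ (1 : ↥(P : Subgroup G) →* ℂˣ) with hc₁
  have hc₁pos : 1 ≤ c₁ := by have := coef_nonneg ζ (1 : ↥(P : Subgroup G) →* ℂˣ); omega
  have hbig : (M1 : ℤ) + (z - c₁) ≤ x ^ 2 := by
    have h1 : ∀ θ ∈ B0 M, (0 : ℤ) ≤ (n θ : ℤ) * ((charDegree (θ : G → ℂ) : ℤ)
        - coef θ (1 : ↥(P : Subgroup G) →* ℂˣ)) := fun θ _ =>
      mul_nonneg (Int.natCast_nonneg _) (sub_nonneg.mpr (coef_le_degree θ))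
    have h2 := Finset.single_le_sum h1 hζB
    have h3 : z - c₁ ≤ (n ζ : ℤ) * (z - c₁) :=
      le_mul_of_one_le_left (sub_nonneg.mpr (coef_le_degree ζ)) (by omega)
    have h4 : ((∑ θ ∈ B0 M, n θ * charDegree (θ : G → ℂ) : ℕ) : ℤ) ≤ ((x ^ 2 : ℕ) : ℤ) := by
      exact_mod_cast hnle
    simp only [mul_sub, Finset.sum_sub_distrib] at h2
    push_cast at h4
    simp only [← hz, ← hc₁] at h2 h3
    linarith
  have hdegZ : ((x : ℤ) ^ 2) + 1 < q := by exact_mod_cast hdeg
  have hq' : (q : ℤ) ≠ 0 := by omega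
  -- a linear character outside a given orbit
  by_cases hexc : ζ ∈ E.excS
  · exfalso
    obtain ⟨ψ, hψ, rfl⟩ := E.mem_excS.mp hexc
    obtain ⟨lam₀, hl1, hl2⟩ : ∃ lam₀ : ↥(P : Subgroup G) →* ℂˣ, lam₀ ≠ 1 ∧ ¬ ∃ a : aut P, cmp ψ a = lam₀ := by
      by_contra hcon
      push Not at hcon
      have hsub : (univ : Finset (↥(P : Subgroup G) →* ℂˣ)).erase 1 ⊆ univ.image fun a : aut P => cmp ψ a :=
        fun l hl => by
          obtain ⟨a, ha⟩ := hcon l (Finset.mem_erase.mp hl).1
          exact Finset.mem_image.mpr ⟨a, Finset.mem_univ _, ha⟩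
      have := (Finset.card_le_card hsub).trans Finset.card_image_le
      rw [Finset.card_erase_of_mem (Finset.mem_univ _), Finset.card_univ, Finset.card_univ,
        ← Nat.card_eq_fintype_card, card_hom_of_comm h.comm, ← Nat.card_eq_fintype_card] at this
      omega
    have k0 := coef_exc h E hψ lam₀
    have k1 := coef_exc h E hψ 1
    have kψ := coef_exc h E hψ ψ
    rw [if_neg hl1, if_neg hl2] at k0
    rw [if_pos rfl, if_neg fun ⟨a, ha⟩ => cmp_ne_one hψ a ha] at k1
    rw [if_neg hψ, if_pos ⟨1, MonoidHom.ext fun w => rfl⟩] at kψ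
    have hk := coef_nonneg (E.mu ψ) lam₀
    have hkψ := coef_nonneg (E.mu ψ) ψ
    set k := coef (E.mu ψ) lam₀
    rw [← hz, ← hq, ← he] at k0 k1 kψ
    rw [← hc₁] at k1
    have e1 : c₁ = k + E.dd := mul_left_cancel₀ hq' (by linear_combination k1 - k0)
    have e2 : coef (E.mu ψ) ψ = k + E.sgn := mul_left_cancel₀ hq' (by linear_combination kψ - k0)
    have e3 : z = ((q : ℤ) - 1) * k + c₁ + E.sgn * e := by rw [e1]; linear_combination -k0
    have heM' : (e : ℤ) ≤ M1 := by exact_mod_cast heM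
    rcases eq_or_lt_of_le hk with hk0 | hk0
    · -- `k = 0`
      rw [← hk0, zero_add] at e1 e2
      have hs1 : E.sgn = 1 := by rcases E.sgn_sq with hh | hh; exacts [hh, by omega]
      have hd : 1 ≤ E.dd := by omega
      have hnorm := E.norm_id h hM (hq ▸ hP)
      rw [hs1, ← he] at hnorm
      have hmul := E.card_excS_mul h
      rw [← he, ← hq] at hmul
      set r := E.excS.card
      have hre : e + 1 ≤ r := by
        by_contra hcon
        have : r * e ≤ e * e := Nat.mul_le_mul_right e (by omega)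
        omega
      have hre' : (e : ℤ) + 1 ≤ (r : ℤ) := by exact_mod_cast hre
      have he' : (1 : ℤ) ≤ e := by exact_mod_cast he0
      haveI : Nontrivial ↥(P : Subgroup G) := Finite.one_lt_card_iff_nontrivial.mp (hq ▸ hP)
      obtain ⟨w₀, hw₀⟩ := exists_ne (1 : ↥(P : Subgroup G))
      have hat := E.av_triv hw₀
      have hge : (1 : ℤ) ≤ ∑ θ ∈ E.oth, E.av θ ^ 2 := by
        refine le_trans ?_ (Finset.single_le_sum (fun θ _ => sq_nonneg (E.av θ)) E.triv_mem_oth)
        rw [hat]; norm_num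
      have hd1 : E.dd = 1 := by
        by_contra hcon
        have hd2 : 2 ≤ E.dd := by omega
        have h1 := mul_le_mul_of_nonneg_left hre' (sq_nonneg E.dd)
        have h2 := mul_le_mul_of_nonneg_left hd2 (show (0 : ℤ) ≤ ((e : ℤ) + 1) * E.dd by positivity)
        have h3 := mul_le_mul_of_nonneg_left hd (show (0 : ℤ) ≤ 2 * (e : ℤ) by positivity)
        linarith
      rw [hd1] at hnorm
      have hsum : ∑ θ ∈ E.oth, E.av θ ^ 2 = 1 := le_antisymm (by linarith) hge
      have hoth : E.oth = {trivChar G} := by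
        refine Finset.eq_singleton_iff_unique_mem.mpr ⟨E.triv_mem_oth, fun θ hθ => ?_⟩
        by_contra hne
        have hpair : ({trivChar G, θ} : Finset (IrrCharacter G)) ⊆ E.oth := by
          simp [Finset.insert_subset_iff, E.triv_mem_oth, hθ]
        have := Finset.sum_le_sum_of_subset_of_nonneg hpair fun i _ _ => sq_nonneg (E.av i)
        rw [Finset.sum_pair (Ne.symm hne), hat, hsum] at this
        have hz' : E.av θ ^ 2 = 0 := le_antisymm (by linarith) (sq_nonneg _)
        exact E.av_ne_zero h hM hθ hne (pow_eq_zero_iff (by norm_num) |>.mp hz')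
      have hrel := E.regular_rel h hM (hq ▸ hP) hexc (g := 1) (by simpa using (Fact.out : p.Prime).ne_one)
      rw [hoth, Finset.sum_singleton, hat, hd1, hs1, ← coe_charDegree (E.mu ψ)] at hrel
      simp only [Int.cast_one, trivChar_apply, mul_one] at hrel
      have hrel' : (((r : ℤ) - 1) * z + 1 : ℤ) = 0 := by
        have : ((((r : ℤ) - 1) * z + 1 : ℤ) : ℂ) = 0 := by rw [hz]; push_cast; linear_combination hrel
        exact_mod_cast this
      linarith [mul_nonneg (show (0 : ℤ) ≤ (r : ℤ) - 1 by linarith) (show (0 : ℤ) ≤ z by rw [hz]; exact Int.natCast_nonneg _)]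
    · have h1 := mul_le_mul_of_nonneg_left (show (1 : ℤ) ≤ k by omega) (show (0 : ℤ) ≤ (q : ℤ) - 1 by omega)
      rcases E.sgn_sq with hh | hh <;> rw [hh] at e3 <;> linarith
  · -- non-exceptional
    have hoth : ζ ∈ E.oth := Finset.mem_sdiff.mpr ⟨hζB, hexc⟩
    obtain ⟨lam₀, hl1⟩ : ∃ lam₀ : ↥(P : Subgroup G) →* ℂˣ, lam₀ ≠ 1 := ⟨lam, hlam1⟩
    have k0 := coef_oth h E hoth lam₀
    have k1 := coef_oth h E hoth 1
    rw [if_neg hl1] at k0
    rw [if_pos rfl] at k1
    have hk := coef_nonneg ζ lam₀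
    set k := coef ζ lam₀
    rw [← hz, ← hq] at k0 k1
    rw [← hc₁] at k1
    have e1 : c₁ = k + E.av ζ := mul_left_cancel₀ hq' (by linear_combination k1 - k0)
    have e3 : z = ((q : ℤ) - 1) * k + c₁ := by rw [e1]; linear_combination -k0
    rcases eq_or_lt_of_le hk with hk0 | hk0
    · refine Or.inl (exists_proper_of_ker hζne fun w hw => ?_)
      by_cases hw1 : w = 1
      · rw [hw1]
      obtain ⟨hB, hne⟩ := E.mem_oth.mp hoth
      rw [show (ζ : G → ℂ) w = (E.av ζ : ℂ) from
        E.val_X ζ hB hne ⟨w, hw⟩ fun hh => hw1 (congrArg Subtype.val hh), ← coe_charDegree]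
      rw [← hk0] at e1 e3
      have : E.av ζ = z := by linarith
      rw [this, hz, Int.cast_natCast]
    · exfalso
      have h1 := mul_le_mul_of_nonneg_left (show (1 : ℤ) ≤ k by omega) (show (0 : ℤ) ≤ (q : ℤ) - 1 by omega)
      linarith [show (0 : ℤ) ≤ (M1 : ℤ) from Int.natCast_nonneg _]

theorem sameCent_subtype (hs : SameCent P) {K : Subgroup G} (hPK : (P : Subgroup G) ≤ K) :
    SameCent (P.subtype hPK) := by
  intro x hx hx1
  have hxP : (x : G) ∈ (P : Subgroup G) := Subgroup.mem_subgroupOf.mp hx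
  have h := hs x hxP fun e => hx1 (Subtype.ext e)
  ext c
  constructor
  · intro hc
    refine Subgroup.mem_centralizer_iff.mpr fun y hy => Subtype.ext ?_
    have hcG : (c : G) ∈ Subgroup.centralizer ({(x : G)} : Set G) :=
      Subgroup.mem_centralizer_singleton_iff.mpr
        (congrArg Subtype.val (Subgroup.mem_centralizer_singleton_iff.mp hc))
    rw [h] at hcG
    exact Subgroup.mem_centralizer_iff.mp hcG (y : G) (Subgroup.mem_subgroupOf.mp hy)
  · intro hc
    exact Subgroup.mem_centralizer_singleton_iff.mpr (Subgroup.mem_centralizer_iff.mp hc x hx).symm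

omit [M.IsPrime] in
/-- A faithful character of small degree makes `P` normal. -/
theorem normal_of_small_faithful : ∀ (n : ℕ) (H : Type u) [Group H] [Fintype H] (Q : Sylow p H),
    Nat.card H = n → SameCent Q → ∀ (χ : H → ℂ), IsCharacter H χ → (∀ g, χ g = χ 1 → g = 1) →
    ∀ x : ℕ, χ 1 = x → x ^ 2 + 1 < Nat.card ↥(Q : Subgroup H) → (Q : Subgroup H).Normal := by
  intro n
  induction n using Nat.strong_induction_on with
  | _ n ih =>
    intro H _ _ Q hn hs χ hχ hfaith x hx hdeg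
    by_cases hK : ∃ K : Subgroup H, K.Normal ∧ K ≠ ⊤ ∧ (Q : Subgroup H) ≤ K
    · obtain ⟨K, hKn, hKne, hQK⟩ := hK
      haveI := hKn
      haveI := Fintype.ofFinite K
      have hlt : Nat.card K < n := hn ▸ lt_of_le_of_ne (Subgroup.card_le_card_group K)
        (fun e => hKne (Subgroup.eq_top_of_card_eq K e))
      have hQn := ih _ hlt K (Q.subtype hQK) rfl (sameCent_subtype hs hQK) (fun k : K => χ k)
        (isCharacter_restrict hχ K)
        (fun g hg => Subtype.ext (hfaith g (by simpa using hg))) x (by simpa using hx)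
        (by rwa [show Nat.card ↥((Q.subtype hQK : Sylow p K) : Subgroup K) = Nat.card ↥(Q : Subgroup H) from
          Nat.card_congr (Subgroup.subgroupOfEquivOfLe hQK).toEquiv])
      have h1 : K ≤ Subgroup.normalizer ((Q : Subgroup H) : Set H) := by
        intro k hk
        rw [Subgroup.mem_normalizer_iff]
        intro a
        refine ⟨fun ha => hQn.conj_mem ⟨a, hQK ha⟩ ha ⟨k, hk⟩, fun ha => ?_⟩
        have := hQn.conj_mem ⟨_, hQK ha⟩ ha ⟨k, hk⟩⁻¹
        simpa [Subgroup.mem_subgroupOf, mul_assoc] using this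
      have h2 := Sylow.normalizer_sup_eq_top (Q.subtype hQK)
      rw [show ((Q.subtype hQK : Sylow p K) : Subgroup K).map K.subtype = (Q : Subgroup H) from
        Subgroup.map_subgroupOf_eq_of_le hQK, sup_eq_left.mpr h1] at h2
      exact Subgroup.normalizer_eq_top_iff.mp h2
    obtain ⟨m, hm, hm1, -, -⟩ := exists_mults hχ
    have hxd : x = ∑ θ, m θ * charDegree (θ : H → ℂ) := by exact_mod_cast hx.symm.trans hm1
    have hlin : ∀ θ : IrrCharacter H, m θ ≠ 0 → (θ : H → ℂ) 1 = 1 := by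
      intro θ hθ
      by_cases ht : θ = trivChar H
      · rw [ht]; rfl
      have hle : charDegree (θ : H → ℂ) ≤ x := by
        rw [hxd]
        exact (Nat.le_mul_of_pos_left _ (Nat.pos_of_ne_zero hθ)).trans
          (Finset.single_le_sum (f := fun θ : IrrCharacter H => m θ * charDegree (θ : H → ℂ))
            (fun _ _ => Nat.zero_le _) (Finset.mem_univ θ))
      rcases small_degree_irr hs rfl θ ht (coe_charDegree θ).symm
        (lt_of_le_of_lt (Nat.add_le_add_right (Nat.pow_le_pow_left hle 2) 1) hdeg) with hh | ⟨-, hh⟩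
      · exact absurd hh hK
      · rw [← coe_charDegree, hh, Nat.cast_one]
    have hcomm : ∀ a b : H, a * b = b * a := fun a b => by
      have h := hfaith (a * b * a⁻¹ * b⁻¹) (by
        rw [hm, Finset.sum_apply, Finset.sum_apply]
        refine Finset.sum_congr rfl fun θ _ => ?_
        rcases eq_or_ne (m θ) 0 with h0 | h0
        · simp [h0]
        · obtain ⟨μ, hμ⟩ := exists_hom_of_degree_one θ.2.isCharacter (hlin θ h0)
          simp [hμ, mul_comm])
      rwa [mul_inv_eq_one, mul_inv_eq_iff_eq_mul] at h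
    exact ⟨fun a ha g => by rwa [hcomm g a, mul_inv_cancel_right]⟩

end Cfsg.Lib.SmallDegree
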