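import Mathlib
import Cfsg.Agent.Lib.Blocks.DefectZero

/-!
# Frobenius' argument: elements of a unitary group close to the scalar `cos (π/6)` commute
-/

namespace Cfsg.Lib.Blocks

open Finset Matrix
open scoped ComplexConjugate ComplexOrder

set_option linter.unusedSectionVars false
set_option linter.style.haveILetI false
set_option linter.style.longLine false

variable {ι : Type*} [Fintype ι] [DecidableEq ι]

/-- The squared length of a vector. -/
noncomputable def sqLen (v : ι → ℂ) : ℝ := ∑ i, Complex.normSq (v i)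

/-- The real part of the quadratic form of a matrix. -/
noncomputable def reForm (A : Matrix ι ι ℂ) (v : ι → ℂ) : ℝ := (star v ⬝ᵥ A *ᵥ v).re

/-- The squared Frobenius length of a matrix. -/
noncomputable def frobSq (X : Matrix ι ι ℂ) : ℝ := ∑ j, sqLen fun i => X i j

theorem coe_sqLen (v : ι → ℂ) : (sqLen v : ℂ) = star v ⬝ᵥ v := by
  simp [sqLen, dotProduct, Complex.normSq_eq_conj_mul_self]

theorem sqLen_nonneg (v : ι → ℂ) : 0 ≤ sqLen v := Finset.sum_nonneg fun _ _ => Complex.normSq_nonneg _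

theorem sqLen_eq_zero {v : ι → ℂ} : sqLen v = 0 ↔ v = 0 := by
  rw [sqLen, Finset.sum_eq_zero_iff_of_nonneg fun _ _ => Complex.normSq_nonneg _]
  simp [funext_iff]

theorem sqLen_pos {v : ι → ℂ} (hv : v ≠ 0) : 0 < sqLen v :=
  lt_of_le_of_ne (sqLen_nonneg v) fun h => hv (sqLen_eq_zero.mp h.symm)

theorem sqLen_sub_le (a b : ι → ℂ) : sqLen (a - b) ≤ 2 * sqLen a + 2 * sqLen b := by
  simp only [sqLen, Finset.mul_sum, ← Finset.sum_add_distrib]
  refine Finset.sum_le_sum fun i _ => ?_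
  simp only [Pi.sub_apply, Complex.normSq_apply, Complex.sub_re, Complex.sub_im]
  nlinarith [sq_nonneg ((a i).re + (b i).re), sq_nonneg ((a i).im + (b i).im)]

theorem sqLen_mulVec {U : Matrix ι ι ℂ} (hU : Uᴴ * U = 1) (v : ι → ℂ) : sqLen (U *ᵥ v) = sqLen v := by
  have : (sqLen (U *ᵥ v) : ℂ) = sqLen v := by
    rw [coe_sqLen, coe_sqLen, star_mulVec, dotProduct_mulVec, vecMul_vecMul, hU, vecMul_one]
  exact_mod_cast this

theorem sqLen_shift {U : Matrix ι ι ℂ} (hU : Uᴴ * U = 1) (c : ℝ) (v : ι → ℂ) :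
    sqLen ((U - (c : ℂ) • 1) *ᵥ v) = (1 + c ^ 2) * sqLen v - 2 * c * reForm U v := by
  have h := sqLen_mulVec hU v
  rw [sub_mulVec, smul_mulVec, one_mulVec]
  simp only [sqLen, reForm, dotProduct, Complex.re_sum, Finset.mul_sum] at h ⊢
  have e : ∀ i, Complex.normSq ((U *ᵥ v - (c : ℂ) • v) i) = Complex.normSq ((U *ᵥ v) i)
      + c ^ 2 * Complex.normSq (v i) - 2 * c * (star v i * (U *ᵥ v) i).re := by
    intro i
    simp only [Pi.sub_apply, Pi.smul_apply, smul_eq_mul, Complex.normSq_apply, Complex.sub_re, Complex.sub_im,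
      Complex.ofReal_re, Complex.ofReal_im, Complex.mul_im, Pi.star_apply, Complex.mul_re, RCLike.star_def,
      Complex.conj_re, Complex.conj_im]
    ring
  rw [Finset.sum_congr rfl fun i _ => e i, Finset.sum_sub_distrib, Finset.sum_add_distrib, h,
    ← Finset.sum_add_distrib]
  congr 1
  exact Finset.sum_congr rfl fun i _ => by ring

theorem frobSq_conjTranspose (X : Matrix ι ι ℂ) : frobSq Xᴴ = frobSq X := by
  simp only [frobSq, sqLen, conjTranspose_apply, RCLike.star_def, Complex.normSq_conj]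
  exact Finset.sum_comm

theorem frobSq_sub_le (X Y : Matrix ι ι ℂ) : frobSq (X - Y) ≤ 2 * frobSq X + 2 * frobSq Y := by
  simp only [frobSq, Finset.mul_sum, ← Finset.sum_add_distrib]
  exact Finset.sum_le_sum fun j _ => sqLen_sub_le _ _

theorem frobSq_eq_zero {X : Matrix ι ι ℂ} : frobSq X = 0 ↔ X = 0 := by
  rw [frobSq, Finset.sum_eq_zero_iff_of_nonneg fun _ _ => sqLen_nonneg _]
  simp only [Finset.mem_univ, sqLen_eq_zero, forall_const, funext_iff, Pi.zero_apply]
  exact ⟨fun h => Matrix.ext fun i j => h j i, fun h j i => by simp [h]⟩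

theorem frobSq_mul_lt {A X : Matrix ι ι ℂ} {k : ℝ} (h : ∀ v, v ≠ 0 → sqLen (A *ᵥ v) < k * sqLen v)
    (hX : X ≠ 0) : frobSq (A * X) < k * frobSq X := by
  have hle : ∀ v, sqLen (A *ᵥ v) ≤ k * sqLen v := by
    intro v
    by_cases hv : v = 0
    · simp [hv, sqLen]
    · exact (h v hv).le
  obtain ⟨j, hj⟩ : ∃ j, (fun i => X i j) ≠ 0 := by
    by_contra hall
    push Not at hall
    exact hX (Matrix.ext fun i j => congrFun (hall j) i)
  simp only [frobSq, Finset.mul_sum]
  exact Finset.sum_lt_sum (fun j _ => hle fun i => X i j) ⟨j, Finset.mem_univ _, h _ hj⟩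

theorem frobSq_unitary_mul {W X : Matrix ι ι ℂ} (hW : Wᴴ * W = 1) : frobSq (W * X) = frobSq X :=
  Finset.sum_congr rfl fun j _ => sqLen_mulVec hW fun i => X i j

theorem frobSq_mul_unitary {W X : Matrix ι ι ℂ} (hW : W * Wᴴ = 1) : frobSq (X * W) = frobSq X := by
  rw [← frobSq_conjTranspose (X * W), conjTranspose_mul,
    frobSq_unitary_mul (by rwa [conjTranspose_conjTranspose]), frobSq_conjTranspose]

/-- A matrix of norm at most one half. -/
def IsHalf (X : Matrix ι ι ℂ) : Prop := ∀ v, sqLen (X *ᵥ v) ≤ 1 / 4 * sqLen v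

section rep

variable {G : Type*} [Group G] [Finite G] (U : G →* Matrix ι ι ℂ) (hU : ∀ g, (U g)ᴴ = U g⁻¹)

include hU in
theorem unit_left (g : G) : (U g)ᴴ * U g = 1 := by rw [hU, ← map_mul, inv_mul_cancel, map_one]

include hU in
theorem unit_right (g : G) : U g * (U g)ᴴ = 1 := by rw [hU, ← map_mul, mul_inv_cancel, map_one]

/-- The small rotations. -/
def IsSmallRot (g : G) : Prop :=
  ∀ v, v ≠ 0 → Real.sqrt 3 / 2 * sqLen v < reForm (U g) v

include hU in
theorem IsSmallRot.shift {g : G} (h : IsSmallRot U g) {v : ι → ℂ} (hv : v ≠ 0) :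
    sqLen ((U g - ((Real.sqrt 3 / 2 : ℝ) : ℂ) • 1) *ᵥ v) < 1 / 4 * sqLen v := by
  rw [sqLen_shift (unit_left U hU g)]
  have h3 : Real.sqrt 3 ^ 2 = 3 := Real.sq_sqrt (by norm_num)
  have hc : 0 < Real.sqrt 3 := by positivity
  have h4 := mul_lt_mul_of_pos_left (h v hv) hc
  rw [show Real.sqrt 3 * (Real.sqrt 3 / 2 * sqLen v) = Real.sqrt 3 ^ 2 * sqLen v / 2 by ring, h3] at h4
  rw [div_pow, h3]
  linarith

include hU in
theorem IsSmallRot.inv {g : G} (h : IsSmallRot U g) : IsSmallRot U g⁻¹ := by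
  intro v hv
  have e : star v ⬝ᵥ U g⁻¹ *ᵥ v = conj (star v ⬝ᵥ U g *ᵥ v) := by
    rw [← hU, starRingEnd_apply, star_dotProduct, star_mulVec, dotProduct_mulVec]
    simp
  rw [reForm, e, Complex.conj_re]
  exact h v hv

include hU in
theorem IsSmallRot.conj {g : G} (h : IsSmallRot U g) (x : G) : IsSmallRot U (x * g * x⁻¹) := by
  intro v hv
  have hw : U x⁻¹ *ᵥ v ≠ 0 := fun h0 => hv (by
    rw [← sqLen_eq_zero, ← sqLen_mulVec (unit_left U hU x⁻¹) v, h0]; simp [sqLen])
  have e : reForm (U (x * g * x⁻¹)) v = reForm (U g) (U x⁻¹ *ᵥ v) := by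
    rw [reForm, reForm, star_mulVec, ← dotProduct_mulVec, hU, inv_inv, map_mul, map_mul]
    simp [mulVec_mulVec, mul_assoc]
  rw [e, ← sqLen_mulVec (unit_left U hU x⁻¹) v]
  exact h _ hw

include hU in
theorem comm_eq_one_of_pos {a b : G} (hc : Commute a (a * b * a⁻¹ * b⁻¹))
    (hpos : ∀ x : G, ∀ v, v ≠ 0 → 0 < reForm (U (x * b * x⁻¹)) v)
    (hinj : Function.Injective U) : a * b * a⁻¹ * b⁻¹ = 1 := by
  set c := a * b * a⁻¹ * b⁻¹ with hcdef
  set n := orderOf c with hn
  have hpow : ∀ k : ℕ, a ^ k * b * (a ^ k)⁻¹ = c ^ k * b := by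
    intro k
    induction k with
    | zero => simp
    | succ k ih =>
      calc a ^ (k + 1) * b * (a ^ (k + 1))⁻¹ = a * (a ^ k * b * (a ^ k)⁻¹) * a⁻¹ := by
            rw [pow_succ']; group
        _ = (a * c ^ k) * b * a⁻¹ := by rw [ih]; group
        _ = c ^ k * (a * b * a⁻¹ * b⁻¹) * b := by rw [(hc.pow_right k).eq]; group
        _ = c ^ (k + 1) * b := by rw [← hcdef, ← pow_succ]
  set B₀ := ∑ k ∈ range n, U (a ^ k * b * (a ^ k)⁻¹) with hB₀
  have hfix : U c * B₀ = B₀ := by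
    have e : ∀ k, U (a ^ k * b * (a ^ k)⁻¹) = U (c ^ k) * U b := fun k => by rw [hpow, map_mul]
    rw [hB₀, Finset.sum_congr rfl fun k _ => e k, ← Finset.sum_mul, ← Matrix.mul_assoc,
      Finset.mul_sum, Finset.sum_congr rfl fun k _ => (map_mul U c (c ^ k)).symm]
    congr 1
    simp only [← pow_succ']
    have h1 := Finset.sum_range_succ' (fun k => U (c ^ k)) n
    rw [Finset.sum_range_succ, pow_orderOf_eq_one, pow_zero] at h1
    exact (add_right_cancel h1).symm
  have hn0 : 0 < n := orderOf_pos c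
  have hinjB : Function.Injective B₀.mulVec := by
    intro v w hvw
    by_contra hne
    have hd : v - w ≠ 0 := sub_ne_zero.mpr hne
    have h0 : reForm B₀ (v - w) = 0 := by
      rw [reForm, mulVec_sub, hvw, sub_self, dotProduct_zero, Complex.zero_re]
    have h1 : 0 < reForm B₀ (v - w) := by
      rw [reForm, hB₀, sum_mulVec, dotProduct_sum, Complex.re_sum]
      exact Finset.sum_pos (fun k _ => hpos _ _ hd) (Finset.nonempty_range_iff.mpr hn0.ne')
    exact h1.ne' h0
  have hunit : IsUnit B₀ := mulVec_injective_iff_isUnit.mp hinjB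
  apply hinj
  rw [map_one]
  exact hunit.mul_eq_right.mp hfix

include hU in
/-- Small rotations commute. -/
theorem IsSmallRot.commute {a b : G} (ha : IsSmallRot U a) (hb : IsSmallRot U b)
    (hinj : Function.Injective U) : a * b = b * a := by
  classical
  haveI := Fintype.ofFinite G
  set c : ℂ := ((Real.sqrt 3 / 2 : ℝ) : ℂ) with hc
  have hshift : ∀ {g : G}, IsSmallRot U g → ∀ v, sqLen ((U g - c • 1) *ᵥ v) ≤ 1 / 4 * sqLen v := by
    intro g hg v
    by_cases hv : v = 0
    · simp [hv, sqLen]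
    · exact (hg.shift U hU hv).le
  let good : G → Prop := fun w =>
    (IsHalf (U w - 1) ∨ IsSmallRot U w) ∧ a * w ≠ w * a
  by_contra hne
  obtain ⟨w, hw, hmin⟩ := Finset.exists_min_image (univ.filter good) (fun w => frobSq (U w - 1))
    ⟨b, Finset.mem_filter.mpr ⟨Finset.mem_univ _, Or.inr hb, hne⟩⟩
  obtain ⟨hwgood, hwne⟩ := (Finset.mem_filter.mp hw).2
  set w' := a * w * a⁻¹ * w⁻¹ with hw'
  have hsplit : ∀ t : ℂ, U w' - 1
      = ((U a - c • 1) * (U w - t • 1) - (U w - t • 1) * (U a - c • 1)) * U (a⁻¹ * w⁻¹) := by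
    intro t
    have e : (U a - c • 1) * (U w - t • 1) - (U w - t • 1) * (U a - c • 1) = U a * U w - U w * U a := by
      simp only [Matrix.sub_mul, Matrix.mul_sub, smul_mul_assoc, mul_smul_comm, Matrix.one_mul,
        Matrix.mul_one, smul_sub, smul_smul]
      rw [mul_comm t c]
      abel
    rw [e, Matrix.sub_mul, ← map_mul, ← map_mul, ← map_mul, ← map_mul]
    rw [show a * w * (a⁻¹ * w⁻¹) = w' by rw [hw']; group,
      show w * a * (a⁻¹ * w⁻¹) = 1 by group, map_one]
  obtain ⟨t, ht⟩ : ∃ t : ℂ, IsHalf (U w - t • 1) := hwgood.elim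
    (fun h => ⟨1, by rwa [one_smul]⟩) fun h => ⟨c, hshift h⟩
  have hhalf : IsHalf (U w' - 1) := by
    intro v
    rw [hsplit t, ← mulVec_mulVec, sub_mulVec, ← mulVec_mulVec, ← mulVec_mulVec]
    set u := U (a⁻¹ * w⁻¹) *ᵥ v
    have hu : sqLen u = sqLen v := sqLen_mulVec (unit_left U hU _) v
    have h1 := hshift ha ((U w - t • 1) *ᵥ u)
    have h2 := ht u
    have h3 := ht ((U a - c • 1) *ᵥ u)
    have h4 := hshift ha u
    have h5 := sqLen_sub_le ((U a - c • 1) *ᵥ ((U w - t • 1) *ᵥ u)) ((U w - t • 1) *ᵥ ((U a - c • 1) *ᵥ u))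
    linarith
  have hw1 : U w - 1 ≠ 0 := fun h0 => hwne (by
    have : w = 1 := hinj (by rw [map_one]; exact sub_eq_zero.mp h0)
    simp [this])
  have hlt : frobSq (U w' - 1) < frobSq (U w - 1) := by
    rw [hsplit 1, frobSq_mul_unitary (unit_right U hU _), one_smul]
    refine lt_of_le_of_lt (frobSq_sub_le _ _) ?_
    have h1 := frobSq_mul_lt (fun v hv => ha.shift U hU hv) hw1
    have h2 : frobSq ((U w - 1) * (U a - c • 1)) < 1 / 4 * frobSq (U w - 1) := by
      rw [← frobSq_conjTranspose, conjTranspose_mul, ← frobSq_conjTranspose (U w - 1)]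
      have e : (U a - c • (1 : Matrix ι ι ℂ))ᴴ = U a⁻¹ - c • 1 := by
        rw [conjTranspose_sub, hU, conjTranspose_smul, conjTranspose_one, hc, RCLike.star_def,
          Complex.conj_ofReal]
      rw [e]
      exact frobSq_mul_lt (fun v hv => (ha.inv U hU).shift U hU hv)
        (fun h0 => hw1 (conjTranspose_eq_zero.mp h0))
    linarith
  have hcomm : Commute a w' := by
    by_contra hn
    exact (not_le.mpr hlt) (hmin w' (Finset.mem_filter.mpr ⟨Finset.mem_univ _, Or.inl hhalf, hn⟩))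
  have hpos : ∀ x : G, ∀ v, v ≠ 0 → 0 < reForm (U (x * w * x⁻¹)) v := by
    intro x v hv
    rcases hwgood with h | h
    · have hu : U x⁻¹ *ᵥ v ≠ 0 := fun h0 => hv (by
        rw [← sqLen_eq_zero, ← sqLen_mulVec (unit_left U hU x⁻¹) v, h0]; simp [sqLen])
      have e : reForm (U (x * w * x⁻¹)) v = reForm (U w) (U x⁻¹ *ᵥ v) := by
        rw [reForm, reForm, star_mulVec, ← dotProduct_mulVec, hU, inv_inv, map_mul, map_mul]
        simp [mulVec_mulVec, mul_assoc]
      have h1 := h (U x⁻¹ *ᵥ v)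
      have h2 := sqLen_shift (unit_left U hU w) 1 (U x⁻¹ *ᵥ v)
      rw [Complex.ofReal_one, one_smul] at h2
      have h3 := sqLen_pos hu
      rw [e]
      linarith
    · exact lt_trans (mul_pos (by positivity) (sqLen_pos hv)) ((h.conj U hU x) v hv)
  refine hwne ?_
  have h1 := comm_eq_one_of_pos U hU hcomm hpos hinj
  rwa [mul_inv_eq_one, mul_inv_eq_iff_eq_mul] at h1

end rep

/-- A finite matrix group is unitary in suitable coordinates. -/
theorem exists_unitary_conj {G : Type*} [Group G] [Fintype G] (R : G →* Matrix ι ι ℂ) :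
    ∃ U : G →* Matrix ι ι ℂ, (∀ g, (U g)ᴴ = U g⁻¹) ∧ (∀ g, (U g).trace = (R g).trace) := by
  classical
  set P := ∑ g : G, (R g)ᴴ * R g with hP
  have hpos : P.PosDef := by
    rw [hP, ← Finset.add_sum_erase _ _ (Finset.mem_univ (1 : G)), map_one, conjTranspose_one,
      Matrix.one_mul]
    exact PosDef.one.add_posSemidef
      (posSemidef_sum _ fun g _ => posSemidef_conjTranspose_mul_self _)
  set V := (hpos.1.eigenvectorUnitary : Matrix ι ι ℂ) with hV
  set D : Matrix ι ι ℂ := diagonal fun i => ((Real.sqrt (hpos.1.eigenvalues i) : ℝ) : ℂ) with hD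
  set S := D * star V with hS
  have hV1 : star V * V = 1 := Unitary.star_mul_self_of_mem hpos.1.eigenvectorUnitary.2
  have hDD : Dᴴ * D = diagonal (RCLike.ofReal ∘ hpos.1.eigenvalues) := by
    rw [hD, diagonal_conjTranspose, diagonal_mul_diagonal]
    congr 1
    funext i
    simp only [Pi.star_apply, RCLike.star_def, Complex.conj_ofReal, Function.comp_apply]
    rw [← Complex.ofReal_mul, Real.mul_self_sqrt (hpos.eigenvalues_pos i).le]
    rfl
  have hSP : Sᴴ * S = P := by
    rw [hpos.1.spectral_theorem, Unitary.conjStarAlgAut_apply, ← hV, ← hDD, hS, conjTranspose_mul,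
      star_eq_conjTranspose, conjTranspose_conjTranspose]
    simp only [Matrix.mul_assoc]
  have hSunit : IsUnit S := by
    rw [Matrix.isUnit_iff_isUnit_det]
    have := (Matrix.isUnit_iff_isUnit_det P).mp hpos.isUnit
    rw [← hSP, det_mul] at this
    exact isUnit_of_mul_isUnit_right this
  obtain ⟨T, hT⟩ := hSunit
  rw [← hT] at hSP
  let U : G →* Matrix ι ι ℂ :=
    { toFun := fun g => (T : Matrix ι ι ℂ) * R g * (↑T⁻¹ : Matrix ι ι ℂ)
      map_one' := by simp
      map_mul' := fun g h => by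
        simp [map_mul, Matrix.mul_assoc, Units.inv_mul_cancel_left] }
  have hinvP : ∀ g, (R g)ᴴ * P * R g = P := by
    intro g
    rw [hP, Finset.mul_sum, Finset.sum_mul]
    refine Fintype.sum_equiv (Equiv.mulRight g) _ _ fun h => ?_
    simp [map_mul, conjTranspose_mul, Matrix.mul_assoc]
  refine ⟨U, fun g => ?_, fun g => ?_⟩
  · have key : (U g)ᴴ * U g = 1 := by
      have h := hinvP g
      rw [← hSP] at h
      show ((T : Matrix ι ι ℂ) * R g * (↑T⁻¹ : Matrix ι ι ℂ))ᴴ * _ = 1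
      rw [conjTranspose_mul, conjTranspose_mul]
      calc (↑T⁻¹ : Matrix ι ι ℂ)ᴴ * ((R g)ᴴ * (T : Matrix ι ι ℂ)ᴴ) * ((T : Matrix ι ι ℂ) * R g * (↑T⁻¹ : Matrix ι ι ℂ))
          = (↑T⁻¹ : Matrix ι ι ℂ)ᴴ * ((R g)ᴴ * ((T : Matrix ι ι ℂ)ᴴ * (T : Matrix ι ι ℂ)) * R g) * (↑T⁻¹ : Matrix ι ι ℂ) := by
            simp only [Matrix.mul_assoc]
        _ = 1 := by
            rw [h, ← Matrix.mul_assoc, ← conjTranspose_mul, T.mul_inv, conjTranspose_one,
              Matrix.one_mul, T.mul_inv]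
    calc (U g)ᴴ = (U g)ᴴ * (U g * U g⁻¹) := by rw [← map_mul, mul_inv_cancel, map_one, Matrix.mul_one]
      _ = U g⁻¹ := by rw [← Matrix.mul_assoc, key, Matrix.one_mul]
  · show ((T : Matrix ι ι ℂ) * R g * (↑T⁻¹ : Matrix ι ι ℂ)).trace = _
    exact Matrix.trace_units_conj T (R g)

end Cfsg.Lib.Blocks
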