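import Cfsg.Agent.Lib.Blocks.MonomialTaketa
import Cfsg.Agent.Lib.Blocks.PrimeDegreeKernel

/-!
# p-groups all of whose degrees are 1 or p
-/

namespace Cfsg.Lib.Blocks.TwoDegrees

open Cfsg Cfsg.Lib.Characters Cfsg.Lib.Blocks.GaloisConj
open scoped Classical ComplexConjugate commutatorElement

set_option autoImplicit false
set_option linter.style.longLine false
set_option linter.style.haveILetI false
set_option linter.unusedSectionVars false

universe u

variable {G : Type u} [Group G] [Fintype G] {p : ℕ} [Fact p.Prime]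

theorem eq_of_le_index {A B : Subgroup G} (h : A ≤ B) (hi : A.index = B.index) : A = B := by
  refine le_antisymm h ?_
  rw [← Subgroup.relIndex_eq_one]
  have h1 := Subgroup.relIndex_mul_index h
  rw [hi] at h1
  exact Nat.eq_of_mul_eq_mul_right (Nat.pos_of_ne_zero Subgroup.index_ne_zero_of_finite) (h1.trans (one_mul _).symm)

theorem eq_or_eq_top {A B : Subgroup G} (h : A ≤ B) (hi : A.index = p) : A = B ∨ B = ⊤ := by
  rcases (Nat.dvd_prime Fact.out).1 (hi ▸ Subgroup.index_dvd_of_le h) with h1 | h1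
  · exact Or.inr (Subgroup.index_eq_one.1 h1)
  · exact Or.inl (eq_of_le_index h (hi.trans h1.symm))

theorem sup_eq_top {A : Subgroup G} (hi : A.index = p) {x : G} (hx : x ∉ A) : A ⊔ Subgroup.zpowers x = ⊤ :=
  (eq_or_eq_top (p := p) (le_sup_left : A ≤ A ⊔ Subgroup.zpowers x) hi).resolve_left fun e =>
    hx (e ▸ Subgroup.mem_sup_right (Subgroup.mem_zpowers x))

/-- If all characters trivial on M but not on the central subgroup L kill g, then g lies in M. -/
theorem mem_of_forall_kill {L M : Subgroup G} [L.Normal] [M.Normal] (hLM : ¬ L ≤ M) {g : G}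
    (h : ∀ χ : IrrCharacter G, (∀ x ∈ M, (χ : G → ℂ) x = (χ : G → ℂ) 1) → (∃ x ∈ L, (χ : G → ℂ) x ≠ (χ : G → ℂ) 1) →
      (χ : G → ℂ) g = (χ : G → ℂ) 1) (hL : L ≤ Subgroup.center G) : g ∈ M := by
  by_contra hg
  let inf : IrrCharacter (G ⧸ M) → IrrCharacter G := fun θ =>
    ⟨fun g => (θ : G ⧸ M → ℂ) g, isIrrCharacter_comp_surjective θ.2 (QuotientGroup.mk' M) (QuotientGroup.mk'_surjective M)⟩
  have hinf : ∀ θ, ∀ x ∈ M, (inf θ : G → ℂ) x = (inf θ : G → ℂ) 1 := fun θ x hx => by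
    show (θ : G ⧸ M → ℂ) x = (θ : G ⧸ M → ℂ) ((1 : G) : G ⧸ M)
    rw [(QuotientGroup.eq_one_iff x).2 hx, QuotientGroup.mk_one]
  obtain ⟨z, hz, hzM⟩ := SetLike.not_le_iff_exists.1 hLM
  haveI : Fintype (G ⧸ M) := Fintype.ofFinite _
  obtain ⟨θ₀', hθ₀⟩ := exists_irr_ne (fun e => hzM ((QuotientGroup.eq_one_iff z).1 e) : (z : G ⧸ M) ≠ 1)
  obtain ⟨θ', hθ⟩ := exists_irr_ne (fun e => hg ((QuotientGroup.eq_one_iff g).1 e) : (g : G ⧸ M) ≠ 1)
  set θ₀ := inf θ₀'
  set θ := inf θ'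
  have hθg : (θ : G → ℂ) g ≠ (θ : G → ℂ) 1 := by
    show (θ' : G ⧸ M → ℂ) g ≠ (θ' : G ⧸ M → ℂ) ((1 : G) : G ⧸ M)
    rwa [QuotientGroup.mk_one]
  have hθz : (θ₀ : G → ℂ) z ≠ (θ₀ : G → ℂ) 1 := by
    show (θ₀' : G ⧸ M → ℂ) z ≠ (θ₀' : G ⧸ M → ℂ) ((1 : G) : G ⧸ M)
    rwa [QuotientGroup.mk_one]
  by_cases hθL : ∃ x ∈ L, (θ : G → ℂ) x ≠ (θ : G → ℂ) 1
  · exact hθg (h θ (hinf θ') hθL)
  push_neg at hθL
  have h0g := h θ₀ (hinf θ₀') ⟨z, hz, hθz⟩
  have hf : IsCharacter G ((θ₀ : G → ℂ) * (θ : G → ℂ)) := isCharacter_mul θ₀.2.isCharacter θ.2.isCharacter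
  obtain ⟨m, hm⟩ := exists_decomposition hf
  have hkill : ∀ ψ, m ψ ≠ 0 → (ψ : G → ℂ) g = (ψ : G → ℂ) 1 := by
    intro ψ hψ
    have hval : ∀ x : G, (θ₀ : G → ℂ) x * (θ : G → ℂ) x = ∑ φ, (m φ : ℂ) * (φ : G → ℂ) x := fun x => by
      have := congrFun hm x
      simpa [Finset.sum_apply] using this
    have hM' : ∀ x ∈ M, (ψ : G → ℂ) x = (ψ : G → ℂ) 1 := by
      intro x hx
      obtain ⟨d, hd⟩ := exists_degree hf
      choose dg hdg using fun φ : IrrCharacter G => exists_degree φ.2.isCharacter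
      have e1 : ∑ φ, (m φ : ℂ) * (φ : G → ℂ) x = ∑ φ, (m φ : ℂ) * (φ : G → ℂ) 1 := by
        rw [← hval, ← hval, hinf θ₀' x hx, hinf θ' x hx]
      have e2 := congrArg Complex.re e1
      simp only [Complex.re_sum, Complex.mul_re, Complex.natCast_re, Complex.natCast_im, zero_mul, sub_zero, hdg] at e2
      have hle : ∀ φ : IrrCharacter G, (m φ : ℝ) * ((φ : G → ℂ) x).re ≤ (m φ : ℝ) * dg φ := fun φ =>
        mul_le_mul_of_nonneg_left ((Complex.re_le_norm _).trans (MonomialTaketa.norm_le_one φ.2.isCharacter (hdg φ) x)) (Nat.cast_nonneg _)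
      have := (Finset.sum_eq_sum_iff_of_le fun φ _ => hle φ).1 e2 ψ (Finset.mem_univ _)
      have hre : ((ψ : G → ℂ) x).re = dg ψ := mul_left_cancel₀ (Nat.cast_ne_zero.2 hψ) this
      rw [hdg ψ]
      refine Complex.ext ?_ ?_
      · rw [hre, Complex.natCast_re]
      · rw [Complex.natCast_im]
        have hn := MonomialTaketa.norm_le_one ψ.2.isCharacter (hdg ψ) x
        have h2 : ‖(ψ : G → ℂ) x‖ ^ 2 ≤ (dg ψ : ℝ) ^ 2 := pow_le_pow_left₀ (norm_nonneg _) hn 2
        rw [← Complex.normSq_eq_norm_sq, Complex.normSq_apply, hre] at h2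
        nlinarith [sq_nonneg ((ψ : G → ℂ) x).im]
    refine h ψ hM' ?_
    by_contra! hcon
    obtain ⟨ω, -, hω⟩ := central_value θ₀ (hL hz)
    obtain ⟨dθ, hdθ⟩ := exists_degree θ.2.isCharacter
    -- averaging over the subgroup generated by z
    have hzero : ∑ l : L, (θ₀ : G → ℂ) l = 0 := by
      have e : ∑ l : L, (θ₀ : G → ℂ) l = ω * ∑ l : L, (θ₀ : G → ℂ) l := by
        rw [Finset.mul_sum, ← Fintype.sum_equiv (Equiv.mulLeft (⟨z, hz⟩ : L)) (fun l : L => (θ₀ : G → ℂ) ((⟨z, hz⟩ : L) * l : L)) (fun l : L => (θ₀ : G → ℂ) l) fun l => rfl]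
        exact Finset.sum_congr rfl fun l _ => hω l
      by_contra h0
      have hω1 : ω = 1 := (mul_right_cancel₀ h0 ((one_mul _).trans e)).symm
      have := hω 1
      rw [mul_one, hω1, one_mul] at this
      exact hθz this
    have htot : ∑ φ, (m φ : ℂ) * ∑ l : L, (φ : G → ℂ) l = 0 := by
      simp only [Finset.mul_sum]
      rw [Finset.sum_comm]
      simp only [← hval]
      rw [show ∑ l : L, (θ₀ : G → ℂ) l * (θ : G → ℂ) l = ∑ l : L, (θ₀ : G → ℂ) l * (θ : G → ℂ) 1 from Finset.sum_congr rfl fun l _ => by rw [hθL l l.2], ← Finset.sum_mul, hzero, zero_mul]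
    have hinner : ∀ φ : IrrCharacter G, ∃ k : ℕ, ∑ l : L, (φ : G → ℂ) l = (Nat.card L : ℂ) * k := fun φ => by
      obtain ⟨k, hk⟩ := classInner_nat (isCharacter_restrict φ.2.isCharacter L) (isIrrCharacter_one (G := L)).isCharacter
      refine ⟨k, ?_⟩
      rw [← hk, classInner, mul_inv_cancel_left₀ (Nat.cast_ne_zero.2 Nat.card_pos.ne')]
      simp
    choose k hk using hinner
    simp only [hk] at htot
    have htot' : ∑ φ, m φ * (Nat.card L * k φ) = 0 := by exact_mod_cast htot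
    have h4 := Finset.sum_eq_zero_iff.1 htot' ψ (Finset.mem_univ _)
    simp only [mul_eq_zero, hψ, Nat.card_pos.ne', false_or] at h4
    have h5 := hk ψ
    rw [h4, Finset.sum_congr rfl fun (l : L) _ => hcon l l.2, Finset.sum_const, nsmul_eq_mul] at h5
    simp [ψ.2.one_ne_zero] at h5
  refine hθg (mul_left_cancel₀ θ₀.2.one_ne_zero ?_)
  have e1 := congrFun hm g
  have e2 := congrFun hm 1
  simp only [Pi.mul_apply, Finset.sum_apply, Pi.smul_apply, smul_eq_mul, h0g] at e1 e2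
  rw [e1, e2]
  refine Finset.sum_congr rfl fun ψ _ => ?_
  rcases eq_or_ne (m ψ) 0 with h' | h'
  · simp [h']
  · rw [hkill ψ h']

/-- The index-p subgroup inducing a character of degree p is abelian modulo the kernel. -/
theorem exists_inducing (hnil : Group.IsNilpotent G)
    (hcd : ∀ χ : IrrCharacter G, charDegree (χ : G → ℂ) = 1 ∨ charDegree (χ : G → ℂ) = p)
    (χ : IrrCharacter G) (hχ : charDegree (χ : G → ℂ) = p) :
    ∃ H : Subgroup G, H.index = p ∧ commutator G ≤ H ∧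
      ∀ a ∈ H, ∀ b ∈ H, (χ : G → ℂ) ⁅a, b⁆ = (χ : G → ℂ) 1 := by
  haveI := hnil
  haveI : Group.IsNilpotent (G ⧸ (⊥ : Subgroup G)) :=
    nilpotent_of_surjective (QuotientGroup.mk' (⊥ : Subgroup G)) (QuotientGroup.mk'_surjective _)
  obtain ⟨H, lam, hind⟩ := MonomialTaketa.monomial_aux _ G ⊥ rfl inferInstance (χ : G → ℂ) χ.2 fun θ _ => by
    haveI : IsMulCommutative (⊥ : Subgroup G) := ⟨⟨fun a b => Subsingleton.elim _ _⟩⟩
    exact degree_one_of_isMulCommutative θ.2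
  have hm : (χ : G → ℂ) 1 = (p : ℂ) := by rw [deg_spec χ.2.isCharacter, hχ]
  have hidx : H.index = p := by
    have := congrFun hind 1
    rw [indFun_one_apply, hm] at this
    simpa using this
  have hG' := MonomialTaketa.commutator_le_of_index H hidx hcd
  haveI : H.Normal := Subgroup.Normal.of_commutator_le G hG'
  refine ⟨H, hidx, hG', fun a ha b hb => ?_⟩
  have hval : ∀ x : G, extendByZero H (fun x => (lam x : ℂ)) (x⁻¹ * ⁅a, b⁆ * x) = 1 := by
    intro x
    have hc : ∀ y ∈ H, x⁻¹ * y * x ∈ H := fun y hy => by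
      simpa using (inferInstance : H.Normal).conj_mem y hy x⁻¹
    have e : x⁻¹ * ⁅a, b⁆ * x = ((⁅(⟨_, hc a ha⟩ : H), (⟨_, hc b hb⟩ : H)⁆ : H) : G) := by
      simp only [commutatorElement_def, Subgroup.coe_mul, InvMemClass.coe_inv]
      group
    rw [e, extendByZero_coe, map_commutatorElement, commutatorElement_eq_one_iff_mul_comm.2 (mul_comm _ _), Units.val_one]
  rw [hm, ← hind, indFun, Finset.sum_congr rfl fun x _ => hval x, Finset.sum_const, Finset.card_univ, nsmul_one,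
    ← Nat.card_eq_fintype_card, ← Subgroup.card_mul_index H, hidx, Nat.cast_mul, inv_mul_cancel_left₀ (Nat.cast_ne_zero.2 Nat.card_pos.ne')]

theorem comm_mul_right {x y z : G} (h : ⁅x, z⁆ ∈ Subgroup.center G) : ⁅x, y * z⁆ = ⁅x, y⁆ * ⁅x, z⁆ := by
  have h1 : y * ⁅x, z⁆ * y⁻¹ = ⁅x, z⁆ := by
    rw [Subgroup.mem_center_iff.1 h y, mul_inv_cancel_right]
  rw [show ⁅x, y * z⁆ = ⁅x, y⁆ * (y * ⁅x, z⁆ * y⁻¹) by simp only [commutatorElement_def]; group, h1]

theorem comm_mul_left {x y z : G} (h : ⁅y, z⁆ ∈ Subgroup.center G) (h' : ⁅x, z⁆ ∈ Subgroup.center G) :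
    ⁅x * y, z⁆ = ⁅x, z⁆ * ⁅y, z⁆ := by
  have h1 : x * ⁅y, z⁆ * x⁻¹ = ⁅y, z⁆ := by
    rw [Subgroup.mem_center_iff.1 h x, mul_inv_cancel_right]
  rw [show ⁅x * y, z⁆ = (x * ⁅y, z⁆ * x⁻¹) * ⁅x, z⁆ by simp only [commutatorElement_def]; group, h1,
    Subgroup.mem_center_iff.1 h']

/-- The right radical of the commutator pairing into a central subgroup modulo the kernel of χ. -/
def rad (Q L : Subgroup G) (hL : L ≤ Subgroup.center G) (hQ : ∀ q ∈ Q, ∀ g : G, ⁅q, g⁆ ∈ L) (χ : IrrCharacter G) : Subgroup G where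
  carrier := {g | ∀ q ∈ Q, ⁅q, g⁆ ∈ charKer χ.2.isCharacter}
  one_mem' := fun q _ => by rw [commutatorElement_one_right]; exact one_mem _
  mul_mem' := fun {a b} ha hb q hq => by
    rw [comm_mul_right (hL (hQ q hq b))]; exact mul_mem (ha q hq) (hb q hq)
  inv_mem' := fun {a} ha q hq => by
    have h := comm_mul_right (y := a⁻¹) (hL (hQ q hq a))
    rw [inv_mul_cancel, commutatorElement_one_right] at h
    rw [eq_inv_of_mul_eq_one_left h.symm]
    exact inv_mem (ha q hq)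

theorem exists_product {L : Subgroup G} (hL : L ≤ Subgroup.center G) (χ₁ χ₂ : IrrCharacter G) :
    ∃ χ₃ : IrrCharacter G, ∀ z ∈ L, ∀ w₁ w₂ : ℂ, (χ₁ : G → ℂ) z = w₁ * (χ₁ : G → ℂ) 1 →
      (χ₂ : G → ℂ) z = w₂ * (χ₂ : G → ℂ) 1 → (χ₃ : G → ℂ) z = w₁ * w₂ * (χ₃ : G → ℂ) 1 := by
  have hf : IsCharacter G ((χ₁ : G → ℂ) * (χ₂ : G → ℂ)) := isCharacter_mul χ₁.2.isCharacter χ₂.2.isCharacter
  obtain ⟨χ, hχ, hne⟩ := exists_constituent hf (mul_ne_zero χ₁.2.one_ne_zero χ₂.2.one_ne_zero)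
  refine ⟨⟨χ, hχ⟩, fun z hz w₁ w₂ h1 h2 => ?_⟩
  have hw : ∀ (θ : IrrCharacter G) (w : ℂ), (θ : G → ℂ) z = w * (θ : G → ℂ) 1 → ∀ g, (θ : G → ℂ) (z * g) = w * (θ : G → ℂ) g := by
    intro θ w h g
    obtain ⟨ω, -, hω⟩ := central_value θ (hL hz)
    have : ω = w := mul_right_cancel₀ θ.2.one_ne_zero ((hω 1).symm.trans (by rw [mul_one, h]))
    rw [hω, this]
  obtain ⟨ω, hωn, hω⟩ := central_value ⟨χ, hχ⟩ (hL hz)
  have hωω : ω * conj ω = 1 := by rw [Complex.mul_conj, Complex.normSq_eq_norm_sq, hωn]; norm_num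
  have key : classInner ((χ₁ : G → ℂ) * (χ₂ : G → ℂ)) χ = (w₁ * w₂ * conj ω) * classInner ((χ₁ : G → ℂ) * (χ₂ : G → ℂ)) χ := by
    have e : classInner ((χ₁ : G → ℂ) * (χ₂ : G → ℂ)) χ = classInner (fun g => ((χ₁ : G → ℂ) * (χ₂ : G → ℂ)) (z * g)) (fun g => χ (z * g)) := by
      simp only [classInner]
      congr 1
      exact (Fintype.sum_equiv (Equiv.mulLeft z) _ _ fun g => rfl).symm
    conv_lhs => rw [e]
    simp only [classInner, Finset.mul_sum]
    refine Finset.sum_congr rfl fun g _ => ?_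
    have h3 : χ (z * g) = ω * χ g := hω g
    simp only [Pi.mul_apply, hw χ₁ w₁ h1, hw χ₂ w₂ h2, h3, map_mul]
    ring
  have h4 : w₁ * w₂ * conj ω = 1 := (mul_right_cancel₀ hne ((one_mul _).trans key)).symm
  have : ω = w₁ * w₂ := by
    calc ω = ω * (w₁ * w₂ * conj ω) := by rw [h4, mul_one]
      _ = w₁ * w₂ * (ω * conj ω) := by ring
      _ = w₁ * w₂ := by rw [hωω, mul_one]
  have h5 := hω 1
  rw [mul_one] at h5
  rw [h5, this]

theorem mem_ker_of_prod {L : Subgroup G} (hL : L ≤ Subgroup.center G) {χ₁ χ₂ χ₃ : IrrCharacter G}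
    (h3 : ∀ z ∈ L, ∀ w₁ w₂ : ℂ, (χ₁ : G → ℂ) z = w₁ * (χ₁ : G → ℂ) 1 →
      (χ₂ : G → ℂ) z = w₂ * (χ₂ : G → ℂ) 1 → (χ₃ : G → ℂ) z = w₁ * w₂ * (χ₃ : G → ℂ) 1) {z : G} (hz : z ∈ L) :
    (z ∈ charKer χ₁.2.isCharacter → (z ∈ charKer χ₂.2.isCharacter ↔ z ∈ charKer χ₃.2.isCharacter)) ∧
    (z ∈ charKer χ₂.2.isCharacter → (z ∈ charKer χ₁.2.isCharacter ↔ z ∈ charKer χ₃.2.isCharacter)) := by
  have hex : ∀ θ : IrrCharacter G, ∃ w : ℂ, (θ : G → ℂ) z = w * (θ : G → ℂ) 1 := fun θ => by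
    obtain ⟨ω, -, hω⟩ := central_value θ (hL hz)
    exact ⟨ω, by simpa using hω 1⟩
  obtain ⟨w₁, hw₁⟩ := hex χ₁
  obtain ⟨w₂, hw₂⟩ := hex χ₂
  have hw₃ := h3 z hz w₁ w₂ hw₁ hw₂
  have hone : ∀ (θ : IrrCharacter G) (w : ℂ), (θ : G → ℂ) z = w * (θ : G → ℂ) 1 → (z ∈ charKer θ.2.isCharacter ↔ w = 1) := fun θ w h => by
    rw [mem_charKer, h]
    exact ⟨fun e => mul_right_cancel₀ θ.2.one_ne_zero (e.trans (one_mul _).symm), fun e => by rw [e, one_mul]⟩
  rw [hone _ _ hw₁, hone _ _ hw₂, hone _ _ hw₃]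
  exact ⟨fun h => by rw [h, one_mul], fun h => by rw [h, mul_one]⟩

/-- The main theorem. -/
theorem pgroup_two_degrees (hP : IsPGroup p G)
    (hcd : ∀ χ : IrrCharacter G, charDegree (χ : G → ℂ) = 1 ∨ charDegree (χ : G → ℂ) = p)
    (hna : ∃ a b : G, a * b ≠ b * a) :
    (∃ A : Subgroup G, (∀ a ∈ A, ∀ b ∈ A, a * b = b * a) ∧ A.index = p) ∨ (Subgroup.center G).index = p ^ 3 := by
  have pr := (Fact.out : p.Prime)
  have hnil := hP.isNilpotent
  haveI := hnil
  rw [or_iff_not_imp_left]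
  intro hno
  -- the centre has index at least p^3
  have hZ : (Subgroup.center G).index ∣ p ^ 3 → (Subgroup.center G).index = p ^ 3 := by
    intro hd
    obtain ⟨i, hi, he⟩ := (Nat.dvd_prime_pow pr).1 hd
    rcases (show i = 3 ∨ i ≤ 2 by omega) with rfl | hi2
    · exact he
    exfalso
    obtain ⟨a, b, hab⟩ := hna
    have haZ : a ∉ Subgroup.center G := fun h => hab ((Subgroup.mem_center_iff.1 h b).symm)
    set A := Subgroup.center G ⊔ Subgroup.zpowers a with hA
    have hAc : A ≤ Subgroup.centralizer ({a} : Set G) := sup_le (fun z hz => Subgroup.mem_centralizer_singleton_iff.2 ((Subgroup.mem_center_iff.1 hz a).symm))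
      (Subgroup.zpowers_le.2 (Subgroup.mem_centralizer_singleton_iff.2 rfl))
    have hAab : ∀ x ∈ A, ∀ y ∈ A, x * y = y * x := by
      intro x hx y hy
      have hle : A ≤ Subgroup.centralizer ({x} : Set G) := sup_le (fun z hz => Subgroup.mem_centralizer_singleton_iff.2 ((Subgroup.mem_center_iff.1 hz x).symm))
        (Subgroup.zpowers_le.2 (Subgroup.mem_centralizer_singleton_iff.2 (Subgroup.mem_centralizer_singleton_iff.1 (hAc hx)).symm))
      exact (Subgroup.mem_centralizer_singleton_iff.1 (hle hy)).symm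
    have hd' := Subgroup.index_dvd_of_le (le_sup_left : Subgroup.center G ≤ A)
    rw [he] at hd'
    obtain ⟨j, hj, hj'⟩ := (Nat.dvd_prime_pow pr).1 hd'
    have hlt : A.index < (Subgroup.center G).index := Subgroup.index_strictAnti (lt_of_le_of_ne le_sup_left fun e => haZ (by
      rw [e]; exact Subgroup.mem_sup_right (Subgroup.mem_zpowers a)))
    rw [he, hj'] at hlt
    have hji : j < i := (Nat.pow_lt_pow_iff_right pr.one_lt).1 hlt
    rcases (show j = 0 ∨ j = 1 by omega) with rfl | rfl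
    · rw [pow_zero, Subgroup.index_eq_one] at hj'
      exact hab (hAab a (by rw [hA, hj']; exact Subgroup.mem_top a) b (by rw [hA, hj']; exact Subgroup.mem_top b))
    · exact hno ⟨A, hAab, by rw [hj', pow_one]⟩
  refine hZ ?_
  -- a central last term
  obtain ⟨n₀, hn₀⟩ := (Subgroup.nilpotent_iff_lowerCentralSeries (G := G)).1 hnil
  have hex : ∃ n, (⊤ : Subgroup G).lowerCentralSeries n = ⊥ := ⟨n₀, hn₀⟩
  obtain ⟨n, hn, hnmin⟩ : ∃ n, (⊤ : Subgroup G).lowerCentralSeries n = ⊥ ∧ ∀ k < n, (⊤ : Subgroup G).lowerCentralSeries k ≠ ⊥ :=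
    ⟨Nat.find hex, Nat.find_spec hex, fun k hk => Nat.find_min hex hk⟩
  have hcomm : ⁅(⊤ : Subgroup G), (⊤ : Subgroup G)⁆ ≠ ⊥ := by
    intro e
    obtain ⟨a, b, hab⟩ := hna
    exact hab (commutatorElement_eq_one_iff_mul_comm.1 ((Subgroup.eq_bot_iff_forall _).1 e _ (Subgroup.commutator_mem_commutator (Subgroup.mem_top a) (Subgroup.mem_top b))))
  have hn2 : 2 ≤ n := by
    rcases n with _ | _ | n
    · exact absurd (le_bot_iff.1 ((Subgroup.commutator_le_left (⊤ : Subgroup G) ⊤).trans hn.le)) hcomm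
    · exact absurd hn hcomm
    · omega
  set Q := (⊤ : Subgroup G).lowerCentralSeries (n - 2) with hQdef
  set L := (⊤ : Subgroup G).lowerCentralSeries (n - 1) with hLdef
  have hLQ : L = ⁅Q, (⊤ : Subgroup G)⁆ := by
    rw [hLdef, show n - 1 = n - 2 + 1 by omega]; rfl
  have hLne : L ≠ ⊥ := hnmin _ (by omega)
  have hLZ : L ≤ Subgroup.center G := by
    intro x hx
    rw [Subgroup.mem_center_iff]
    intro g
    have h1 := Subgroup.commutator_mem_commutator hx (Subgroup.mem_top g)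
    rw [show ⁅L, (⊤ : Subgroup G)⁆ = (⊤ : Subgroup G).lowerCentralSeries n by
      rw [hLdef]; conv_rhs => rw [show n = n - 1 + 1 by omega]
      rfl, hn, Subgroup.mem_bot, commutatorElement_eq_one_iff_mul_comm] at h1
    exact h1.symm
  haveI hLn : L.Normal := ⟨fun x hx g => by rw [Subgroup.mem_center_iff.1 (hLZ hx) g, mul_inv_cancel_right]; exact hx⟩
  have hQL : ∀ q ∈ Q, ∀ g : G, ⁅q, g⁆ ∈ L := fun q hq g => hLQ ▸ Subgroup.commutator_mem_commutator hq (Subgroup.mem_top g)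
  let K := rad Q L hLZ hQL
  have hker : ∀ χ : IrrCharacter G, ∀ {z}, z ∈ charKer χ.2.isCharacter ↔ (χ : G → ℂ) z = (χ : G → ℂ) 1 := fun χ {z} => Iff.rfl
  have hKtop : ∀ χ : IrrCharacter G, ¬ L ≤ charKer χ.2.isCharacter → K χ ≠ ⊤ := by
    intro χ hχ e
    refine hχ ?_
    rw [hLQ, Subgroup.commutator_le]
    exact fun q hq g _ => (show g ∈ K χ from e ▸ Subgroup.mem_top g) q hq
  have hdeg : ∀ χ : IrrCharacter G, ¬ L ≤ charKer χ.2.isCharacter → charDegree (χ : G → ℂ) = p := fun χ hχ =>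
    (hcd χ).resolve_left fun h => hχ fun z hz => by
      refine apply_commutator_of_linear h ?_
      rw [hLQ] at hz
      exact Subgroup.commutator_mono le_top le_rfl hz
  have hprod : ∀ χ₁ χ₂ : IrrCharacter G, K χ₁ ≠ K χ₂ → ¬ L ≤ charKer χ₁.2.isCharacter → ¬ L ≤ charKer χ₂.2.isCharacter →
      ∃ χ₃ : IrrCharacter G, (¬ L ≤ charKer χ₃.2.isCharacter) ∧
        (∀ z ∈ L, (z ∈ charKer χ₁.2.isCharacter → (z ∈ charKer χ₂.2.isCharacter ↔ z ∈ charKer χ₃.2.isCharacter)) ∧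
          (z ∈ charKer χ₂.2.isCharacter → (z ∈ charKer χ₁.2.isCharacter ↔ z ∈ charKer χ₃.2.isCharacter))) := by
    intro χ₁ χ₂ hne _ _
    obtain ⟨χ₃, h3⟩ := exists_product hLZ χ₁ χ₂
    have hk := fun z (hz : z ∈ L) => mem_ker_of_prod hLZ h3 hz
    refine ⟨χ₃, fun hle => hne ?_, hk⟩
    ext g
    constructor
    · exact fun hg q hq => ((hk _ (hQL q hq g)).1 (hg q hq)).2 (hle (hQL q hq g))
    · exact fun hg q hq => ((hk _ (hQL q hq g)).2 (hg q hq)).2 (hle (hQL q hq g))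
  by_cases hclass : n = 2
  · -- class two
    have hQtop : Q = ⊤ := by rw [hQdef, hclass]; rfl
    have hLc : L = commutator G := by rw [hLQ, hQtop, commutator_def]
    have hR : ∀ χ : IrrCharacter G, ¬ L ≤ charKer χ.2.isCharacter → (K χ).index = p ^ 2 := by
      intro χ hχ
      have hvan : ∀ g, g ∉ K χ → (χ : G → ℂ) g = 0 := by
        intro g hg
        obtain ⟨h, -, hh⟩ : ∃ h ∈ Q, ⁅h, g⁆ ∉ charKer χ.2.isCharacter := by
          by_contra! hcon
          exact hg hcon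
        obtain ⟨ω, -, hω⟩ := central_value χ (hLZ (hLc ▸ Subgroup.commutator_mem_commutator (Subgroup.mem_top h) (Subgroup.mem_top g) : ⁅h, g⁆ ∈ L))
        by_contra h0
        have h1 := hω g
        rw [commutatorElement_def, inv_mul_cancel_right, χ.2.isClassFunction g h] at h1
        refine hh ?_
        have hω1 : ω = 1 := (mul_right_cancel₀ h0 ((one_mul _).trans h1)).symm
        show (χ : G → ℂ) ⁅h, g⁆ = (χ : G → ℂ) 1
        rw [← mul_one ⁅h, g⁆, hω, hω1, one_mul]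
      have hscal : ∀ g ∈ K χ, ‖(χ : G → ℂ) g‖ = (charDegree (χ : G → ℂ) : ℝ) := by
        intro g hg
        obtain ⟨d, ρ, hρ, hρχ⟩ := id χ.2
        haveI := hρ
        obtain ⟨ω, hω⟩ := schur_scalar ρ (ρ g) fun y => by
          have h1 : (χ : G → ℂ) ⁅y, g⁆ = (χ : G → ℂ) 1 := hg y (hQtop ▸ Subgroup.mem_top y)
          rw [← hρχ] at h1
          have h2 := (char_eq_one_iff ρ _).1 h1
          rw [← map_mul ρ y g, show y * g = ⁅y, g⁆ * (g * y) by simp only [commutatorElement_def]; group, map_mul ρ ⁅y, g⁆, h2, one_mul, map_mul]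
        have hdn : d ≠ 0 := fun e => χ.2.one_ne_zero (by rw [← hρχ, Representation.char_one, Module.finrank_fin_fun, e, Nat.cast_zero])
        have hp : ω ^ orderOf g = 1 := by
          have h : ρ (g ^ orderOf g) = 1 := by rw [pow_orderOf_eq_one, map_one]
          rw [map_pow, hω, ← Module.End.one_eq_id, smul_pow, one_pow] at h
          have := congrArg (LinearMap.trace ℂ (Fin d → ℂ)) h
          rw [map_smul, Module.End.one_eq_id, LinearMap.trace_id, Module.finrank_fin_fun, smul_eq_mul] at this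
          exact mul_right_cancel₀ (Nat.cast_ne_zero.2 hdn) (this.trans (one_mul _).symm)
        have hd : charDegree (χ : G → ℂ) = d := by
          rw [charDegree, ← hρχ, Representation.char_one, Module.finrank_fin_fun, Complex.natCast_re, Nat.floor_natCast]
        rw [hd, ← hρχ, Representation.character, hω, map_smul, LinearMap.trace_id, Module.finrank_fin_fun, smul_eq_mul, norm_mul,
          Complex.norm_eq_one_of_pow_eq_one hp (orderOf_pos g).ne', one_mul, Complex.norm_natCast]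
      have h := classInner_irr_self χ.2
      rw [classInner, inv_mul_eq_iff_eq_mul₀ (Nat.cast_ne_zero.2 Nat.card_pos.ne'), mul_one] at h
      have h2 : ((∑ g : G, ‖(χ : G → ℂ) g‖ ^ 2 : ℝ) : ℂ) = ((Nat.card G : ℝ) : ℂ) := by
        push_cast
        rw [← h]
        exact Finset.sum_congr rfl fun g _ => (Complex.mul_conj' _).symm
      have h3 : ∑ g : G, ‖(χ : G → ℂ) g‖ ^ 2 = ∑ g : G, if g ∈ K χ then (p : ℝ) ^ 2 else 0 :=
        Finset.sum_congr rfl fun g _ => by
          split_ifs with hg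
          · rw [hscal g hg, hdeg χ hχ]
          · rw [hvan g hg, norm_zero, zero_pow two_ne_zero]
      rw [h3, ← Finset.sum_filter, Finset.sum_const,
        show (Finset.univ.filter (· ∈ K χ)).card = Nat.card (K χ) by
          rw [Nat.card_eq_fintype_card, Fintype.card_subtype], nsmul_eq_mul] at h2
      have h4 : Nat.card (K χ) * p ^ 2 = Nat.card G := by exact_mod_cast h2
      exact (Nat.eq_of_mul_eq_mul_left Nat.card_pos (h4.trans (Subgroup.card_mul_index (K χ)).symm)).symm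
    -- elements in all radicals are central
    have hcen : ∀ g, (∀ χ : IrrCharacter G, ¬ L ≤ charKer χ.2.isCharacter → g ∈ K χ) → g ∈ Subgroup.center G := by
      intro g hg
      rw [Subgroup.mem_center_iff]
      intro h
      rw [← commutatorElement_eq_one_iff_mul_comm]
      by_contra hne
      obtain ⟨χ, hχ⟩ := exists_irr_ne hne
      have hnL : ¬ L ≤ charKer χ.2.isCharacter := fun hle => hχ (hle (hLc ▸ Subgroup.commutator_mem_commutator (Subgroup.mem_top h) (Subgroup.mem_top g)))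
      exact hχ (hg χ hnL h (hQtop ▸ Subgroup.mem_top h))
    obtain ⟨z, hz, hz1⟩ := (Subgroup.bot_or_exists_ne_one L).resolve_left hLne
    obtain ⟨χ₁, hχ₁'⟩ := exists_irr_ne hz1
    have hχ₁ : ¬ L ≤ charKer χ₁.2.isCharacter := fun h => hχ₁' (h hz)
    by_cases hall : ∀ χ : IrrCharacter G, ¬ L ≤ charKer χ.2.isCharacter → K χ = K χ₁
    · have hle : K χ₁ ≤ Subgroup.center G := fun g hg => hcen g fun χ hχ => by rw [hall χ hχ]; exact hg
      refine dvd_trans (Subgroup.index_dvd_of_le hle) ?_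
      rw [hR χ₁ hχ₁]
      exact pow_dvd_pow p (by norm_num)
    push_neg at hall
    obtain ⟨χ₂, hχ₂, hne₂⟩ := hall
    have hsymm : ∀ χ : IrrCharacter G, ∀ {x y : G}, x ∈ K χ → ⁅x, y⁆ ∈ charKer χ.2.isCharacter := fun χ {x y} hx => by
      rw [← commutatorElement_inv]
      exact inv_mem (hx y (hQtop ▸ Subgroup.mem_top y))
    have hKn : ∀ χ : IrrCharacter G, (K χ).Normal := fun χ => ⟨fun x hx g q hq => by
      have hc : ⁅g, x⁆ ∈ Subgroup.center G := hLZ (hLc ▸ Subgroup.commutator_mem_commutator (Subgroup.mem_top g) (Subgroup.mem_top x))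
      rw [show g * x * g⁻¹ = ⁅g, x⁆ * x by rw [commutatorElement_def, inv_mul_cancel_right],
        comm_mul_right (hLZ (hQL q hq x)), commutatorElement_eq_one_iff_mul_comm.2 (Subgroup.mem_center_iff.1 hc q), one_mul]
      exact hx q hq⟩
    have hne4 : ∀ χ χ' : IrrCharacter G, ¬ L ≤ charKer χ.2.isCharacter → ¬ L ≤ charKer χ'.2.isCharacter → K χ ≠ K χ' →
        K χ ⊔ K χ' ≠ ⊤ := by
      intro χ χ' hχ hχ' hne he
      obtain ⟨χ₃, hχ₃, hk⟩ := hprod χ χ' hne hχ hχ'
      haveI := hKn χ'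
      have hle : K χ₃ ≤ K χ ⊓ K χ' := by
        intro g hg
        have hkey : ∀ r₁ ∈ K χ, ∀ r₂ ∈ K χ', g = r₁ * r₂ → r₁ ∈ K χ' ∧ r₂ ∈ K χ := by
          intro r₁ h1 r₂ h2 hgr
          have hcomp : ∀ x : G, ⁅x, g⁆ = ⁅x, r₁⁆ * ⁅x, r₂⁆ := fun x => by
            rw [hgr]; exact comm_mul_right (hLZ (hQL x (hQtop ▸ Subgroup.mem_top x) r₂))
          have hgk : ∀ x, ⁅x, g⁆ ∈ charKer χ₃.2.isCharacter := fun x => hg x (hQtop ▸ Subgroup.mem_top x)
          have hfin : ∀ (ψ : IrrCharacter G) (r : G) (A B : Subgroup G), A ⊔ B = ⊤ → (∀ x ∈ A, ⁅x, r⁆ ∈ charKer ψ.2.isCharacter) →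
              (∀ x ∈ B, ⁅x, r⁆ ∈ charKer ψ.2.isCharacter) → r ∈ K ψ := by
            intro ψ r A B hAB hA hB x _
            let S : Subgroup G := {
              carrier := {x | ⁅x, r⁆ ∈ charKer ψ.2.isCharacter}
              one_mem' := by simp only [Set.mem_setOf_eq, commutatorElement_one_left]; exact one_mem _
              mul_mem' := fun {a b} ha hb => by
                simp only [Set.mem_setOf_eq] at *
                rw [comm_mul_left (hLZ (hQL b (hQtop ▸ Subgroup.mem_top b) r)) (hLZ (hQL a (hQtop ▸ Subgroup.mem_top a) r))]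
                exact mul_mem ha hb
              inv_mem' := fun {a} ha => by
                simp only [Set.mem_setOf_eq] at *
                have h := comm_mul_left (x := a⁻¹) (hLZ (hQL a (hQtop ▸ Subgroup.mem_top a) r)) (hLZ (hQL a⁻¹ (hQtop ▸ Subgroup.mem_top a⁻¹) r))
                rw [inv_mul_cancel, commutatorElement_one_left] at h
                rw [eq_inv_of_mul_eq_one_left h.symm]
                exact inv_mem ha }
            have : (⊤ : Subgroup G) ≤ S := hAB ▸ sup_le hA hB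
            exact this (Subgroup.mem_top x)
          constructor
          · refine hfin χ' r₁ _ _ he (fun x hx => ?_) (fun x hx => hsymm χ' hx)
            have h5 : ⁅x, g⁆ ∈ charKer χ'.2.isCharacter :=
              ((hk _ (hQL x (hQtop ▸ Subgroup.mem_top x) g)).1 (hsymm χ hx)).2 (hgk x)
            rw [hcomp] at h5
            exact (mul_mem_cancel_right (h2 x (hQtop ▸ Subgroup.mem_top x))).1 h5
          · refine hfin χ r₂ _ _ he (fun x hx => hsymm χ hx) (fun x hx => ?_)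
            have h5 : ⁅x, g⁆ ∈ charKer χ.2.isCharacter :=
              ((hk _ (hQL x (hQtop ▸ Subgroup.mem_top x) g)).2 (hsymm χ' hx)).2 (hgk x)
            rw [hcomp] at h5
            exact (mul_mem_cancel_left (h1 x (hQtop ▸ Subgroup.mem_top x))).1 h5
        obtain ⟨r₁, h1, r₂, h2, hgr⟩ := Subgroup.mem_sup_of_normal_right.1 (show g ∈ K χ ⊔ K χ' from he ▸ Subgroup.mem_top g)
        obtain ⟨e1, e2⟩ := hkey r₁ h1 r₂ h2 hgr.symm
        exact hgr ▸ ⟨mul_mem h1 e2, mul_mem e1 h2⟩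
      have h1 : K χ₃ = K χ := eq_of_le_index (hle.trans inf_le_left) ((hR χ₃ hχ₃).trans (hR χ hχ).symm)
      have h2 : K χ₃ = K χ' := eq_of_le_index (hle.trans inf_le_right) ((hR χ₃ hχ₃).trans (hR χ' hχ').symm)
      exact hne (h1.symm.trans h2)
    have hsupidx : ∀ χ χ' : IrrCharacter G, ¬ L ≤ charKer χ.2.isCharacter → ¬ L ≤ charKer χ'.2.isCharacter → K χ ≠ K χ' →
        (K χ ⊔ K χ').index = p := by
      intro χ χ' hχ hχ' hne
      obtain ⟨i, hi, he⟩ := (Nat.dvd_prime_pow pr).1 (hR χ hχ ▸ Subgroup.index_dvd_of_le (le_sup_left : K χ ≤ K χ ⊔ K χ'))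
      interval_cases i
      · exact absurd (Subgroup.index_eq_one.1 he) (hne4 χ χ' hχ hχ' hne)
      · rwa [pow_one] at he
      · exfalso
        have e := eq_of_le_index (le_sup_left : K χ ≤ K χ ⊔ K χ') ((hR χ hχ).trans he.symm)
        exact hne (eq_of_le_index (e ▸ le_sup_right : K χ' ≤ K χ) ((hR χ' hχ').trans (hR χ hχ).symm)).symm
    set M := K χ₁ ⊔ K χ₂ with hMdef
    set W := K χ₁ ⊓ K χ₂ with hWdef
    have hMp : M.index = p := hsupidx χ₁ χ₂ hχ₁ hχ₂ hne₂.symm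
    haveI := hKn χ₁
    haveI := hKn χ₂
    have hWidx : W.index = p ^ 3 := by
      have h1 := Subgroup.relIndex_mul_index (inf_le_left : W ≤ K χ₁)
      rw [hR χ₁ hχ₁, Subgroup.inf_relIndex_left] at h1
      have h2 : (K χ₂).relIndex (K χ₁) = p := by
        rw [← Subgroup.relIndex_sup_right]
        have := Subgroup.relIndex_mul_index (le_sup_right : K χ₂ ≤ M)
        rw [hMp, hR χ₂ hχ₂] at this
        exact Nat.eq_of_mul_eq_mul_right pr.pos (this.trans (sq p))
      rw [h2] at h1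
      rw [← h1]; ring
    by_cases hin : ∀ χ : IrrCharacter G, ¬ L ≤ charKer χ.2.isCharacter → K χ ≤ M
    · exfalso
      refine hno ⟨M, fun a ha b hb => ?_, hMp⟩
      rw [← commutatorElement_eq_one_iff_mul_comm]
      by_contra hne
      obtain ⟨χ, hχ⟩ := exists_irr_ne hne
      have hnL : ¬ L ≤ charKer χ.2.isCharacter := fun hle => hχ (hle (hLc ▸ Subgroup.commutator_mem_commutator (Subgroup.mem_top a) (Subgroup.mem_top b)))
      refine hχ ?_
      show ⁅a, b⁆ ∈ charKer χ.2.isCharacter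
      obtain ⟨x, hxM, hx⟩ := SetLike.not_le_iff_exists.1 (fun hle : M ≤ K χ => by
        have := Subgroup.index_dvd_of_le hle
        rw [hR χ hnL, hMp] at this
        have := Nat.le_of_dvd pr.pos this
        nlinarith [pr.two_le])
      have hgen : K χ ⊔ Subgroup.zpowers x = M := by
        refine le_antisymm (sup_le (hin χ hnL) (Subgroup.zpowers_le.2 hxM)) ?_
        have hd := Subgroup.index_dvd_of_le (le_sup_left : K χ ≤ K χ ⊔ Subgroup.zpowers x)
        rw [hR χ hnL] at hd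
        obtain ⟨i, hi, he⟩ := (Nat.dvd_prime_pow pr).1 hd
        have hd2 := Subgroup.index_dvd_of_le (sup_le (hin χ hnL) (Subgroup.zpowers_le.2 hxM) : K χ ⊔ Subgroup.zpowers x ≤ M)
        rw [hMp, he] at hd2
        interval_cases i
        · rw [pow_zero, Nat.dvd_one] at hd2; exact absurd hd2 pr.ne_one
        · exact (eq_of_le_index (sup_le (hin χ hnL) (Subgroup.zpowers_le.2 hxM)) (by rw [he, pow_one, hMp])).ge
        · exact absurd ((eq_of_le_index le_sup_left (by rw [hR χ hnL, he])).symm ▸ Subgroup.mem_sup_right (Subgroup.mem_zpowers x) : x ∈ K χ) hx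
      have hcentr : ∀ {w}, w ∈ M → ∀ {u}, u ∈ K χ → ⁅w, u⁆ ∈ charKer χ.2.isCharacter :=
        fun {w} _ {u} hu => hu w (hQtop ▸ Subgroup.mem_top w)
      have hS : ∀ w : G, ⁅w, x⁆ ∈ charKer χ.2.isCharacter → ∀ u ∈ M, ⁅w, u⁆ ∈ charKer χ.2.isCharacter := fun w hwx u hu => by
        let S : Subgroup G := {
          carrier := {u | ⁅w, u⁆ ∈ charKer χ.2.isCharacter}
          one_mem' := by simp only [Set.mem_setOf_eq, commutatorElement_one_right]; exact one_mem _
          mul_mem' := fun {a b} ha hb => by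
            simp only [Set.mem_setOf_eq] at *
            rw [comm_mul_right (hLZ (hQL w (hQtop ▸ Subgroup.mem_top w) b))]
            exact mul_mem ha hb
          inv_mem' := fun {a} ha => by
            simp only [Set.mem_setOf_eq] at *
            have h := comm_mul_right (y := a⁻¹) (hLZ (hQL w (hQtop ▸ Subgroup.mem_top w) a))
            rw [inv_mul_cancel, commutatorElement_one_right] at h
            rw [eq_inv_of_mul_eq_one_left h.symm]
            exact inv_mem ha }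
        have : M ≤ S := hgen ▸ sup_le (fun v hv => hv w (hQtop ▸ Subgroup.mem_top w)) (Subgroup.zpowers_le.2 hwx)
        exact this hu
      refine hS a ?_ b hb
      rw [← commutatorElement_inv]
      exact inv_mem (hS x (by rw [commutatorElement_self]; exact one_mem _) a ha)
    push_neg at hin
    obtain ⟨χu, hχu, hUM⟩ := hin
    set U := K χu with hUdef
    haveI := hKn χu
    have hWU : W ≤ U := by
      by_contra hWU
      have hUW : (U ⊔ W).index = p := by
        obtain ⟨w, hw, hwU⟩ := SetLike.not_le_iff_exists.1 hWU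
        have hne₁ : K χ₁ ≠ U := fun e => hUM (e ▸ le_sup_left)
        have hle : U ⊔ W ≤ K χ₁ ⊔ U := sup_le le_sup_right (inf_le_left.trans le_sup_left)
        obtain ⟨i, hi, he⟩ := (Nat.dvd_prime_pow pr).1 (hR χu hχu ▸ Subgroup.index_dvd_of_le (le_sup_left : U ≤ U ⊔ W))
        interval_cases i
        · exact absurd (le_antisymm le_top ((Subgroup.index_eq_one.1 he).ge.trans hle)) (hne4 χ₁ χu hχ₁ hχu hne₁)
        · rwa [pow_one] at he
        · exact absurd ((eq_of_le_index le_sup_left ((hR χu hχu).trans he.symm)).ge (Subgroup.mem_sup_right hw)) hwU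
      have hle : ∀ χ : IrrCharacter G, ¬ L ≤ charKer χ.2.isCharacter → W ≤ K χ → K χ ≠ U → K χ ≤ U ⊔ W := by
        intro χ hχ hW hne
        have h1 : U ⊔ W ≤ U ⊔ K χ := sup_le le_sup_left (hW.trans le_sup_right)
        rw [eq_of_le_index h1 (hUW.trans (hsupidx χu χ hχu hχ hne.symm).symm)]
        exact le_sup_right
      have hM' : M ≤ U ⊔ W := sup_le (hle χ₁ hχ₁ inf_le_left fun e => hUM (e ▸ le_sup_left)) (hle χ₂ hχ₂ inf_le_right fun e => hUM (e ▸ le_sup_right))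
      exact hUM ((eq_of_le_index hM' (hMp.trans hUW.symm)) ▸ le_sup_left)
    have hWall : ∀ χ : IrrCharacter G, ¬ L ≤ charKer χ.2.isCharacter → W ≤ K χ := by
      intro χ hχ
      by_cases hM' : K χ ≤ M
      · -- inside M
        by_contra hW
        obtain ⟨w, hw, hwK⟩ := SetLike.not_le_iff_exists.1 hW
        have hneU : K χ ≠ U := fun e => hUM (e ▸ hM')
        have hKW : K χ ⊔ W = M := by
          refine eq_of_le_index (sup_le hM' (inf_le_left.trans le_sup_left)) ?_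
          obtain ⟨i, hi, he⟩ := (Nat.dvd_prime_pow pr).1 (hR χ hχ ▸ Subgroup.index_dvd_of_le (le_sup_left : K χ ≤ K χ ⊔ W))
          have hd2 := Subgroup.index_dvd_of_le (sup_le hM' (inf_le_left.trans le_sup_left) : K χ ⊔ W ≤ M)
          rw [hMp, he] at hd2
          interval_cases i
          · rw [pow_zero, Nat.dvd_one] at hd2; exact absurd hd2 pr.ne_one
          · rw [he, pow_one, hMp]
          · exact absurd ((eq_of_le_index le_sup_left ((hR χ hχ).trans he.symm)).symm ▸ Subgroup.mem_sup_right hw : w ∈ K χ) hwK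
        have hle : M ≤ K χ ⊔ U := hKW ▸ sup_le le_sup_left (hWU.trans le_sup_right)
        exact hUM (eq_of_le_index hle (hMp.trans (hsupidx χ χu hχ hχu hneU).symm) ▸ le_sup_right)
      · -- outside M
        by_contra hW
        obtain ⟨w, hw, hwK⟩ := SetLike.not_le_iff_exists.1 hW
        have hne₁ : K χ₁ ≠ K χ := fun e => hM' (e ▸ le_sup_left)
        have hne₂' : K χ₂ ≠ K χ := fun e => hM' (e ▸ le_sup_right)
        have hKW : (K χ ⊔ W).index = p := by
          obtain ⟨i, hi, he⟩ := (Nat.dvd_prime_pow pr).1 (hR χ hχ ▸ Subgroup.index_dvd_of_le (le_sup_left : K χ ≤ K χ ⊔ W))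
          interval_cases i
          · exact absurd (le_antisymm le_top ((Subgroup.index_eq_one.1 he).ge.trans (sup_le le_sup_right (inf_le_left.trans le_sup_left))))
              (hne4 χ₁ χ hχ₁ hχ hne₁)
          · rwa [pow_one] at he
          · exact absurd ((eq_of_le_index le_sup_left ((hR χ hχ).trans he.symm)).symm ▸ Subgroup.mem_sup_right hw : w ∈ K χ) hwK
        have hin' : ∀ χ' : IrrCharacter G, ¬ L ≤ charKer χ'.2.isCharacter → W ≤ K χ' → K χ' ≠ K χ → K χ' ≤ K χ ⊔ W := by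
          intro χ' hχ' hW' hne
          have h1 : K χ ⊔ W ≤ K χ ⊔ K χ' := sup_le le_sup_left (hW'.trans le_sup_right)
          rw [eq_of_le_index h1 (hKW.trans (hsupidx χ χ' hχ hχ' hne.symm).symm)]
          exact le_sup_right
        have hM'' : M ≤ K χ ⊔ W := sup_le (hin' χ₁ hχ₁ inf_le_left hne₁) (hin' χ₂ hχ₂ inf_le_right hne₂')
        exact hM' ((eq_of_le_index hM'' (hMp.trans hKW.symm)) ▸ le_sup_left)
    have hWZ : W ≤ Subgroup.center G := fun g hg => hcen g fun χ hχ => hWall χ hχ hg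
    exact hWidx ▸ Subgroup.index_dvd_of_le hWZ
  · -- class at least three
    have hQG' : Q ≤ commutator G := by
      rw [commutator_def]
      exact ((⊤ : Subgroup G).lowerCentralSeries_antitone (show 1 ≤ n - 2 by omega))
    have hG'L : ¬ commutator G ≤ L := by
      intro h
      have hLG : (⊤ : Subgroup G).lowerCentralSeries 2 = ⊥ := by
        rw [eq_bot_iff]
        refine le_trans (Subgroup.commutator_mono (h.trans hLZ) le_rfl) ?_
        refine Subgroup.commutator_le.2 fun z hz g _ => ?_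
        rw [Subgroup.mem_bot, commutatorElement_eq_one_iff_mul_comm]
        exact (Subgroup.mem_center_iff.1 hz g).symm
      exact hnmin 2 (by omega) hLG
    -- the inducing subgroup is the radical
    have hK : ∀ χ : IrrCharacter G, ¬ L ≤ charKer χ.2.isCharacter → (K χ).index = p ∧
        ∀ a ∈ K χ, ∀ b ∈ K χ, (χ : G → ℂ) ⁅a, b⁆ = (χ : G → ℂ) 1 := by
      intro χ hχ
      obtain ⟨H, hHi, hH', hHc⟩ := exists_inducing hnil hcd χ (hdeg χ hχ)
      have hle : H ≤ K χ := fun g hg q hq => hHc q (hH' (hQG' hq)) g hg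
      have := (eq_or_eq_top (p := p) hle hHi).resolve_right (hKtop χ hχ)
      exact this ▸ ⟨hHi, hHc⟩
    have hsep : ∀ g ∈ L, g ≠ 1 → ∃ χ : IrrCharacter G, (χ : G → ℂ) g ≠ (χ : G → ℂ) 1 ∧ ¬ L ≤ charKer χ.2.isCharacter :=
      fun g hg hg1 => by
        obtain ⟨χ, hχ⟩ := exists_irr_ne hg1
        exact ⟨χ, hχ, fun h => hχ (h hg)⟩
    -- kernels are detected inside L
    have hMker : ∀ χ : IrrCharacter G, ¬ L ≤ charKer χ.2.isCharacter → ∀ a ∈ K χ, ∀ b ∈ K χ,
        ⁅a, b⁆ ∈ L ∧ ⁅a, b⁆ ∈ charKer χ.2.isCharacter := by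
      intro χ hχ a ha b hb
      haveI : (L ⊓ charKer χ.2.isCharacter).Normal := ⟨fun x hx g => by
        rw [Subgroup.mem_center_iff.1 (hLZ hx.1) g, mul_inv_cancel_right]; exact hx⟩
      refine ⟨(mem_of_forall_kill (L := L) (M := L ⊓ charKer χ.2.isCharacter) (fun h => hχ (h.trans inf_le_right))
        (fun ψ hM hψ => ?_) hLZ).1, (hK χ hχ).2 a ha b hb⟩
      have hψL : ¬ L ≤ charKer ψ.2.isCharacter := fun h => by obtain ⟨x, hx, hx'⟩ := hψ; exact hx' (h hx)
      have hle : K χ ≤ K ψ := fun g hg q hq => hM _ ⟨hQL q hq g, hg q hq⟩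
      have e := (eq_or_eq_top (p := p) hle (hK χ hχ).1).resolve_right (hKtop ψ hψL)
      exact (hK ψ hψL).2 a (e ▸ ha) b (e ▸ hb)
    obtain ⟨z, hz, hz1⟩ := (Subgroup.bot_or_exists_ne_one L).resolve_left hLne
    obtain ⟨χ₁, -, hχ₁⟩ := hsep z hz hz1
    by_cases hall : ∀ χ : IrrCharacter G, ¬ L ≤ charKer χ.2.isCharacter → K χ = K χ₁
    · exfalso
      refine hno ⟨K χ₁, fun a ha b hb => ?_, (hK χ₁ hχ₁).1⟩
      rw [← commutatorElement_eq_one_iff_mul_comm]
      by_contra hne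
      obtain ⟨χ, hχ, hnL⟩ := hsep _ (hMker χ₁ hχ₁ a ha b hb).1 hne
      exact hχ ((hK χ hnL).2 a (hall χ hnL ▸ ha) b (hall χ hnL ▸ hb))
    push_neg at hall
    obtain ⟨χ₂, hχ₂, hne₂⟩ := hall
    let J : IrrCharacter G → G → Prop := fun χ q => ∀ g : G, ⁅q, g⁆ ∈ charKer χ.2.isCharacter
    have hJ : ∀ χ χ' : IrrCharacter G, ¬ L ≤ charKer χ.2.isCharacter → ¬ L ≤ charKer χ'.2.isCharacter → K χ ≠ K χ' →
        ∀ q ∈ Q, J χ q → J χ' q := by
      intro χ χ' hχ hχ' hne q hq hJq g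
      obtain ⟨χ₃, hχ₃, hk⟩ := hprod χ χ' hne hχ hχ'
      by_contra hg
      have hne₃ : K χ' ≠ K χ₃ := fun e => hne (by
        refine ((eq_or_eq_top (p := p) (show K χ' ≤ K χ from fun x hx r hr =>
          ((hk _ (hQL r hr x)).2 (hx r hr)).2 ((e ▸ hx : x ∈ K χ₃) r hr)) (hK χ' hχ').1).resolve_right (hKtop χ hχ)).symm)
      let S : Subgroup G := {
        carrier := {x | ⁅q, x⁆ ∈ charKer χ'.2.isCharacter}
        one_mem' := by simp only [Set.mem_setOf_eq, commutatorElement_one_right]; exact one_mem _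
        mul_mem' := fun {a b} ha hb => by
          simp only [Set.mem_setOf_eq] at *
          rw [comm_mul_right (hLZ (hQL q hq b))]
          exact mul_mem ha hb
        inv_mem' := fun {a} ha => by
          simp only [Set.mem_setOf_eq] at *
          have h := comm_mul_right (y := a⁻¹) (hLZ (hQL q hq a))
          rw [inv_mul_cancel, commutatorElement_one_right] at h
          rw [eq_inv_of_mul_eq_one_left h.symm]
          exact inv_mem ha }
      have h1 : K χ' ≤ S := fun x hx => hx q hq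
      have h2 : K χ₃ ≤ S := fun x hx => ((hk _ (hQL q hq x)).1 (hJq x)).2 (hx q hq)
      rcases eq_or_eq_top (p := p) h1 (hK χ' hχ').1 with e | e
      · exact hne₃ ((eq_or_eq_top (p := p) (e ▸ h2) (hK χ₃ hχ₃).1).resolve_right (hKtop χ' hχ')).symm
      · exact hg (show g ∈ S from e ▸ Subgroup.mem_top g)
    have hJall : ∀ χ : IrrCharacter G, ¬ L ≤ charKer χ.2.isCharacter → ∀ q ∈ Q, J χ₁ q → J χ q := by
      intro χ hχ q hq hj
      by_cases h : K χ = K χ₁
      · exact hJ χ₂ χ hχ₂ hχ (fun e => hne₂ (e.trans h)) q hq (hJ χ₁ χ₂ hχ₁ hχ₂ (fun e => hne₂ e.symm) q hq hj)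
      · exact hJ χ₁ χ hχ₁ hχ (fun e => h e.symm) q hq hj
    have hJcen : ∀ q ∈ Q, J χ₁ q → q ∈ Subgroup.center G := fun q hq hj => Subgroup.mem_center_iff.2 fun g => by
      by_contra hne
      obtain ⟨χ, hχ, hnL⟩ := hsep _ (hQL q hq g) fun e => hne (commutatorElement_eq_one_iff_mul_comm.1 e).symm
      exact hχ (hJall χ hnL q hq hj g)
    obtain ⟨g₀, hg₀⟩ : ∃ g₀, g₀ ∉ K χ₁ := by
      by_contra! h
      exact hKtop χ₁ hχ₁ (eq_top_iff.2 fun x _ => h x)
    have hpowK : ∀ χ : IrrCharacter G, ¬ L ≤ charKer χ.2.isCharacter → ∀ g : G, g ^ p ∈ K χ := by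
      intro χ hχ g
      haveI : (K χ).Normal := by
        obtain ⟨H, hHi, hH', hHc⟩ := exists_inducing hnil hcd χ (hdeg χ hχ)
        have hle : H ≤ K χ := fun x hx q hq => hHc q (hH' (hQG' hq)) x hx
        exact Subgroup.Normal.of_commutator_le G (hH'.trans hle)
      have := (K χ).pow_index_mem g
      rwa [(hK χ hχ).1] at this
    have hpowL : ∀ q ∈ Q, ∀ g : G, ∀ i : ℕ, ⁅q, g ^ i⁆ = ⁅q, g⁆ ^ i := by
      intro q hq g i
      induction i with
      | zero => simp [commutatorElement_one_right]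
      | succ i ih => rw [pow_succ, pow_succ, comm_mul_right (hLZ (hQL q hq g)), ih]
    have hexp : ∀ q ∈ Q, ∀ g : G, ⁅q, g⁆ ^ p = 1 := by
      intro q hq g
      by_contra hne
      obtain ⟨χ, hχ, hnL⟩ := hsep _ (pow_mem (hQL q hq g) p) hne
      exact hχ (by rw [← hpowL q hq]; exact hpowK χ hnL g q hq)
    have hpowQ : ∀ q ∈ Q, ∀ g : G, ∀ i : ℕ, ⁅q ^ i, g⁆ = ⁅q, g⁆ ^ i := by
      intro q hq g i
      induction i with
      | zero => simp [commutatorElement_one_left]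
      | succ i ih => rw [pow_succ, pow_succ, comm_mul_left (hLZ (hQL q hq g)) (hLZ (hQL _ (pow_mem hq i) g)), ih]
    obtain ⟨q₀, hq₀, hq₀g⟩ : ∃ q ∈ Q, ⁅q, g₀⁆ ∉ charKer χ₁.2.isCharacter := by
      by_contra! h
      exact hg₀ h
    -- every pairing value is a power of the pairing with q₀
    have hcyc : ∀ q ∈ Q, ∃ i : ℕ, ∀ g : G, ⁅q, g⁆ = ⁅q₀, g⁆ ^ i := by
      intro q hq
      have hroot : ∀ r ∈ Q, ∃ ω : ℂ, ω ^ p = 1 ∧ (χ₁ : G → ℂ) ⁅r, g₀⁆ = ω * (χ₁ : G → ℂ) 1 ∧
          ∀ x : G, (χ₁ : G → ℂ) (⁅r, g₀⁆ * x) = ω * (χ₁ : G → ℂ) x := by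
        intro r hr
        obtain ⟨ω, -, hω⟩ := central_value χ₁ (hLZ (hQL r hr g₀))
        refine ⟨ω, mul_right_cancel₀ χ₁.2.one_ne_zero ?_, by simpa using hω 1, hω⟩
        have hpw : ∀ k : ℕ, (χ₁ : G → ℂ) (⁅r, g₀⁆ ^ k) = ω ^ k * (χ₁ : G → ℂ) 1 := by
          intro k
          induction k with
          | zero => simp
          | succ k ih => rw [pow_succ', hω, ih, pow_succ']; ring
        rw [one_mul, ← hpw, hexp r hr g₀]
      obtain ⟨ω₀, hω₀p, hω₀1, hω₀⟩ := hroot q₀ hq₀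
      obtain ⟨ω, hωp, hω1, hω⟩ := hroot q hq
      have hne1 : ω₀ ≠ 1 := fun e => hq₀g (by
        show (χ₁ : G → ℂ) _ = _
        rw [hω₀1, e, one_mul])
      have hprim : IsPrimitiveRoot ω₀ p := by
        refine IsPrimitiveRoot.mk_of_lt ω₀ pr.pos hω₀p fun l hl hlp h => hne1 ?_
        have hd : orderOf ω₀ ∣ Nat.gcd l p := Nat.dvd_gcd (orderOf_dvd_of_pow_eq_one h) (orderOf_dvd_of_pow_eq_one hω₀p)
        rw [(Nat.coprime_comm.1 (pr.coprime_iff_not_dvd.2 fun hh => absurd (Nat.le_of_dvd hl hh) (by omega))).gcd_eq_one, Nat.dvd_one, orderOf_eq_one_iff] at hd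
        exact hd
      haveI : NeZero p := ⟨pr.ne_zero⟩
      obtain ⟨i, hi, hie⟩ := hprim.eq_pow_of_pow_eq_one hωp
      refine ⟨i, fun g => ?_⟩
      have hq' : q * (q₀ ^ i)⁻¹ ∈ Q := mul_mem hq (inv_mem (pow_mem hq₀ i))
      have hj : J χ₁ (q * (q₀ ^ i)⁻¹) := by
        intro x
        have hgen : K χ₁ ⊔ Subgroup.zpowers g₀ = ⊤ := sup_eq_top (hK χ₁ hχ₁).1 hg₀
        let S : Subgroup G := {
          carrier := {x | ⁅q * (q₀ ^ i)⁻¹, x⁆ ∈ charKer χ₁.2.isCharacter}
          one_mem' := by simp only [Set.mem_setOf_eq, commutatorElement_one_right]; exact one_mem _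
          mul_mem' := fun {a b} ha hb => by
            simp only [Set.mem_setOf_eq] at *
            rw [comm_mul_right (hLZ (hQL _ hq' b))]
            exact mul_mem ha hb
          inv_mem' := fun {a} ha => by
            simp only [Set.mem_setOf_eq] at *
            have h := comm_mul_right (y := a⁻¹) (hLZ (hQL _ hq' a))
            rw [inv_mul_cancel, commutatorElement_one_right] at h
            rw [eq_inv_of_mul_eq_one_left h.symm]
            exact inv_mem ha }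
        have : (⊤ : Subgroup G) ≤ S := hgen ▸ sup_le (fun v hv => hv _ hq') (Subgroup.zpowers_le.2 (by
          show (χ₁ : G → ℂ) ⁅q * (q₀ ^ i)⁻¹, g₀⁆ = (χ₁ : G → ℂ) 1
          have e : ⁅q, g₀⁆ = ⁅q * (q₀ ^ i)⁻¹, g₀⁆ * ⁅q₀, g₀⁆ ^ i := by
            rw [← hpowQ q₀ hq₀, ← comm_mul_left (hLZ (hQL _ (pow_mem hq₀ i) g₀)) (hLZ (hQL _ hq' g₀)), inv_mul_cancel_right]
          obtain ⟨ω', -, hω'⟩ := central_value χ₁ (hLZ (hQL _ hq' g₀))
          have hpw : ∀ k : ℕ, (χ₁ : G → ℂ) (⁅q₀, g₀⁆ ^ k) = ω₀ ^ k * (χ₁ : G → ℂ) 1 := by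
            intro k
            induction k with
            | zero => simp
            | succ k ih => rw [pow_succ', hω₀, ih, pow_succ']; ring
          have e2 : ω * (χ₁ : G → ℂ) 1 = ω' * (ω₀ ^ i * (χ₁ : G → ℂ) 1) := by rw [← hω1, e, hω', hpw]
          rw [hie, ← mul_assoc] at e2
          have hω0 : ω ≠ 0 := fun e => by rw [e, zero_pow pr.ne_zero] at hωp; exact zero_ne_one hωp
          have e3 : ω' = 1 := (mul_right_cancel₀ hω0 ((one_mul ω).trans (mul_right_cancel₀ χ₁.2.one_ne_zero e2))).symm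
          have := hω' 1
          rw [mul_one] at this
          rw [this, e3, one_mul]))
        exact this (Subgroup.mem_top x)
      have hc := hJcen _ hq' hj
      rw [← hpowQ q₀ hq₀]
      conv_lhs => rw [show q = q * (q₀ ^ i)⁻¹ * q₀ ^ i by group]
      rw [comm_mul_left (hLZ (hQL _ (pow_mem hq₀ i) g)) (hLZ (hQL _ hq' g)),
        commutatorElement_eq_one_iff_mul_comm.2 (Subgroup.mem_center_iff.1 hc g).symm, one_mul]
    let φ : G →* L := MonoidHom.mk' (fun g => ⟨⁅q₀, g⁆, hQL q₀ hq₀ g⟩) fun a b => Subtype.ext (comm_mul_right (hLZ (hQL q₀ hq₀ b)))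
    set C := φ.ker with hC
    have hφs : φ.range = ⊤ := by
      have hle : L ≤ φ.range.map L.subtype := by
        have h0 : ⁅Q, (⊤ : Subgroup G)⁆ ≤ φ.range.map L.subtype := Subgroup.commutator_le.2 fun q hq g _ => by
          obtain ⟨i, hi⟩ := hcyc q hq
          rw [hi g]
          exact pow_mem (show ⁅q₀, g⁆ ∈ φ.range.map L.subtype from ⟨φ g, ⟨g, rfl⟩, rfl⟩) i
        rwa [← hLQ] at h0
      exact eq_top_iff.2 fun x _ => by
        obtain ⟨y, hy, hyx⟩ := hle x.2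
        rwa [← Subtype.ext hyx]
    have hCK : ∀ χ : IrrCharacter G, C ≤ K χ := by
      intro χ g hg q hq
      obtain ⟨i, hi⟩ := hcyc q hq
      rw [hi g, show ⁅q₀, g⁆ = 1 from congrArg Subtype.val (MonoidHom.mem_ker.1 hg), one_pow]
      exact one_mem _
    have hCidx : C.index = Nat.card L := by
      rw [hC, Subgroup.index_ker, hφs, Subgroup.card_top]
    -- L has order at most p^2
    have hL2 : Nat.card L ≤ p ^ 2 := by
      by_contra! hbig
      refine hG'L ?_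
      rw [commutator_def, Subgroup.commutator_le]
      intro a _ b _
      set N := Subgroup.zpowers ⁅q₀, a⁆ ⊔ Subgroup.zpowers ⁅q₀, b⁆ with hN
      have hNL : N ≤ L := sup_le (Subgroup.zpowers_le.2 (hQL q₀ hq₀ a)) (Subgroup.zpowers_le.2 (hQL q₀ hq₀ b))
      haveI : N.Normal := ⟨fun x hx g => by rw [Subgroup.mem_center_iff.1 (hLZ (hNL hx)) g, mul_inv_cancel_right]; exact hx⟩
      haveI hzb : (Subgroup.zpowers ⁅q₀, b⁆).Normal := ⟨fun x hx g => by
        rw [Subgroup.mem_center_iff.1 (hLZ (Subgroup.zpowers_le.2 (hQL q₀ hq₀ b) hx)) g, mul_inv_cancel_right]; exact hx⟩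
      have hcardN : Nat.card N ≤ p * p := by
        have h1 : ∀ y : G, Nat.card (Subgroup.zpowers ⁅q₀, y⁆) ≤ p := fun y => by
          rw [Nat.card_zpowers]
          exact orderOf_le_of_pow_eq_one pr.pos (hexp q₀ hq₀ y)
        refine le_trans ?_ (Nat.mul_le_mul (h1 a) (h1 b))
        rw [hN, ← Nat.card_prod]
        refine Nat.card_le_card_of_surjective (fun uv : Subgroup.zpowers ⁅q₀, a⁆ × Subgroup.zpowers ⁅q₀, b⁆ =>
          (⟨(uv.1 : G) * uv.2, mul_mem (Subgroup.mem_sup_left uv.1.2) (Subgroup.mem_sup_right uv.2.2)⟩ : (Subgroup.zpowers ⁅q₀, a⁆ ⊔ Subgroup.zpowers ⁅q₀, b⁆ : Subgroup G))) ?_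
        rintro ⟨w, hw⟩
        obtain ⟨u, hu, v, hv, e⟩ := Subgroup.mem_sup_of_normal_right.1 hw
        exact ⟨(⟨u, hu⟩, ⟨v, hv⟩), Subtype.ext e⟩
      obtain ⟨x, hx, hxN⟩ := SetLike.not_le_iff_exists.1 (fun hle : L ≤ N => by
        have := Subgroup.card_le_of_le hle
        rw [sq] at hbig
        omega)
      haveI : Fintype (G ⧸ N) := Fintype.ofFinite _
      obtain ⟨θ, hθ⟩ := exists_irr_ne (fun e => hxN ((QuotientGroup.eq_one_iff x).1 e) : (x : G ⧸ N) ≠ 1)
      let χ : IrrCharacter G := ⟨fun g => (θ : G ⧸ N → ℂ) g, isIrrCharacter_comp_surjective θ.2 (QuotientGroup.mk' N) (QuotientGroup.mk'_surjective N)⟩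
      have hNk : N ≤ charKer χ.2.isCharacter := fun y hy => by
        show (θ : G ⧸ N → ℂ) y = (θ : G ⧸ N → ℂ) ((1 : G) : G ⧸ N)
        rw [(QuotientGroup.eq_one_iff y).2 hy, QuotientGroup.mk_one]
      have hnL : ¬ L ≤ charKer χ.2.isCharacter := fun h => hθ (by
        have h1 : (θ : G ⧸ N → ℂ) x = (θ : G ⧸ N → ℂ) ((1 : G) : G ⧸ N) := h hx
        rwa [QuotientGroup.mk_one] at h1)
      have hinK : ∀ y : G, ⁅q₀, y⁆ ∈ N → y ∈ K χ := fun y hy q hq => by
        obtain ⟨i, hi⟩ := hcyc q hq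
        rw [hi y]
        exact pow_mem (hNk hy) i
      exact (hMker χ hnL a (hinK a (Subgroup.mem_sup_left (Subgroup.mem_zpowers _))) b (hinK b (Subgroup.mem_sup_right (Subgroup.mem_zpowers _)))).1
    have hK12 : K χ₁ ⊓ K χ₂ = C ∧ C.index = p ^ 2 := by
      have hle : C ≤ K χ₁ ⊓ K χ₂ := le_inf (hCK χ₁) (hCK χ₂)
      obtain ⟨i, he⟩ := hP.index (K χ₁ ⊓ K χ₂)
      have hi2 : 2 ≤ i := by
        by_contra! hi
        have h1 := Subgroup.index_dvd_of_le (inf_le_left : K χ₁ ⊓ K χ₂ ≤ K χ₁)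
        rw [(hK χ₁ hχ₁).1, he] at h1
        interval_cases i
        · rw [pow_zero, Nat.dvd_one] at h1; exact pr.ne_one h1
        · have e1 := eq_of_le_index (inf_le_left : K χ₁ ⊓ K χ₂ ≤ K χ₁) (by rw [he, pow_one, (hK χ₁ hχ₁).1])
          have e2 := eq_of_le_index (inf_le_right : K χ₁ ⊓ K χ₂ ≤ K χ₂) (by rw [he, pow_one, (hK χ₂ hχ₂).1])
          exact hne₂ (e2.symm.trans e1)
      have hd := Nat.le_of_dvd (Nat.pos_of_ne_zero Subgroup.index_ne_zero_of_finite) (Subgroup.index_dvd_of_le hle)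
      rw [he] at hd
      have h2 : p ^ 2 ≤ p ^ i := Nat.pow_le_pow_right pr.pos hi2
      have h3 : C.index = p ^ 2 := by rw [hCidx] at hd ⊢; omega
      exact ⟨(eq_of_le_index hle (by rw [h3, he]; omega)).symm, h3⟩
    obtain ⟨hKC, hCp⟩ := hK12
    obtain ⟨χ₃, hχ₃, hk⟩ := hprod χ₁ χ₂ (fun e => hne₂ e.symm) hχ₁ hχ₂
    have hne13 : K χ₁ ≠ K χ₃ := fun e => hne₂ (by
      refine ((eq_or_eq_top (p := p) (show K χ₁ ≤ K χ₂ from fun x hx r hr =>
        ((hk _ (hQL r hr x)).1 (hx r hr)).2 ((e ▸ hx : x ∈ K χ₃) r hr)) (hK χ₁ hχ₁).1).resolve_right (hKtop χ₂ hχ₂)).symm)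
    -- the two kernels meet trivially in L
    have hM12 : ∀ (ψ ψ' : IrrCharacter G), K ψ ⊓ K ψ' = C → ¬ L ≤ charKer ψ.2.isCharacter → ¬ L ≤ charKer ψ'.2.isCharacter →
        ∀ x ∈ L, x ∈ charKer ψ.2.isCharacter → x ∈ charKer ψ'.2.isCharacter → x = 1 := by
      intro ψ ψ' hKK _ _ x hx h1 h2
      obtain ⟨g, hg⟩ := MonoidHom.range_eq_top.1 hφs ⟨x, hx⟩
      have hgx : ⁅q₀, g⁆ = x := congrArg Subtype.val hg
      have hin : g ∈ K ψ ⊓ K ψ' := ⟨fun q hq => by
          obtain ⟨i, hi⟩ := hcyc q hq; rw [hi g, hgx]; exact pow_mem h1 i,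
        fun q hq => by obtain ⟨i, hi⟩ := hcyc q hq; rw [hi g, hgx]; exact pow_mem h2 i⟩
      rw [hKK] at hin
      rw [← hgx]
      exact congrArg Subtype.val (MonoidHom.mem_ker.1 hin)
    obtain ⟨a, ha, haC⟩ := SetLike.not_le_iff_exists.1 (fun hle : K χ₁ ≤ C => by
      have := Subgroup.index_dvd_of_le hle
      rw [(hK χ₁ hχ₁).1, hCp] at this
      have := Nat.le_of_dvd pr.pos this
      nlinarith [pr.two_le])
    obtain ⟨c, hc, hcK₁⟩ := SetLike.not_le_iff_exists.1 (fun hle : K χ₃ ≤ K χ₁ =>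
      hne13 ((eq_or_eq_top (p := p) hle (hK χ₃ hχ₃).1).resolve_right (hKtop χ₁ hχ₁)).symm)
    have hK1 : C ⊔ Subgroup.zpowers a = K χ₁ := by
      refine eq_of_le_index (sup_le (hCK χ₁) (Subgroup.zpowers_le.2 ha)) ?_
      obtain ⟨i, hi, he⟩ := (Nat.dvd_prime_pow pr).1 (hCp ▸ Subgroup.index_dvd_of_le (le_sup_left : C ≤ C ⊔ Subgroup.zpowers a))
      have hd2 := Subgroup.index_dvd_of_le (sup_le (hCK χ₁) (Subgroup.zpowers_le.2 ha) : C ⊔ Subgroup.zpowers a ≤ K χ₁)
      rw [(hK χ₁ hχ₁).1, he] at hd2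
      interval_cases i
      · rw [pow_zero, Nat.dvd_one] at hd2; exact absurd hd2 pr.ne_one
      · rw [he, pow_one, (hK χ₁ hχ₁).1]
      · exact absurd ((eq_of_le_index le_sup_left (hCp.trans he.symm)).symm ▸ Subgroup.mem_sup_right (Subgroup.mem_zpowers a) : a ∈ C) haC
    have htop := sup_eq_top (hK χ₁ hχ₁).1 hcK₁
    have hCab : ∀ x ∈ C, ∀ y ∈ C, x * y = y * x := fun x hx y hy => commutatorElement_eq_one_iff_mul_comm.1
      (hM12 χ₁ χ₂ hKC hχ₁ hχ₂ _ (hMker χ₁ hχ₁ x (hCK χ₁ hx) y (hCK χ₁ hy)).1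
        (hMker χ₁ hχ₁ x (hCK χ₁ hx) y (hCK χ₁ hy)).2 (hMker χ₂ hχ₂ x (hCK χ₂ hx) y (hCK χ₂ hy)).2)
    have hK23 : K χ₂ ⊓ K χ₃ = C := by
      refine le_antisymm ?_ (le_inf (hCK χ₂) (hCK χ₃))
      rw [← hKC]
      exact fun x hx => ⟨fun q hq => ((hk _ (hQL q hq x)).2 (hx.1 q hq)).2 (hx.2 q hq), hx.1⟩
    have hWZ : ∀ w ∈ C, ⁅w, a⁆ = 1 → w ∈ Subgroup.center G := by
      intro w hw hwa
      let S : Subgroup G := {
        carrier := {x | ⁅w, x⁆ ∈ L}
        one_mem' := by simp only [Set.mem_setOf_eq, commutatorElement_one_right]; exact one_mem _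
        mul_mem' := fun {x y} hx hy => by
          simp only [Set.mem_setOf_eq] at *
          rw [comm_mul_right (hLZ hy)]; exact mul_mem hx hy
        inv_mem' := fun {x} hx => by
          simp only [Set.mem_setOf_eq] at *
          have h := comm_mul_right (y := x⁻¹) (hLZ hx)
          rw [inv_mul_cancel, commutatorElement_one_right] at h
          rw [eq_inv_of_mul_eq_one_left h.symm]; exact inv_mem hx }
      have hStop : (⊤ : Subgroup G) ≤ S := htop ▸ sup_le (fun x hx => (hMker χ₁ hχ₁ w (hCK χ₁ hw) x hx).1)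
        (Subgroup.zpowers_le.2 (hMker χ₃ hχ₃ w (hCK χ₃ hw) c hc).1)
      let f : G →* L := MonoidHom.mk' (fun x => ⟨⁅w, x⁆, hStop (Subgroup.mem_top x)⟩) fun x y => Subtype.ext (comm_mul_right (hLZ (hStop (Subgroup.mem_top y))))
      have hK1f : K χ₁ ≤ f.ker := hK1 ▸ sup_le
        (fun y hy => MonoidHom.mem_ker.2 (Subtype.ext (commutatorElement_eq_one_iff_mul_comm.2 (hCab w hw y hy))))
        (Subgroup.zpowers_le.2 (MonoidHom.mem_ker.2 (Subtype.ext hwa)))
      have hfc : ∀ x, (f x : G) ∈ charKer χ₃.2.isCharacter := by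
        let T : Subgroup G := (charKer χ₃.2.isCharacter).comap (L.subtype.comp f)
        have : (⊤ : Subgroup G) ≤ T := htop ▸ sup_le
          (fun x hx => Subgroup.mem_comap.2 (by rw [MonoidHom.comp_apply, MonoidHom.mem_ker.1 (hK1f hx), map_one]; exact one_mem _))
          (Subgroup.zpowers_le.2 (hMker χ₃ hχ₃ w (hCK χ₃ hw) c hc).2)
        exact fun x => this (Subgroup.mem_top x)
      have hf2 : ∀ x ∈ K χ₂, f x = 1 := fun x hx => Subtype.ext
        (hM12 χ₂ χ₃ hK23 hχ₂ hχ₃ _ (f x).2 (hMker χ₂ hχ₂ w (hCK χ₂ hw) x hx).2 (hfc x))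
      have hker : f.ker = ⊤ := (eq_or_eq_top (p := p) hK1f (hK χ₁ hχ₁).1).resolve_left fun e => by
        have h12 : K χ₂ ≤ K χ₁ := fun x hx => e ▸ MonoidHom.mem_ker.2 (hf2 x hx)
        exact hne₂ ((eq_or_eq_top (p := p) h12 (hK χ₂ hχ₂).1).resolve_right (hKtop χ₁ hχ₁))
      exact Subgroup.mem_center_iff.2 fun x => (commutatorElement_eq_one_iff_mul_comm.1
        (congrArg Subtype.val (MonoidHom.mem_ker.1 (show x ∈ f.ker from hker ▸ Subgroup.mem_top x)))).symm
    let M₁ : Subgroup G := L ⊓ charKer χ₁.2.isCharacter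
    let ψ : C →* M₁ := MonoidHom.mk' (fun w => ⟨⁅(w : G), a⁆, hMker χ₁ hχ₁ w (hCK χ₁ w.2) a ha⟩) fun x y => Subtype.ext (by
      show ⁅(x : G) * y, a⁆ = _
      exact comm_mul_left (hLZ (hMker χ₁ hχ₁ y (hCK χ₁ y.2) a ha).1) (hLZ (hMker χ₁ hχ₁ x (hCK χ₁ x.2) a ha).1))
    have hψker : ψ.ker.map C.subtype ≤ Subgroup.center G := by
      rintro _ ⟨w, hw, rfl⟩
      exact hWZ w w.2 (congrArg Subtype.val (MonoidHom.mem_ker.1 hw))
    have hM1card : Nat.card M₁ ≤ p := by
      have hLc : Nat.card L = p ^ 2 := hCidx.symm.trans hCp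
      obtain ⟨i, hi, he⟩ := (Nat.dvd_prime_pow pr).1 (hLc ▸ Subgroup.card_dvd_of_le (inf_le_left : M₁ ≤ L))
      interval_cases i
      · rw [he, pow_zero]; exact pr.one_le
      · rw [he, pow_one]
      · exfalso
        exact hχ₁ (inf_eq_left.1 (Subgroup.eq_of_le_of_card_ge (inf_le_left : M₁ ≤ L) (by rw [he, hLc])))
    have h1 : (ψ.ker.map C.subtype).index ≤ p ^ 3 := by
      rw [Subgroup.index_map_subtype, hCp, Subgroup.index_ker, pow_succ' p 2]
      exact Nat.mul_le_mul_right _ ((Subgroup.card_le_card_group _).trans hM1card)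
    obtain ⟨i, he⟩ := hP.index (Subgroup.center G)
    have h2 := (Nat.le_of_dvd (Nat.pos_of_ne_zero Subgroup.index_ne_zero_of_finite) (Subgroup.index_dvd_of_le hψker)).trans h1
    rw [he] at h2 ⊢
    exact pow_dvd_pow p ((Nat.pow_le_pow_iff_right pr.one_lt).1 h2)

end Cfsg.Lib.Blocks.TwoDegrees
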