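import Cfsg.Agent.Lib.Blocks.FongReynolds
import Cfsg.Agent.Lib.Blocks.PrincipalTypeCore
import Cfsg.Agent.Lib.Blocks.SchurBoundPSolvable
import Cfsg.Agent.Lib.Blocks.FongHeightBound
import Cfsg.Agent.Lib.Blocks.GlaubermanNormalSylow
import Cfsg.Agent.Lib.Characters.CoprimeCoset

/-!
# Degree-weighted character sums vanishing at singular elements

In a `p`-solvable group a set of irreducible characters whose degree-weighted sum vanishes at all
`p`-singular elements is a union of blocks. Over an invariant character `θ` of `N = O_{p'}(G)` one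
compares the squared norms, on the cosets of `O_{p',p}(G)`, of the `θ`-part of the sum and of its
part over the canonical extension of `θ`; equality forces the `θ`-part to vanish off `N`.
-/

namespace Cfsg.Lib.Blocks.VanishU

open Cfsg.Lib.Characters Cfsg.Lib.Blocks Finset
open scoped ComplexConjugate Classical

set_option linter.unusedSectionVars false
set_option linter.style.haveILetI false
set_option linter.style.longLine false
set_option maxHeartbeats 800000

universe u

section General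

variable {G : Type u} [Group G] [Fintype G]

/-- `χ` lies over `θ`. -/
def Over (N : Subgroup G) [Fintype N] (θ : N → ℂ) (χ : G → ℂ) : Prop :=
  classInner (fun n : N => χ n) θ ≠ 0

/-- The degree-weighted sum over `U`. -/
noncomputable def wsum (U : Set (IrrCharacter G)) (g : G) : ℂ :=
  ∑ χ : IrrCharacter G, if χ ∈ U then (χ : G → ℂ) 1 * (χ : G → ℂ) g else 0

theorem isClassFunction_wsum (U : Set (IrrCharacter G)) : IsClassFunction G (wsum U) := fun g x =>
  Finset.sum_congr rfl fun χ _ => by rw [χ.2.isClassFunction g x]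

theorem wsum_eq_finsum (U : Set (IrrCharacter G)) (g : G) :
    ∑ᶠ χ ∈ U, (χ : G → ℂ) 1 * (χ : G → ℂ) g = wsum U g := by
  simp only [wsum, finsum_eq_if]
  exact finsum_eq_sum_of_fintype _

theorem classInner_wsum (U : Set (IrrCharacter G)) (χ : IrrCharacter G) :
    classInner (wsum U) (χ : G → ℂ) = if χ ∈ U then (χ : G → ℂ) 1 else 0 := by
  have h : wsum U = ∑ φ : IrrCharacter G, (if φ ∈ U then (φ : G → ℂ) 1 else 0) • (φ : G → ℂ) := by
    funext g
    simp only [wsum, Finset.sum_apply, Pi.smul_apply, smul_eq_mul, ite_mul, zero_mul]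
  rw [h, classInner_sum_irr]

theorem conj_one_apply (χ : IrrCharacter G) : conj ((χ : G → ℂ) 1) = (χ : G → ℂ) 1 := by
  rw [← coe_charDegree χ, map_natCast]

/-- The norm of a degree-weighted sum. -/
theorem sum_normSq_wsum (U : Set (IrrCharacter G)) :
    ((∑ g, Complex.normSq (wsum U g) : ℝ) : ℂ) = (Nat.card G : ℂ) * wsum U 1 := by
  have h1 : ((∑ g, Complex.normSq (wsum U g) : ℝ) : ℂ) = (Nat.card G : ℂ) * classInner (wsum U) (wsum U) := by
    rw [classInner, ← mul_assoc, mul_inv_cancel₀ (Nat.cast_ne_zero.mpr Nat.card_pos.ne'), one_mul,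
      Complex.ofReal_sum]
    exact Finset.sum_congr rfl fun g _ => (Complex.mul_conj _).symm
  have h2 : wsum U = ∑ φ : IrrCharacter G, (if φ ∈ U then (φ : G → ℂ) 1 else 0) • (φ : G → ℂ) := by
    funext g
    simp only [wsum, Finset.sum_apply, Pi.smul_apply, smul_eq_mul, ite_mul, zero_mul]
  rw [h1]
  congr 1
  conv_lhs => arg 2; rw [h2]
  rw [classInner_sum_right]
  refine Finset.sum_congr rfl fun φ _ => ?_
  rw [classInner_smul_right, classInner_wsum]
  split_ifs
  · rw [conj_one_apply]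
  · simp

variable (N : Subgroup G) [Fintype N]

/-- Averaging over left translations by `N`. -/
theorem avg {K : Subgroup G} [Fintype K] (hNK : N ≤ K) {R : Type*} [CommSemiring R] (f : G → R) :
    (Nat.card N : R) * ∑ k : K, f k = ∑ k : K, ∑ n : N, f ((n : G) * k) := by
  rw [Finset.sum_comm]
  have h : ∀ n : N, ∑ k : K, f ((n : G) * k) = ∑ k : K, f k := fun n =>
    Fintype.sum_equiv (Equiv.mulLeft (⟨(n : G), hNK n.2⟩ : K)) _ _ fun k => rfl
  rw [Finset.sum_congr rfl fun n _ => h n, Finset.sum_const, Finset.card_univ, nsmul_eq_mul,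
    Nat.card_eq_fintype_card]

theorem sum_subgroupOf {H : Subgroup G} (hNH : N ≤ H) [Fintype (N.subgroupOf H)] {R : Type*}
    [AddCommMonoid R] (f : G → R) : ∑ n : N.subgroupOf H, f ((n : H) : G) = ∑ n : N, f n :=
  Fintype.sum_equiv (Subgroup.subgroupOfEquivOfLe hNH).toEquiv _ _ fun _ => rfl

variable [N.Normal]

/-- The projection to the part over `θ`. -/
noncomputable def proj (θ : N → ℂ) (F : G → ℂ) (g : G) : ℂ :=
  θ 1 / (Nat.card N : ℂ) * ∑ n : N, conj (θ n) * F ((n : G) * g)

theorem eAct_singleton (θ : IrrCharacter N) (F : G → ℂ) (g : G) :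
    eAct ({θ} : Set (IrrCharacter N)) F g = proj N (θ : N → ℂ) F g := by
  simp only [eAct, proj, Finset.mul_sum, blockCoeff, finsum_mem_singleton]
  exact Finset.sum_congr rfl fun n _ => by ring

theorem proj_sum {ι : Type*} (s : Finset ι) (θ : N → ℂ) (c : ι → ℂ) (F : ι → G → ℂ) (g : G) :
    proj N θ (fun x => ∑ i ∈ s, c i * F i x) g = ∑ i ∈ s, c i * proj N θ (F i) g := by
  simp only [proj, Finset.mul_sum]
  rw [Finset.sum_comm]
  exact Finset.sum_congr rfl fun i _ => Finset.sum_congr rfl fun n _ => by ring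

/-- An invariant character spans the restriction of a character over it. -/
theorem res_of_over {θ : N → ℂ} (hθ : IsIrrCharacter N θ) (hinv : ∀ g, conjFn N θ g = θ)
    {χ : G → ℂ} (hχ : IsIrrCharacter G χ) (h : Over N θ χ) :
    ∃ e : ℕ, e ≠ 0 ∧ ∀ n : N, χ n = (e : ℂ) * θ n := by
  obtain ⟨e, he, -, -⟩ := multiplicity_dvd_index hθ hinv hχ h
  have h2 : ∀ n : N, χ n = (e : ℂ) * θ n := fun n => congrFun he n
  refine ⟨e, fun h0 => hχ.one_ne_zero ?_, h2⟩
  have := h2 1
  rwa [h0, Nat.cast_zero, zero_mul] at this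

/-- The projection acts by zero or one on the irreducible characters. -/
theorem proj_irr {θ : N → ℂ} (hθ : IsIrrCharacter N θ) (hinv : ∀ g, conjFn N θ g = θ)
    (χ : IrrCharacter G) (g : G) :
    proj N θ (χ : G → ℂ) g = if Over N θ (χ : G → ℂ) then (χ : G → ℂ) g else 0 := by
  obtain ⟨m, ρ, hρ, hρχ⟩ := id χ.2
  haveI := hρ
  have hL : ∀ v, (∑ n : N, conj (θ n) • ρ (n : G)) * ρ v = ρ v * ∑ n : N, conj (θ n) • ρ (n : G) := by
    intro v
    rw [Finset.sum_mul, Finset.mul_sum]
    refine Fintype.sum_equiv (MulAut.conjNormal v⁻¹ : N ≃* N).toEquiv _ _ fun n => ?_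
    rw [smul_mul_assoc, mul_smul_comm, ← map_mul, ← map_mul]
    show _ = conj (θ (MulAut.conjNormal v⁻¹ n)) • _
    have h := congrFun (hinv v⁻¹) n
    rw [conjFn_eq_comp] at h
    dsimp only at h
    rw [h]
    congr 2
    show (n : G) * v = v * ((MulAut.conjNormal v⁻¹ n : N) : G)
    rw [MulAut.conjNormal_apply]
    group
  obtain ⟨c, hc⟩ := schur_scalar ρ _ hL
  have hval : ∀ s : G, ∑ n : N, conj (θ n) * (χ : G → ℂ) ((n : G) * s) = c * (χ : G → ℂ) s := by
    intro s
    have h := congrArg (fun A => LinearMap.trace ℂ _ (A * ρ s)) hc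
    simp only [Finset.sum_mul, map_sum, smul_mul_assoc, map_smul, smul_eq_mul, ← Module.End.one_eq_id,
      one_mul, ← map_mul] at h
    rw [← hρχ]
    exact h
  have h1 := hval 1
  simp only [mul_one] at h1
  have h2 : ∑ n : N, conj (θ n) * (χ : G → ℂ) n
      = (Nat.card N : ℂ) * classInner (fun n : N => (χ : G → ℂ) n) θ := by
    rw [classInner, ← mul_assoc, mul_inv_cancel₀ (Nat.cast_ne_zero.mpr Nat.card_pos.ne'), one_mul]
    exact Finset.sum_congr rfl fun n _ => mul_comm _ _
  rw [h2] at h1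
  have hN : (Nat.card N : ℂ) ≠ 0 := Nat.cast_ne_zero.mpr Nat.card_pos.ne'
  rw [proj, hval g]
  split_ifs with hov
  · obtain ⟨e, he0, he⟩ := res_of_over N hθ hinv χ.2 hov
    have h3 : classInner (fun n : N => (χ : G → ℂ) n) θ = (e : ℂ) := by
      rw [show (fun n : N => (χ : G → ℂ) n) = (e : ℂ) • θ from funext he, classInner_smul_left,
        classInner_irr_self hθ, mul_one]
    have h4 : (χ : G → ℂ) 1 = (e : ℂ) * θ 1 := by simpa using he 1
    rw [h3, h4, ← mul_assoc c, mul_comm c (e : ℂ), mul_assoc, mul_comm (Nat.card N : ℂ) (e : ℂ)] at h1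
    have h5 := mul_left_cancel₀ (Nat.cast_ne_zero.mpr he0) h1
    rw [← mul_assoc, show θ 1 / (Nat.card N : ℂ) * c = 1 from ?_, one_mul]
    rw [div_mul_eq_mul_div, mul_comm (θ 1) c, ← h5, div_self hN]
  · have h0 : classInner (fun n : N => (χ : G → ℂ) n) θ = 0 := by simpa [Over] using hov
    rw [h0, mul_zero] at h1
    rw [(mul_eq_zero.mp h1.symm).resolve_right χ.2.one_ne_zero, zero_mul, mul_zero]

theorem proj_wsum {θ : N → ℂ} (hθ : IsIrrCharacter N θ) (hinv : ∀ g, conjFn N θ g = θ)
    (U : Set (IrrCharacter G)) (g : G) :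
    proj N θ (wsum U) g = wsum {χ | χ ∈ U ∧ Over N θ (χ : G → ℂ)} g := by
  have h : wsum U = fun x => ∑ χ : IrrCharacter G,
      (if χ ∈ U then (χ : G → ℂ) 1 else 0) * (χ : G → ℂ) x := funext fun x => by
    simp only [wsum, ite_mul, zero_mul]
  rw [h, proj_sum, wsum]
  refine Finset.sum_congr rfl fun χ _ => ?_
  rw [proj_irr N hθ hinv χ g]
  by_cases h1 : χ ∈ U <;> by_cases h2 : Over N θ (χ : G → ℂ) <;> simp [h1, h2]

/-- An extension of an irreducible character has norm `|N|` on every coset. -/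
theorem coset_norm {χ : G → ℂ} (hχ : IsIrrCharacter G χ) (hres : IsIrrCharacter N fun n : N => χ n) (x : G) :
    ∑ n : N, Complex.normSq (χ ((n : G) * x)) = (Nat.card N : ℝ) := by
  set θ : N → ℂ := fun n => χ n
  have hinv : ∀ g, conjFn N θ g = θ := fun g => funext fun n => hχ.isClassFunction (n : G) g
  set w : G → ℂ := fun y => ∑ n : N, χ ((n : G) * y) * conj (χ ((n : G) * y)) with hw
  have hwN : ∀ (m : N) (y : G), w ((m : G) * y) = w y := fun m y =>
    Fintype.sum_equiv (Equiv.mulRight m) _ _ fun n => by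
      simp only [Equiv.coe_mulRight, Subgroup.coe_mul, mul_assoc]
  have hwc : IsClassFunction G w := by
    intro y h
    refine (Fintype.sum_equiv (MulAut.conjNormal h : N ≃* N).toEquiv _ _ fun n => ?_).symm
    rw [MulEquiv.toEquiv_eq_coe, EquivLike.coe_coe, MulAut.conjNormal_apply,
      show h * (n : G) * h⁻¹ * (h * y * h⁻¹) = h * ((n : G) * y) * h⁻¹ by group,
      hχ.isClassFunction]
  haveI := Fintype.ofFinite (G ⧸ N)
  let w' : G ⧸ N → ℂ := fun q => w (Quotient.out q) - (Nat.card N : ℂ)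
  have hout : ∀ y : G, w (Quotient.out (y : G ⧸ N)) = w y := by
    intro y
    have h1 : (Quotient.out (y : G ⧸ N)) * y⁻¹ ∈ N := by
      rw [← QuotientGroup.eq_one_iff, QuotientGroup.mk_mul, QuotientGroup.mk_inv, QuotientGroup.out_eq',
        mul_inv_cancel]
    have := hwN ⟨_, h1⟩ y
    rwa [inv_mul_cancel_right] at this
  obtain ⟨hirr, hinj, -⟩ := gallagher_quot hres hinv hχ (fun n => rfl)
  have hzero : w' = 0 := by
    refine eq_zero_of_forall_classInner ?_ fun β => ?_
    · intro q r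
      induction q using QuotientGroup.induction_on with | H y => ?_
      induction r using QuotientGroup.induction_on with | H h => ?_
      simp only [w', ← QuotientGroup.mk_inv, ← QuotientGroup.mk_mul, hout, hwc y h]
    · -- lift the inner product to `G`
      have hlift : (Nat.card N : ℂ) * ∑ q : G ⧸ N, w' q * conj ((β : G ⧸ N → ℂ) q)
          = ∑ y : G, (w y - (Nat.card N : ℂ)) * conj ((β : G ⧸ N → ℂ) y) := by
        have h1 : ∀ y : G, (w y - (Nat.card N : ℂ)) * conj ((β : G ⧸ N → ℂ) y)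
            = w' (y : G ⧸ N) * conj ((β : G ⧸ N → ℂ) y) := fun y => by simp only [w', hout]
        rw [Finset.sum_congr rfl fun y _ => h1 y,
          ← Finset.sum_fiberwise_of_maps_to (g := fun y : G => (y : G ⧸ N)) (t := univ)
            (fun _ _ => mem_univ _), Finset.mul_sum]
        refine Finset.sum_congr rfl fun q _ => ?_
        rw [Finset.sum_congr rfl (g := fun _ => w' q * conj ((β : G ⧸ N → ℂ) q))
          fun y hy => by rw [(Finset.mem_filter.mp hy).2],
          Finset.sum_const, nsmul_eq_mul]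
        congr 1
        rw [← Fintype.card_subtype, Nat.card_eq_fintype_card]
        have hq : ((Quotient.out q : G) : G ⧸ N) = q := QuotientGroup.out_eq' q
        refine congrArg Nat.cast (Fintype.card_congr (Equiv.ofBijective
          (fun n : N => (⟨(n : G) * Quotient.out q, by
            rw [QuotientGroup.mk_mul, (QuotientGroup.eq_one_iff (n : G)).mpr n.2, one_mul, hq]⟩ :
              {y : G // (y : G ⧸ N) = q})) ⟨fun a b hab => Subtype.ext (mul_right_cancel
            (congrArg Subtype.val hab)), fun y => ?_⟩))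
        have hy : (y : G) * (Quotient.out q)⁻¹ ∈ N := by
          rw [← QuotientGroup.eq_one_iff, QuotientGroup.mk_mul, QuotientGroup.mk_inv, y.2, hq,
            mul_inv_cancel]
        exact ⟨⟨_, hy⟩, Subtype.ext (inv_mul_cancel_right _ _)⟩
      have hb : (∑ y : G, w y * conj ((β : G ⧸ N → ℂ) y))
          = (Nat.card N : ℂ) * ∑ y : G, χ y * conj ((β : G ⧸ N → ℂ) y * χ y) := by
        simp only [hw, Finset.sum_mul]
        rw [Finset.sum_comm]
        have : ∀ n : N, ∑ y : G, χ ((n : G) * y) * conj (χ ((n : G) * y)) * conj ((β : G ⧸ N → ℂ) y)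
            = ∑ y : G, χ y * conj ((β : G ⧸ N → ℂ) y * χ y) := fun n =>
          Fintype.sum_equiv (Equiv.mulLeft (n : G)) _ _ fun y => by
            rw [Equiv.coe_mulLeft, QuotientGroup.mk_mul, (QuotientGroup.eq_one_iff (n : G)).mpr n.2,
              one_mul, map_mul]
            ring
        rw [Finset.sum_congr rfl fun n _ => this n, Finset.sum_const, Finset.card_univ, nsmul_eq_mul,
          Nat.card_eq_fintype_card]
      have hG : (Nat.card G : ℂ) ≠ 0 := Nat.cast_ne_zero.mpr Nat.card_pos.ne'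
      have hN : (Nat.card N : ℂ) ≠ 0 := Nat.cast_ne_zero.mpr Nat.card_pos.ne'
      have key : ∑ y : G, χ y * conj ((β : G ⧸ N → ℂ) y * χ y) = ∑ y : G, conj ((β : G ⧸ N → ℂ) y) := by
        by_cases hβ : β = trivChar (G ⧸ N)
        · subst hβ
          have h1 := classInner_irr_self hχ
          rw [classInner, inv_mul_eq_one₀ hG] at h1
          simp only [trivChar_apply, one_mul, map_one, Finset.sum_const, Finset.card_univ, nsmul_eq_mul,
            mul_one]
          rw [← h1, Nat.card_eq_fintype_card]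
        · have h1 : classInner χ (fun y : G => (β : G ⧸ N → ℂ) y * χ y) = 0 := by
            refine classInner_irr_ne hχ (hirr β).1 fun he => hβ (hinj β (trivChar _) fun y => ?_)
            rw [trivChar_apply, one_mul]
            exact (congrFun he y).symm
          rw [classInner, mul_eq_zero, inv_eq_zero] at h1
          rw [h1.resolve_left hG]
          have hb' := isIrrCharacter_comp_surjective β.2 (QuotientGroup.mk' N) (QuotientGroup.mk'_surjective N)
          have h2 : classInner (fun _ : G => (1 : ℂ)) (fun y : G => (β : G ⧸ N → ℂ) y) = 0 := by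
            refine classInner_irr_ne isIrrCharacter_one hb' fun he => hβ (Subtype.ext (funext fun q => ?_))
            obtain ⟨y, rfl⟩ := QuotientGroup.mk_surjective q
            rw [trivChar_apply]
            exact (congrFun he y).symm
          simp only [classInner, one_mul, mul_eq_zero, inv_eq_zero] at h2
          rw [h2.resolve_left hG]
      have : (Nat.card N : ℂ) * ∑ q : G ⧸ N, w' q * conj ((β : G ⧸ N → ℂ) q) = 0 := by
        rw [hlift]
        simp only [sub_mul, Finset.sum_sub_distrib, hb, key, ← Finset.mul_sum, sub_self]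
      simp [classInner, (mul_eq_zero.mp this).resolve_left hN]
  have hx := congrFun hzero (x : G ⧸ N)
  simp only [w', hout, Pi.zero_apply, sub_eq_zero] at hx
  apply Complex.ofReal_injective
  rw [Complex.ofReal_sum, Complex.ofReal_natCast, ← hx]
  exact Finset.sum_congr rfl fun n _ => (Complex.mul_conj _).symm

/-- Convolution of an extension with its values on a coset. -/
theorem twist {χ : G → ℂ} (hχ : IsIrrCharacter G χ) (hres : IsIrrCharacter N fun n : N => χ n) (x h : G) :
    χ 1 * ∑ n : N, conj (χ ((n : G) * x)) * χ ((n : G) * x * h) = (Nat.card N : ℂ) * χ h := by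
  obtain ⟨m, ρ, -, hρχ⟩ := id hχ
  let σ : Representation ℂ N (Fin m → ℂ) := ρ.comp N.subtype
  haveI : σ.IsIrreducible := by
    have hσ : σ.character = fun n : N => χ n := by rw [← hρχ]; rfl
    obtain ⟨k, τ, hτ, hτc⟩ := id hres
    have hkm : k = m := by
      have h1 := congrFun (hτc.trans hσ.symm) 1
      simpa using h1
    subst hkm
    haveI := hτ
    have hnz : classInner σ.character τ.character ≠ 0 := by
      rw [hσ, hτc, classInner_irr_self hres]; exact one_ne_zero
    rw [classInner_character, Nat.cast_ne_zero] at hnz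
    haveI : Nontrivial (Representation.IntertwiningMap τ σ) :=
      Module.nontrivial_of_finrank_pos (R := ℂ) (Nat.pos_of_ne_zero hnz)
    obtain ⟨f, hf⟩ := exists_ne (0 : Representation.IntertwiningMap τ σ)
    have hfinj : Function.Injective f :=
      (Representation.IsIrreducible.injective_or_eq_zero f).resolve_right hf
    exact isIrreducible_of_linearEquiv
      (LinearEquiv.ofInjectiveEndo f.toLinearMap hfinj) fun t v => Representation.IntertwiningMap.isIntertwining _ _ f t v
  have hcomm : ∀ k : N, (∑ n : N, conj (χ ((n : G) * x)) • ρ ((n : G) * x)) * σ k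
      = σ k * ∑ n : N, conj (χ ((n : G) * x)) • ρ ((n : G) * x) := by
    intro k
    rw [Finset.sum_mul, Finset.mul_sum]
    -- `n x k = k n' x` with `n' x` conjugate to `n x`
    refine Fintype.sum_equiv ((Equiv.mulLeft k⁻¹).trans (Equiv.mulRight (MulAut.conjNormal x k))) _ _ fun n => ?_
    show (conj (χ ((n : G) * x)) • ρ ((n : G) * x)) * ρ (k : G) = ρ (k : G) * _
    rw [smul_mul_assoc, mul_smul_comm, ← map_mul, ← map_mul]
    have e : (((k⁻¹ * n) * MulAut.conjNormal x k : N) : G) * x = (k : G)⁻¹ * ((n : G) * x) * k := by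
      simp only [Subgroup.coe_mul, Subgroup.coe_inv, MulAut.conjNormal_apply]
      group
    simp only [Equiv.trans_apply, Equiv.coe_mulLeft, Equiv.coe_mulRight, e]
    have e2 : χ ((k : G)⁻¹ * ((n : G) * x) * k) = χ ((n : G) * x) := by
      have := hχ.isClassFunction ((n : G) * x) (k : G)⁻¹
      rwa [inv_inv] at this
    rw [e2, show (k : G) * ((k : G)⁻¹ * ((n : G) * x) * k) = (n : G) * x * k by group]
  obtain ⟨c, hc⟩ := schur_scalar σ _ hcomm
  have hval : ∀ y : G, ∑ n : N, conj (χ ((n : G) * x)) * χ ((n : G) * x * y) = c * χ y := by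
    intro y
    have h := congrArg (fun A => LinearMap.trace ℂ _ (A * ρ y)) hc
    simp only [Finset.sum_mul, map_sum, smul_mul_assoc, map_smul, smul_eq_mul, ← Module.End.one_eq_id,
      one_mul, ← map_mul] at h
    simp only [← hρχ, Representation.character] at h ⊢
    exact h
  have h1 : (Nat.card N : ℂ) = c * χ 1 := by
    rw [← hval 1, ← Complex.ofReal_natCast, ← coset_norm N hχ hres x, Complex.ofReal_sum]
    exact Finset.sum_congr rfl fun n _ => by rw [mul_one, mul_comm, Complex.mul_conj]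
  rw [hval h, h1]
  ring

/-- A class function fixed by the projection is a multiple of the extension. -/
theorem isotypic {χ : G → ℂ} (hχ : IsIrrCharacter G χ) (hres : IsIrrCharacter N fun n : N => χ n)
    {F : G → ℂ} (hF : IsClassFunction G F) (hproj : ∀ y, proj N (fun n : N => χ n) F y = F y) :
    ∃ B : G → ℂ, (∀ y h, B (h * y * h⁻¹) = B y) ∧ (∀ (n : N) y, B ((n : G) * y) = B y) ∧
      ∀ y, F y = B y * χ y := by
  haveI := Fintype.ofFinite (G ⧸ N)
  set θ : N → ℂ := fun n => χ n
  have hinv : ∀ g, conjFn N θ g = θ := fun g => funext fun n => hχ.isClassFunction (n : G) g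
  obtain ⟨-, -, hsurj⟩ := gallagher_quot hres hinv hχ (fun n => rfl)
  have hchoose : ∀ ψ : IrrCharacter G, ∃ γ : G ⧸ N → ℂ, (∀ q r, γ (r * q * r⁻¹) = γ q) ∧
      ∀ y : G, (if Over N θ (ψ : G → ℂ) then (ψ : G → ℂ) y else 0) = γ y * χ y := by
    intro ψ
    by_cases hov : Over N θ (ψ : G → ℂ)
    · obtain ⟨β, hβ⟩ := hsurj ψ ψ.2 (by convert hov using 3)
      exact ⟨β, β.2.isClassFunction, fun y => by rw [if_pos hov, hβ]⟩
    · exact ⟨fun _ => 0, fun _ _ => rfl, fun y => by rw [if_neg hov, zero_mul]⟩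
  choose γ hγc hγ using hchoose
  refine ⟨fun y => ∑ ψ : IrrCharacter G, classInner F (ψ : G → ℂ) * γ ψ y, fun y h => ?_, fun n y => ?_,
    fun y => ?_⟩
  · simp only [QuotientGroup.mk_mul, QuotientGroup.mk_inv, hγc]
  · simp only [QuotientGroup.mk_mul, (QuotientGroup.eq_one_iff (n : G)).mpr n.2, one_mul]
  · have hexp : F = fun x => ∑ ψ : IrrCharacter G, classInner F (ψ : G → ℂ) * (ψ : G → ℂ) x := by
      funext x
      conv_lhs => rw [classFunction_expansion hF]
      simp [Finset.sum_apply]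
    conv_lhs => rw [← hproj y, hexp, proj_sum]
    rw [Finset.sum_mul]
    exact Finset.sum_congr rfl fun ψ _ => by rw [proj_irr N hres hinv, hγ, mul_assoc]

/-- The canonical extension to an overgroup of `p`-power index exists. -/
theorem exists_canon {p : ℕ} (hp : p.Prime) (hN : (Nat.card N).Coprime p) {b : ℕ} (hidx : N.index = p ^ b)
    {θ : N → ℂ} (hθ : IsIrrCharacter N θ) (hinv : ∀ g, conjFn N θ g = θ) :
    ∃ η : G → ℂ, IsIrrCharacter G η ∧ (∀ n : N, η n = θ n) ∧
      (∀ g, detChar η g ^ Nat.card N = 1) ∧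
      ∀ η' : G → ℂ, IsIrrCharacter G η' → (∀ n : N, η' n = θ n) →
        (∀ g, detChar η' g ^ Nat.card N = 1) → η' = η := by
  obtain ⟨d, -, hd⟩ := hθ.exists_degree_pos
  obtain ⟨D₀, hD₀, -⟩ := exists_detHom hθ.isCharacter
  have hDh : ∀ n : N, detChar θ n ^ Nat.card N = 1 := fun n => by
    rw [← hD₀, ← Units.val_pow_eq_pow_val, ← map_pow, pow_card_eq_one', map_one, Units.val_one]
  have hcopd : d.Coprime p := hN.coprime_dvd_left (degree_dvd_card hθ hd)
  have hcop' : Nat.Coprime (p ^ b) (d * Nat.card N) :=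
    Nat.Coprime.pow_left _ (Nat.Coprime.mul_right hcopd.symm hN.symm)
  obtain ⟨η₀, hη₀, hres₀⟩ := exists_extension_of_coprime hθ hinv hd hDh (hidx ▸ hcop')
  obtain ⟨D, hD, -⟩ := exists_detHom hη₀.isCharacter
  set m := Nat.card N with hm
  have hdres : ∀ n : N, detChar η₀ (n : G) = detChar θ n := by
    intro n
    refine (detChar_comp hη₀.isCharacter N.subtype n).symm.trans ?_
    congr 1
    funext y
    exact hres₀ y
  obtain ⟨a, ha⟩ : ∃ a : ℕ, p ^ b ∣ 1 + a * (d * m) := by
    have h1 : IsUnit ((d * m : ℕ) : ZMod (p ^ b)) := (ZMod.isUnit_iff_coprime _ _).mpr hcop'.symm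
    obtain ⟨u, hu⟩ := h1
    haveI : NeZero (p ^ b) := ⟨pow_ne_zero _ hp.ne_zero⟩
    refine ⟨(-(↑u⁻¹ : ZMod (p ^ b))).val, ?_⟩
    rw [← ZMod.natCast_eq_zero_iff]
    rw [Nat.cast_add, Nat.cast_mul, ZMod.natCast_zmod_val, Nat.cast_one, ← hu, neg_mul,
      Units.inv_mul, add_neg_cancel]
  set lam : G →* ℂˣ := D ^ (m * a) with hlam
  have hlamN : ∀ n ∈ N, lam n = 1 := by
    intro n hn
    apply Units.ext
    rw [hlam, MonoidHom.pow_apply, pow_mul, Units.val_pow_eq_pow_val, Units.val_pow_eq_pow_val,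
      hD, hdres ⟨n, hn⟩, hDh, one_pow, Units.val_one]
  have hd1 : η₀ 1 = d := by rw [← hd, ← hres₀ 1]; rfl
  have hη : IsIrrCharacter G fun g => (lam g : ℂ) * η₀ g := isIrrCharacter_linear_mul lam hη₀
  set η := fun g => (lam g : ℂ) * η₀ g with hηdef
  have hres : ∀ n : N, η n = θ n := fun n => by
    rw [hηdef]; simp [hlamN _ n.2, hres₀]
  have hd1' : η 1 = d := by rw [← hd, ← hres 1]; rfl
  have hdetη : ∀ g, detChar η g ^ m = 1 := by
    intro g
    rw [hηdef, detChar_linear_mul hη₀.isCharacter hd1, ← hD, ← Units.val_pow_eq_pow_val,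
      ← Units.val_mul, ← Units.val_pow_eq_pow_val, ← Units.val_one]
    congr 1
    rw [hlam, MonoidHom.pow_apply, ← pow_mul, ← pow_succ, ← pow_mul, ← map_pow]
    obtain ⟨e, he⟩ : Nat.card G ∣ (m * a * d + 1) * m := by
      obtain ⟨e, he⟩ := ha
      exact ⟨e, by rw [← Subgroup.card_mul_index N, ← hm, hidx]; linear_combination m * he⟩
    rw [he, pow_mul, pow_card_eq_one', one_pow, map_one]
  refine ⟨η, hη, hres, hdetη, fun η' hη' hres' hdet' => ?_⟩
  obtain ⟨μ, hμN, hμ⟩ := exists_linear_of_extensions (M := N) hη hη' (fun n => by rw [hres, hres'])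
    (by rw [show (fun n : N => η n) = θ from funext hres]; exact hθ)
  funext g
  have hμ1 : μ g = 1 := by
    have h1 := hdet' g
    rw [show η' = fun x => (μ x : ℂ) * η x from funext fun x => (hμ x).symm,
      detChar_linear_mul hη.isCharacter hd1', mul_pow, hdetη, mul_one, ← pow_mul] at h1
    have h2 : μ g ^ (d * m) = 1 := by
      apply Units.ext
      rw [Units.val_pow_eq_pow_val, Units.val_one]; exact h1
    have h3 : μ g ^ (p ^ b) = 1 := by
      rw [← map_pow, ← hidx]
      exact hμN _ (N.pow_index_mem g)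
    have h4 := pow_gcd_eq_one.mpr ⟨h3, h2⟩
    rwa [hcop'.gcd_eq_one, pow_one] at h4
  rw [← hμ g, hμ1]
  simp

end General

section Invariant

variable {G : Type u} [Group G] [Fintype G] {p : ℕ} [hp : Fact p.Prime]
variable (N : Subgroup G) [Fintype N] [hNn : N.Normal]

/-- Translating by a normal `p'`-subgroup does not affect singularity. -/
theorem singular_mul (hN : (Nat.card N).Coprime p) (n : N) {x : G} (hx : p ∣ orderOf x) :
    p ∣ orderOf ((n : G) * x) := by
  by_contra hnot
  set m := orderOf ((n : G) * x)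
  have h1 : x ^ m ∈ N := by
    rw [← QuotientGroup.eq_one_iff, QuotientGroup.mk_pow]
    have h2 : ((x : G ⧸ N)) = (((n : G) * x : G) : G ⧸ N) := by
      rw [QuotientGroup.mk_mul, (QuotientGroup.eq_one_iff (n : G)).mpr n.2, one_mul]
    rw [h2, ← QuotientGroup.mk_pow, pow_orderOf_eq_one, QuotientGroup.mk_one]
  have h3 : x ^ (m * Nat.card N) = 1 := by
    rw [pow_mul]
    exact orderOf_dvd_iff_pow_eq_one.mp (Subgroup.orderOf_dvd_natCard N h1)
  rcases hp.out.dvd_mul.mp (hx.trans (orderOf_dvd_of_pow_eq_one h3)) with h | h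
  · exact hnot h
  · exact hp.out.ne_one (Nat.eq_one_of_dvd_coprimes hN h dvd_rfl)

theorem singular_mul_iff (hN : (Nat.card N).Coprime p) (n : N) (x : G) :
    p ∣ orderOf ((n : G) * x) ↔ p ∣ orderOf x := by
  refine ⟨fun h => ?_, singular_mul N hN n⟩
  simpa using singular_mul N hN n⁻¹ h

theorem wsum_over_res {θ : N → ℂ} (hθ : IsIrrCharacter N θ) (hinv : ∀ g, conjFn N θ g = θ)
    {U : Set (IrrCharacter G)} (hU : ∀ χ ∈ U, Over N θ (χ : G → ℂ)) (n : N) :
    θ 1 * wsum U n = wsum U 1 * θ n := by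
  simp only [wsum, Finset.mul_sum, Finset.sum_mul]
  refine Finset.sum_congr rfl fun χ _ => ?_
  by_cases h : χ ∈ U
  · obtain ⟨e, -, he⟩ := res_of_over N hθ hinv χ.2 (hU χ h)
    have h1 : (χ : G → ℂ) 1 = (e : ℂ) * θ 1 := by simpa using he 1
    rw [if_pos h, if_pos h, he n, h1]
    ring
  · rw [if_neg h, if_neg h, mul_zero, zero_mul]

/-- The part over an invariant character vanishes off `N`. -/
theorem vanish_off (K : Subgroup G) [Fintype K] [hKn : K.Normal] (hN : (Nat.card N).Coprime p)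
    (hNK : N ≤ K) (hKp : ∀ k ∈ K, ∃ j : ℕ, k ^ p ^ j ∈ N)
    (hC : ∀ g : G, (∀ q ∈ K, q * g * q⁻¹ * g⁻¹ ∈ N) → g ∈ K)
    {θ : N → ℂ} (hθ : IsIrrCharacter N θ) (hinv : ∀ g, conjFn N θ g = θ)
    {U : Set (IrrCharacter G)} (hU : ∀ x : G, p ∣ orderOf x → wsum U x = 0)
    {g₁ : G} (hg₁ : g₁ ∉ N) : wsum {χ | χ ∈ U ∧ Over N θ (χ : G → ℂ)} g₁ = 0 := by
  set U₁ : Set (IrrCharacter G) := {χ | χ ∈ U ∧ Over N θ (χ : G → ℂ)} with hU₁
  have hΦs : ∀ x : G, p ∣ orderOf x → wsum U₁ x = 0 := fun x hx => by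
    rw [hU₁, ← proj_wsum N hθ hinv, proj]
    simp [hU _ (singular_mul N hN _ hx)]
  have hΦproj : ∀ x, proj N θ (wsum U₁) x = wsum U₁ x := fun x => by
    have hset : {χ : IrrCharacter G | χ ∈ U₁ ∧ Over N θ (χ : G → ℂ)} = U₁ := by
      ext χ
      simp only [hU₁, Set.mem_setOf_eq]
      tauto
    rw [proj_wsum N hθ hinv, hset]
  -- the canonical extension to `K`
  haveI : (N.subgroupOf K).Normal := inferInstance
  obtain ⟨b, hb⟩ : ∃ b : ℕ, (N.subgroupOf K).index = p ^ b := by
    have hpg : IsPGroup p (↥K ⧸ N.subgroupOf K) := by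
      intro q
      obtain ⟨k, rfl⟩ := QuotientGroup.mk_surjective q
      obtain ⟨j, hj⟩ := hKp k k.2
      exact ⟨j, by rw [← QuotientGroup.mk_pow, QuotientGroup.eq_one_iff, Subgroup.mem_subgroupOf]; simpa using hj⟩
    exact IsPGroup.iff_card.mp hpg
  have he := Subgroup.subgroupOfEquivOfLe hNK
  let θK : N.subgroupOf K → ℂ := fun n => θ ⟨((n : K) : G), n.2⟩
  have hθK : IsIrrCharacter (N.subgroupOf K) θK :=
    isIrrCharacter_comp_surjective hθ (Subgroup.subgroupOfEquivOfLe hNK).toMonoidHom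
      (Subgroup.subgroupOfEquivOfLe hNK).surjective
  have hinvK : ∀ k, conjFn (N.subgroupOf K) θK k = θK := fun k => funext fun n =>
    congrFun (hinv (k : G)) ⟨((n : K) : G), n.2⟩
  have hcardK : Nat.card (N.subgroupOf K) = Nat.card N :=
    Nat.card_congr (Subgroup.subgroupOfEquivOfLe hNK).toEquiv
  obtain ⟨η, hη, hηres, hηdet, hηuniq⟩ :=
    exists_canon (N.subgroupOf K) hp.out (hcardK ▸ hN) hb hθK hinvK
  have hηN : ∀ n : N, η ⟨(n : G), hNK n.2⟩ = θ n := fun n =>
    hηres ⟨⟨(n : G), hNK n.2⟩, n.2⟩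
  have hηinv : ∀ g, conjFn K η g = η := by
    intro g
    refine hηuniq _ (isIrrCharacter_conjFn hη g) (fun n => ?_) (fun k => ?_)
    · exact (hηN ⟨g * ((n : K) : G) * g⁻¹, hNn.conj_mem _ n.2 g⟩).trans (congrFun (hinv g) ⟨_, n.2⟩)
    · rw [conjFn_eq_comp]
      exact (congrArg (· ^ _) (detChar_comp hη.isCharacter (MulAut.conjNormal g : K ≃* K).toMonoidHom k)).trans
        (hηdet _)
  set U₂ : Set (IrrCharacter G) := {χ | χ ∈ U₁ ∧ Over K η (χ : G → ℂ)} with hU₂
  have hΨ : ∀ x, proj K η (wsum U₁) x = wsum U₂ x := fun x => proj_wsum K hη hηinv U₁ x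
  have hη1 : η 1 = θ 1 := hηN 1
  have hK0 : (Nat.card K : ℂ) ≠ 0 := Nat.cast_ne_zero.mpr Nat.card_pos.ne'
  have hN0 : (Nat.card N : ℂ) ≠ 0 := Nat.cast_ne_zero.mpr Nat.card_pos.ne'
  have hθ0 : θ 1 ≠ 0 := hθ.one_ne_zero
  have hregK : ∀ k ∈ K, ¬ p ∣ orderOf k → k ∈ N := by
    intro k hk hr
    obtain ⟨j, hj⟩ := hKp k hk
    rw [← QuotientGroup.eq_one_iff] at hj ⊢
    rw [QuotientGroup.mk_pow] at hj
    have h1 : orderOf ((k : G ⧸ N)) ∣ orderOf k := orderOf_map_dvd (QuotientGroup.mk' N) k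
    have h2 : orderOf ((k : G ⧸ N)) ∣ p ^ j := orderOf_dvd_of_pow_eq_one hj
    exact orderOf_eq_one_iff.mp (Nat.eq_one_of_dvd_coprimes
      (((hp.out.coprime_iff_not_dvd.mpr hr).symm).pow_right j) h1 h2)
  -- the value at one
  have hΨ1 : (Nat.card K : ℂ) * wsum U₂ 1 = (Nat.card N : ℂ) * wsum U₁ 1 := by
    have hf : ∀ k : K, conj (η k) * wsum U₁ ((k : G) * 1)
        = if h : (k : G) ∈ N then conj (θ ⟨(k : G), h⟩) * wsum U₁ (k : G) else 0 := by
      intro k
      rw [mul_one]
      split_ifs with h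
      · rw [← hηN ⟨(k : G), h⟩]
      · rw [hΦs _ (by by_contra hr; exact h (hregK _ k.2 hr)), mul_zero]
    rw [← hΨ, proj, Finset.sum_congr rfl fun k _ => hf k, hη1, ← mul_assoc, mul_div_cancel₀ _ hK0]
    have hsum : ∑ k : K, (if h : (k : G) ∈ N then conj (θ ⟨(k : G), h⟩) * wsum U₁ (k : G) else 0)
        = ∑ n : N, conj (θ n) * wsum U₁ (n : G) := by
      rw [Finset.sum_dite, Finset.sum_const_zero, add_zero]
      refine Fintype.sum_bijective (fun x => ⟨((x : K) : G), (Finset.mem_filter.mp x.2).2⟩) ⟨?_, ?_⟩ _ _ fun x => rfl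
      · intro a c hac
        exact Subtype.ext (Subtype.ext (congrArg (fun z : N => (z : G)) hac :))
      · intro n
        exact ⟨⟨⟨(n : G), hNK n.2⟩, Finset.mem_filter.mpr ⟨mem_univ _, n.2⟩⟩, rfl⟩
    rw [hsum, Finset.mul_sum, Finset.sum_congr rfl fun n _ => show θ 1 * (conj (θ n) * wsum U₁ (n : G))
        = wsum U₁ 1 * (θ n * conj (θ n)) by
      rw [mul_left_comm, wsum_over_res N hθ hinv (U := U₁) (fun χ h => h.2) n]; ring, ← Finset.mul_sum]
    have h1 := classInner_irr_self hθ
    rw [classInner, inv_mul_eq_one₀ hN0] at h1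
    rw [← h1, mul_comm]
  -- the coset identity
  let A : G → Finset K := fun g => univ.filter fun k : K => ¬ p ∣ orderOf ((k : G) * g)
  let w : (G → ℂ) → G → ℝ := fun F g => ∑ k : K, Complex.normSq (F ((k : G) * g))
  have hkey : ∀ g, (Nat.card K : ℝ) * w (wsum U₂) g = ((A g).card : ℝ) * w (wsum U₁) g := by
    intro g
    by_cases hA : (A g).Nonempty
    swap
    · have hz : ∀ k : G, k ∈ K → wsum U₁ (k * g) = 0 := fun k hk => by
        refine hΦs _ (by_contra fun hr => hA ⟨⟨k, hk⟩, ?_⟩)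
        simp only [A, Finset.mem_filter, mem_univ, true_and]
        exact hr
      have hz2 : ∀ k : K, wsum U₂ ((k : G) * g) = 0 := fun k => by
        rw [← hΨ, proj]
        refine mul_eq_zero_of_right _ (Finset.sum_eq_zero fun k' _ => ?_)
        rw [← mul_assoc, hz _ (mul_mem k'.2 k.2), mul_zero]
      simp [w, hz2, hz _ (SetLike.coe_mem _)]
    obtain ⟨k₀, hk₀⟩ := hA
    simp only [A, Finset.mem_filter, mem_univ, true_and] at hk₀
    set H : Subgroup G := K ⊔ Subgroup.zpowers g with hH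
    have hKH : K ≤ H := le_sup_left
    have hNH : N ≤ H := hNK.trans hKH
    have hgH : g ∈ H := Subgroup.mem_sup_right (Subgroup.mem_zpowers g)
    haveI : (K.subgroupOf H).Normal := inferInstance
    haveI : (N.subgroupOf H).Normal := inferInstance
    haveI : Fintype H := Fintype.ofFinite H
    haveI : Fintype (K.subgroupOf H) := Fintype.ofFinite _
    haveI : Fintype (N.subgroupOf H) := Fintype.ofFinite _
    have hcyc : IsCyclic (↥H ⧸ K.subgroupOf H) := by
      refine ⟨⟨((⟨g, hgH⟩ : H) : ↥H ⧸ K.subgroupOf H), fun q => ?_⟩⟩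
      obtain ⟨⟨y, hy⟩, rfl⟩ := QuotientGroup.mk_surjective q
      obtain ⟨k, hk, z, hz, hkz⟩ := Subgroup.mem_sup_of_normal_left.mp (hH ▸ hy)
      obtain ⟨i, rfl⟩ := Subgroup.mem_zpowers_iff.mp hz
      refine ⟨i, ?_⟩
      show ((⟨g, hgH⟩ : H) : ↥H ⧸ K.subgroupOf H) ^ i = _
      rw [← QuotientGroup.mk_zpow, eq_comm, ← div_eq_one, ← QuotientGroup.mk_div, QuotientGroup.eq_one_iff,
        Subgroup.mem_subgroupOf]
      simp [← hkz, hk]
    let ηH : K.subgroupOf H → ℂ := fun k => η ⟨((k : H) : G), k.2⟩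
    have hηH : IsIrrCharacter (K.subgroupOf H) ηH :=
      isIrrCharacter_comp_surjective hη (Subgroup.subgroupOfEquivOfLe hKH).toMonoidHom
        (Subgroup.subgroupOfEquivOfLe hKH).surjective
    obtain ⟨χ, hχ, hχres⟩ := exists_extension_of_cyclic hcyc hηH fun y => funext fun k =>
      congrFun (hηinv (y : G)) ⟨((k : H) : G), k.2⟩
    set X : G → ℂ := extendByZero H χ with hX
    have hXK : ∀ k : K, X k = η k := fun k => by
      rw [hX, show (k : G) = ((⟨(k : G), hKH k.2⟩ : H) : G) from rfl, extendByZero_coe]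
      exact hχres ⟨⟨(k : G), hKH k.2⟩, k.2⟩
    have hresK : IsIrrCharacter (K.subgroupOf H) fun k : K.subgroupOf H => χ k := by
      rw [show (fun k : K.subgroupOf H => χ k) = ηH from funext hχres]; exact hηH
    have hresN : IsIrrCharacter (N.subgroupOf H) fun n : N.subgroupOf H => χ n := by
      have : (fun n : N.subgroupOf H => χ n)
          = fun n => θ ((Subgroup.subgroupOfEquivOfLe hNH).toMonoidHom n) := funext fun n => by
        have h1 := hχres ⟨(n : H), hNK n.2⟩
        rw [h1]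
        exact hηN ⟨((n : H) : G), n.2⟩
      rw [this]
      exact isIrrCharacter_comp_surjective hθ _ (Subgroup.subgroupOfEquivOfLe hNH).surjective
    have hcN : Nat.card (N.subgroupOf H) = Nat.card N :=
      Nat.card_congr (Subgroup.subgroupOfEquivOfLe hNH).toEquiv
    have hcK : Nat.card (K.subgroupOf H) = Nat.card K :=
      Nat.card_congr (Subgroup.subgroupOfEquivOfLe hKH).toEquiv
    have hnormN : ∀ y ∈ H, ∑ n : N, Complex.normSq (X ((n : G) * y)) = (Nat.card N : ℝ) := by
      intro y hy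
      rw [← hcN, ← coset_norm (N.subgroupOf H) hχ hresN ⟨y, hy⟩,
        ← sum_subgroupOf N hNH fun n => Complex.normSq (X (n * y))]
      exact Finset.sum_congr rfl fun n _ => by
        rw [← extendByZero_coe χ ((n : H) * ⟨y, hy⟩)]; rfl
    have hnormK : ∀ y ∈ H, ∑ k : K, Complex.normSq (X ((k : G) * y)) = (Nat.card K : ℝ) := by
      intro y hy
      rw [← hcK, ← coset_norm (K.subgroupOf H) hχ hresK ⟨y, hy⟩,
        ← sum_subgroupOf K hKH fun k => Complex.normSq (X (k * y))]
      exact Finset.sum_congr rfl fun k _ => by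
        rw [← extendByZero_coe χ ((k : H) * ⟨y, hy⟩)]; rfl
    have htwist : ∀ x ∈ H, ∀ y ∈ H,
        θ 1 * ∑ n : N, conj (X ((n : G) * x)) * X ((n : G) * x * y) = (Nat.card N : ℂ) * X y := by
      intro x hx y hy
      have h := twist (N.subgroupOf H) hχ hresN ⟨x, hx⟩ ⟨y, hy⟩
      rw [hcN] at h
      have h1 : χ 1 = θ 1 := by
        rw [show (1 : H) = (((1 : K.subgroupOf H) : H)) from rfl, hχres]; exact hη1
      rw [h1] at h
      rw [show X y = χ ⟨y, hy⟩ from extendByZero_coe χ (⟨y, hy⟩ : H), ← h,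
        ← sum_subgroupOf N hNH fun n => conj (X (n * x)) * X (n * x * y)]
      refine congrArg _ (Finset.sum_congr rfl fun n _ => ?_)
      rw [← extendByZero_coe χ ((n : H) * ⟨x, hx⟩), ← extendByZero_coe χ ((n : H) * ⟨x, hx⟩ * ⟨y, hy⟩)]
      rfl
    obtain ⟨B, hBc, hBN, hB⟩ := isotypic (N.subgroupOf H) hχ hresN (F := fun y : H => wsum U₁ (y : G))
      (fun y z => by simpa using isClassFunction_wsum U₁ (y : G) (z : G))
      (fun y => by
        conv_rhs => rw [← hΦproj]
        rw [proj, proj, hcN,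
          show χ ((1 : N.subgroupOf H) : H) = θ 1 from (hχres ⟨1, one_mem _⟩).trans hη1]
        · congr 1
          have e1 : ∀ n : N.subgroupOf H, conj (χ n) * wsum U₁ (((n : H) * y : H) : G)
              = (fun n : G => (if hn : n ∈ N then conj (θ ⟨n, hn⟩) else 0) * wsum U₁ (n * (y : G))) ((n : H) : G) := by
            intro n
            simp only
            rw [dif_pos (show ((n : H) : G) ∈ N from n.2), hχres ⟨(n : H), hNK n.2⟩]
            rw [← hηN ⟨((n : H) : G), n.2⟩]
            rfl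
          rw [Finset.sum_congr rfl fun n _ => e1 n,
            sum_subgroupOf N hNH fun n => (if hn : n ∈ N then conj (θ ⟨n, hn⟩) else 0) * wsum U₁ (n * (y : G))]
          exact Finset.sum_congr rfl fun n _ => by rw [dif_pos n.2])
    -- `B` is constant on the regular elements of the coset
    set x₀ : H := ⟨(k₀ : G) * g, mul_mem (hKH k₀.2) hgH⟩ with hx₀
    have hconst : ∀ k : K, ¬ p ∣ orderOf ((k : G) * g) → ∀ hy : (k : G) * g ∈ H, B ⟨(k : G) * g, hy⟩ = B x₀ := by
      intro k hk hy
      set π := QuotientGroup.mk' N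
      set Kb : Subgroup (G ⧸ N) := K.map π
      haveI : Kb.Normal := Subgroup.Normal.map hKn π (QuotientGroup.mk'_surjective N)
      have hKb : IsPGroup p Kb := by
        rintro ⟨q, k', hk', rfl⟩
        obtain ⟨j, hj⟩ := hKp k' hk'
        refine ⟨j, Subtype.ext ?_⟩
        simp only [Subgroup.coe_pow, Subgroup.coe_one, ← map_pow]
        exact (QuotientGroup.eq_one_iff _).mpr hj
      obtain ⟨a, ha⟩ := IsPGroup.iff_card.mp hKb
      have hcop : Nat.Coprime (orderOf (π ((k₀ : G) * g))) (Nat.card Kb) := by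
        rw [ha]
        exact (((hp.out.coprime_iff_not_dvd.mpr hk₀).symm).coprime_dvd_left (orderOf_map_dvd π _)).pow_right a
      obtain ⟨n, hn, c, hc, hcomm, hconj, -⟩ := exists_conj_coprime_coset (N := Kb) (x := π ((k₀ : G) * g))
        (by rw [Subgroup.normalizer_eq_top]; trivial) hcop
        (h := π ((k : G) * (k₀ : G)⁻¹)) ⟨_, mul_mem k.2 (inv_mem k₀.2), rfl⟩
      rw [← map_mul, show (k : G) * (k₀ : G)⁻¹ * ((k₀ : G) * g) = (k : G) * g by group] at hconj
      have hc1 : c = 1 := by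
        set M := orderOf ((k : G) * g) * orderOf ((k₀ : G) * g)
        have h1 : (c * π ((k₀ : G) * g)) ^ M = 1 := by
          rw [← hconj, conj_pow, ← map_pow, pow_mul, pow_orderOf_eq_one, one_pow, map_one, mul_one,
            mul_inv_cancel]
        have h2 : π ((k₀ : G) * g) ^ M = 1 := by
          rw [← map_pow, show M = orderOf ((k₀ : G) * g) * orderOf ((k : G) * g) from mul_comm _ _, pow_mul,
            pow_orderOf_eq_one, one_pow, map_one]
        rw [(show Commute c (π ((k₀ : G) * g)) from hcomm).mul_pow, h2, mul_one] at h1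
        have h3 : orderOf c ∣ p ^ a := ha ▸ Subgroup.orderOf_dvd_natCard Kb hc
        exact orderOf_eq_one_iff.mp (Nat.eq_one_of_dvd_coprimes
          ((Nat.Coprime.mul_left ((hp.out.coprime_iff_not_dvd.mpr hk).symm)
            ((hp.out.coprime_iff_not_dvd.mpr hk₀).symm)).pow_right a) (orderOf_dvd_of_pow_eq_one h1) h3)
      obtain ⟨q, hq, rfl⟩ := hn
      rw [hc1, one_mul, ← map_inv, ← map_mul, ← map_mul] at hconj
      have hmem : (k₀ : G) * g * (q * ((k : G) * g) * q⁻¹)⁻¹ ∈ N :=
        (QuotientGroup.eq_one_iff _).mp (by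
          rw [QuotientGroup.mk_mul, QuotientGroup.mk_inv]
          exact mul_inv_eq_one.mpr hconj.symm)
      have hqH : q ∈ H := hKH hq
      have e : x₀ = (⟨⟨_, hNH hmem⟩, hmem⟩ : N.subgroupOf H) *
          ((⟨q, hqH⟩ : H) * ⟨(k : G) * g, hy⟩ * (⟨q, hqH⟩ : H)⁻¹) := Subtype.ext (by
        simp only [hx₀, Subgroup.coe_mul, Subgroup.coe_inv, inv_mul_cancel_right])
      rw [e, hBN, hBc]
    have hΦv : ∀ k : K, wsum U₁ ((k : G) * g)
        = if ¬ p ∣ orderOf ((k : G) * g) then B x₀ * X ((k : G) * g) else 0 := by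
      intro k
      split_ifs with hk
      · exact hΦs _ hk
      · have hy : (k : G) * g ∈ H := mul_mem (hKH k.2) hgH
        rw [← hconst k hk hy]
        refine (hB ⟨_, hy⟩).trans ?_
        rw [← extendByZero_coe χ (⟨_, hy⟩ : H)]
    have hshift : ∀ j : K, (A ((j : G) * g)).card = (A g).card := by
      intro j
      refine Finset.card_bij (fun k _ => k * j) (fun k hk => ?_) (fun a _ b _ hab => mul_right_cancel hab)
        fun k hk => ⟨k * j⁻¹, ?_, inv_mul_cancel_right k j⟩
      · simpa [A, mul_assoc] using hk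
      · simpa [A, mul_assoc] using hk
    have hcardA : ((A g).card : ℝ) = ∑ k : K, if ¬ p ∣ orderOf ((k : G) * g) then (1 : ℝ) else 0 := by
      rw [Finset.sum_boole]
    have hwΦ : w (wsum U₁) g = ((A g).card : ℝ) * Complex.normSq (B x₀) := by
      have hN0' : (Nat.card N : ℝ) ≠ 0 := Nat.cast_ne_zero.mpr Nat.card_pos.ne'
      apply mul_left_cancel₀ hN0'
      rw [avg N hNK fun y => Complex.normSq (wsum U₁ (y * g)), hcardA, Finset.sum_mul, Finset.mul_sum]
      refine Finset.sum_congr rfl fun k _ => ?_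
      have hv : ∀ n : N, wsum U₁ ((n : G) * k * g)
          = if ¬ p ∣ orderOf ((k : G) * g) then B x₀ * X ((n : G) * k * g) else 0 := by
        intro n
        rw [hΦv ⟨(n : G) * k, mul_mem (hNK n.2) k.2⟩]
        exact if_congr (by rw [mul_assoc, singular_mul_iff N hN]) rfl rfl
      simp only [hv]
      split_ifs with hk
      · simp
      · simp only [map_mul, ← Finset.mul_sum, mul_assoc, one_mul]
        rw [hnormN _ (mul_mem (hKH k.2) hgH)]
        ring
    have hΨv : ∀ j : K, wsum U₂ ((j : G) * g)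
        = ((A g).card : ℂ) / (Nat.card K : ℂ) * B x₀ * X ((j : G) * g) := by
      intro j
      rw [← hΨ, proj, hη1, Finset.sum_congr rfl fun k _ => by rw [← hXK k]]
      apply mul_left_cancel₀ hN0
      rw [← mul_assoc, mul_comm (Nat.card N : ℂ) (θ 1 / _), mul_assoc,
        avg N hNK fun y => conj (X y) * wsum U₁ (y * ((j : G) * g))]
      have hinner : ∀ k : K, θ 1 * ∑ n : N, conj (X ((n : G) * k)) * wsum U₁ ((n : G) * k * ((j : G) * g))
          = if ¬ p ∣ orderOf ((k : G) * ((j : G) * g))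
            then (Nat.card N : ℂ) * (B x₀ * X ((j : G) * g)) else 0 := by
        intro k
        have hv : ∀ n : N, wsum U₁ ((n : G) * k * ((j : G) * g))
            = if ¬ p ∣ orderOf ((k : G) * ((j : G) * g))
              then B x₀ * X ((n : G) * k * ((j : G) * g)) else 0 := by
          intro n
          rw [show (n : G) * k * ((j : G) * g) = ((⟨(n : G) * k * j,
            mul_mem (mul_mem (hNK n.2) k.2) j.2⟩ : K) : G) * g from (mul_assoc _ _ _).symm, hΦv]
          refine if_congr ?_ rfl rfl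
          show ¬ p ∣ orderOf ((n : G) * k * j * g) ↔ _
          rw [show (n : G) * k * j * g = (n : G) * ((k : G) * ((j : G) * g)) by group, singular_mul_iff N hN]
        simp only [hv]
        split_ifs with hk
        · simp
        · rw [mul_left_comm (Nat.card N : ℂ), ← htwist (k : G) (hKH k.2) ((j : G) * g) (mul_mem (hKH j.2) hgH),
            mul_left_comm, Finset.mul_sum _ _ (B x₀)]
          exact congrArg _ (Finset.sum_congr rfl fun n _ => by ring)
      rw [div_mul_eq_mul_div, Finset.mul_sum, Finset.sum_congr rfl fun k _ => hinner k,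
        ← Finset.sum_filter, Finset.sum_const, nsmul_eq_mul, show (univ.filter fun k : K =>
          ¬ p ∣ orderOf ((k : G) * ((j : G) * g))).card = (A g).card from hshift j]
      ring
    have hwΨ : w (wsum U₂) g = ((A g).card : ℝ) ^ 2 / (Nat.card K : ℝ) * Complex.normSq (B x₀) := by
      simp only [w, hΨv, map_mul, map_div₀, Complex.normSq_natCast, ← Finset.mul_sum]
      rw [hnormK g hgH]
      field_simp
    rw [hwΨ, hwΦ]
    field_simp
  -- comparing the norms
  have hsum : ∀ F : G → ℂ, ∑ g, w F g = (Nat.card K : ℝ) * ∑ g, Complex.normSq (F g) := by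
    intro F
    simp only [w]
    rw [Finset.sum_comm]
    have : ∀ k : K, ∑ g, Complex.normSq (F ((k : G) * g)) = ∑ g, Complex.normSq (F g) := fun k =>
      Fintype.sum_equiv (Equiv.mulLeft (k : G)) _ _ fun _ => rfl
    rw [Finset.sum_congr rfl fun k _ => this k, Finset.sum_const, Finset.card_univ, nsmul_eq_mul,
      Nat.card_eq_fintype_card]
  have hnorm : (Nat.card K : ℝ) * ∑ g, Complex.normSq (wsum U₂ g)
      = (Nat.card N : ℝ) * ∑ g, Complex.normSq (wsum U₁ g) := by
    apply Complex.ofReal_injective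
    rw [Complex.ofReal_mul, Complex.ofReal_mul, sum_normSq_wsum, sum_normSq_wsum, Complex.ofReal_natCast,
      Complex.ofReal_natCast, mul_left_comm, hΨ1]
    ring
  have htot : ∑ g, (((A g).card : ℝ) - (Nat.card N : ℝ)) * w (wsum U₁) g = 0 := by
    simp only [sub_mul, ← hkey, Finset.sum_sub_distrib, ← Finset.mul_sum, hsum]
    rw [← mul_assoc, mul_assoc, hnorm]
    ring
  have hnn : ∀ g, 0 ≤ (((A g).card : ℝ) - (Nat.card N : ℝ)) * w (wsum U₁) g := by
    intro g
    by_cases hA : (A g).Nonempty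
    · obtain ⟨k₀, hk₀⟩ := hA
      simp only [A, Finset.mem_filter, mem_univ, true_and] at hk₀
      refine mul_nonneg (sub_nonneg.mpr (Nat.cast_le.mpr ?_))
        (Finset.sum_nonneg fun k _ => Complex.normSq_nonneg _)
      rw [Nat.card_eq_fintype_card, ← Finset.card_univ]
      refine Finset.card_le_card_of_injOn (fun n : N => (⟨(n : G) * k₀, mul_mem (hNK n.2) k₀.2⟩ : K))
        (fun n _ => ?_) fun a _ b _ hab => Subtype.ext (mul_right_cancel (congrArg Subtype.val hab))
      simp only [A, Finset.coe_filter, Set.mem_setOf_eq, mem_univ, true_and]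
      rw [mul_assoc, singular_mul_iff N hN]
      exact hk₀
    · refine le_of_eq (Eq.symm (mul_eq_zero_of_right _ (Finset.sum_eq_zero fun k _ => ?_)))
      rw [hΦs _ (by_contra fun hr => hA ⟨k, by simpa [A] using hr⟩), map_zero]
  have hzero := (Finset.sum_eq_zero_iff_of_nonneg fun g _ => hnn g).mp htot
  by_contra hne
  have hr₁ : ¬ p ∣ orderOf g₁ := fun h => hne (hΦs _ h)
  have hwpos : w (wsum U₁) g₁ ≠ 0 := by
    intro h0
    have := (Finset.sum_eq_zero_iff_of_nonneg fun k _ => Complex.normSq_nonneg _).mp h0 1 (mem_univ _)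
    exact hne (by simpa using this)
  have hcard : (A g₁).card = Nat.card N := by
    exact_mod_cast sub_eq_zero.mp ((mul_eq_zero.mp (hzero g₁ (mem_univ _))).resolve_right hwpos)
  have himg : (univ.map ⟨fun n : N => (⟨(n : G), hNK n.2⟩ : K),
      fun a b hab => Subtype.ext (congrArg (fun z : K => (z : G)) hab :)⟩) = A g₁ := by
    refine Finset.eq_of_subset_of_card_le ?_ (by rw [hcard, Finset.card_map, Finset.card_univ, Nat.card_eq_fintype_card])
    intro k hk
    obtain ⟨n, -, rfl⟩ := Finset.mem_map.mp hk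
    refine Finset.mem_filter.mpr ⟨mem_univ _, ?_⟩
    show ¬ p ∣ orderOf ((n : G) * g₁)
    rw [singular_mul_iff N hN]
    exact hr₁
  refine hg₁ (hregK g₁ (hC g₁ fun q hq => ?_) hr₁)
  have hkK : q * g₁ * q⁻¹ * g₁⁻¹ ∈ K := by
    have := mul_mem hq (hKn.conj_mem _ (inv_mem hq) g₁)
    simpa [mul_assoc] using this
  have : (⟨_, hkK⟩ : K) ∈ A g₁ := by
    simp only [A, Finset.mem_filter, mem_univ, true_and, inv_mul_cancel_right]
    rwa [← MulAut.conj_apply, MulEquiv.orderOf_eq]
  rw [← himg] at this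
  obtain ⟨n, -, hn⟩ := Finset.mem_map.mp this
  have h2 : (n : G) = q * g₁ * q⁻¹ * g₁⁻¹ := congrArg Subtype.val hn
  exact h2 ▸ n.2

end Invariant

section Main

variable {p : ℕ} [hp : Fact p.Prime] {M : Ideal Cfsg.AlgInt} [M.IsPrime]

/-- The invariant case: all or none of the characters over `θ`. -/
theorem all_or_none {G : Type u} [Group G] [Fintype G] (N : Subgroup G) [Fintype N] [N.Normal]
    {θ : N → ℂ} (hθ : IsIrrCharacter N θ) (hinv : ∀ g, conjFn N θ g = θ)
    {U₁ : Set (IrrCharacter G)} (hU₁ : ∀ χ ∈ U₁, Over N θ (χ : G → ℂ))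
    (hoff : ∀ g ∉ N, wsum U₁ g = 0) (χ ψ : IrrCharacter G) (hχ : χ ∈ U₁)
    (hψ : Over N θ (ψ : G → ℂ)) : ψ ∈ U₁ := by
  have hG : (Nat.card G : ℂ) ≠ 0 := Nat.cast_ne_zero.mpr Nat.card_pos.ne'
  have hN : (Nat.card N : ℂ) ≠ 0 := Nat.cast_ne_zero.mpr Nat.card_pos.ne'
  have hθ0 : θ 1 ≠ 0 := hθ.one_ne_zero
  have hval : ∀ φ : IrrCharacter G, Over N θ (φ : G → ℂ) →
      θ 1 * θ 1 * ((Nat.card G : ℂ) * classInner (wsum U₁) (φ : G → ℂ))
        = wsum U₁ 1 * (φ : G → ℂ) 1 * (Nat.card N : ℂ) := by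
    intro φ hφ
    obtain ⟨e, -, he⟩ := res_of_over N hθ hinv φ.2 hφ
    have he1 : (φ : G → ℂ) 1 = (e : ℂ) * θ 1 := by simpa using he 1
    rw [classInner, ← mul_assoc (Nat.card G : ℂ), mul_inv_cancel₀ hG, one_mul,
      ← Finset.sum_subset (Finset.subset_univ (univ.filter (· ∈ N))) fun g _ hg => by
        rw [hoff g (by simpa using hg), zero_mul],
      Finset.sum_subtype (p := (· ∈ N)) (univ.filter (· ∈ N)) fun x => by simp]
    rw [Finset.mul_sum, Finset.sum_congr rfl fun (n : N) _ =>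
      show θ 1 * θ 1 * (wsum U₁ (n : G) * conj ((φ : G → ℂ) n))
        = wsum U₁ 1 * (e : ℂ) * θ 1 * (θ n * conj (θ n)) by
      rw [show θ 1 * θ 1 * (wsum U₁ (n : G) * conj ((φ : G → ℂ) n))
          = θ 1 * (θ 1 * wsum U₁ (n : G)) * conj ((φ : G → ℂ) n) by ring,
        wsum_over_res N hθ hinv hU₁ n, he n, map_mul, map_natCast]
      ring, ← Finset.mul_sum, he1]
    have h1 := classInner_irr_self hθ
    rw [classInner, inv_mul_eq_one₀ hN] at h1
    rw [h1]
    ring
  have h1 := hval χ (hU₁ χ hχ)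
  rw [classInner_wsum, if_pos hχ] at h1
  have hne : wsum U₁ 1 ≠ 0 := by
    intro h0
    rw [h0, zero_mul, zero_mul] at h1
    exact χ.2.one_ne_zero ((mul_eq_zero.mp h1).resolve_left (mul_ne_zero hθ0 hθ0) |> fun h =>
      (mul_eq_zero.mp h).resolve_left hG)
  have h2 := hval ψ hψ
  rw [classInner_wsum] at h2
  by_contra hn
  rw [if_neg hn, mul_zero, mul_zero] at h2
  exact mul_ne_zero (mul_ne_zero hne ψ.2.one_ne_zero) hN h2.symm

theorem union_of_blocks (hM : IsPModular p M) : ∀ (n : ℕ) (G : Type u) [Group G] [Fintype G],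
    Nat.card G = n → Cfsg.IsPSolvable p G → ∀ U : Set (IrrCharacter G),
    (∀ x : G, p ∣ orderOf x → wsum U x = 0) → ∀ χ ψ : IrrCharacter G, χ ∈ U →
    SameBlock M (χ : G → ℂ) (ψ : G → ℂ) → ψ ∈ U := by
  intro n
  induction n using Nat.strong_induction_on with
  | _ n IH =>
  intro G _ _ hcard hsol U hU χ ψ hχ hs
  haveI := Transfer.pPrimeCore_normal (G := G) p
  set N := Cfsg.pPrimeCore p G with hNdef
  haveI : Fintype N := Fintype.ofFinite N
  have hN : (Nat.card N).Coprime p := Transfer.coprime_card_pPrimeCore p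
  have hNp : ¬ p ∣ Nat.card N := fun h => hp.out.ne_one (Nat.eq_one_of_dvd_coprimes hN h dvd_rfl)
  obtain ⟨θ, hχθ⟩ := exists_res_constituent (N := N) χ
  have hψθ : Over N (θ : N → ℂ) (ψ : G → ℂ) := (constituent_iff_of_sameBlock hM hNp hs θ).mp hχθ
  set T := inertia N (θ : N → ℂ) with hTdef
  by_cases htop : T = ⊤
  · have hinv : ∀ g, conjFn N (θ : N → ℂ) g = (θ : N → ℂ) := fun g => by
      have hg : g ∈ T := htop ▸ Subgroup.mem_top g
      exact hg
    haveI hKn : (Cfsg.pPrimePCore p G).Normal := pPrimePCore_normal'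
    haveI : Fintype (Cfsg.pPrimePCore p G) := Fintype.ofFinite _
    have hoff : ∀ g ∉ N, wsum {φ | φ ∈ U ∧ Over N (θ : N → ℂ) (φ : G → ℂ)} g = 0 := by
      intro g hg
      refine vanish_off N (Cfsg.pPrimePCore p G) hN ?_ ?_ ?_ θ.2 hinv hU hg
      · intro x hx
        show QuotientGroup.mk' N x ∈ Cfsg.pCore p (G ⧸ N)
        rw [show QuotientGroup.mk' N x = 1 from (QuotientGroup.eq_one_iff x).mpr hx]
        exact one_mem _
      · intro k hk
        obtain ⟨j, hj⟩ := Transfer.pCore_isPGroup (G := G ⧸ N) p ⟨QuotientGroup.mk' N k, hk⟩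
        exact ⟨j, (QuotientGroup.eq_one_iff _).mp (by
          have := congrArg Subtype.val hj
          simpa using this)⟩
      · intro x hx
        show QuotientGroup.mk' N x ∈ Cfsg.pCore p (G ⧸ N)
        refine PLocal.selfCentralizingCore_of_pSolvable
          (PLocal.IsPSolvable.of_surjective _ (QuotientGroup.mk'_surjective N) hsol)
          (Solv.pPrimeCore_quotient_eq_bot p) ?_
        refine Subgroup.mem_centralizer_iff.mpr fun q hq => ?_
        obtain ⟨k, rfl⟩ := QuotientGroup.mk'_surjective N q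
        have h1 : QuotientGroup.mk' N (k * x * k⁻¹ * x⁻¹) = 1 :=
          (QuotientGroup.eq_one_iff _).mpr (hx k hq)
        rwa [map_mul, map_mul, map_mul, map_inv, map_inv, mul_inv_eq_one, mul_inv_eq_iff_eq_mul] at h1
    exact (all_or_none N θ.2 hinv (fun φ h => h.2) hoff χ ψ ⟨hχ, hχθ⟩ hψθ).1
  · -- reduction to the inertia group
    haveI : Fintype T := Fintype.ofFinite T
    have hNT : N ≤ T := le_inertia θ.2.isClassFunction
    set b : Set (IrrCharacter N) := {θ} with hbdef
    have hb : IsPBlock M b := ⟨θ, Set.eq_singleton_iff_unique_mem.mpr ⟨mem_blockOf_self M θ, fun θ' h =>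
      blockOf_eq_singleton_of_not_dvd hM hNp h⟩ |>.symm⟩
    have hT : ∀ g : G, g ∈ T ↔ ∀ φ ∈ b, cjIrr φ g ∈ b := fun g => by
      simp only [hbdef, Set.mem_singleton_iff, forall_eq]
      exact ⟨fun h => Subtype.ext ((coe_cjIrr θ g).trans h),
        fun h => (coe_cjIrr θ g).symm.trans (congrArg Subtype.val h)⟩
    have hcov : ∀ φ : IrrCharacter G, Over N (θ : N → ℂ) (φ : G → ℂ) →
        ∃ ξ : IrrCharacter T, (∃ θ' ∈ b, classInner (resTN hNT (ξ : T → ℂ)) (θ' : N → ℂ) ≠ 0) ∧
          (φ : G → ℂ) = indFun T (ξ : T → ℂ) := fun φ h => exists_indFun_covering hb hT hNT φ ⟨θ, rfl, h⟩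
    obtain ⟨ξ, hξc, hξ⟩ := hcov χ hχθ
    obtain ⟨ξ', hξc', hξ'⟩ := hcov ψ hψθ
    let U' : Set (IrrCharacter T) := {ζ | (∃ θ' ∈ b, classInner (resTN hNT (ζ : T → ℂ)) (θ' : N → ℂ) ≠ 0) ∧
      ∃ φ ∈ U, (φ : G → ℂ) = indFun T (ζ : T → ℂ)}
    have hvan : ∀ t : T, p ∣ orderOf t → wsum U' t = 0 := by
      intro t ht
      rw [← Subgroup.orderOf_coe] at ht
      have h0 : eAct b (wsum U) (t : G) = 0 := Finset.sum_eq_zero fun n _ => by
        rw [hU _ (singular_mul N hN n ht), mul_zero]
      have hlin : eAct b (wsum U) (t : G)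
          = ∑ φ : IrrCharacter G, if φ ∈ U then (φ : G → ℂ) 1 * eAct b (φ : G → ℂ) t else 0 := by
        simp only [eAct, wsum, Finset.mul_sum]
        rw [Finset.sum_comm]
        refine Finset.sum_congr rfl fun φ _ => ?_
        by_cases h : φ ∈ U
        · simp only [if_pos h]
          exact Finset.sum_congr rfl fun n _ => by ring
        · simp [h]
      have hnot : ∀ φ : IrrCharacter G, ¬ Over N (θ : N → ℂ) (φ : G → ℂ) → eAct b (φ : G → ℂ) t = 0 := by
        intro φ hφ
        obtain ⟨m, hm⟩ := exists_decomposition (isCharacter_restrict φ.2.isCharacter T)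
        have hsum : eAct b (φ : G → ℂ) t = ∑ ζ : IrrCharacter T,
            (m ζ : ℂ) * eAct b (extendByZero T (ζ : T → ℂ)) t := by
          simp only [eAct, Finset.mul_sum]
          rw [Finset.sum_comm]
          refine Finset.sum_congr rfl fun k _ => ?_
          have h := congrFun hm (⟨(k : G) * t, mul_mem (hNT k.2) t.2⟩ : T)
          simp only [Finset.sum_apply, Pi.smul_apply, smul_eq_mul] at h
          rw [h, Finset.mul_sum]
          refine Finset.sum_congr rfl fun ζ _ => ?_
          rw [← extendByZero_coe (ζ : T → ℂ) (⟨(k : G) * t, mul_mem (hNT k.2) t.2⟩ : T)]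
          ring
        rw [hsum]
        refine Finset.sum_eq_zero fun ζ _ => ?_
        by_cases hm0 : m ζ = 0
        · rw [hm0, Nat.cast_zero, zero_mul]
        rw [eAct_char hT hNT ζ t.2, if_neg, zero_mul, mul_zero]
        rintro ⟨θ', hθ', hne⟩
        rw [show θ' = θ from hθ'] at hne
        have hres : (fun k : N => (φ : G → ℂ) k) = ∑ η : IrrCharacter T, (m η : ℂ) • resTN hNT (η : T → ℂ) := by
          funext k
          have h := congrFun hm (⟨(k : G), hNT k.2⟩ : T)
          simp only [Finset.sum_apply, Pi.smul_apply] at h ⊢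
          exact h
        apply hφ
        rw [Over, hres, classInner_sum_left]
        choose c hc using fun η : IrrCharacter T =>
          classInner_nat (isCharacter_resTN hNT η.2.isCharacter) θ.2.isCharacter
        simp only [classInner_smul_left, hc, ← Nat.cast_mul, ← Nat.cast_sum, Nat.cast_ne_zero]
        intro h
        have h' := (Finset.sum_eq_zero_iff.mp h) ζ (mem_univ _)
        rw [hc, Nat.cast_ne_zero] at hne
        exact mul_ne_zero hm0 hne h'
      have hkey : eAct b (wsum U) (t : G) = (T.index : ℂ) * wsum U' t := by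
        rw [hlin, wsum, Finset.mul_sum]
        simp only [mul_ite, mul_zero, ← Finset.sum_filter]
        rw [← Finset.sum_filter_of_ne (s := univ.filter fun φ : IrrCharacter G => φ ∈ U)
          (p := fun φ => Over N (θ : N → ℂ) (φ : G → ℂ))
          fun φ _ hne => by_contra fun hh => hne (by rw [hnot φ hh, mul_zero])]
        have hmem : ∀ ζ : IrrCharacter T, ζ ∈ U' → ∃ φ, φ ∈ U ∧ Over N (θ : N → ℂ) (φ : G → ℂ) ∧
            (φ : G → ℂ) = indFun T (ζ : T → ℂ) := by
          rintro ζ ⟨hc, φ, hφU, hφ⟩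
          obtain ⟨θ', hθ', hne⟩ := covers_indFun hb hT hNT hc hφ
          rw [show θ' = θ from hθ'] at hne
          exact ⟨φ, hφU, hne, hφ⟩
        choose f hf using hmem
        symm
        rw [← Finset.sum_filter]
        refine Finset.sum_bij (fun ζ hζ => f ζ (Finset.mem_filter.mp hζ).2) (fun ζ hζ => ?_)
          (fun a ha c hc h => ?_) (fun φ hφ => ?_) (fun ζ hζ => ?_)
        · obtain ⟨h1, h2, -⟩ := hf ζ (Finset.mem_filter.mp hζ).2
          simp [h1, h2]
        · refine indFun_injective_covering hb hT hNT (Finset.mem_filter.mp ha).2.1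
            (Finset.mem_filter.mp hc).2.1 ?_
          rw [← (hf a (Finset.mem_filter.mp ha).2).2.2, h, (hf c (Finset.mem_filter.mp hc).2).2.2]
        · simp only [Finset.mem_filter, mem_univ, true_and] at hφ
          obtain ⟨ζ, hc, hζ⟩ := hcov φ hφ.2
          have hζU : ζ ∈ U' := ⟨hc, φ, hφ.1, hζ⟩
          exact ⟨ζ, Finset.mem_filter.mpr ⟨mem_univ _, hζU⟩,
            Subtype.ext ((hf ζ hζU).2.2.trans hζ.symm)⟩
        · have hζU := (Finset.mem_filter.mp hζ).2
          obtain ⟨-, -, h3⟩ := hf ζ hζU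
          rw [h3, eAct_indFun hb hT hNT ζ hζU.1 t.2, indFun_one_apply]
          ring
      rw [h0] at hkey
      exact (mul_eq_zero.mp hkey.symm).resolve_left (Nat.cast_ne_zero.mpr Subgroup.index_ne_zero_of_finite)
    have hlt : Nat.card T < n := by
      rw [← hcard]
      exact lt_of_le_of_ne (Subgroup.card_le_card_group T) fun h => htop (Subgroup.eq_top_of_card_eq T h)
    obtain ⟨-, φ, hφU, hφ⟩ := IH _ hlt T rfl (FongHeight.isPSolvable_subgroup hsol T) U' hvan ξ ξ' ⟨hξc, χ, hχ, hξ⟩
      (sameBlock_of_indFun hb hT hNT hξc hξc' hξ hξ' hs)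
    rwa [show ψ = φ from Subtype.ext (hξ'.trans hφ.symm)]

end Main

end Cfsg.Lib.Blocks.VanishU
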